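import Cfsg.Agent.Lib.H17.OrthTrans
import Cfsg.Agent.Lib.H48.QuadStd
import Cfsg.Agent.Lib.H48.SLConj
import Cfsg.Prelude.Def_SporadicB

/-!
Orthogonal transvections over the field with two elements form a class of 3-transpositions (S1629, S1630).
-/
set_option autoImplicit false
set_option maxHeartbeats 400000

namespace H85.OrthThree

open Cfsg QuadraticMap Matrix H17

variable {ι : Type} [Fintype ι] [DecidableEq ι] {Q : QuadraticForm (ZMod 2) (ι → ZMod 2)}

theorem z2 {x : ZMod 2} (h : x ≠ 0) : x = 1 := by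
  revert h; revert x; decide

/-- the matrix of an isometry -/
def M (g : ↥(isometryGroup (ZMod 2) ⇑Q)) : Matrix ι ι (ZMod 2) := ((g : GeneralLinearGroup ι (ZMod 2)) : Matrix ι ι (ZMod 2))

theorem M_mul (g h : ↥(isometryGroup (ZMod 2) ⇑Q)) : M (g * h) = M g * M h := rfl
theorem M_one : M (1 : ↥(isometryGroup (ZMod 2) ⇑Q)) = 1 := rfl

theorem ext_apply {g h : ↥(isometryGroup (ZMod 2) ⇑Q)} (e : ∀ x, M g *ᵥ x = M h *ᵥ x) : g = h := by
  apply Subtype.ext
  apply Units.ext
  show M g = M h
  ext i j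
  have := congrFun (e (Pi.single j 1)) i
  simpa using this

theorem mul_apply' (g h : ↥(isometryGroup (ZMod 2) ⇑Q)) (x : ι → ZMod 2) : M (g * h) *ᵥ x = M g *ᵥ (M h *ᵥ x) := by
  rw [M_mul, mulVec_mulVec]

theorem presQ (g : ↥(isometryGroup (ZMod 2) ⇑Q)) (x : ι → ZMod 2) : Q (M g *ᵥ x) = Q x := g.2 x x

theorem presP (g : ↥(isometryGroup (ZMod 2) ⇑Q)) (x y : ι → ZMod 2) : polar Q (M g *ᵥ x) (M g *ᵥ y) = polar Q x y :=
  OrthDet.polar_isometry Q (M g) (presQ g) x y

theorem refl_app (v : ι → ZMod 2) (hv : Q v ≠ 0) (x : ι → ZMod 2) :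
    M (OrthDet.refl Q v hv) *ᵥ x = x + (polar Q v x) • v := by
  show (Cfsg.reflectionMatrix (⇑Q) v).mulVec x = _
  rw [OrthMat.reflectionMatrix_mulVec, z2 hv, inv_one, one_mul]
  have : ∀ a b : ι → ZMod 2, a - b = a + b := by
    intro a b
    ext i
    show a i - b i = a i + b i
    have : ∀ c d : ZMod 2, c - d = c + d := by decide
    exact this _ _
  rw [this]

theorem conj_refl (g : ↥(isometryGroup (ZMod 2) ⇑Q)) (v : ι → ZMod 2) (hv : Q v ≠ 0) :
    g * OrthDet.refl Q v hv * g⁻¹ = OrthDet.refl Q (M g *ᵥ v) (by rw [presQ]; exact hv) := by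
  rw [mul_inv_eq_iff_eq_mul]
  apply ext_apply
  intro x
  rw [mul_apply', mul_apply', refl_app, refl_app, presP, mulVec_add, mulVec_smul]

omit [Fintype ι] [DecidableEq ι] in
theorem add_self' (v : ι → ZMod 2) : v + v = 0 := by
  ext i
  have : ∀ c : ZMod 2, c + c = 0 := by decide
  exact this _

theorem refl_sq (v : ι → ZMod 2) (hv : Q v ≠ 0) : OrthDet.refl Q v hv * OrthDet.refl Q v hv = 1 := by
  apply ext_apply
  intro x
  rw [mul_apply', refl_app, refl_app, M_one, one_mulVec, polar_add_right, polar_smul_right, polar_self]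
  have h2 : (2 : ℕ) • Q v = 0 := by rw [z2 hv]; rfl
  rw [h2, smul_zero, add_zero, add_assoc, add_self', add_zero]

theorem refl_ne_one (hQ : (polarBilin Q).Nondegenerate) (v : ι → ZMod 2) (hv : Q v ≠ 0) : OrthDet.refl Q v hv ≠ 1 := by
  intro e
  have hv0 : v ≠ 0 := by rintro rfl; exact hv (map_zero Q)
  have : ∃ x, polar Q v x ≠ 0 := by
    by_contra hc
    push Not at hc
    exact hv0 (hQ.1 v hc)
  obtain ⟨x, hx⟩ := this
  have h1 := refl_app v hv x
  rw [e, M_one, one_mulVec, z2 hx, one_smul] at h1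
  exact hv0 (by simpa using h1)

theorem refl_mul (u v : ι → ZMod 2) (hu : Q u ≠ 0) (hv : Q v ≠ 0) :
    (OrthDet.refl Q u hu * OrthDet.refl Q v hv) ^ 2 = 1 ∨
      (polar Q u v = 1 ∧ (OrthDet.refl Q u hu * OrthDet.refl Q v hv) ^ 3 = 1) := by
  by_cases h : polar Q u v = 0
  · left
    have hc : OrthDet.refl Q u hu * OrthDet.refl Q v hv = OrthDet.refl Q v hv * OrthDet.refl Q u hu := by
      apply ext_apply
      intro x
      rw [mul_apply', mul_apply', refl_app, refl_app, refl_app, refl_app, polar_add_right, polar_add_right, polar_smul_right,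
        polar_smul_right, h, polar_comm Q v u, h, smul_zero, add_zero, smul_zero, add_zero]
      abel
    rw [pow_two, mul_assoc, ← mul_assoc (OrthDet.refl Q v hv), ← hc, mul_assoc (OrthDet.refl Q u hu), refl_sq, mul_one, refl_sq]
  · right
    refine ⟨z2 h, ?_⟩
    have key : OrthDet.refl Q u hu * OrthDet.refl Q v hv * OrthDet.refl Q u hu =
        OrthDet.refl Q v hv * OrthDet.refl Q u hu * OrthDet.refl Q v hv := by
      apply ext_apply
      intro x
      have huv : polar Q u v = 1 := z2 h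
      have hvu : polar Q v u = 1 := by rw [polar_comm]; exact huv
      have huu : polar Q u u = 0 := by rw [polar_self, z2 hu]; rfl
      have hvv : polar Q v v = 0 := by rw [polar_self, z2 hv]; rfl
      rw [mul_apply', mul_apply', mul_apply', mul_apply']
      simp only [refl_app, polar_add_right, polar_smul_right, huv, hvu, huu, hvv, smul_eq_mul, mul_one, mul_zero, add_zero]
      generalize polar Q u x = a
      generalize polar Q v x = b
      ext i
      simp only [Pi.add_apply, Pi.smul_apply, smul_eq_mul]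
      generalize x i = c
      generalize u i = d
      generalize v i = e
      revert a b c d e
      decide
    have haa := refl_sq u hu
    have hbb := refl_sq v hv
    generalize OrthDet.refl Q u hu = a at *
    generalize OrthDet.refl Q v hv = b at *
    calc (a * b) ^ 3 = (a * b * a) * (b * a * b) := by rw [pow_succ, pow_two]; group
      _ = (a * b * a) * (a * b * a) := by rw [key]
      _ = a * b * (a * a) * b * a := by group
      _ = 1 := by rw [haa, mul_one, mul_assoc a, hbb, mul_one, haa]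

/-- two singular-free vectors with non-zero product give conjugate reflections -/
theorem conj_of_polar {u v : ι → ZMod 2} (hu : Q u ≠ 0) (hv : Q v ≠ 0) (h : polar Q u v = 1) :
    IsConj (OrthDet.refl Q u hu) (OrthDet.refl Q v hv) := by
  have h3 : (OrthDet.refl Q u hu * OrthDet.refl Q v hv) ^ 3 = 1 := by
    rcases refl_mul u v hu hv with h2 | h2
    · -- then they commute, impossible unless product trivial
      exfalso
      have hc : M (OrthDet.refl Q u hu * OrthDet.refl Q v hv * (OrthDet.refl Q u hu * OrthDet.refl Q v hv)) *ᵥ u = u := by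
        rw [← pow_two, h2, M_one, one_mulVec]
      have huu : polar Q u u = 0 := by rw [polar_self, z2 hu]; rfl
      have hvv : polar Q v v = 0 := by rw [polar_self, z2 hv]; rfl
      have hvu : polar Q v u = 1 := by rw [polar_comm]; exact h
      rw [mul_apply', mul_apply', mul_apply'] at hc
      simp only [refl_app, polar_add_right, polar_smul_right, h, hvu, huu, hvv, smul_eq_mul, mul_one, mul_zero, add_zero, zero_add,
        one_smul, smul_zero] at hc
      -- hc : expression = u; apply polar with v and u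
      have h5 := congrArg (fun z => polar Q u z) hc
      simp only [polar_add_right, polar_smul_right, h, hvu, huu, hvv, smul_eq_mul, mul_one, mul_zero, add_zero, zero_add] at h5
      revert h5
      decide
    · exact h2.2
  have haa := refl_sq u hu
  have hbb := refl_sq v hv
  generalize OrthDet.refl Q u hu = a at *
  generalize OrthDet.refl Q v hv = b at *
  rw [isConj_iff]
  refine ⟨a * b, ?_⟩
  have ha : a⁻¹ = a := inv_eq_of_mul_eq_one_left haa
  have hb : b⁻¹ = b := inv_eq_of_mul_eq_one_left hbb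
  rw [_root_.mul_inv_rev, ha, hb]
  have h4 : a * b * (a * b) * (a * b) = 1 := by rw [← h3, pow_succ, pow_two]
  have h5 : a * b * a * (b * a) = a * b * (a * b) * (a * b) * b := by
    have : a * b * (a * b) * (a * b) * b = a * b * (a * b) * a * (b * b) := by group
    rw [this, hbb, mul_one]; group
  rw [h5, h4, one_mul]

/-- a common neighbour in dimension at least five -/
theorem exists_common (hQ : (polarBilin Q).Nondegenerate) (hn : 5 ≤ Fintype.card ι) {u v : ι → ZMod 2} (hu : Q u ≠ 0)
    (hv : Q v ≠ 0) : ∃ w, Q w ≠ 0 ∧ polar Q u w = 1 ∧ polar Q w v = 1 := by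
  have hne : ∀ {u : ι → ZMod 2}, Q u ≠ 0 → ∃ x, polar Q u x ≠ 0 := by
    intro u hu
    by_contra hc
    push Not at hc
    apply hu
    rw [hQ.1 u hc, map_zero]
  have hex : ∃ w₀, polar Q u w₀ ≠ 0 ∧ polar Q v w₀ ≠ 0 := by
    obtain ⟨x, hx⟩ := hne hu
    obtain ⟨y, hy⟩ := hne hv
    by_cases h1 : polar Q v x = 0
    · by_cases h2 : polar Q u y = 0
      · exact ⟨x + y, by rw [polar_add_right, h2, add_zero]; exact hx, by rw [polar_add_right, h1, zero_add]; exact hy⟩
      · exact ⟨y, h2, hy⟩
    · exact ⟨x, hx, h1⟩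
  obtain ⟨w₀, hw1, hw2⟩ := hex
  by_contra hcon
  push Not at hcon
  have hcon' : ∀ w, polar Q u w = 1 → polar Q v w = 1 → Q w = 0 := by
    intro w h1 h2
    by_contra h3
    exact hcon w h3 h1 (by rw [polar_comm]; exact h2)
  -- the space orthogonal to u and v
  let Y : Submodule (ZMod 2) (ι → ZMod 2) := LinearMap.ker (polarBilin Q u) ⊓ LinearMap.ker (polarBilin Q v)
  have hY : ∀ y ∈ Y, polar Q u y = 0 ∧ polar Q v y = 0 := fun y hy => ⟨hy.1, hy.2⟩
  have hw0 : Q w₀ = 0 := hcon' w₀ (z2 hw1) (z2 hw2)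
  have hYy : ∀ y ∈ Y, Q y + polar Q w₀ y = 0 := by
    intro y hy
    have h1 := hcon' (w₀ + y) (by rw [polar_add_right, (hY y hy).1, add_zero]; exact z2 hw1)
      (by rw [polar_add_right, (hY y hy).2, add_zero]; exact z2 hw2)
    rw [QuadraticMap.map_add ⇑Q, hw0, zero_add] at h1
    exact h1
  have hYY : ∀ y ∈ Y, ∀ y' ∈ Y, polar Q y y' = 0 := by
    intro y hy y' hy'
    have h1 := hYy (y + y') (Y.add_mem hy hy')
    have h2 := hYy y hy
    have h3 := hYy y' hy'
    rw [QuadraticMap.map_add ⇑Q, polar_add_right] at h1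
    linear_combination h1 - h2 - h3
  -- dimension count
  have hf : ∀ φ : Module.Dual (ZMod 2) (ι → ZMod 2), Fintype.card ι ≤ Module.finrank (ZMod 2) (LinearMap.ker φ) + 1 := by
    intro φ
    have h1 := LinearMap.finrank_range_add_finrank_ker φ
    have h2 : Module.finrank (ZMod 2) (LinearMap.range φ) ≤ 1 := by
      have := Submodule.finrank_le (LinearMap.range φ)
      rwa [Module.finrank_self] at this
    rw [Module.finrank_pi] at h1
    omega
  have hYdim : Fintype.card ι ≤ Module.finrank (ZMod 2) Y + 2 := by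
    have h1 := hf (polarBilin Q u)
    have h2 := hf (polarBilin Q v)
    have h3 := Submodule.finrank_sup_add_finrank_inf_eq (LinearMap.ker (polarBilin Q u)) (LinearMap.ker (polarBilin Q v))
    have h4 := Submodule.finrank_le (LinearMap.ker (polarBilin Q u) ⊔ LinearMap.ker (polarBilin Q v))
    rw [Module.finrank_pi] at h4
    have h5 : Module.finrank (ZMod 2) Y = Module.finrank (ZMod 2) ↥(LinearMap.ker (polarBilin Q u) ⊓ LinearMap.ker (polarBilin Q v)) := rfl
    omega
  have hYd : Module.finrank (ZMod 2) Y ≤ Module.finrank (ZMod 2) Y.dualAnnihilator := by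
    let f : Y →ₗ[ZMod 2] Y.dualAnnihilator := LinearMap.codRestrict _ ((polarBilin Q).comp Y.subtype) (by
      intro y
      rw [Submodule.mem_dualAnnihilator]
      intro y' hy'
      exact hYY y.1 y.2 y' hy')
    apply LinearMap.finrank_le_finrank_of_injective (f := f)
    intro a b hab
    have h1 : polarBilin Q a.1 = polarBilin Q b.1 := congrArg Subtype.val hab
    apply Subtype.ext
    have h2 : a.1 - b.1 = 0 := by
      apply hQ.1
      intro x
      rw [map_sub, h1, sub_self]; rfl
    exact sub_eq_zero.1 h2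
  have h6 := Subspace.finrank_add_finrank_dualAnnihilator_eq Y
  rw [Module.finrank_pi] at h6
  omega

theorem rank_iff (hQ : (polarBilin Q).Nondegenerate) (g : ↥(isometryGroup (ZMod 2) ⇑Q)) :
    (((g : GL ι (ZMod 2)) : Matrix ι ι (ZMod 2)) - 1).rank = 1 ↔ ∃ (v : ι → ZMod 2) (hv : Q v ≠ 0), g = OrthDet.refl Q v hv := by
  constructor
  · intro h
    obtain ⟨v, φ, e, hv, hφ⟩ := H48.SLConj.exists_vecMulVec_of_rank_one h
    have happ : ∀ x, M g *ᵥ x = x + (φ ⬝ᵥ x) • v := by
      intro x
      have : M g = 1 + vecMulVec v φ := by rw [← e]; show M g = 1 + (M g - 1); abel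
      rw [this, add_mulVec, one_mulVec]
      congr 1
      ext i
      simp only [mulVec, dotProduct, vecMulVec_apply, Pi.smul_apply, smul_eq_mul, Finset.sum_mul]
      apply Finset.sum_congr rfl
      intro j _
      ring
    have h1 : ∀ x, φ ⬝ᵥ x = 1 → Q v + polar Q x v = 0 := by
      intro x hx
      have := presQ g x
      rw [happ, hx, one_smul, QuadraticMap.map_add ⇑Q] at this
      linear_combination this
    obtain ⟨x₀, hx₀⟩ : ∃ x₀, φ ⬝ᵥ x₀ = 1 := by
      obtain ⟨i, hi⟩ := Function.ne_iff.1 hφ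
      exact ⟨Pi.single i 1, by rw [dotProduct_single, mul_one]; exact z2 hi⟩
    have h2 : ∀ y, φ ⬝ᵥ y = 0 → polar Q y v = 0 := by
      intro y hy
      have h3 := h1 (x₀ + y) (by rw [dotProduct_add, hx₀, hy, add_zero])
      have h4 := h1 x₀ hx₀
      rw [polar_add_left] at h3
      linear_combination h3 - h4
    have hQv : Q v ≠ 0 := by
      intro h0
      apply hv
      apply hQ.1
      intro y
      show polar Q v y = 0
      rw [polar_comm]
      by_cases hy : φ ⬝ᵥ y = 0
      · exact h2 y hy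
      · have := h1 y (z2 hy)
        rwa [h0, zero_add] at this
    refine ⟨v, hQv, ext_apply fun x => ?_⟩
    rw [happ, refl_app]
    congr 2
    by_cases hx : φ ⬝ᵥ x = 0
    · rw [hx, polar_comm, h2 x hx]
    · rw [z2 hx, polar_comm]
      have := h1 x (z2 hx)
      rw [z2 hQv] at this
      revert this
      generalize polar Q x v = c
      revert c
      decide
  · rintro ⟨v, hv, rfl⟩
    have h1 : (((OrthDet.refl Q v hv : ↥(isometryGroup (ZMod 2) ⇑Q)) : GL ι (ZMod 2)) : Matrix ι ι (ZMod 2)) - 1 =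
        vecMulVec (-((Q v)⁻¹ • v)) (Cfsg.polarVec (⇑Q) v) := by
      rw [OrthDet.refl_coe, Cfsg.reflectionMatrix, neg_vecMulVec, smul_vecMulVec]
      abel
    have h2 : (((OrthDet.refl Q v hv : ↥(isometryGroup (ZMod 2) ⇑Q)) : GL ι (ZMod 2)) : Matrix ι ι (ZMod 2)) - 1 ≠ 0 := by
      intro e
      apply refl_ne_one hQ v hv
      apply Subtype.ext
      apply Units.ext
      exact sub_eq_zero.1 e
    have h3 : ((((OrthDet.refl Q v hv : ↥(isometryGroup (ZMod 2) ⇑Q)) : GL ι (ZMod 2)) : Matrix ι ι (ZMod 2)) - 1).rank ≤ 1 := by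
      rw [h1]; exact Matrix.rank_vecMulVec_le _ _
    have h4 : ((((OrthDet.refl Q v hv : ↥(isometryGroup (ZMod 2) ⇑Q)) : GL ι (ZMod 2)) : Matrix ι ι (ZMod 2)) - 1).rank ≠ 0 := by
      intro h0
      apply h2
      unfold Matrix.rank at h0
      rw [Submodule.finrank_eq_zero, LinearMap.range_eq_bot] at h0
      ext i j
      have := congrFun (LinearMap.congr_fun h0 (Pi.single j 1)) i
      rw [Matrix.mulVecLin_apply, mulVec_single_one] at this
      exact this
    omega

theorem main (hQ : (polarBilin Q).Nondegenerate) (hn : 5 ≤ Fintype.card ι) :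
    IsThreeTranspositionClass {g : ↥(isometryGroup (ZMod 2) ⇑Q) | (((g : GL ι (ZMod 2)) : Matrix ι ι (ZMod 2)) - 1).rank = 1} := by
  have hset : {g : ↥(isometryGroup (ZMod 2) ⇑Q) | (((g : GL ι (ZMod 2)) : Matrix ι ι (ZMod 2)) - 1).rank = 1} =
      {g | ∃ (v : ι → ZMod 2) (hv : Q v ≠ 0), g = OrthDet.refl Q v hv} := by
    ext g; exact rank_iff hQ g
  rw [hset]
  have hex : ∃ v : ι → ZMod 2, Q v ≠ 0 := by
    by_contra hc
    push Not at hc
    have : Nonempty ι := Fintype.card_pos_iff.1 (by omega)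
    obtain ⟨i⟩ := this
    have h0 : (Pi.single i 1 : ι → ZMod 2) = 0 := by
      apply hQ.1
      intro y
      show polar Q _ y = 0
      rw [polar, hc, hc, hc]; simp
    have := congrFun h0 i
    simp at this
  obtain ⟨v₀, hv₀⟩ := hex
  refine ⟨⟨?_, ?_⟩, ⟨OrthDet.refl Q v₀ hv₀, ⟨v₀, hv₀, rfl⟩, ?_⟩, ?_⟩
  · rintro _ ⟨v, hv, rfl⟩
    have : Fact (Nat.Prime 2) := ⟨Nat.prime_two⟩
    rw [orderOf_eq_prime_iff]
    exact ⟨by rw [pow_two, refl_sq], refl_ne_one hQ v hv⟩
  · rintro _ ⟨u, hu, rfl⟩ _ ⟨v, hv, rfl⟩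
    rcases refl_mul u v hu hv with h | h
    · left; exact h
    · right; exact h.2
  · ext g
    change _ ↔ IsConj _ _
    constructor
    · rintro ⟨v, hv, rfl⟩
      obtain ⟨w, hw, h1, h2⟩ := exists_common hQ hn hv₀ hv
      exact (conj_of_polar hv₀ hw h1).trans (conj_of_polar hw hv h2)
    · intro h
      rw [isConj_iff] at h
      obtain ⟨c, hc⟩ := h
      rw [← hc]
      exact ⟨_, _, conj_refl c v₀ hv₀⟩
  · rw [eq_top_iff, ← OrthTrans.closure_refl_eq_top Q hQ (Or.inr (by omega))]
    apply Subgroup.closure_mono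
    rintro g ⟨v, hv, e⟩
    exact ⟨v, hv, OrthTrans.eq_refl_of_coe Q v hv g e⟩

theorem nondeg_plus (m : ℕ) : (polarBilin (H48.QuadStd.qPlus m (ZMod 2))).Nondegenerate :=
  H48.QuadSplit.nd_iff.mp (H48.QuadStd.nd_qPlus m)

theorem nondeg_minus (m : ℕ) : (polarBilin (H48.QuadStd.qMinus m (ZMod 2) 1 1)).Nondegenerate :=
  H48.QuadSplit.nd_iff.mp (H48.QuadStd.nd_qMinus m (by decide))

end H85.OrthThree
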