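import Cfsg.Agent.Lib.H91.LargePair
import Cfsg.Agent.Lib.H86.OutExtraB
import Cfsg.Agent.Lib.H85.OrthThree
import Cfsg.Agent.Lib.H48.OMinusFour
import Cfsg.Agent.S0287
import Cfsg.Agent.S0288

set_option autoImplicit false
set_option maxHeartbeats 400000

/-! Groups with an extraspecial subgroup of order 128 and quotient of order 25920: coordinates. -/

namespace H85.Suz

open QuadraticMap Matrix H48.QuadStd H85.OrthThree H86.OutExtra H91.MonsterForm Cfsg

abbrev B6 : Type := (Fin 2 ⊕ Fin 2) ⊕ Fin 2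
abbrev V6 : Type := B6 → ZMod 2
abbrev q6 : QuadraticForm (ZMod 2) V6 := qMinus 2 (ZMod 2) 1 1
abbrev O6 := ↥(isometryGroup (ZMod 2) ⇑q6)

instance : Finite O6 := Subtype.finite

theorem nd6 : (polarBilin q6).Nondegenerate := nondeg_minus 2

theorem aniso : ∀ z₁ z₂ : ZMod 2, z₁ ^ 2 + 1 * z₁ * z₂ + 1 * z₂ ^ 2 = 0 → z₁ = 0 ∧ z₂ = 0 := by decide

theorem card_O6 : Nat.card O6 = 51840 := by
  have h := Cfsg.Agent.S0288.result (F := ZMod 2) (q := 2) (ZMod.card 2) 3 (by norm_num) 1 1 aniso
  rw [show O6 = ↥(isometryGroup (ZMod 2) (⇑(qMinus 2 (ZMod 2) 1 1))) from rfl, coe_qMinus]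
  refine h.trans ?_
  norm_num [Finset.prod_range_succ]

theorem card_plus : Nat.card (isometryGroup (ZMod 2) (quadFormPlus 3 (ZMod 2))) = 40320 := by
  have h := Cfsg.Agent.S0287.result (F := ZMod 2) (q := 2) (ZMod.card 2) 3 (by norm_num)
  refine h.trans ?_
  norm_num [Finset.prod_range_succ]

theorem index6 : (Omega (ZMod 2) ⇑q6).index = 2 := H48.OMinusFour.index_minus aniso 2

theorem card_Om6 : Nat.card (Omega (ZMod 2) ⇑q6) = 25920 := by
  have h := (Omega (ZMod 2) ⇑q6).card_mul_index
  have h2 := card_O6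
  rw [index6] at h
  change _ = Nat.card O6 at h
  omega

/-- a subgroup of order `25920` is `Omega` -/
theorem eq_Omega {R : Subgroup O6} (hR : Nat.card R = 25920) : Omega (ZMod 2) ⇑q6 = R := by
  have h1 : Nat.card R * R.index = Nat.card O6 := R.card_mul_index
  have h2 : R.index = 2 := by
    rw [hR, card_O6] at h1
    omega
  have h4 : Omega (ZMod 2) ⇑q6 ≤ R := by
    have hN : R.Normal := Subgroup.normal_of_index_eq_two h2
    rw [Omega, commutator_def, Subgroup.commutator_le]
    intro a _ b _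
    rw [commutatorElement_def]
    have h5 := fun (x y : O6) => Subgroup.mul_mem_iff_of_index_two h2 (a := x) (b := y)
    rw [h5, h5, h5, inv_mem_iff, inv_mem_iff]
    tauto
  apply Subgroup.eq_of_le_of_card_ge h4
  rw [hR, card_Om6]

section
variable {K : Type*} [Group K] [Finite K] (Q : Subgroup K) [Q.Normal]
  {ι : Type} [Fintype ι] [DecidableEq ι] {π : Q → ι → ZMod 2} {ζ : Q} {qf : (ι → ZMod 2) → ZMod 2}

noncomputable def Psi (h : QD π ζ qf) : K →* isometryGroup (ZMod 2) qf := (Phi h).comp MulAut.conjNormal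

theorem ker_Psi (h : QD π ζ qf) (hC : ∀ c : K, (∀ q ∈ Q, c * q = q * c) → c ∈ Q) : (Psi Q h).ker = Q := by
  ext g
  have h1 : g ∈ (Psi Q h).ker ↔ MulAut.conjNormal g ∈ (Phi h).ker := Iff.rfl
  rw [h1, ker_Phi h]
  constructor
  · rintro ⟨e, he⟩
    have h2 : (e : K)⁻¹ * g ∈ Q := by
      apply hC
      intro q hq
      have h3 : (MulAut.conj e) ⟨q, hq⟩ = MulAut.conjNormal g ⟨q, hq⟩ := by rw [he]
      have h4 : (e : K) * q * (e : K)⁻¹ = g * q * g⁻¹ := by
        have := congrArg Subtype.val h3
        rw [MulAut.conjNormal_apply] at this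
        exact this
      calc (e : K)⁻¹ * g * q = (e : K)⁻¹ * (g * q * g⁻¹) * g := by group
        _ = (e : K)⁻¹ * ((e : K) * q * (e : K)⁻¹) * g := by rw [h4]
        _ = q * ((e : K)⁻¹ * g) := by group
    have := Q.mul_mem e.2 h2
    rwa [mul_inv_cancel_left] at this
  · intro hg
    refine ⟨⟨g, hg⟩, ?_⟩
    ext x
    rw [MulAut.conjNormal_apply]
    rfl

theorem card_range_Psi (h : QD π ζ qf) (hC : ∀ c : K, (∀ q ∈ Q, c * q = q * c) → c ∈ Q) :
    Nat.card (Psi Q h).range = Q.index := by
  rw [Subgroup.index_eq_card, Nat.card_congr (QuotientGroup.quotientKerEquivRange (Psi Q h)).symm.toEquiv,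
    Nat.card_congr (QuotientGroup.quotientMulEquivOfEq (ker_Psi Q h hC)).toEquiv]

theorem Psi_spec (h : QD π ζ qf) (g : K) (x : Q) :
    (((Psi Q h g : isometryGroup (ZMod 2) qf) : GL ι (ZMod 2)) : Matrix ι ι (ZMod 2)) *ᵥ (π x) =
      π (MulAut.conjNormal g x) :=
  Phi1_spec h (MulAut.conjNormal g) x

end

theorem transport_QD {E E' : Type*} [Group E] [Group E'] [Finite E'] {ι : Type} [Fintype ι] [DecidableEq ι]
    {π : E → ι → ZMod 2} {z : E} {qf : (ι → ZMod 2) → ZMod 2} (h : QD π z qf) (hE : IsExtraspecial 2 E')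
    (e : E' ≃* E) : QD (fun x => π (e x)) (e.symm z) qf where
  ext := hE
  xs := {
    ne := fun h1 => h.xs.ne (by have := congrArg e h1; rwa [e.apply_symm_apply, map_one] at this)
    sq_ζ := by rw [← map_mul, h.xs.sq_ζ, map_one]
    comm := fun x => by
      apply e.injective
      rw [map_mul, map_mul, e.apply_symm_apply, h.xs.comm]
    center := fun x => by
      have h1 : x ∈ Subgroup.center E' ↔ e x ∈ Subgroup.center E := by
        rw [Subgroup.mem_center_iff, Subgroup.mem_center_iff]
        constructor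
        · intro h2 g
          have := congrArg e (h2 (e.symm g))
          rwa [map_mul, map_mul, e.apply_symm_apply] at this
        · intro h2 g
          apply e.injective
          rw [map_mul, map_mul]
          exact h2 (e g)
      rw [h1, h.xs.center]
      constructor
      · rintro (h2 | h2)
        · left; apply e.injective; rw [h2, map_one]
        · right; apply e.injective; rw [h2, e.apply_symm_apply]
      · rintro (h2 | h2)
        · left; rw [h2, map_one]
        · right; rw [h2, e.apply_symm_apply]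
    sq := fun x => by
      rcases h.xs.sq (e x) with h1 | h1
      · left; apply e.injective; rw [map_mul, h1, map_one]
      · right; apply e.injective; rw [map_mul, h1, e.apply_symm_apply]
    cm := fun x y => by
      rcases h.xs.cm (e x) (e y) with h1 | h1
      · left; apply e.injective; rw [map_mul, h1, map_mul]
      · right; apply e.injective; rw [map_mul, h1, map_mul, map_mul, e.apply_symm_apply] }
  mul := fun x y => by show π (e (x * y)) = _; rw [map_mul, h.mul]
  surj := h.surj.comp e.surjective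
  ker := fun x => by
    rw [h.ker]
    constructor
    · rintro (h2 | h2)
      · left; apply e.injective; rw [h2, map_one]
      · right; apply e.injective; rw [h2, e.apply_symm_apply]
    · rintro (h2 | h2)
      · left; rw [h2, map_one]
      · right; rw [h2, e.apply_symm_apply]
  sq := fun x => by
    rw [← h.sq, ← map_mul]
    constructor
    · intro h1; rw [h1, map_one]
    · intro h1; apply e.injective; rw [h1, map_one]

open H91.ExtModel in
/-- coordinates on an extraspecial group of order 128 -/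
theorem exists_QD {E : Type*} [Group E] [Finite E] (hE : IsExtraspecial 2 E) (hcard : Nat.card E = 128) :
    (∃ (π : E → (Fin 3 ⊕ Fin 3) → ZMod 2) (ζ : E), QD π ζ (quadFormPlus 3 (ZMod 2))) ∨
    (∃ (π : E → V6) (ζ : E), QD π ζ ⇑q6) := by
  obtain ⟨a1, a2⟩ : commutator E ≤ Subgroup.center E ∧ Nat.card (Subgroup.center E) = 2 :=
    ⟨H3.Extraspecial.commutator_le hE.1, hE.2⟩
  have hM : IsExtraspecial 2 (EM 2 1) := extraspecial
  have hP : IsExtraspecial 2 (EM 2 0) := extraspecial
  have hP1 : commutator (EM 2 0) ≤ Subgroup.center (EM 2 0) := H3.Extraspecial.commutator_le hP.1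
  have hM1 : commutator (EM 2 1) ≤ Subgroup.center (EM 2 1) := H3.Extraspecial.commutator_le hM.1
  have h3 := H3.ExtraspecialUnique.three_two_groups (Nat.card E) a1 a2 hP1 hP.2 hM1 hM.2
    (by rw [hcard, card_EM]; norm_num) (by rw [card_EM, card_EM]) (le_refl _)
  rcases h3 with ⟨⟨e⟩⟩ | h3 | ⟨⟨e⟩⟩
  · left
    exact ⟨_, _, transport_QD H86.OutExtraB.qdP hE e⟩
  · exact absurd h3 H86.OutExtraB.not_iso
  · right
    have h4 := transport_QD (H86.OutExtraB.qdM (m := 2)) hE e
    rw [← coe_qMinus] at h4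
    exact ⟨_, _, h4⟩

/-- the minus type is forced, and the image is `Omega` -/
theorem exists_minus {K : Type*} [Group K] [Finite K] (Q : Subgroup K) [Q.Normal] (hE : IsExtraspecial 2 Q)
    (hcard : Nat.card Q = 128) (hidx : Q.index = 25920) (hC : ∀ c : K, (∀ q ∈ Q, c * q = q * c) → c ∈ Q) :
    ∃ (π : Q → V6) (ζ : Q) (h : QD π ζ ⇑q6), (Psi Q h).range = Omega (ZMod 2) ⇑q6 := by
  rcases exists_QD hE hcard with ⟨π, ζ, h⟩ | ⟨π, ζ, h⟩
  · exfalso
    have h1 := card_range_Psi Q h hC
    have h2 : Nat.card (Psi Q h).range ∣ 40320 := by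
      rw [← card_plus]
      exact Subgroup.card_subgroup_dvd_card _
    rw [h1, hidx] at h2
    norm_num at h2
  · exact ⟨π, ζ, h, (eq_Omega ((card_range_Psi Q h hC).trans hidx)).symm⟩

end H85.Suz
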