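import Cfsg.Agent.Lib.H85.OrthThree
import Cfsg.Agent.Lib.H48.OmegaTwo

set_option autoImplicit false
set_option maxHeartbeats 400000

/-!
Crossed homomorphisms from `Ω(Q)` into the natural module over the field with two elements.
-/

namespace H85.CohOrth

open scoped commutatorElement

open Cfsg QuadraticMap Matrix H17 H85.OrthThree

variable {ι : Type} [Fintype ι] [DecidableEq ι] {Q : QuadraticForm (ZMod 2) (ι → ZMod 2)}

theorem mapp (g h : ↥(isometryGroup (ZMod 2) ⇑Q)) (x : ι → ZMod 2) : M (g * h) *ᵥ x = M g *ᵥ (M h *ᵥ x) :=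
  OrthThree.mul_apply' g h x

/-- crossed homomorphisms -/
def Coc (f : ↥(Omega (ZMod 2) ⇑Q) → (ι → ZMod 2)) : Prop :=
  ∀ g h : ↥(Omega (ZMod 2) ⇑Q), f (g * h) = f g + M (g : ↥(isometryGroup (ZMod 2) ⇑Q)) *ᵥ f h

theorem Coc.one {f : ↥(Omega (ZMod 2) ⇑Q) → (ι → ZMod 2)} (hf : Coc f) : f 1 = 0 := by
  have h := hf 1 1
  rw [mul_one, OneMemClass.coe_one, M_one, one_mulVec] at h
  exact (left_eq_add.1 h)

/-- the subgroup of the isometry group on which `f` vanishes -/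
def N {f : ↥(Omega (ZMod 2) ⇑Q) → (ι → ZMod 2)} (hf : Coc f) : Subgroup ↥(isometryGroup (ZMod 2) ⇑Q) where
  carrier := {g | ∃ h : g ∈ Omega (ZMod 2) ⇑Q, f ⟨g, h⟩ = 0}
  mul_mem' := by
    rintro g k ⟨hg, hg'⟩ ⟨hk, hk'⟩
    refine ⟨mul_mem hg hk, ?_⟩
    have := hf ⟨g, hg⟩ ⟨k, hk⟩
    rw [hg', hk', mulVec_zero, add_zero] at this
    exact this
  one_mem' := ⟨one_mem _, hf.one⟩
  inv_mem' := by
    rintro g ⟨hg, hg'⟩
    refine ⟨inv_mem hg, ?_⟩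
    have := hf (⟨g, hg⟩⁻¹) ⟨g, hg⟩
    rw [inv_mul_cancel, hf.one, hg', mulVec_zero, add_zero] at this
    exact this.symm

theorem mem_N {f : ↥(Omega (ZMod 2) ⇑Q) → (ι → ZMod 2)} (hf : Coc f) (g : ↥(isometryGroup (ZMod 2) ⇑Q)) :
    g ∈ N hf ↔ ∃ h : g ∈ Omega (ZMod 2) ⇑Q, f ⟨g, h⟩ = 0 := Iff.rfl

/-- changing `f` by a principal one -/
theorem Coc.shift {f : ↥(Omega (ZMod 2) ⇑Q) → (ι → ZMod 2)} (hf : Coc f) (v : ι → ZMod 2) :
    Coc (fun g : ↥(Omega (ZMod 2) ⇑Q) => f g + (M (g : ↥(isometryGroup (ZMod 2) ⇑Q)) *ᵥ v - v)) := by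
  intro g h
  show f (g * h) + (M ((g * h : ↥(Omega (ZMod 2) ⇑Q)) : ↥(isometryGroup (ZMod 2) ⇑Q)) *ᵥ v - v) =
    f g + (M (g : ↥(isometryGroup (ZMod 2) ⇑Q)) *ᵥ v - v) + M (g : ↥(isometryGroup (ZMod 2) ⇑Q)) *ᵥ
      (f h + (M (h : ↥(isometryGroup (ZMod 2) ⇑Q)) *ᵥ v - v))
  rw [hf, Subgroup.coe_mul, mapp, mulVec_add, mulVec_sub]
  generalize M (g : ↥(isometryGroup (ZMod 2) ⇑Q)) *ᵥ f h = x1
  generalize M (g : ↥(isometryGroup (ZMod 2) ⇑Q)) *ᵥ (M (h : ↥(isometryGroup (ZMod 2) ⇑Q)) *ᵥ v) = x2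
  generalize M (g : ↥(isometryGroup (ZMod 2) ⇑Q)) *ᵥ v = x3
  abel

/-- the reduction -/
theorem principal_of {z : ↥(isometryGroup (ZMod 2) ⇑Q)} (hz : z ∈ Omega (ZMod 2) ⇑Q)
    (hinj : ∀ w, M z *ᵥ w = w → w = 0)
    (H : ∀ (f : ↥(Omega (ZMod 2) ⇑Q) → (ι → ZMod 2)) (hf : Coc f), z ∈ N hf → ∀ g, f g = 0)
    (f : ↥(Omega (ZMod 2) ⇑Q) → (ι → ZMod 2)) (hf : Coc f) :
    ∃ v : ι → ZMod 2, ∀ g : ↥(Omega (ZMod 2) ⇑Q), f g = M (g : ↥(isometryGroup (ZMod 2) ⇑Q)) *ᵥ v - v := by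
  have hsurj : Function.Surjective (fun v : ι → ZMod 2 => M z *ᵥ v - v) := by
    apply Finite.injective_iff_surjective.1
    intro x y hxy
    have h1 : M z *ᵥ (x - y) = x - y := by
      have : M z *ᵥ x - x = M z *ᵥ y - y := hxy
      rw [mulVec_sub]
      have h2 : M z *ᵥ x - M z *ᵥ y = x - y := by
        have h3 := sub_eq_iff_eq_add.1 this
        rw [h3]; abel
      exact h2
    exact sub_eq_zero.1 (hinj _ h1)
  obtain ⟨v, hv⟩ := hsurj (f ⟨z, hz⟩)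
  have hv' : M z *ᵥ (-v) - (-v) = -(f ⟨z, hz⟩) := by
    rw [← hv]; simp only [mulVec_neg]; abel
  refine ⟨v, fun g => ?_⟩
  have h1 := H _ (hf.shift (-v)) ⟨hz, by
    show f ⟨z, hz⟩ + (M z *ᵥ (-v) - (-v)) = 0
    rw [hv']; abel⟩ g
  have h2 : f g + (M (g : ↥(isometryGroup (ZMod 2) ⇑Q)) *ᵥ (-v) - (-v)) = 0 := h1
  rw [mulVec_neg] at h2
  have h3 : f g = -(-(M (g : ↥(isometryGroup (ZMod 2) ⇑Q)) *ᵥ v) - (-v)) := eq_neg_of_add_eq_zero_left h2
  rw [h3]; abel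

variable {f : ↥(Omega (ZMod 2) ⇑Q) → (ι → ZMod 2)} (hf : Coc f)

/-- centralisers of fixed point free elements -/
theorem comm_mem {z g : ↥(isometryGroup (ZMod 2) ⇑Q)} (hz : z ∈ N hf) (hinj : ∀ w, M z *ᵥ w = w → w = 0)
    (hg : g ∈ Omega (ZMod 2) ⇑Q) (hgz : g * z = z * g) : g ∈ N hf := by
  obtain ⟨hzO, hz0⟩ := hz
  refine ⟨hg, hinj _ ?_⟩
  have h1 := hf ⟨g, hg⟩ ⟨z, hzO⟩
  have h2 := hf ⟨z, hzO⟩ ⟨g, hg⟩
  rw [hz0, mulVec_zero, add_zero] at h1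
  rw [hz0, zero_add] at h2
  have h3 : (⟨g, hg⟩ * ⟨z, hzO⟩ : ↥(Omega (ZMod 2) ⇑Q)) = ⟨z, hzO⟩ * ⟨g, hg⟩ := Subtype.ext hgz
  rw [h3, h2] at h1
  exact h1

/-- elements with `z² + z + 1 = 0` -/
def P (z : ↥(isometryGroup (ZMod 2) ⇑Q)) : Prop := ∀ v, M z *ᵥ (M z *ᵥ v) = M z *ᵥ v + v

theorem P.inj {z : ↥(isometryGroup (ZMod 2) ⇑Q)} (h : P z) : ∀ w, M z *ᵥ w = w → w = 0 := by
  intro w hw
  have := h w
  rw [hw, hw] at this
  exact (left_eq_add.1 this)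

theorem P.conj {z : ↥(isometryGroup (ZMod 2) ⇑Q)} (h : P z) (g : ↥(isometryGroup (ZMod 2) ⇑Q)) : P (g * z * g⁻¹) := by
  intro v
  have e : ∀ x, M g⁻¹ *ᵥ (M g *ᵥ x) = x := by
    intro x; rw [← mapp, inv_mul_cancel, M_one, one_mulVec]
  have e' : ∀ x, M g *ᵥ (M g⁻¹ *ᵥ x) = x := by
    intro x; rw [← mapp, mul_inv_cancel, M_one, one_mulVec]
  rw [mapp, mapp, mapp, mapp, e, h, mulVec_add, e']

omit [Fintype ι] [DecidableEq ι] in
theorem zz (v : ι → ZMod 2) : v + v = 0 := add_self' v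

/-- `v` and `w` are linked when the product of the two reflections is in `N` -/
def Rel (v w : ι → ZMod 2) : Prop :=
  ∃ (hv : Q v ≠ 0) (hw : Q w ≠ 0), OrthDet.refl Q v hv * OrthDet.refl Q w hw ∈ N hf

variable {hf}

theorem refl_inv' (v : ι → ZMod 2) (hv : Q v ≠ 0) : (OrthDet.refl Q v hv)⁻¹ = OrthDet.refl Q v hv :=
  inv_eq_of_mul_eq_one_left (refl_sq v hv)

theorem Rel.symm {v w : ι → ZMod 2} (h : Rel hf v w) : Rel hf w v := by
  obtain ⟨hv, hw, h⟩ := h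
  refine ⟨hw, hv, ?_⟩
  have := inv_mem h
  rwa [_root_.mul_inv_rev, refl_inv', refl_inv'] at this

theorem Rel.trans {u v w : ι → ZMod 2} (h : Rel hf u v) (h' : Rel hf v w) : Rel hf u w := by
  obtain ⟨hu, hv, h⟩ := h
  obtain ⟨hv', hw, h'⟩ := h'
  refine ⟨hu, hw, ?_⟩
  have := mul_mem h h'
  rwa [mul_assoc, ← mul_assoc (OrthDet.refl Q v hv), refl_sq, one_mul] at this

theorem Rel.refl' {v : ι → ZMod 2} (hv : Q v ≠ 0) : Rel hf v v := ⟨hv, hv, by rw [refl_sq]; exact one_mem _⟩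

theorem Rel.map {v w : ι → ZMod 2} (h : Rel hf v w) {g : ↥(isometryGroup (ZMod 2) ⇑Q)} (hg : g ∈ N hf) :
    Rel hf (M g *ᵥ v) (M g *ᵥ w) := by
  obtain ⟨hv, hw, h⟩ := h
  refine ⟨by rw [presQ]; exact hv, by rw [presQ]; exact hw, ?_⟩
  have := mul_mem (mul_mem hg h) (inv_mem hg)
  rw [← conj_refl g v hv, ← conj_refl g w hw]
  have e : g * OrthDet.refl Q v hv * g⁻¹ * (g * OrthDet.refl Q w hw * g⁻¹) =
      g * (OrthDet.refl Q v hv * OrthDet.refl Q w hw) * g⁻¹ := by group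
  rw [e]; exact this

/-- non-orthogonal non-singular vectors: the third vector of the plane -/
theorem Rel.third {v w : ι → ZMod 2} (h : Rel hf v w) (hvw : polar Q v w = 1) : Rel hf w (v + w) := by
  obtain ⟨hv, hw, h⟩ := h
  have hc := conj_refl (OrthDet.refl Q w hw) v hv
  have e : M (OrthDet.refl Q w hw) *ᵥ v = v + w := by
    rw [refl_app, polar_comm, hvw, one_smul]
  have hq : Q (v + w) ≠ 0 := by rw [← e, presQ]; exact hv
  refine ⟨hw, hq, ?_⟩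
  have e2 : OrthDet.refl Q (v + w) hq = OrthDet.refl Q w hw * OrthDet.refl Q v hv * (OrthDet.refl Q w hw)⁻¹ := by
    rw [hc]
    congr 1
    exact e.symm
  rw [e2, refl_inv', ← mul_assoc, ← mul_assoc, refl_sq, one_mul]
  exact h

/-- the basic link -/
theorem rel_of_P {z : ↥(isometryGroup (ZMod 2) ⇑Q)} (hP : P z) (hz : z ∈ N hf) {v : ι → ZMod 2} (hv : Q v ≠ 0) :
    Rel hf v (M z *ᵥ v) := by
  have hw : Q (M z *ᵥ v) ≠ 0 := by rw [presQ]; exact hv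
  have hconj := conj_refl z v hv
  have h2 : M z *ᵥ (M z *ᵥ v) = v + M z *ᵥ v := by rw [hP, add_comm]
  have hpol : polar Q v (M z *ᵥ v) = 1 := by
    have h3 : Q (v + M z *ᵥ v) = 1 := by rw [← h2, presQ, presQ]; exact z2 hv
    rw [QuadraticMap.map_add ⇑Q, presQ, z2 hv] at h3
    revert h3
    generalize polar Q v (M z *ᵥ v) = t
    revert t
    decide
  refine ⟨hv, hw, comm_mem hf hz hP.inj ?_ ?_⟩
  · have : OrthDet.refl Q v hv * OrthDet.refl Q (M z *ᵥ v) hw = ⁅OrthDet.refl Q v hv, z⁆ := by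
      rw [commutatorElement_def, refl_inv', ← hconj]
      simp only [mul_assoc]
    rw [this]
    exact Subgroup.commutator_mem_commutator (Subgroup.mem_top _) (Subgroup.mem_top _)
  · have hconj2 := conj_refl z (M z *ᵥ v) hw
    have e1 : z * (OrthDet.refl Q v hv * OrthDet.refl Q (M z *ᵥ v) hw) * z⁻¹ =
        OrthDet.refl Q (M z *ᵥ v) hw * OrthDet.refl Q (M z *ᵥ (M z *ᵥ v)) (by rw [presQ]; exact hw) := by
      rw [← hconj2, ← hconj]; group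
    have hthird : OrthDet.refl Q (M z *ᵥ (M z *ᵥ v)) (by rw [presQ]; exact hw) =
        OrthDet.refl Q (M z *ᵥ v) hw * OrthDet.refl Q v hv * (OrthDet.refl Q (M z *ᵥ v) hw)⁻¹ := by
      rw [conj_refl (OrthDet.refl Q (M z *ᵥ v) hw) v hv]
      congr 1
      rw [refl_app, polar_comm, hpol, one_smul, h2]
    have e3 : OrthDet.refl Q (M z *ᵥ v) hw * (OrthDet.refl Q (M z *ᵥ v) hw * OrthDet.refl Q v hv * OrthDet.refl Q (M z *ᵥ v) hw) =
        OrthDet.refl Q v hv * OrthDet.refl Q (M z *ᵥ v) hw := by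
      rw [← mul_assoc, ← mul_assoc, refl_sq, one_mul]
    rw [hthird, refl_inv', e3] at e1
    rw [mul_inv_eq_iff_eq_mul] at e1
    exact e1.symm

/-- the end: all links imply that `f` vanishes -/
theorem vanish_of_rel (hQ : (polarBilin Q).Nondegenerate)
    (hgen : Subgroup.closure {g : ↥(isometryGroup (ZMod 2) ⇑Q) | ∃ (v : ι → ZMod 2) (hv : Q v ≠ 0),
        g = OrthDet.refl Q v hv} = ⊤) {a : ι → ZMod 2} (ha : Q a ≠ 0) (hrel : ∀ v, Q v ≠ 0 → Rel hf v a) :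
    ∀ g, f g = 0 := by
  have key : ∀ g : ↥(isometryGroup (ZMod 2) ⇑Q), g ∈ N hf ∨ g * OrthDet.refl Q a ha ∈ N hf := by
    intro g
    have hg : g ∈ Subgroup.closure {g : ↥(isometryGroup (ZMod 2) ⇑Q) | ∃ (v : ι → ZMod 2) (hv : Q v ≠ 0),
        g = OrthDet.refl Q v hv} := by rw [hgen]; trivial
    have step : ∀ (g : ↥(isometryGroup (ZMod 2) ⇑Q)) (v : ι → ZMod 2) (hv : Q v ≠ 0),
        (g ∈ N hf ∨ g * OrthDet.refl Q a ha ∈ N hf) →
        (g * OrthDet.refl Q v hv ∈ N hf ∨ g * OrthDet.refl Q v hv * OrthDet.refl Q a ha ∈ N hf) := by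
      intro g v hv h
      obtain ⟨_, _, hr⟩ := hrel v hv
      obtain ⟨_, _, hr'⟩ := (hrel v hv).symm
      rcases h with h | h
      · right
        rw [mul_assoc]
        exact mul_mem h hr
      · left
        have := mul_mem h hr'
        rwa [mul_assoc, ← mul_assoc (OrthDet.refl Q a ha), refl_sq, one_mul] at this
    induction hg using Subgroup.closure_induction_right with
    | one => left; exact one_mem _
    | mul_right x y hx hy ih =>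
      obtain ⟨v, hv, rfl⟩ := hy
      exact step _ v hv ih
    | mul_inv_cancel x y hx hy ih =>
      obtain ⟨v, hv, rfl⟩ := hy
      rw [refl_inv']
      exact step _ v hv ih
  rintro ⟨g, hg⟩
  rcases key g with h | h
  · obtain ⟨_, h⟩ := h
    exact h
  · exfalso
    obtain ⟨h1, _⟩ := h
    have h2 : OrthDet.refl Q a ha ∈ Omega (ZMod 2) ⇑Q := by
      have := mul_mem (inv_mem hg) h1
      rwa [inv_mul_cancel_left] at this
    rw [H48.OmegaTwo.mem_Omega_iff_two Q hQ _ [a] (by simpa using ha) (by simp [H48.OmegaPlus.rprod, OrthDet.refl_coe])] at h2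
    simp at h2

end H85.CohOrth
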