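import Cfsg.Agent.Lib.H85.CohOrth

set_option autoImplicit false
set_option maxHeartbeats 400000

/-!
Crossed homomorphisms from `Ω(Q)` into the natural module over the field with two elements: orthogonal sums of at
least three elliptic planes.
-/

namespace H85.CohOrth

open Cfsg QuadraticMap Matrix H17 H85.OrthThree

variable {ι : Type} [Fintype ι] [DecidableEq ι] {Q : QuadraticForm (ZMod 2) (ι → ZMod 2)}

/-- a system of pairwise orthogonal elliptic planes -/
structure Planes (Q : QuadraticForm (ZMod 2) (ι → ZMod 2)) {k : ℕ} (a b : Fin k → (ι → ZMod 2)) : Prop where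
  qa : ∀ i, Q (a i) = 1
  qb : ∀ i, Q (b i) = 1
  ab : ∀ i, polar Q (a i) (b i) = 1
  aa : ∀ i j, i ≠ j → polar Q (a i) (a j) = 0
  ab' : ∀ i j, i ≠ j → polar Q (a i) (b j) = 0
  bb : ∀ i j, i ≠ j → polar Q (b i) (b j) = 0
  span : ∀ v, (∀ i, polar Q (a i) v = 0 ∧ polar Q (b i) v = 0) → v = 0
  three : ∀ i j : Fin k, ∃ l, l ≠ i ∧ l ≠ j

omit [Fintype ι] [DecidableEq ι] in
theorem polar_sum {α : Type*} (s : Finset α) (v : ι → ZMod 2) (w : α → (ι → ZMod 2)) :
    polar Q v (∑ i ∈ s, w i) = ∑ i ∈ s, polar Q v (w i) := by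
  exact map_sum (polarBilin Q v) w s

omit [Fintype ι] [DecidableEq ι] in
theorem polar_self0 (v : ι → ZMod 2) : polar Q v v = 0 := by
  rw [polar_self]
  generalize Q v = t
  revert t
  decide

variable {k : ℕ} {a b : Fin k → (ι → ZMod 2)}

/-- `ρ v = v + c v` -/
def cc (Q : QuadraticForm (ZMod 2) (ι → ZMod 2)) (a b : Fin k → (ι → ZMod 2)) (i : Fin k) (v : ι → ZMod 2) : ι → ZMod 2 :=
  (polar Q (a i) v + polar Q (b i) v) • a i + polar Q (b i) v • b i

/-- projection -/
def pp (Q : QuadraticForm (ZMod 2) (ι → ZMod 2)) (a b : Fin k → (ι → ZMod 2)) (i : Fin k) (v : ι → ZMod 2) : ι → ZMod 2 :=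
  polar Q (b i) v • a i + polar Q (a i) v • b i

namespace Planes

variable (H : Planes Q a b)
include H

omit [Fintype ι] [DecidableEq ι]

theorem qa' (i : Fin k) : Q (a i) ≠ 0 := by rw [H.qa]; exact one_ne_zero
theorem qb' (i : Fin k) : Q (b i) ≠ 0 := by rw [H.qb]; exact one_ne_zero
theorem ba (i : Fin k) : polar Q (b i) (a i) = 1 := by rw [polar_comm, H.ab]
theorem ba' (i j : Fin k) (h : i ≠ j) : polar Q (b i) (a j) = 0 := by rw [polar_comm, H.ab' j i h.symm]

theorem a_lin (i : Fin k) (x y : ZMod 2) : polar Q (a i) (x • a i + y • b i) = y := by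
  rw [polar_add_right, polar_smul_right, polar_smul_right, polar_self0, H.ab, smul_zero, zero_add, smul_eq_mul, mul_one]

theorem b_lin (i : Fin k) (x y : ZMod 2) : polar Q (b i) (x • a i + y • b i) = x := by
  rw [polar_add_right, polar_smul_right, polar_smul_right, polar_self0, H.ba, smul_zero, add_zero, smul_eq_mul, mul_one]

theorem a_lin' {i j : Fin k} (h : i ≠ j) (x y : ZMod 2) : polar Q (a i) (x • a j + y • b j) = 0 := by
  rw [polar_add_right, polar_smul_right, polar_smul_right, H.aa i j h, H.ab' i j h, smul_zero, smul_zero, add_zero]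

theorem b_lin' {i j : Fin k} (h : i ≠ j) (x y : ZMod 2) : polar Q (b i) (x • a j + y • b j) = 0 := by
  rw [polar_add_right, polar_smul_right, polar_smul_right, H.ba' i j h, H.bb i j h, smul_zero, smul_zero, add_zero]

theorem a_sum (i : Fin k) (x y : Fin k → ZMod 2) : polar Q (a i) (∑ j, (x j • a j + y j • b j)) = y i := by
  rw [polar_sum, Finset.sum_eq_single i]
  · exact H.a_lin i _ _
  · intro j _ hj; exact H.a_lin' hj.symm _ _
  · intro h; exact absurd (Finset.mem_univ i) h

theorem b_sum (i : Fin k) (x y : Fin k → ZMod 2) : polar Q (b i) (∑ j, (x j • a j + y j • b j)) = x i := by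
  rw [polar_sum, Finset.sum_eq_single i]
  · exact H.b_lin i _ _
  · intro j _ hj; exact H.b_lin' hj.symm _ _
  · intro h; exact absurd (Finset.mem_univ i) h

/-- the decomposition -/
theorem dec (v : ι → ZMod 2) : ∑ i, pp Q a b i v = v := by
  have h : v + ∑ i, pp Q a b i v = 0 := by
    apply H.span
    intro i
    have h1 := H.a_sum i (fun j => polar Q (b j) v) (fun j => polar Q (a j) v)
    have h2 := H.b_sum i (fun j => polar Q (b j) v) (fun j => polar Q (a j) v)
    constructor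
    · rw [polar_add_right]
      unfold pp
      rw [h1]
      generalize polar Q (a i) v = t
      revert t; decide
    · rw [polar_add_right]
      unfold pp
      rw [h2]
      generalize polar Q (b i) v = t
      revert t; decide
  calc ∑ i, pp Q a b i v = (v + v) + ∑ i, pp Q a b i v := by rw [zz, zero_add]
    _ = v + (v + ∑ i, pp Q a b i v) := by rw [add_assoc]
    _ = v := by rw [h, add_zero]

end Planes

/-- rotations -/
noncomputable def rho (H : Planes Q a b) (i : Fin k) : ↥(isometryGroup (ZMod 2) ⇑Q) :=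
  OrthDet.refl Q (a i) (H.qa' i) * OrthDet.refl Q (b i) (H.qb' i)

theorem rho_app (H : Planes Q a b) (i : Fin k) (v : ι → ZMod 2) : M (rho H i) *ᵥ v = v + cc Q a b i v := by
  rw [rho, mapp, refl_app, refl_app, polar_add_right, polar_smul_right, H.ab, smul_eq_mul, mul_one, cc, add_assoc,
    add_comm (polar Q (b i) v • b i)]

/-- products of rotations -/
noncomputable def zl (H : Planes Q a b) (l : List (Fin k)) : ↥(isometryGroup (ZMod 2) ⇑Q) := (l.map (rho H)).prod

theorem polar_list_a (H : Planes Q a b) {i : Fin k} {l : List (Fin k)} (hi : i ∉ l) (v : ι → ZMod 2) :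
    polar Q (a i) ((l.map (fun j => cc Q a b j v)).sum) = 0 ∧ polar Q (b i) ((l.map (fun j => cc Q a b j v)).sum) = 0 := by
  induction l with
  | nil => simp
  | cons j l ih =>
    rw [List.mem_cons, not_or] at hi
    obtain ⟨h1, h2⟩ := ih hi.2
    rw [List.map_cons, List.sum_cons, polar_add_right, polar_add_right, h1, h2, add_zero, add_zero]
    exact ⟨H.a_lin' hi.1 _ _, H.b_lin' hi.1 _ _⟩

theorem zl_app (H : Planes Q a b) (l : List (Fin k)) (hl : l.Nodup) (v : ι → ZMod 2) :
    M (zl H l) *ᵥ v = v + (l.map (fun i => cc Q a b i v)).sum := by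
  induction l with
  | nil => simp [zl, M_one]
  | cons i l ih =>
    rw [List.nodup_cons] at hl
    have h1 : zl H (i :: l) = rho H i * zl H l := by rw [zl, zl, List.map_cons, List.prod_cons]
    obtain ⟨h2, h3⟩ := polar_list_a H hl.1 v
    rw [h1, mapp, ih hl.2, rho_app, cc, polar_add_right, polar_add_right, h2, h3, add_zero, add_zero, List.map_cons,
      List.sum_cons, cc]
    abel

/-- the element `z` -/
noncomputable def zz0 (H : Planes Q a b) : ↥(isometryGroup (ZMod 2) ⇑Q) := zl H (List.finRange k)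

theorem zz0_app (H : Planes Q a b) (v : ι → ZMod 2) : M (zz0 H) *ᵥ v = v + ∑ i, cc Q a b i v := by
  rw [zz0, zl_app H _ (List.nodup_finRange k), ← Fin.sum_univ_def]

theorem a_zz0 (H : Planes Q a b) (i : Fin k) (v : ι → ZMod 2) :
    polar Q (a i) (M (zz0 H) *ᵥ v) = polar Q (a i) v + polar Q (b i) v := by
  rw [zz0_app, polar_add_right]
  congr 1
  exact H.a_sum i (fun j => polar Q (a j) v + polar Q (b j) v) (fun j => polar Q (b j) v)

theorem b_zz0 (H : Planes Q a b) (i : Fin k) (v : ι → ZMod 2) :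
    polar Q (b i) (M (zz0 H) *ᵥ v) = polar Q (a i) v := by
  rw [zz0_app, polar_add_right]
  have := H.b_sum i (fun j => polar Q (a j) v + polar Q (b j) v) (fun j => polar Q (b j) v)
  have h2 : polar Q (b i) (∑ j, cc Q a b j v) = polar Q (a i) v + polar Q (b i) v := this
  rw [h2]
  generalize polar Q (a i) v = s
  generalize polar Q (b i) v = t
  revert s t; decide

theorem cc_zz0 (H : Planes Q a b) (i : Fin k) (v : ι → ZMod 2) : cc Q a b i (M (zz0 H) *ᵥ v) = pp Q a b i v := by
  rw [cc, a_zz0, b_zz0, pp]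
  congr 2
  generalize polar Q (a i) v = s
  generalize polar Q (b i) v = t
  revert s t; decide

theorem P_zz0 (H : Planes Q a b) : P (zz0 H) := by
  intro v
  rw [zz0_app H (M (zz0 H) *ᵥ v)]
  congr 1
  calc ∑ i, cc Q a b i (M (zz0 H) *ᵥ v) = ∑ i, pp Q a b i v := Finset.sum_congr rfl (fun i _ => cc_zz0 H i v)
    _ = v := H.dec v

theorem zz0_plane (H : Planes Q a b) (i : Fin k) (x y : ZMod 2) :
    M (zz0 H) *ᵥ (x • a i + y • b i) = y • a i + (x + y) • b i := by
  rw [zz0_app, Finset.sum_eq_single i]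
  · rw [cc, H.a_lin, H.b_lin]
    ext t
    simp only [Pi.add_apply, Pi.smul_apply, smul_eq_mul]
    generalize a i t = s
    generalize b i t = u
    revert x y s u; decide
  · intro j _ hj
    rw [cc, H.a_lin' hj, H.b_lin' hj, add_zero, zero_smul, zero_smul, add_zero]
  · intro h; exact absurd (Finset.mem_univ i) h

theorem rho_comm (H : Planes Q a b) (i : Fin k) : rho H i * zz0 H = zz0 H * rho H i := by
  apply ext_apply
  intro v
  rw [mapp, mapp, rho_app, rho_app, cc_zz0, mulVec_add, cc, zz0_plane, pp]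
  congr 1
  ext t
  simp only [Pi.add_apply, Pi.smul_apply, smul_eq_mul]
  generalize a i t = s
  generalize b i t = u
  generalize polar Q (a i) v = x
  generalize polar Q (b i) v = y
  revert x y s u; decide

theorem rz_app (H : Planes Q a b) (i : Fin k) (v : ι → ZMod 2) : M (rho H i * zz0 H) *ᵥ v = M (zz0 H) *ᵥ v + pp Q a b i v := by
  rw [mapp, rho_app, cc_zz0]

theorem P_rz (H : Planes Q a b) (i : Fin k) : P (rho H i * zz0 H) := by
  intro v
  rw [rz_app, rz_app, mulVec_add, P_zz0 H v]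
  have h1 : M (zz0 H) *ᵥ pp Q a b i v = polar Q (a i) v • a i + (polar Q (b i) v + polar Q (a i) v) • b i := by
    rw [pp, zz0_plane]
  have h2 : pp Q a b i (M (zz0 H) *ᵥ v + pp Q a b i v) =
      (polar Q (a i) v + polar Q (b i) v) • a i + ((polar Q (a i) v + polar Q (b i) v) + polar Q (a i) v) • b i := by
    rw [pp, polar_add_right, polar_add_right, a_zz0, b_zz0, pp, H.a_lin, H.b_lin]
  rw [h1, h2, pp]
  ext t
  simp only [Pi.add_apply, Pi.smul_apply, smul_eq_mul]
  generalize a i t = s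
  generalize b i t = u
  generalize polar Q (a i) v = x
  generalize polar Q (b i) v = y
  generalize (M (zz0 H) *ᵥ v) t = p
  generalize v t = q
  revert x y s u p q; decide

theorem refl_mul_Omega (hQ : (polarBilin Q).Nondegenerate) {v w : ι → ZMod 2} (hv : Q v ≠ 0) (hw : Q w ≠ 0) :
    OrthDet.refl Q v hv * OrthDet.refl Q w hw ∈ Omega (ZMod 2) ⇑Q := by
  have hlist : ∀ u ∈ [v, w], Q u ≠ 0 := by
    intro u hu
    rcases List.mem_cons.mp hu with rfl | hu
    · exact hv
    · rw [List.mem_singleton.mp hu]; exact hw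
  rw [H48.OmegaTwo.mem_Omega_iff_two Q hQ _ [v, w] hlist (by simp [H48.OmegaPlus.rprod, H17.OrthDet.refl_coe])]
  exact even_two

theorem rho_Omega (hQ : (polarBilin Q).Nondegenerate) (H : Planes Q a b) (i : Fin k) :
    rho H i ∈ Omega (ZMod 2) ⇑Q := refl_mul_Omega hQ _ _

theorem zz0_Omega (hQ : (polarBilin Q).Nondegenerate) (H : Planes Q a b) : zz0 H ∈ Omega (ZMod 2) ⇑Q := by
  apply Subgroup.list_prod_mem
  intro x hx
  obtain ⟨i, _, rfl⟩ := List.mem_map.1 hx
  exact rho_Omega hQ H i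

variable {f : ↥(Omega (ZMod 2) ⇑Q) → (ι → ZMod 2)} {hf : Coc f}

theorem rho_N (hQ : (polarBilin Q).Nondegenerate) (H : Planes Q a b) (hz : zz0 H ∈ N hf) (i : Fin k) : rho H i ∈ N hf :=
  comm_mem hf hz (P_zz0 H).inj (rho_Omega hQ H i) (rho_comm H i)

/-- `v` and `ρ v` are linked -/
theorem rel_rho (hQ : (polarBilin Q).Nondegenerate) (H : Planes Q a b) (hz : zz0 H ∈ N hf) (i : Fin k) {v : ι → ZMod 2}
    (hv : Q v ≠ 0) : Rel hf v (M (rho H i) *ᵥ v) := by
  have hw : Q (M (zz0 H)⁻¹ *ᵥ v) ≠ 0 := by rw [presQ]; exact hv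
  have h1 := rel_of_P (P_zz0 H) hz hw
  have h2 := rel_of_P (P_rz H i) (mul_mem (rho_N hQ H hz i) hz) hw
  have e1 : M (zz0 H) *ᵥ (M (zz0 H)⁻¹ *ᵥ v) = v := by rw [← mapp, mul_inv_cancel, M_one, one_mulVec]
  have e2 : M (rho H i * zz0 H) *ᵥ (M (zz0 H)⁻¹ *ᵥ v) = M (rho H i) *ᵥ v := by rw [mapp, e1]
  rw [e1] at h1
  rw [e2] at h2
  exact h1.symm.trans h2

theorem rel_cc (hQ : (polarBilin Q).Nondegenerate) (H : Planes Q a b) (hz : zz0 H ∈ N hf) (i : Fin k) {v : ι → ZMod 2}
    (hv : Q v ≠ 0) (hc : ¬ (polar Q (a i) v = 0 ∧ polar Q (b i) v = 0)) : Rel hf v (cc Q a b i v) := by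
  have h1 := rel_rho hQ H hz i hv
  have hpol : polar Q v (M (rho H i) *ᵥ v) = 1 := by
    rw [rho_app, polar_add_right, polar_self0, zero_add, cc, polar_add_right, polar_smul_right, polar_smul_right,
      polar_comm Q v (a i), polar_comm Q v (b i)]
    revert hc
    generalize polar Q (a i) v = s
    generalize polar Q (b i) v = t
    simp only [smul_eq_mul]
    revert s t; decide
  have h2 := h1.third hpol
  have e : v + M (rho H i) *ᵥ v = cc Q a b i v := by
    rw [rho_app, ← add_assoc, zz, zero_add]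
  rw [e] at h2
  exact h1.trans h2

theorem rel_ab (hQ : (polarBilin Q).Nondegenerate) (H : Planes Q a b) (hz : zz0 H ∈ N hf) (i : Fin k) :
    Rel hf (a i) (b i) := by
  have h1 := rel_rho hQ H hz i (H.qa' i)
  have e : M (rho H i) *ᵥ (a i) = b i := by
    rw [rho_app, cc, polar_self0, H.ba, zero_add, one_smul, one_smul, ← add_assoc, zz, zero_add]
  rwa [e] at h1

/-- every nonsingular vector is linked to every `a i` it is not orthogonal to -/
theorem rel_a (hQ : (polarBilin Q).Nondegenerate) (H : Planes Q a b) (hz : zz0 H ∈ N hf) (i : Fin k) {v : ι → ZMod 2}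
    (hv : Q v ≠ 0) (hc : ¬ (polar Q (a i) v = 0 ∧ polar Q (b i) v = 0)) : Rel hf v (a i) := by
  have h1 := rel_cc hQ H hz i hv hc
  have hab := rel_ab hQ H hz i
  have h3 : Rel hf (b i) (a i + b i) := hab.third (H.ab i)
  have hcases : (polar Q (a i) v = 1 ∧ polar Q (b i) v = 0) ∨ (polar Q (a i) v = 0 ∧ polar Q (b i) v = 1) ∨
      (polar Q (a i) v = 1 ∧ polar Q (b i) v = 1) := by
    revert hc
    generalize polar Q (a i) v = s
    generalize polar Q (b i) v = t
    revert s t; decide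
  rcases hcases with ⟨h4, h5⟩ | ⟨h4, h5⟩ | ⟨h4, h5⟩
  · rw [cc, h4, h5, add_zero, one_smul, zero_smul, add_zero] at h1
    exact h1
  · rw [cc, h4, h5, zero_add, one_smul, one_smul] at h1
    exact h1.trans (h3.symm.trans hab.symm)
  · rw [cc, h4, h5, show (1 : ZMod 2) + 1 = 0 from by decide, one_smul, zero_smul, zero_add] at h1
    exact h1.trans hab.symm

theorem rel_aa (hQ : (polarBilin Q).Nondegenerate) (H : Planes Q a b) (hz : zz0 H ∈ N hf) (i j : Fin k) :
    Rel hf (a i) (a j) := by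
  by_cases hij : i = j
  · rw [hij]; exact Rel.refl' (H.qa' j)
  obtain ⟨l, hli, hlj⟩ := H.three i j
  have hq : Q (a i + a j + a l) ≠ 0 := by
    rw [QuadraticMap.map_add ⇑Q, QuadraticMap.map_add ⇑Q, polar_add_left, H.aa i j hij, H.aa i l hli.symm,
      H.aa j l hlj.symm, H.qa, H.qa, H.qa]
    decide
  have hi := rel_a hQ H hz i hq (by
    rintro ⟨_, h⟩
    rw [polar_add_right, polar_add_right, H.ba, H.ba' i j hij, H.ba' i l hli.symm] at h
    revert h; decide)
  have hj := rel_a hQ H hz j hq (by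
    rintro ⟨_, h⟩
    rw [polar_add_right, polar_add_right, H.ba, H.ba' j i (Ne.symm hij), H.ba' j l hlj.symm] at h
    revert h; decide)
  exact hi.symm.trans hj

theorem vanish (hQ : (polarBilin Q).Nondegenerate)
    (hgen : Subgroup.closure {g : ↥(isometryGroup (ZMod 2) ⇑Q) | ∃ (v : ι → ZMod 2) (hv : Q v ≠ 0),
        g = OrthDet.refl Q v hv} = ⊤) (H : Planes Q a b) (hk : 0 < k) (hz : zz0 H ∈ N hf) : ∀ g, f g = 0 := by
  apply vanish_of_rel (hf := hf) hQ hgen (H.qa' ⟨0, hk⟩)
  intro v hv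
  have hex : ∃ i, ¬ (polar Q (a i) v = 0 ∧ polar Q (b i) v = 0) := by
    by_contra hcon
    push Not at hcon
    apply hv
    rw [H.span v hcon, map_zero]
  obtain ⟨i, hi⟩ := hex
  exact (rel_a hQ H hz i hv hi).trans (rel_aa hQ H hz i _)

theorem main_planes (hQ : (polarBilin Q).Nondegenerate)
    (hgen : Subgroup.closure {g : ↥(isometryGroup (ZMod 2) ⇑Q) | ∃ (v : ι → ZMod 2) (hv : Q v ≠ 0),
        g = OrthDet.refl Q v hv} = ⊤) (H : Planes Q a b) (hk : 0 < k) (f : ↥(Omega (ZMod 2) ⇑Q) → (ι → ZMod 2)) (hf : Coc f) :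
    ∃ v : ι → ZMod 2, ∀ g : ↥(Omega (ZMod 2) ⇑Q), f g = M (g : ↥(isometryGroup (ZMod 2) ⇑Q)) *ᵥ v - v :=
  principal_of (zz0_Omega hQ H) (P_zz0 H).inj (fun _ _ hz => vanish hQ hgen H hk hz) f hf

end H85.CohOrth
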