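import Cfsg.Agent.Lib.H85.CohOrth2
import Cfsg.Agent.Lib.H48.OMinusFour

set_option autoImplicit false
set_option maxHeartbeats 400000

/-!
Crossed homomorphisms from `Ω(Q)` into the natural module over the field with two elements: `Ω₄⁻(2)`.
-/

namespace H85.CohOrth

open Cfsg QuadraticMap Matrix H17 H85.OrthThree

variable {ι : Type} [Fintype ι] [DecidableEq ι] {Q : QuadraticForm (ZMod 2) (ι → ZMod 2)}

/-- a simple system of type `A₄` -/
structure A4 (Q : QuadraticForm (ZMod 2) (ι → ZMod 2)) (e1 e2 e3 e4 : ι → ZMod 2) : Prop where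
  q1 : Q e1 = 1
  q2 : Q e2 = 1
  q3 : Q e3 = 1
  q4 : Q e4 = 1
  p12 : polar Q e1 e2 = 1
  p23 : polar Q e2 e3 = 1
  p34 : polar Q e3 e4 = 1
  p13 : polar Q e1 e3 = 0
  p14 : polar Q e1 e4 = 0
  p24 : polar Q e2 e4 = 0
  span : ∀ v, ∃ p q r s : ZMod 2, v = p • e1 + q • e2 + r • e3 + s • e4

namespace A4

variable {e1 e2 e3 e4 : ι → ZMod 2} (H : A4 Q e1 e2 e3 e4)
include H

omit [Fintype ι] [DecidableEq ι] in
theorem p11 : polar Q e1 e1 = 0 := polar_self0 e1
omit [Fintype ι] [DecidableEq ι] in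
theorem p21 : polar Q e2 e1 = 1 := by rw [polar_comm, H.p12]
omit [Fintype ι] [DecidableEq ι] in
theorem p32 : polar Q e3 e2 = 1 := by rw [polar_comm, H.p23]
omit [Fintype ι] [DecidableEq ι] in
theorem p43 : polar Q e4 e3 = 1 := by rw [polar_comm, H.p34]
omit [Fintype ι] [DecidableEq ι] in
theorem p31 : polar Q e3 e1 = 0 := by rw [polar_comm, H.p13]
omit [Fintype ι] [DecidableEq ι] in
theorem p41 : polar Q e4 e1 = 0 := by rw [polar_comm, H.p14]
omit [Fintype ι] [DecidableEq ι] in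
theorem p42 : polar Q e4 e2 = 0 := by rw [polar_comm, H.p24]

omit [Fintype ι] [DecidableEq ι] in
theorem pr1 (p q r s : ZMod 2) : polar Q e1 (p • e1 + q • e2 + r • e3 + s • e4) = q := by
  rw [polar_add_right, polar_add_right, polar_add_right, polar_smul_right, polar_smul_right, polar_smul_right,
    polar_smul_right, polar_self0, H.p12, H.p13, H.p14]
  simp
omit [Fintype ι] [DecidableEq ι] in
theorem pr2 (p q r s : ZMod 2) : polar Q e2 (p • e1 + q • e2 + r • e3 + s • e4) = p + r := by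
  rw [polar_add_right, polar_add_right, polar_add_right, polar_smul_right, polar_smul_right, polar_smul_right,
    polar_smul_right, polar_self0, H.p21, H.p23, H.p24]
  simp
omit [Fintype ι] [DecidableEq ι] in
theorem pr3 (p q r s : ZMod 2) : polar Q e3 (p • e1 + q • e2 + r • e3 + s • e4) = q + s := by
  rw [polar_add_right, polar_add_right, polar_add_right, polar_smul_right, polar_smul_right, polar_smul_right,
    polar_smul_right, polar_self0, H.p31, H.p32, H.p34]
  simp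
omit [Fintype ι] [DecidableEq ι] in
theorem pr4 (p q r s : ZMod 2) : polar Q e4 (p • e1 + q • e2 + r • e3 + s • e4) = r := by
  rw [polar_add_right, polar_add_right, polar_add_right, polar_smul_right, polar_smul_right, polar_smul_right,
    polar_smul_right, polar_self0, H.p41, H.p42, H.p43]
  simp

omit [Fintype ι] [DecidableEq ι] in
theorem qq (p q r s : ZMod 2) : Q (p • e1 + q • e2 + r • e3 + s • e4) = p + q + r + s + p * q + q * r + r * s := by
  rw [QuadraticMap.map_add ⇑Q, QuadraticMap.map_add ⇑Q, QuadraticMap.map_add ⇑Q, QuadraticMap.map_smul, QuadraticMap.map_smul,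
    QuadraticMap.map_smul, QuadraticMap.map_smul, H.q1, H.q2, H.q3, H.q4, polar_smul_left, polar_smul_right, H.p12,
    polar_smul_right, polar_smul_right, polar_add_left, polar_smul_left, polar_smul_left, H.p13, H.p23, polar_add_left,
    polar_add_left, polar_smul_left, polar_smul_left, polar_smul_left, H.p14, H.p24, H.p34]
  simp only [smul_eq_mul]
  revert p q r s
  decide

omit [Fintype ι] [DecidableEq ι] in
theorem n1 : Q e1 ≠ 0 := by rw [H.q1]; exact one_ne_zero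
omit [Fintype ι] [DecidableEq ι] in
theorem n3 : Q e3 ≠ 0 := by rw [H.q3]; exact one_ne_zero
omit [Fintype ι] [DecidableEq ι] in
theorem n4 : Q e4 ≠ 0 := by rw [H.q4]; exact one_ne_zero
omit [Fintype ι] [DecidableEq ι] in
theorem nu : Q (e2 + e3) ≠ 0 := by
  rw [QuadraticMap.map_add ⇑Q, H.q2, H.q3, H.p23]; decide

end A4

variable {e1 e2 e3 e4 : ι → ZMod 2}

/-- the involution -/
noncomputable def aa (H : A4 Q e1 e2 e3 e4) : ↥(isometryGroup (ZMod 2) ⇑Q) :=
  OrthDet.refl Q e1 H.n1 * OrthDet.refl Q e3 H.n3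

/-- the element of order 3 -/
noncomputable def bb (H : A4 Q e1 e2 e3 e4) : ↥(isometryGroup (ZMod 2) ⇑Q) :=
  OrthDet.refl Q (e2 + e3) H.nu * OrthDet.refl Q e4 H.n4

theorem aa_app (H : A4 Q e1 e2 e3 e4) (p q r s : ZMod 2) : M (aa H) *ᵥ (p • e1 + q • e2 + r • e3 + s • e4) =
    (p + q) • e1 + q • e2 + (r + q + s) • e3 + s • e4 := by
  rw [aa, mapp, refl_app, refl_app, H.pr3, polar_add_right, H.pr1, polar_smul_right, H.p13, smul_zero, add_zero]
  ext t
  simp only [Pi.add_apply, Pi.smul_apply, smul_eq_mul]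
  ring

theorem bb_app (H : A4 Q e1 e2 e3 e4) (p q r s : ZMod 2) : M (bb H) *ᵥ (p • e1 + q • e2 + r • e3 + s • e4) =
    p • e1 + (q + (p + q + s)) • e2 + (r + (p + q + s)) • e3 + (s + r) • e4 := by
  rw [bb, mapp, refl_app, refl_app, H.pr4, polar_add_right, polar_add_left, H.pr2, H.pr3, polar_smul_right, polar_add_left,
    H.p24, H.p34]
  ext t
  simp only [Pi.add_apply, Pi.smul_apply, smul_eq_mul]
  generalize e1 t = x1
  generalize e2 t = x2
  generalize e3 t = x3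
  generalize e4 t = x4
  revert p q r s x1 x2 x3 x4
  decide

omit [Fintype ι] [DecidableEq ι] in
theorem A4.indep (H : A4 Q e1 e2 e3 e4) {p q r s : ZMod 2} (h : p • e1 + q • e2 + r • e3 + s • e4 = 0) :
    p = 0 ∧ q = 0 ∧ r = 0 ∧ s = 0 := by
  have h1 := H.pr1 p q r s
  have h2 := H.pr2 p q r s
  have h3 := H.pr3 p q r s
  have h4 := H.pr4 p q r s
  rw [h, polar_zero_right] at h1 h2 h3 h4
  revert h1 h2 h3 h4
  clear h
  revert p q r s
  decide

omit [Fintype ι] [DecidableEq ι] in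
theorem A4.eq_iff (H : A4 Q e1 e2 e3 e4) {p q r s p' q' r' s' : ZMod 2}
    (h : p • e1 + q • e2 + r • e3 + s • e4 = p' • e1 + q' • e2 + r' • e3 + s' • e4) :
    p = p' ∧ q = q' ∧ r = r' ∧ s = s' := by
  have h1 : (p - p') • e1 + (q - q') • e2 + (r - r') • e3 + (s - s') • e4 = 0 := by
    have : (p - p') • e1 + (q - q') • e2 + (r - r') • e3 + (s - s') • e4 =
        (p • e1 + q • e2 + r • e3 + s • e4) - (p' • e1 + q' • e2 + r' • e3 + s' • e4) := by
      simp only [sub_smul]; abel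
    rw [this, h, sub_self]
  obtain ⟨a1, a2, a3, a4⟩ := H.indep h1
  exact ⟨sub_eq_zero.1 a1, sub_eq_zero.1 a2, sub_eq_zero.1 a3, sub_eq_zero.1 a4⟩

theorem ab_app (H : A4 Q e1 e2 e3 e4) (p q r s : ZMod 2) : M (aa H * bb H) *ᵥ (p • e1 + q • e2 + r • e3 + s • e4) =
    s • e1 + (p + s) • e2 + (q + s) • e3 + (r + s) • e4 := by
  rw [mapp, bb_app, aa_app]
  congr 1
  · congr 1
    · congr 1
      · congr 1; revert p q r s; decide
      · congr 1; revert p q r s; decide
    · congr 1; revert p q r s; decide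
  · congr 1; revert p q r s; decide

theorem ab_inj (H : A4 Q e1 e2 e3 e4) : ∀ w, M (aa H * bb H) *ᵥ w = w → w = 0 := by
  intro w hw
  obtain ⟨p, q, r, s, rfl⟩ := H.span w
  rw [ab_app] at hw
  obtain ⟨h1, h2, h3, h4⟩ := H.eq_iff hw
  have : p = 0 ∧ q = 0 ∧ r = 0 ∧ s = 0 := by
    revert h1 h2 h3 h4
    clear hw
    revert p q r s
    decide
  rw [this.1, this.2.1, this.2.2.1, this.2.2.2]
  simp

variable {f : ↥(Omega (ZMod 2) ⇑Q) → (ι → ZMod 2)} {hf : Coc f}

theorem aa_sq (H : A4 Q e1 e2 e3 e4) : aa H * aa H = 1 := by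
  apply ext_apply
  intro v
  obtain ⟨p, q, r, s, rfl⟩ := H.span v
  rw [mapp, aa_app, aa_app, M_one, one_mulVec]
  congr 1
  · congr 1
    · congr 1
      congr 1; revert p q r s; decide
    · congr 1; revert p q r s; decide

theorem bb_cube (H : A4 Q e1 e2 e3 e4) : bb H * (bb H * bb H) = 1 := by
  apply ext_apply
  intro v
  obtain ⟨p, q, r, s, rfl⟩ := H.span v
  rw [mapp, mapp, bb_app, bb_app, bb_app, M_one, one_mulVec]
  congr 1
  · congr 1
    · congr 1
      congr 1; revert p q r s; decide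
    · congr 1; revert p q r s; decide
  · congr 1; revert p q r s; decide

theorem ab_N (hQ : (polarBilin Q).Nondegenerate) (H : A4 Q e1 e2 e3 e4) (hz : aa H * bb H ∈ N hf) :
    aa H ∈ N hf ∧ bb H ∈ N hf := by
  have haO : aa H ∈ Omega (ZMod 2) ⇑Q := refl_mul_Omega hQ _ _
  have hbO : bb H ∈ Omega (ZMod 2) ⇑Q := refl_mul_Omega hQ _ _
  obtain ⟨hzO, hz⟩ := hz
  set A : ↥(Omega (ZMod 2) ⇑Q) := ⟨aa H, haO⟩ with hA
  set B : ↥(Omega (ZMod 2) ⇑Q) := ⟨bb H, hbO⟩ with hB
  have hAB : (⟨aa H * bb H, hzO⟩ : ↥(Omega (ZMod 2) ⇑Q)) = A * B := rfl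
  rw [hAB] at hz
  have hAA : A * A = 1 := Subtype.ext (aa_sq H)
  have hBBB : B * (B * B) = 1 := Subtype.ext (bb_cube H)
  have h1 : f B = f A := by
    have : B = A * (A * B) := by rw [← mul_assoc, hAA, one_mul]
    rw [this, hf, hz, mulVec_zero, add_zero]
  have h2 : f A + M (aa H) *ᵥ f A = 0 := by
    have := hf A A
    rw [hAA, hf.one] at this
    exact this.symm
  have h3 : f B + M (bb H) *ᵥ (f B + M (bb H) *ᵥ f B) = 0 := by
    have := hf B (B * B)
    rw [hBBB, hf.one, hf B B] at this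
    exact this.symm
  rw [h1] at h3
  have h0 : f A = 0 := by
    obtain ⟨p, q, r, s, hw⟩ := H.span (f A)
    rw [hw] at h2 h3 ⊢
    rw [aa_app] at h2
    have h2' : (p + (p + q)) • e1 + (q + q) • e2 + (r + (r + q + s)) • e3 + (s + s) • e4 = 0 := by
      rw [← h2]; simp only [add_smul]; abel
    have e : p • e1 + q • e2 + r • e3 + s • e4 + M (bb H) *ᵥ (p • e1 + q • e2 + r • e3 + s • e4) =
        (p + p) • e1 + (q + (q + (p + q + s))) • e2 + (r + (r + (p + q + s))) • e3 + (s + (s + r)) • e4 := by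
      rw [bb_app]; simp only [add_smul]; abel
    rw [e, bb_app] at h3
    generalize hq1 : p + p = x1 at h3
    generalize hq2 : q + (q + (p + q + s)) = x2 at h3
    generalize hq3 : r + (r + (p + q + s)) = x3 at h3
    generalize hq4 : s + (s + r) = x4 at h3
    have h3' : (p + x1) • e1 + (q + (x2 + (x1 + x2 + x4))) • e2 + (r + (x3 + (x1 + x2 + x4))) • e3 + (s + (x4 + x3)) • e4 = 0 := by
      rw [← h3]; simp only [add_smul]; abel
    obtain ⟨a1, a2, a3, a4⟩ := H.indep h2'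
    obtain ⟨b1, b2, b3, b4⟩ := H.indep h3'
    have : p = 0 ∧ q = 0 ∧ r = 0 ∧ s = 0 := by
      rw [← hq1, ← hq2, ← hq4] at b2
      rw [← hq1] at b1
      rw [← hq1, ← hq2, ← hq3, ← hq4] at b3
      rw [← hq3, ← hq4] at b4
      revert a1 a2 a3 a4 b1 b2 b3 b4
      clear h3' h3 hq1 hq2 hq3 hq4 e h2' h2 hw
      revert p q r s
      decide
    rw [this.1, this.2.1, this.2.2.1, this.2.2.2]
    simp
  exact ⟨⟨haO, h0⟩, ⟨hbO, h1.trans h0⟩⟩

theorem vanish4 (hQ : (polarBilin Q).Nondegenerate)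
    (hgen : Subgroup.closure {g : ↥(isometryGroup (ZMod 2) ⇑Q) | ∃ (v : ι → ZMod 2) (hv : Q v ≠ 0),
        g = OrthDet.refl Q v hv} = ⊤) (H : A4 Q e1 e2 e3 e4) (hz : aa H * bb H ∈ N hf) : ∀ g, f g = 0 := by
  obtain ⟨ha, hb⟩ := ab_N hQ H hz
  apply vanish_of_rel (hf := hf) hQ hgen H.n1
  have hm : ∀ {p q r s p' q' r' s' : ZMod 2}, Rel hf (p • e1 + q • e2 + r • e3 + s • e4) (p' • e1 + q' • e2 + r' • e3 + s' • e4) →
      Rel hf (s • e1 + (p + s) • e2 + (q + s) • e3 + (r + s) • e4) (s' • e1 + (p' + s') • e2 + (q' + s') • e3 + (r' + s') • e4) := by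
    intro p q r s p' q' r' s' h
    have := h.map hz
    rwa [ab_app, ab_app] at this
  have k0 : Rel hf ((1 : ZMod 2) • e1 + (0 : ZMod 2) • e2 + (0 : ZMod 2) • e3 + (0 : ZMod 2) • e4)
      ((0 : ZMod 2) • e1 + (0 : ZMod 2) • e2 + (1 : ZMod 2) • e3 + (0 : ZMod 2) • e4) := by
    have : Rel hf e1 e3 := ⟨H.n1, H.n3, ha⟩
    simpa using this
  have l0 : Rel hf ((0 : ZMod 2) • e1 + (1 : ZMod 2) • e2 + (1 : ZMod 2) • e3 + (0 : ZMod 2) • e4)
      ((0 : ZMod 2) • e1 + (0 : ZMod 2) • e2 + (0 : ZMod 2) • e3 + (1 : ZMod 2) • e4) := by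
    have : Rel hf (e2 + e3) e4 := ⟨H.nu, H.n4, hb⟩
    simpa using this
  have k1 := hm k0
  have k2 := hm k1
  have k3 := hm k2
  have k4 := hm k3
  have l1 := hm l0
  have l2 := hm l1
  have l3 := hm l2
  have l4 := hm l3
  have t2 : (1 : ZMod 2) + 1 = 0 := by decide
  simp only [t2, add_zero, zero_add, one_smul, zero_smul] at k0 k1 k2 k3 k4 l0 l1 l2 l3 l4
  have s1 : Rel hf e1 e1 := Rel.refl' H.n1
  have s3 : Rel hf e3 e1 := k0.symm
  have s5 : Rel hf (e1 + e2 + e3 + e4) e1 := k2.symm.trans s3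
  have s2 : Rel hf e2 e1 := k4.symm.trans s5
  have s4 : Rel hf e4 e1 := k1.symm.trans s2
  have s24 : Rel hf (e2 + e3) e1 := l0.trans s4
  have s35 : Rel hf (e3 + e4) e1 := l1.trans s5
  have s14 : Rel hf (e1 + e2 + e3) e1 := l2
  have s25 : Rel hf (e2 + e3 + e4) e1 := l3.trans s2
  have s13 : Rel hf (e1 + e2) e1 := l4.trans s3
  intro v hv
  obtain ⟨p, q, r, s, rfl⟩ := H.span v
  rw [H.qq] at hv
  have z01 : ∀ x : ZMod 2, x = 0 ∨ x = 1 := by decide
  rcases z01 p with rfl | rfl <;> rcases z01 q with rfl | rfl <;> rcases z01 r with rfl | rfl <;> rcases z01 s with rfl | rfl <;>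
    first
    | exact absurd (by decide) hv
    | (simp only [one_smul, zero_smul, zero_add, add_zero]; assumption)

theorem main_four (hQ : (polarBilin Q).Nondegenerate)
    (hgen : Subgroup.closure {g : ↥(isometryGroup (ZMod 2) ⇑Q) | ∃ (v : ι → ZMod 2) (hv : Q v ≠ 0),
        g = OrthDet.refl Q v hv} = ⊤) (H : A4 Q e1 e2 e3 e4) (f : ↥(Omega (ZMod 2) ⇑Q) → (ι → ZMod 2)) (hf : Coc f) :
    ∃ v : ι → ZMod 2, ∀ g : ↥(Omega (ZMod 2) ⇑Q), f g = M (g : ↥(isometryGroup (ZMod 2) ⇑Q)) *ᵥ v - v :=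
  principal_of (mul_mem (refl_mul_Omega hQ _ _) (refl_mul_Omega hQ _ _)) (ab_inj H)
    (fun _ _ hz => vanish4 hQ hgen H hz) f hf

end H85.CohOrth
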