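import Cfsg.Agent.Lib.H85.CohOrth3

set_option autoImplicit false
set_option maxHeartbeats 1000000

/-!
Crossed homomorphisms from `Ω(Q)` into the natural module over the field with two elements: the concrete forms.
-/

namespace H85.CohOrth

open Cfsg QuadraticMap Matrix H17 H85.OrthThree H48.QuadStd

theorem gen_of {ι : Type} [Fintype ι] [DecidableEq ι] {Q : QuadraticForm (ZMod 2) (ι → ZMod 2)}
    (hQ : (polarBilin Q).Nondegenerate) (h : Fintype.card ι ≠ 4) :
    Subgroup.closure {g : ↥(isometryGroup (ZMod 2) ⇑Q) | ∃ (v : ι → ZMod 2) (hv : Q v ≠ 0),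
        g = OrthDet.refl Q v hv} = ⊤ := by
  have h1 := OrthTrans.closure_refl_eq_top Q hQ (Or.inr h)
  rw [← h1]
  congr 1
  ext g
  constructor
  · rintro ⟨v, hv, rfl⟩
    exact ⟨v, hv, rfl⟩
  · rintro ⟨v, hv, hg⟩
    exact ⟨v, hv, OrthTrans.eq_refl_of_coe Q v hv g hg⟩

/-- vectors in dimension 4 -/
def v4 (x y z w : ZMod 2) : (Fin 1 ⊕ Fin 1) ⊕ Fin 2 → ZMod 2 := Sum.elim (Sum.elim ![x] ![y]) ![z, w]

theorem A4_minus : A4 (qMinus 1 (ZMod 2) 1 1) (v4 0 0 1 0) (v4 0 0 0 1) (v4 1 0 1 0) (v4 1 1 0 0) where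
  q1 := by rw [qMinus_apply]; decide
  q2 := by rw [qMinus_apply]; decide
  q3 := by rw [qMinus_apply]; decide
  q4 := by rw [qMinus_apply]; decide
  p12 := by rw [polar_qMinus]; decide
  p23 := by rw [polar_qMinus]; decide
  p34 := by rw [polar_qMinus]; decide
  p13 := by rw [polar_qMinus]; decide
  p14 := by rw [polar_qMinus]; decide
  p24 := by rw [polar_qMinus]; decide
  span := by
    intro v
    refine ⟨v (Sum.inr 0) + v (Sum.inl (Sum.inl 0)) + v (Sum.inl (Sum.inr 0)), v (Sum.inr 1),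
      v (Sum.inl (Sum.inl 0)) + v (Sum.inl (Sum.inr 0)), v (Sum.inl (Sum.inr 0)), ?_⟩
    ext t
    rcases t with (t | t) | t
    · fin_cases t
      simp only [v4, Pi.add_apply, Pi.smul_apply, smul_eq_mul, Sum.elim_inl, Sum.elim_inr]
      generalize v (Sum.inr 0) = a
      generalize v (Sum.inr 1) = b
      show v (Sum.inl (Sum.inl 0)) = _
      generalize v (Sum.inl (Sum.inl 0)) = c
      generalize v (Sum.inl (Sum.inr 0)) = d
      revert a b c d; decide
    · fin_cases t
      simp only [v4, Pi.add_apply, Pi.smul_apply, smul_eq_mul, Sum.elim_inl, Sum.elim_inr]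
      generalize v (Sum.inr 0) = a
      generalize v (Sum.inr 1) = b
      show v (Sum.inl (Sum.inr 0)) = _
      generalize v (Sum.inl (Sum.inl 0)) = c
      generalize v (Sum.inl (Sum.inr 0)) = d
      revert a b c d; decide
    · fin_cases t
      · simp only [v4, Pi.add_apply, Pi.smul_apply, smul_eq_mul, Sum.elim_inl, Sum.elim_inr]
        show v (Sum.inr 0) = _
        generalize v (Sum.inr 0) = a
        generalize v (Sum.inr 1) = b
        generalize v (Sum.inl (Sum.inl 0)) = c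
        generalize v (Sum.inl (Sum.inr 0)) = d
        revert a b c d; decide
      · simp only [v4, Pi.add_apply, Pi.smul_apply, smul_eq_mul, Sum.elim_inl, Sum.elim_inr]
        show v (Sum.inr 1) = _
        generalize v (Sum.inr 0) = a
        generalize v (Sum.inr 1) = b
        generalize v (Sum.inl (Sum.inl 0)) = c
        generalize v (Sum.inl (Sum.inr 0)) = d
        revert a b c d; decide

/-- vectors in dimension 6 -/
def v6 (x1 x2 y1 y2 z w : ZMod 2) : (Fin 2 ⊕ Fin 2) ⊕ Fin 2 → ZMod 2 := Sum.elim (Sum.elim ![x1, x2] ![y1, y2]) ![z, w]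

def a6 : Fin 3 → ((Fin 2 ⊕ Fin 2) ⊕ Fin 2 → ZMod 2) := ![v6 1 0 1 0 0 0, v6 0 1 0 1 0 0, v6 0 0 0 0 1 0]
def b6 : Fin 3 → ((Fin 2 ⊕ Fin 2) ⊕ Fin 2 → ZMod 2) := ![v6 1 1 0 1 0 0, v6 1 1 1 0 0 0, v6 0 0 0 0 0 1]

theorem planes6 : Planes (qMinus 2 (ZMod 2) 1 1) a6 b6 where
  qa := by simp only [qMinus_apply]; decide
  qb := by simp only [qMinus_apply]; decide
  ab := by simp only [polar_qMinus]; decide
  aa := by simp only [polar_qMinus]; decide
  ab' := by simp only [polar_qMinus]; decide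
  bb := by simp only [polar_qMinus]; decide
  span := by
    intro v h
    have h0 := h 0
    have h1 := h 1
    have h2 := h 2
    simp only [polar_qMinus, Fin.sum_univ_two] at h0 h1 h2
    have key : v (Sum.inl (Sum.inl 0)) = 0 ∧ v (Sum.inl (Sum.inl 1)) = 0 ∧ v (Sum.inl (Sum.inr 0)) = 0 ∧
        v (Sum.inl (Sum.inr 1)) = 0 ∧ v (Sum.inr 0) = 0 ∧ v (Sum.inr 1) = 0 := by
      revert h0 h1 h2
      generalize v (Sum.inl (Sum.inl 0)) = x1
      generalize v (Sum.inl (Sum.inl 1)) = x2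
      generalize v (Sum.inl (Sum.inr 0)) = y1
      generalize v (Sum.inl (Sum.inr 1)) = y2
      generalize v (Sum.inr 0) = z
      generalize v (Sum.inr 1) = w
      clear h
      revert x1 x2 y1 y2 z w
      decide
    obtain ⟨k1, k2, k3, k4, k5, k6⟩ := key
    ext t
    rcases t with (t | t) | t <;> fin_cases t <;> assumption
  three := by decide

/-- vectors in dimension 8 -/
def v8 (x1 x2 x3 x4 y1 y2 y3 y4 : ZMod 2) : Fin 4 ⊕ Fin 4 → ZMod 2 := Sum.elim ![x1, x2, x3, x4] ![y1, y2, y3, y4]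

def a8 : Fin 4 → (Fin 4 ⊕ Fin 4 → ZMod 2) :=
  ![v8 1 0 0 0 1 0 0 0, v8 0 1 0 0 0 1 0 0, v8 0 0 1 0 0 0 1 0, v8 0 0 0 1 0 0 0 1]
def b8 : Fin 4 → (Fin 4 ⊕ Fin 4 → ZMod 2) :=
  ![v8 1 1 0 0 0 1 0 0, v8 1 1 0 0 1 0 0 0, v8 0 0 1 1 0 0 0 1, v8 0 0 1 1 0 0 1 0]

theorem planes8 : Planes (qPlus 4 (ZMod 2)) a8 b8 where
  qa := by simp only [qPlus_apply]; decide
  qb := by simp only [qPlus_apply]; decide
  ab := by simp only [polar_qPlus]; decide
  aa := by simp only [polar_qPlus]; decide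
  ab' := by simp only [polar_qPlus]; decide
  bb := by simp only [polar_qPlus]; decide
  span := by
    intro v h
    have h0 := h 0
    have h1 := h 1
    have h2 := h 2
    have h3 := h 3
    simp only [polar_qPlus, Fin.sum_univ_four] at h0 h1 h2 h3
    have key : v (Sum.inl 0) = 0 ∧ v (Sum.inl 1) = 0 ∧ v (Sum.inr 0) = 0 ∧ v (Sum.inr 1) = 0 := by
      revert h0 h1
      clear h h2 h3
      generalize v (Sum.inl 0) = x1
      generalize v (Sum.inl 1) = x2
      generalize v (Sum.inl 2) = x3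
      generalize v (Sum.inl 3) = x4
      generalize v (Sum.inr 0) = y1
      generalize v (Sum.inr 1) = y2
      generalize v (Sum.inr 2) = y3
      generalize v (Sum.inr 3) = y4
      revert x1 x2 x3 x4 y1 y2 y3 y4
      decide
    have key2 : v (Sum.inl 2) = 0 ∧ v (Sum.inl 3) = 0 ∧ v (Sum.inr 2) = 0 ∧ v (Sum.inr 3) = 0 := by
      revert h2 h3
      clear key h h0 h1
      generalize v (Sum.inl 0) = x1
      generalize v (Sum.inl 1) = x2
      generalize v (Sum.inl 2) = x3
      generalize v (Sum.inl 3) = x4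
      generalize v (Sum.inr 0) = y1
      generalize v (Sum.inr 1) = y2
      generalize v (Sum.inr 2) = y3
      generalize v (Sum.inr 3) = y4
      revert x1 x2 x3 x4 y1 y2 y3 y4
      decide
    obtain ⟨k1, k2, k3, k4⟩ := key
    obtain ⟨k5, k6, k7, k8⟩ := key2
    ext t
    rcases t with t | t <;> fin_cases t <;> assumption
  three := by decide

end H85.CohOrth
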