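import Mathlib
import Cfsg.Prelude.Def_GeometricClasses
import Cfsg.Agent.Lib.H99.SqScalar

set_option autoImplicit false
set_option maxHeartbeats 400000

/-! Involutions on a set of size `a * t` preserve a partition into `t` blocks of size `a`; maps with scalar square. -/

namespace H85.InvDec

open Finset

theorem good {n : ℕ} (f : Fin n → Fin n) (hf : ∀ x, f (f x) = x) (a : ℕ) (ha : 1 ≤ a) :
    ∀ (t : ℕ) (X : Finset (Fin n)), (∀ x ∈ X, f x ∈ X) → X.card = a * t →
      ∃ (g : Fin n → ℕ) (s : ℕ → ℕ), (∀ x ∈ X, g x < t) ∧ (∀ j < t, (X.filter (fun x => g x = j)).card = a) ∧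
        (∀ x ∈ X, g (f x) = s (g x)) := by
  intro t
  induction t using Nat.strong_induction_on with
  | _ t ih =>
  intro X hX hc
  rcases Nat.eq_zero_or_pos t with rfl | ht
  · rw [mul_zero, Finset.card_eq_zero] at hc
    subst hc
    exact ⟨fun _ => 0, fun _ => 0, by simp, by omega, by simp⟩
  set T := X.filter (fun x => x < f x) with hT
  set S := X.filter (fun x => f x = x) with hS
  have hfi : Function.Injective f := fun x y h => by rw [← hf x, h, hf]
  have hTX : T ⊆ X := filter_subset _ _
  have hSX : S ⊆ X := filter_subset _ _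
  have hsplit : X.card = 2 * T.card + S.card := by
    have h1 : X = (T ∪ T.image f) ∪ S := by
      ext x
      simp only [mem_union, mem_image, hT, hS, mem_filter]
      constructor
      · intro hx
        rcases lt_trichotomy x (f x) with h | h | h
        · exact Or.inl (Or.inl ⟨hx, h⟩)
        · exact Or.inr ⟨hx, h.symm⟩
        · exact Or.inl (Or.inr ⟨f x, ⟨hX x hx, by rw [hf]; exact h⟩, hf x⟩)
      · rintro ((⟨hx, -⟩ | ⟨y, ⟨hy, -⟩, rfl⟩) | ⟨hx, -⟩)
        · exact hx
        · exact hX y hy
        · exact hx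
    have h2 : Disjoint T (T.image f) := by
      rw [Finset.disjoint_left]
      intro x hx hx'
      obtain ⟨y, hy, rfl⟩ := mem_image.1 hx'
      rw [hT, mem_filter] at hx hy
      have := hx.2
      rw [hf] at this
      exact absurd this (not_lt.2 hy.2.le)
    have h3 : Disjoint (T ∪ T.image f) S := by
      rw [Finset.disjoint_left]
      intro x hx hx'
      rw [hS, mem_filter] at hx'
      rcases mem_union.1 hx with h | h
      · rw [hT, mem_filter, hx'.2] at h
        exact lt_irrefl _ h.2
      · obtain ⟨y, hy, rfl⟩ := mem_image.1 h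
        rw [hT, mem_filter] at hy
        have h4 := hx'.2
        rw [hf] at h4
        rw [← h4] at hy
        exact lt_irrefl _ hy.2
    conv_lhs => rw [h1]
    rw [card_union_of_disjoint h3, card_union_of_disjoint h2, card_image_of_injective _ hfi]
    ring
  have hdisj : ∀ T1 ⊆ T, Disjoint T1 (T1.image f) := by
    intro T1 hT1
    rw [Finset.disjoint_left]
    intro x hx hx'
    obtain ⟨y, hy, rfl⟩ := mem_image.1 hx'
    have hx2 := hT1 hx
    have hy2 := hT1 hy
    rw [hT, mem_filter] at hx2 hy2
    have := hx2.2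
    rw [hf] at this
    exact absurd this (not_lt.2 hy2.2.le)
  by_cases hk : a ≤ T.card
  · -- two swapped blocks
    have ht2 : 2 ≤ t := by
      by_contra h
      have : t = 1 := by omega
      subst this
      omega
    obtain ⟨T1, hT1, hT1c⟩ := Finset.exists_subset_card_eq hk
    set Y := T1 ∪ T1.image f with hY
    have hYX : Y ⊆ X := by
      intro x hx
      rcases mem_union.1 hx with h | h
      · exact hTX (hT1 h)
      · obtain ⟨y, hy, rfl⟩ := mem_image.1 h
        exact hX y (hTX (hT1 hy))
    have hYc : Y.card = 2 * a := by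
      rw [hY, card_union_of_disjoint (hdisj T1 hT1), card_image_of_injective _ hfi, hT1c]; ring
    have hYf : ∀ x, f x ∈ Y ↔ x ∈ Y := by
      have key : ∀ x ∈ Y, f x ∈ Y := by
        intro x hx
        rcases mem_union.1 hx with h | h
        · exact mem_union_right _ (mem_image_of_mem f h)
        · obtain ⟨y, hy, rfl⟩ := mem_image.1 h
          rw [hf]; exact mem_union_left _ hy
      intro x
      exact ⟨fun h => by rw [← hf x]; exact key _ h, key x⟩
    obtain ⟨g, s, h1, h2, h3⟩ := ih (t - 2) (by omega) (X \ Y) (by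
      intro x hx
      rw [mem_sdiff] at hx ⊢
      exact ⟨hX x hx.1, fun h => hx.2 ((hYf x).1 h)⟩) (by
      rw [card_sdiff_of_subset hYX, hYc, hc, Nat.mul_sub]
      rw [mul_comm 2 a])
    refine ⟨fun x => if x ∈ T1 then t - 2 else if x ∈ Y then t - 1 else g x,
      fun j => if j = t - 2 then t - 1 else if j = t - 1 then t - 2 else s j, ?_, ?_, ?_⟩
    · intro x hx
      dsimp only
      split_ifs with ha1 ha2
      · omega
      · omega
      · have := h1 x (mem_sdiff.2 ⟨hx, ha2⟩)
        omega
    · intro j hj
      rcases lt_or_ge j (t - 2) with hj2 | hj2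
      · rw [← h2 j hj2]
        congr 1
        ext x
        simp only [mem_filter, mem_sdiff]
        constructor
        · rintro ⟨hx, hxj⟩
          split_ifs at hxj with ha1 ha2
          · omega
          · omega
          · exact ⟨⟨hx, ha2⟩, hxj⟩
        · rintro ⟨⟨hx, hxY⟩, hxj⟩
          refine ⟨hx, ?_⟩
          rw [if_neg (fun h => hxY (mem_union_left _ h)), if_neg hxY]
          exact hxj
      · rcases eq_or_ne j (t - 2) with rfl | hjne
        · rw [← hT1c]
          congr 1
          ext x
          simp only [mem_filter]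
          constructor
          · rintro ⟨hx, hxj⟩
            split_ifs at hxj with ha1 ha2
            · exact ha1
            · omega
            · have := h1 x (mem_sdiff.2 ⟨hx, ha2⟩)
              omega
          · intro hx
            exact ⟨hTX (hT1 hx), by rw [if_pos hx]⟩
        · have hjt : j = t - 1 := by omega
          subst hjt
          have : a = (T1.image f).card := by rw [card_image_of_injective _ hfi, hT1c]
          rw [this]
          congr 1
          ext x
          simp only [mem_filter]
          constructor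
          · rintro ⟨hx, hxj⟩
            split_ifs at hxj with ha1 ha2
            · omega
            · rcases mem_union.1 ha2 with h | h
              · exact absurd h ha1
              · exact h
            · have := h1 x (mem_sdiff.2 ⟨hx, ha2⟩)
              omega
          · intro hx
            have hx1 : x ∉ T1 := fun h => Finset.disjoint_left.1 (hdisj T1 hT1) h hx
            exact ⟨hYX (mem_union_right _ hx), by rw [if_neg hx1, if_pos (mem_union_right _ hx)]⟩
    · intro x hx
      dsimp only
      by_cases hx1 : x ∈ T1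
      · have h4 : f x ∈ T1.image f := mem_image_of_mem f hx1
        have h5 : f x ∉ T1 := fun h => Finset.disjoint_left.1 (hdisj T1 hT1) h h4
        rw [if_pos hx1, if_neg h5, if_pos (mem_union_right _ h4), if_pos rfl]
      · by_cases hx2 : x ∈ Y
        · have h4 : f x ∈ T1 := by
            rcases mem_union.1 hx2 with h | h
            · exact absurd h hx1
            · obtain ⟨y, hy, rfl⟩ := mem_image.1 h
              rw [hf]; exact hy
          rw [if_pos h4, if_neg hx1, if_pos hx2, if_neg (by omega), if_pos rfl]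
        · have h4 : f x ∉ Y := fun h => hx2 ((hYf x).1 h)
          have h5 : f x ∉ T1 := fun h => h4 (mem_union_left _ h)
          have h6 := h1 x (mem_sdiff.2 ⟨hx, hx2⟩)
          rw [if_neg h5, if_neg h4, if_neg hx1, if_neg hx2, if_neg (by omega), if_neg (by omega)]
          exact h3 x (mem_sdiff.2 ⟨hx, hx2⟩)
  · -- one fixed block
    push Not at hk
    set b := min T.card (a / 2) with hb
    have hbT : b ≤ T.card := min_le_left _ _
    have hS1 : a - 2 * b ≤ S.card := by
      rcases le_or_gt T.card (a / 2) with h | h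
      · rw [hb, min_eq_left h]
        have : a * 1 ≤ a * t := Nat.mul_le_mul le_rfl ht
        omega
      · rw [hb, min_eq_right h.le]
        rcases Nat.even_or_odd' a with ⟨c, hc' | hc'⟩
        · omega
        · rcases Nat.lt_or_ge t 2 with h2 | h2
          · have : t = 1 := by omega
            subst this
            omega
          · have : a * 2 ≤ a * t := Nat.mul_le_mul le_rfl h2
            omega
    have h2b : 2 * b ≤ a := by
      have : b ≤ a / 2 := min_le_right _ _
      omega
    obtain ⟨T1, hT1, hT1c⟩ := Finset.exists_subset_card_eq hbT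
    obtain ⟨S1, hS1', hS1c⟩ := Finset.exists_subset_card_eq hS1
    set Y := (T1 ∪ T1.image f) ∪ S1 with hY
    have hYX : Y ⊆ X := by
      intro x hx
      rcases mem_union.1 hx with h | h
      · rcases mem_union.1 h with h | h
        · exact hTX (hT1 h)
        · obtain ⟨y, hy, rfl⟩ := mem_image.1 h
          exact hX y (hTX (hT1 hy))
      · exact hSX (hS1' h)
    have hd2 : Disjoint (T1 ∪ T1.image f) S1 := by
      rw [Finset.disjoint_left]
      intro x hx hx'
      have hx' := hS1' hx'
      rw [hS, mem_filter] at hx'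
      rcases mem_union.1 hx with h | h
      · have h := hT1 h
        rw [hT, mem_filter, hx'.2] at h
        exact lt_irrefl _ h.2
      · obtain ⟨y, hy, rfl⟩ := mem_image.1 h
        have hy := hT1 hy
        rw [hT, mem_filter] at hy
        have h4 := hx'.2
        rw [hf] at h4
        rw [← h4] at hy
        exact lt_irrefl _ hy.2
    have hYc : Y.card = a := by
      rw [hY, card_union_of_disjoint hd2, card_union_of_disjoint (hdisj T1 hT1), card_image_of_injective _ hfi, hT1c, hS1c]
      omega
    have hYf : ∀ x, f x ∈ Y ↔ x ∈ Y := by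
      have key : ∀ x ∈ Y, f x ∈ Y := by
        intro x hx
        rcases mem_union.1 hx with h | h
        · rcases mem_union.1 h with h | h
          · exact mem_union_left _ (mem_union_right _ (mem_image_of_mem f h))
          · obtain ⟨y, hy, rfl⟩ := mem_image.1 h
            rw [hf]; exact mem_union_left _ (mem_union_left _ hy)
        · have h' := hS1' h
          rw [hS, mem_filter] at h'
          rw [h'.2]
          exact hx
      intro x
      exact ⟨fun h => by rw [← hf x]; exact key _ h, key x⟩
    obtain ⟨g, s, h1, h2, h3⟩ := ih (t - 1) (by omega) (X \ Y) (by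
      intro x hx
      rw [mem_sdiff] at hx ⊢
      exact ⟨hX x hx.1, fun h => hx.2 ((hYf x).1 h)⟩) (by
      rw [card_sdiff_of_subset hYX, hYc, hc, Nat.mul_sub, mul_one])
    refine ⟨fun x => if x ∈ Y then t - 1 else g x, fun j => if j = t - 1 then t - 1 else s j, ?_, ?_, ?_⟩
    · intro x hx
      dsimp only
      split_ifs with ha1
      · omega
      · have := h1 x (mem_sdiff.2 ⟨hx, ha1⟩)
        omega
    · intro j hj
      rcases lt_or_ge j (t - 1) with hj2 | hj2
      · rw [← h2 j hj2]
        congr 1
        ext x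
        simp only [mem_filter, mem_sdiff]
        constructor
        · rintro ⟨hx, hxj⟩
          split_ifs at hxj with ha1
          · omega
          · exact ⟨⟨hx, ha1⟩, hxj⟩
        · rintro ⟨⟨hx, hxY⟩, hxj⟩
          exact ⟨hx, by rw [if_neg hxY]; exact hxj⟩
      · have hjt : j = t - 1 := by omega
        subst hjt
        rw [← hYc]
        congr 1
        ext x
        simp only [mem_filter]
        constructor
        · rintro ⟨hx, hxj⟩
          split_ifs at hxj with ha1
          · exact ha1
          · have := h1 x (mem_sdiff.2 ⟨hx, ha1⟩)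
            omega
        · intro hx
          exact ⟨hYX hx, by rw [if_pos hx]⟩
    · intro x hx
      dsimp only
      by_cases hx1 : x ∈ Y
      · rw [if_pos hx1, if_pos ((hYf x).2 hx1), if_pos rfl]
      · have h6 := h1 x (mem_sdiff.2 ⟨hx, hx1⟩)
        rw [if_neg hx1, if_neg (fun h => hx1 ((hYf x).1 h)), if_neg (by omega)]
        exact h3 x (mem_sdiff.2 ⟨hx, hx1⟩)

/-- the version for a fintype -/
theorem good' {κ : Type*} [Fintype κ] [DecidableEq κ] (f : κ → κ) (hf : ∀ x, f (f x) = x) (a t : ℕ) (ha : 1 ≤ a)
    (hc : Fintype.card κ = a * t) :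
    ∃ (g : κ → Fin t) (σ : Equiv.Perm (Fin t)), (∀ j, Fintype.card {x // g x = j} = a) ∧ ∀ x, g (f x) = σ (g x) := by
  let e := Fintype.equivFin κ
  let f' : Fin (Fintype.card κ) → Fin (Fintype.card κ) := fun x => e (f (e.symm x))
  have hf' : ∀ x, f' (f' x) = x := by
    intro x
    simp [f', hf]
  obtain ⟨g, s, h1, h2, h3⟩ := good f' hf' a ha t Finset.univ (fun _ _ => mem_univ _) (by
    rw [card_univ, Fintype.card_fin, hc])
  have hs : ∀ j < t, ∃ x, g x = j := by
    intro j hj
    have := h2 j hj
    have hne : (univ.filter (fun x => g x = j)).Nonempty := by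
      rw [← card_pos, this]; omega
    obtain ⟨x, hx⟩ := hne
    exact ⟨x, (mem_filter.1 hx).2⟩
  have hst : ∀ j < t, s j < t := by
    intro j hj
    obtain ⟨x, rfl⟩ := hs j hj
    rw [← h3 x (mem_univ _)]
    exact h1 _ (mem_univ _)
  have hss : ∀ j < t, s (s j) = j := by
    intro j hj
    obtain ⟨x, rfl⟩ := hs j hj
    rw [← h3 x (mem_univ _), ← h3 _ (mem_univ _), hf']
  let σ : Equiv.Perm (Fin t) :=
    { toFun := fun j => ⟨s j, hst j j.2⟩
      invFun := fun j => ⟨s j, hst j j.2⟩
      left_inv := fun j => Fin.ext (hss j j.2)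
      right_inv := fun j => Fin.ext (hss j j.2) }
  refine ⟨fun x => ⟨g (e x), h1 _ (mem_univ _)⟩, σ, ?_, ?_⟩
  · intro j
    rw [← h2 j j.2, Fintype.card_subtype]
    refine Finset.card_bij (fun x _ => e x) ?_ ?_ ?_
    · intro x hx
      rw [mem_filter] at hx ⊢
      exact ⟨mem_univ _, congrArg Fin.val hx.2⟩
    · intro x _ y _ h
      exact e.injective h
    · intro y hy
      refine ⟨e.symm y, ?_, by simp⟩
      rw [mem_filter] at hy ⊢
      exact ⟨mem_univ _, Fin.ext (by simpa using hy.2)⟩
  · intro x
    apply Fin.ext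
    show g (e (f x)) = s (g (e x))
    rw [← h3 (e x) (mem_univ _)]
    simp [f']

open Module Submodule

variable {F : Type*} [Field F]

/-- blocks of a monomially permuted basis -/
theorem blocks {n a t : ℕ} (ha : 1 ≤ a) (ht : 2 ≤ t) {κ : Type*} [Fintype κ] [DecidableEq κ]
    (b : Basis κ F (Fin n → F)) (T : (Fin n → F) →ₗ[F] (Fin n → F)) (f : κ → κ)
    (hT : ∀ x, ∃ c : F, c ≠ 0 ∧ T (b x) = c • b (f x)) (g : κ → Fin t) (σ : Equiv.Perm (Fin t))
    (hg : ∀ j, Fintype.card {x // g x = j} = a) (hgf : ∀ x, g (f x) = σ (g x)) (hf : ∀ x, f (f x) = x) :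
    ∃ D : Fin t → Submodule F (Fin n → F), Cfsg.Geo.IsMDecomposition a D ∧
        ∃ σ : Equiv.Perm (Fin t), ∀ j, (D j).map T = D (σ j) := by
  let D : Fin t → Submodule F (Fin n → F) := fun j => span F (b '' {x | g x = j})
  refine ⟨D, ⟨ht, ha, ?_, ?_, ?_⟩, σ, ?_⟩
  · intro j
    have h1 : LinearIndependent F (fun x : {x // g x = j} => b x) := b.linearIndependent.comp _ Subtype.val_injective
    have h2 := finrank_span_eq_card h1
    rw [hg j] at h2
    rw [← h2]
    have : (b '' {x | g x = j}) = Set.range (fun x : {x // g x = j} => b x) := by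
      ext y; constructor
      · rintro ⟨x, hx, rfl⟩; exact ⟨⟨x, hx⟩, rfl⟩
      · rintro ⟨x, rfl⟩; exact ⟨x.1, x.2, rfl⟩
    show finrank F (span F (b '' {x | g x = j})) = _
    rw [this]
  · intro i
    have h1 : Disjoint {x | g x = i} {x | g x ≠ i} := by
      rw [Set.disjoint_left]; intro x hx hx'; exact hx' hx
    refine (b.linearIndependent.disjoint_span_image h1).mono_right ?_
    refine iSup_le fun j => iSup_le fun hj => span_mono ?_
    rintro _ ⟨x, hx, rfl⟩
    exact ⟨x, fun h => hj (hx.symm.trans h), rfl⟩
  · rw [eq_top_iff, ← b.span_eq, span_le]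
    rintro _ ⟨x, rfl⟩
    exact le_iSup D (g x) (subset_span ⟨x, rfl, rfl⟩)
  · intro j
    show (span F (b '' {x | g x = j})).map T = span F (b '' {x | g x = σ j})
    rw [map_span]
    apply le_antisymm
    · rw [span_le]
      rintro _ ⟨_, ⟨x, hx, rfl⟩, rfl⟩
      obtain ⟨c, -, hc⟩ := hT x
      show T (b x) ∈ _
      rw [hc]
      refine smul_mem _ _ (subset_span ⟨f x, ?_, rfl⟩)
      show g (f x) = σ j
      rw [hgf, hx]
    · rw [span_le]
      rintro _ ⟨y, hy, rfl⟩
      obtain ⟨c, hc0, hc⟩ := hT (f y)
      rw [hf] at hc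
      have h1 : b y = c⁻¹ • T (b (f y)) := by rw [hc, smul_smul, inv_mul_cancel₀ hc0, one_smul]
      show b y ∈ _
      rw [h1]
      refine smul_mem _ _ (subset_span ⟨b (f y), ⟨f y, ?_, rfl⟩, rfl⟩)
      show g (f y) = j
      apply σ.injective
      rw [← hgf, hf]
      exact hy

theorem main {n a t : ℕ} (hat : n = a * t) (ha : 1 ≤ a) (ht : 2 ≤ t)
    (T : (Fin n → F) →ₗ[F] (Fin n → F)) (z : F) (hz : z ≠ 0) (hT : ∀ v, T (T v) = z • v) :
    ∃ D : Fin t → Submodule F (Fin n → F), Cfsg.Geo.IsMDecomposition a D ∧
        ∃ σ : Equiv.Perm (Fin t), ∀ j, (D j).map T = D (σ j) := by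
  classical
  obtain ⟨ι, κ, fι, fκ, μ, b, h1, h2, h3, h4, h5⟩ := H99.SqScalar.exists_adapted (finrank F (Fin n → F)) (Fin n → F) T z hT rfl
  let f : ((Fin 2 × ι) ⊕ κ) → ((Fin 2 × ι) ⊕ κ) := fun
    | .inl (c, j) => .inl (1 - c, j)
    | .inr k => .inr k
  have hf : ∀ x, f (f x) = x := by
    rintro (⟨c, j⟩ | k)
    · fin_cases c <;> rfl
    · rfl
  have hcard : Fintype.card ((Fin 2 × ι) ⊕ κ) = a * t := by
    rw [← hat, ← finrank_eq_card_basis b, finrank_fintype_fun_eq_card, Fintype.card_fin]
  obtain ⟨g, σ, hg, hgf⟩ := good' f hf a t ha hcard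
  refine blocks ha ht b T f ?_ g σ hg hgf hf
  rintro (⟨c, j⟩ | k)
  · fin_cases c
    · exact ⟨1, one_ne_zero, by rw [one_smul]; exact h1 j⟩
    · exact ⟨z, hz, h2 j⟩
  · refine ⟨μ, ?_, h3 k⟩
    rintro rfl
    have := h4 ⟨k⟩
    rw [zero_pow two_ne_zero] at this
    exact hz this.symm

end H85.InvDec
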