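import Mathlib
import Cfsg.Agent.Lib.H85.PrimeSub2

set_option autoImplicit false
set_option maxHeartbeats 400000

/-! Special elements of prime order; number theoretic criterion. -/

namespace H85.PrimeSub

open Module Polynomial Submodule

universe u v

variable {F : Type u} [Field F]

/-- invariant subspaces of `T` with `T ^ r = c` -/
theorem inv_dvd {r : ℕ} (hr : r.Prime) {c : F} (hc : ∀ b : F, b ^ r ≠ c)
    {V : Type v} [AddCommGroup V] [Module F V] [FiniteDimensional F V] (T : V →ₗ[F] V) (hT : T ^ r = c • (1 : V →ₗ[F] V))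
    (U : Submodule F V) (hU : U.map T ≤ U) : r ∣ finrank F U := by
  have hTU : ∀ v ∈ U, T v ∈ U := fun v hv => hU (mem_map_of_mem hv)
  let TU : U →ₗ[F] U := T.restrict hTU
  have hTUr : TU ^ r = c • (1 : U →ₗ[F] U) := by
    ext v
    have : ∀ k : ℕ, (((TU ^ k) v : U) : V) = (T ^ k) v := by
      intro k
      induction k with
      | zero => rfl
      | succ k ih => rw [pow_succ', pow_succ', Module.End.mul_apply, Module.End.mul_apply, ← ih]; rfl
    rw [this, hT]; rfl
  obtain ⟨m, d, b, hd, hsum, -⟩ := blocks_not_pow hr hc TU hTUr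
  rw [← hsum, Finset.sum_congr rfl (fun i _ => hd i), Finset.sum_const, smul_eq_mul]
  exact dvd_mul_left _ _

theorem det_blockDiagonal' {m : ℕ} {d : Fin m → ℕ} (B : ∀ i, Matrix (Fin (d i)) (Fin (d i)) F) :
    (Matrix.blockDiagonal' B).det = ∏ i, (B i).det := by
  classical
  have h1 : Matrix.BlockTriangular (Matrix.blockDiagonal' B) (fun x : (Σ i, Fin (d i)) => x.1) := by
    rintro ⟨i, a⟩ ⟨j, b⟩ h
    exact Matrix.blockDiagonal'_apply_ne B a b (ne_of_gt h)
  rw [h1.det_fintype]
  refine Finset.prod_congr rfl fun k _ => ?_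
  let e : Fin (d k) ≃ {x : (Σ i, Fin (d i)) // x.1 = k} := Equiv.ofBijective (fun j => ⟨⟨k, j⟩, rfl⟩) (by
    constructor
    · intro a b h
      have h2 := congrArg Subtype.val h
      simpa using h2
    · rintro ⟨⟨i, j⟩, hij⟩
      dsimp only at hij
      subst hij
      exact ⟨j, rfl⟩)
  rw [← Matrix.det_submatrix_equiv_self e]
  congr 1
  ext a b
  exact Matrix.blockDiagonal'_apply_eq B k a b

theorem det_eq {r : ℕ} (hr : r.Prime) {c : F} (hc : ∀ b : F, b ^ r ≠ c) {n : ℕ} (x : Matrix (Fin n) (Fin n) F)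
    (hx : x ^ r = c • (1 : Matrix (Fin n) (Fin n) F)) : r ∣ n ∧ x.det = ((-1) ^ (r + 1) * c) ^ (n / r) := by
  classical
  set T := Matrix.toLin' x with hT
  have hTr : T ^ r = c • (1 : (Fin n → F) →ₗ[F] (Fin n → F)) := by
    rw [hT, ← Matrix.toLin'_pow, hx]; ext; simp
  have hdvd : r ∣ n := by
    have := inv_dvd hr hc T hTr ⊤ le_top
    rwa [finrank_top, finrank_fintype_fun_eq_card, Fintype.card_fin] at this
  refine ⟨hdvd, ?_⟩
  obtain ⟨m, f, D, hf⟩ := H99.Cyclic.exists_cyclic_basis T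
  have hirr : Irreducible (X ^ r - C c : F[X]) := X_pow_sub_C_irreducible_of_prime hr hc
  have hdeg : ∀ i, (f i).natDegree = r := by
    intro i
    obtain ⟨p, e, hp, hpm, he, hpe⟩ := hf i
    have h1 : f i ∣ X ^ r - C c := D.dvd_of_aeval i _ (by
      rw [map_sub, map_pow, aeval_X, aeval_C, hTr, Algebra.algebraMap_eq_smul_one, sub_self])
    have h2 : ¬ IsUnit (f i) := by
      rw [hpe]
      exact fun h => hp.not_isUnit (isUnit_of_dvd_unit (dvd_pow_self p he.ne') h)
    rcases (hirr.dvd_iff).1 h1 with h | h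
    · exact absurd h h2
    · rw [← natDegree_eq_of_degree_eq (degree_eq_degree_of_associated h), natDegree_X_pow_sub_C]
  have hM := D.toMatrix_eq
  have hpow : (Matrix.blockDiagonal' (fun i => H99.Cyclic.Data.cm (f i).natDegree (f i))) ^ r =
      Matrix.blockDiagonal' (fun i => c • (1 : Matrix (Fin (f i).natDegree) (Fin (f i).natDegree) F)) := by
    rw [← hM, LinearMap.toMatrix_pow, hTr]
    have : Matrix.blockDiagonal' (fun i => c • (1 : Matrix (Fin (f i).natDegree) (Fin (f i).natDegree) F)) =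
        c • (1 : Matrix (Σ i, Fin (f i).natDegree) (Σ i, Fin (f i).natDegree) F) := by
      have h1 := Matrix.blockDiagonal'_smul c (fun i => (1 : Matrix (Fin (f i).natDegree) (Fin (f i).natDegree) F))
      rw [show (fun i => (1 : Matrix (Fin (f i).natDegree) (Fin (f i).natDegree) F)) = 1 from rfl,
        Matrix.blockDiagonal'_one] at h1
      exact h1
    rw [this, map_smul, Module.End.one_eq_id, LinearMap.toMatrix_id]
  rw [← Matrix.blockDiagonal'_pow] at hpow
  have hpow' := Matrix.blockDiagonal'_injective hpow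
  have hB : ∀ i, (H99.Cyclic.Data.cm (f i).natDegree (f i)).det = (-1) ^ (r + 1) * c := by
    intro i
    refine det_of_not_pow hr (by rw [Fintype.card_fin, hdeg]) _ c ?_ hc
    exact congrFun hpow' i
  have hm : m * r = n := by
    have h1 := finrank_eq_card_basis D.b
    rw [finrank_fintype_fun_eq_card, Fintype.card_fin, Fintype.card_sigma] at h1
    simp only [Fintype.card_fin, hdeg, Finset.sum_const, Finset.card_univ, smul_eq_mul] at h1
    exact h1.symm
  rw [← LinearMap.det_toLin', ← hT, ← LinearMap.det_toMatrix D.b, hM, det_blockDiagonal',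
    Finset.prod_congr rfl (fun i _ => hB i), Finset.prod_const, Finset.card_univ, Fintype.card_fin, ← hm,
    Nat.mul_div_cancel _ hr.pos]

/-- an element with `x ^ r = c`, `c` not an `r`-th power -/
theorem exists_elt_not_pow {r : ℕ} (hr : r.Prime) {c : F} (hc : ∀ b : F, b ^ r ≠ c) {n : ℕ} (hn : r ∣ n)
    (hcn : ((-1) ^ (r + 1) * c) ^ (n / r) = 1) :
    ∃ x : Matrix (Fin n) (Fin n) F, x.det = 1 ∧ x ^ r = c • (1 : Matrix (Fin n) (Fin n) F) := by
  classical
  obtain ⟨k, rfl⟩ := hn
  obtain ⟨X0, hX0⟩ := exists_root_block (F := F) hr c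
  let e : (Fin r × Fin k) ≃ Fin (r * k) := finProdFinEquiv
  let M := Matrix.blockDiagonal (fun _ : Fin k => X0)
  have hM : M ^ r = c • (1 : Matrix (Fin r × Fin k) (Fin r × Fin k) F) := by
    show (Matrix.blockDiagonal (fun _ : Fin k => X0)) ^ r = _
    rw [← Matrix.blockDiagonal_pow]
    have h1 : ((fun _ : Fin k => X0) ^ r) = c • (1 : Fin k → Matrix (Fin r) (Fin r) F) := by
      funext i
      exact hX0
    rw [h1, Matrix.blockDiagonal_smul, Matrix.blockDiagonal_one]
  have hx : (Matrix.reindexAlgEquiv F F e M) ^ r = c • (1 : Matrix (Fin (r * k)) (Fin (r * k)) F) := by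
    rw [← map_pow, hM, map_smul, map_one]
  refine ⟨Matrix.reindexAlgEquiv F F e M, ?_, hx⟩
  rw [(det_eq hr hc _ hx).2, hcn]

/-- an element of order `r` with as few fixed vectors as possible -/
theorem exists_elt_blocks [Fintype F] {p : ℕ} [Fact p.Prime] [CharP F p] {r : ℕ} (hr : r.Prime) (hrp : r ≠ p)
    (hdvd : ¬ r ∣ Fintype.card F - 1) (n : ℕ) (hin : orderOf ((Fintype.card F : ℕ) : ZMod r) ≤ n) :
    ∃ x : Matrix (Fin n) (Fin n) F, x.det = 1 ∧ x ^ r = 1 ∧ (∀ z : F, x ≠ z • (1 : Matrix (Fin n) (Fin n) F)) ∧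
      finrank F (LinearMap.ker (Matrix.toLin' x - 1)) ≤ n % orderOf ((Fintype.card F : ℕ) : ZMod r) := by
  classical
  obtain ⟨i, C, G, hi, hi2, -, -, -, -, hCr, hC1⟩ := H99.Blk.exists_comp_block (F := F) (p := p) hr hrp hdvd
  rw [← hi] at hin ⊢
  have hCfix : ∀ w : Fin i → F, C.mulVec w = w → w = 0 := by
    have hTr : (Matrix.toLin' C) ^ r = 1 := by rw [← Matrix.toLin'_pow, hCr, Matrix.toLin'_one]; rfl
    obtain ⟨b, hb⟩ := finrank_inv hr (H99.Blk.natCast_ne (p := p) hr hrp) (Matrix.toLin' C) hTr ⊤ le_top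
    rw [finrank_top, finrank_fintype_fun_eq_card, Fintype.card_fin, top_inf_eq, ← hi] at hb
    have h0 : finrank F (LinearMap.ker (Matrix.toLin' C - 1)) = 0 := by
      rcases Nat.eq_zero_or_pos b with rfl | hb1
      · exfalso
        rw [zero_mul, add_zero] at hb
        apply hC1
        have h2 : LinearMap.ker (Matrix.toLin' C - 1) = ⊤ := by
          apply Submodule.eq_top_of_finrank_eq
          rw [finrank_fintype_fun_eq_card, Fintype.card_fin, ← hb]
        rw [LinearMap.ker_eq_top, sub_eq_zero] at h2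
        apply Matrix.toLin'.injective
        rw [h2, Matrix.toLin'_one]; rfl
      · have : 1 * i ≤ b * i := Nat.mul_le_mul hb1 le_rfl
        omega
    rw [Submodule.finrank_eq_zero] at h0
    intro w hw
    have h2 : w ∈ LinearMap.ker (Matrix.toLin' C - 1) := by
      rw [LinearMap.mem_ker]
      show Matrix.toLin' C w - w = 0
      rw [Matrix.toLin'_apply, hw, sub_self]
    rw [h0] at h2
    exact (Submodule.mem_bot F).1 h2
  set k := n / i with hk
  set c := n % i with hc
  have hnk : i * k + c = n := Nat.div_add_mod n i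
  have hk1 : 1 ≤ k := Nat.div_pos hin (by omega)
  let e : ((Fin i × Fin k) ⊕ Fin c) ≃ Fin n :=
    ((Equiv.sumCongr finProdFinEquiv (Equiv.refl _)).trans finSumFinEquiv).trans (finCongr hnk)
  let M : Matrix ((Fin i × Fin k) ⊕ Fin c) ((Fin i × Fin k) ⊕ Fin c) F :=
    Matrix.fromBlocks (Matrix.blockDiagonal (fun _ : Fin k => C)) 0 0 1
  have hM : M ^ r = 1 := by
    show (Matrix.fromBlocks (Matrix.blockDiagonal (fun _ : Fin k => C)) 0 0 1) ^ r = _
    rw [Matrix.fromBlocks_diagonal_pow, ← Matrix.blockDiagonal_pow]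
    have h1 : ((fun _ : Fin k => C) ^ r) = 1 := by funext j; exact hCr
    rw [h1, Matrix.blockDiagonal_one, one_pow, Matrix.fromBlocks_one]
  set x := Matrix.reindexAlgEquiv F F e M with hx
  have hxr : x ^ r = 1 := by rw [hx, ← map_pow, hM, map_one]
  have hx1 : x ≠ 1 := by
    intro h
    have h1 : M = 1 := by
      apply (Matrix.reindexAlgEquiv F F e).injective
      rw [map_one]; exact h
    apply hC1
    have h2 : Matrix.fromBlocks (Matrix.blockDiagonal (fun _ : Fin k => C)) 0 0 (1 : Matrix (Fin c) (Fin c) F) =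
      Matrix.fromBlocks 1 0 0 1 := by rw [Matrix.fromBlocks_one]; exact h1
    have h3 := (Matrix.fromBlocks_inj.1 h2).1
    rw [← Matrix.blockDiagonal_one] at h3
    have h4 := Matrix.blockDiagonal_injective h3
    exact congrFun h4 ⟨0, hk1⟩
  refine ⟨x, H99.Blk.det_eq_one_of_pow hr hdvd x hxr, hxr, ?_, ?_⟩
  · intro z hz
    rw [hz] at hxr
    rw [_root_.smul_pow, one_pow] at hxr
    have hn0 : 0 < n := by omega
    have h1 : z ^ r = 1 := by
      have := congrFun (congrFun hxr ⟨0, hn0⟩) ⟨0, hn0⟩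
      simpa using this
    have hz0 : z ≠ 0 := by rintro rfl; rw [zero_pow hr.ne_zero] at h1; exact zero_ne_one h1
    have h2 : z ^ (Fintype.card F - 1) = 1 := FiniteField.pow_card_sub_one_eq_one _ hz0
    have h3 : z ^ (Nat.gcd r (Fintype.card F - 1)) = 1 := pow_gcd_eq_one.2 ⟨h1, h2⟩
    rw [(Nat.Prime.coprime_iff_not_dvd hr).2 hdvd, pow_one] at h3
    apply hx1
    rw [hz, h3, one_smul]
  · let π : LinearMap.ker (Matrix.toLin' x - 1) →ₗ[F] (Fin c → F) :=
      (LinearMap.funLeft F F (fun j : Fin c => e (.inr j))) ∘ₗ (LinearMap.ker (Matrix.toLin' x - 1)).subtype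
    have hπ : Function.Injective π := by
      rw [← LinearMap.ker_eq_bot, LinearMap.ker_eq_bot']
      rintro ⟨v, hv⟩ h
      apply Subtype.ext
      show v = 0
      have hfix : x.mulVec v = v := by
        rw [LinearMap.mem_ker] at hv
        have h1 : Matrix.toLin' x v - v = 0 := hv
        rw [sub_eq_zero, Matrix.toLin'_apply] at h1
        exact h1
      have hr0 : ∀ j : Fin c, v (e (.inr j)) = 0 := fun j => congrFun h j
      have hl0 : ∀ (l : Fin k) (a : Fin i), v (e (.inl (a, l))) = 0 := by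
        intro l
        have h1 : C.mulVec (fun a => v (e (.inl (a, l)))) = fun a => v (e (.inl (a, l))) := by
          funext a
          have h2 := congrFun hfix (e (.inl (a, l)))
          conv_rhs => rw [← h2]
          rw [Matrix.mulVec, dotProduct, Matrix.mulVec, dotProduct, ← e.sum_comp, Fintype.sum_sum_type, Fintype.sum_prod_type]
          have h3 : ∀ s t, x (e s) (e t) = M s t := by
            intro s t
            show M (e.symm (e s)) (e.symm (e t)) = M s t
            rw [Equiv.symm_apply_apply, Equiv.symm_apply_apply]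
          simp only [h3]
          have h4 : ∀ j : Fin c, M (.inl (a, l)) (.inr j) = 0 := fun j => rfl
          simp only [h4, zero_mul, Finset.sum_const_zero, add_zero]
          refine Finset.sum_congr rfl fun a' _ => ?_
          rw [Finset.sum_eq_single l]
          · show C a a' * _ = (Matrix.blockDiagonal (fun _ : Fin k => C)) (a, l) (a', l) * _
            rw [Matrix.blockDiagonal_apply, if_pos rfl]
          · intro l' _ hl'
            show (Matrix.blockDiagonal (fun _ : Fin k => C)) (a, l) (a', l') * _ = 0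
            rw [Matrix.blockDiagonal_apply, if_neg (Ne.symm hl'), zero_mul]
          · intro h; exact absurd (Finset.mem_univ _) h
        intro a
        exact congrFun (hCfix _ h1) a
      funext j
      obtain ⟨s, rfl⟩ := e.surjective j
      rcases s with ⟨a, l⟩ | j
      · exact hl0 l a
      · exact hr0 j
    have := LinearMap.finrank_le_finrank_of_injective hπ
    rwa [finrank_fintype_fun_eq_card, Fintype.card_fin] at this

section nt
variable [Fintype F]

local notation "q" => Fintype.card F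

theorem exists_gen : ∃ g : F, g ≠ 0 ∧ (∀ k : ℕ, g ^ k = 1 ↔ q - 1 ∣ k) ∧ ∀ c : F, c ≠ 0 → ∃ j : ℕ, c = g ^ j := by
  classical
  obtain ⟨g, hg⟩ := IsCyclic.exists_generator (α := Fˣ)
  have ho : orderOf g = q - 1 := by
    rw [orderOf_eq_card_of_forall_mem_zpowers hg, Nat.card_eq_fintype_card, Fintype.card_units]
  refine ⟨(g : F), g.ne_zero, ?_, ?_⟩
  · intro k
    rw [← ho, orderOf_dvd_iff_pow_eq_one, ← Units.val_pow_eq_pow_val, Units.val_eq_one]
  · intro c hc
    obtain ⟨j, hj⟩ := (mem_powers_iff_mem_zpowers).2 (hg (Units.mk0 c hc))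
    exact ⟨j, by rw [← Units.val_pow_eq_pow_val]; exact (congrArg Units.val hj).symm⟩

theorem val_le_of_not_pow {r : ℕ} [Fact r.Prime] {c : F} (hc : ∀ b : F, b ^ r ≠ c) {k : ℕ} (hk : k ≠ 0) (hck : c ^ k = 1) :
    padicValNat r (q - 1) ≤ padicValNat r k := by
  have hr : r.Prime := Fact.out
  have hq : 1 < q := Fintype.one_lt_card
  by_contra hlt
  push Not at hlt
  obtain ⟨g, hg0, hg1, hg2⟩ := exists_gen (F := F)
  have hc0 : c ≠ 0 := by rintro rfl; exact hc 0 (zero_pow hr.ne_zero)
  obtain ⟨j, rfl⟩ := hg2 c hc0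
  have h1 : (g ^ j) ^ (q - 1) = 1 := FiniteField.pow_card_sub_one_eq_one _ hc0
  have h2 : (g ^ j) ^ (Nat.gcd k (q - 1)) = 1 := pow_gcd_eq_one.2 ⟨hck, h1⟩
  obtain ⟨t, ht⟩ := Nat.gcd_dvd_right k (q - 1)
  have hG0 : Nat.gcd k (q - 1) ≠ 0 := fun h => hk (Nat.gcd_eq_zero_iff.1 h).1
  have ht0 : t ≠ 0 := by rintro rfl; omega
  have hrt : r ∣ t := by
    by_contra h
    have h3 : padicValNat r (q - 1) = padicValNat r (Nat.gcd k (q - 1)) := by
      conv_lhs => rw [ht]
      rw [padicValNat.mul hG0 ht0, padicValNat.eq_zero_of_not_dvd h, add_zero]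
    have h4 : padicValNat r (Nat.gcd k (q - 1)) ≤ padicValNat r k := by
      rw [← padicValNat_dvd_iff_le hk]
      exact pow_padicValNat_dvd.trans (Nat.gcd_dvd_left _ _)
    omega
  rw [← pow_mul, hg1] at h2
  obtain ⟨t', rfl⟩ := hrt
  have h5 : Nat.gcd k (q - 1) * (r * t') ∣ Nat.gcd k (q - 1) * j := by
    rw [← ht, mul_comm _ j]; exact h2
  have h6 : r ∣ j := (dvd_mul_right r t').trans (Nat.dvd_of_mul_dvd_mul_left (Nat.pos_of_ne_zero hG0) h5)
  obtain ⟨j', rfl⟩ := h6
  exact hc (g ^ j') (by rw [← pow_mul, mul_comm])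

theorem exists_not_pow {r : ℕ} [Fact r.Prime] (hrq : r ∣ q - 1) {k : ℕ}
    (h : padicValNat r (q - 1) ≤ padicValNat r k) : ∃ c : F, (∀ b : F, b ^ r ≠ c) ∧ c ^ k = 1 := by
  have hr : r.Prime := Fact.out
  have hq : 1 < q := Fintype.one_lt_card
  obtain ⟨g, hg0, hg1, hg2⟩ := exists_gen (F := F)
  obtain ⟨q', hq'⟩ := (pow_padicValNat_dvd : r ^ padicValNat r (q - 1) ∣ q - 1)
  have hrq' : ¬ r ∣ q' := by
    rintro ⟨t, rfl⟩
    have : r ^ (padicValNat r (q - 1) + 1) ∣ q - 1 := ⟨t, by rw [pow_succ, mul_assoc]; exact hq'⟩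
    rw [padicValNat_dvd_iff_le (by omega)] at this
    omega
  refine ⟨g ^ q', ?_, ?_⟩
  · intro b hb
    have hb0 : b ≠ 0 := by
      rintro rfl
      rw [zero_pow hr.ne_zero] at hb
      exact pow_ne_zero q' hg0 hb.symm
    obtain ⟨j, rfl⟩ := hg2 b hb0
    apply hrq'
    -- g ^ (j r) = g ^ q'
    have h1 : g ^ (j * r + (q - 1) * q' - q') = 1 := by
      have h2 : q' ≤ j * r + (q - 1) * q' := by
        have : 1 * q' ≤ (q - 1) * q' := Nat.mul_le_mul (by omega) le_rfl
        omega
      have h3 : g ^ (j * r + (q - 1) * q' - q') * g ^ q' = 1 * g ^ q' := by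
        rw [← pow_add, Nat.sub_add_cancel h2, pow_add, pow_mul, hb, one_mul, (hg1 _).2 (dvd_mul_right _ _), mul_one]
      exact mul_right_cancel₀ (pow_ne_zero _ hg0) h3
    rw [hg1] at h1
    have h4 : r ∣ j * r + (q - 1) * q' - q' := hrq.trans h1
    have h2 : q' ≤ j * r + (q - 1) * q' := by
      have : 1 * q' ≤ (q - 1) * q' := Nat.mul_le_mul (by omega) le_rfl
      omega
    have h5 : r ∣ j * r + (q - 1) * q' := dvd_add (dvd_mul_left _ _) (hrq.mul_right _)
    exact (Nat.dvd_sub_iff_right h2 h5).1 h4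
  · rw [← pow_mul, hg1]
    have h6 : r ^ padicValNat r (q - 1) ∣ k := (pow_dvd_pow r h).trans pow_padicValNat_dvd
    conv_lhs => rw [hq', mul_comm]
    exact mul_dvd_mul_left _ h6

/-- the criterion for the existence of an element with `x ^ r = c`, `c` not an `r`-th power -/
theorem crit {r : ℕ} [Fact r.Prime] (hrq : r ∣ q - 1) {n : ℕ} (hn : n ≠ 0) (hrn : r ∣ n) :
    (∃ c : F, (∀ b : F, b ^ r ≠ c) ∧ ((-1) ^ (r + 1) * c) ^ (n / r) = 1) ↔
      ¬ (padicValNat r n ≤ padicValNat r (q - 1) ∧ (r = 2 → Even n → q % 4 = 1)) := by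
  have hr : r.Prime := Fact.out
  have hq : 1 < q := Fintype.one_lt_card
  have hk0 : n / r ≠ 0 := by
    have := Nat.div_pos (Nat.le_of_dvd (Nat.pos_of_ne_zero hn) hrn) hr.pos
    omega
  have hvk : padicValNat r (n / r) + 1 = padicValNat r n := by
    have h1 : n = r * (n / r) := (Nat.mul_div_cancel' hrn).symm
    conv_rhs => rw [h1]
    rw [padicValNat.mul hr.ne_zero hk0, padicValNat.self hr.one_lt]
    omega
  rcases hr.eq_two_or_odd' with rfl | hodd
  · have hev : Even n := even_iff_two_dvd.2 hrn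
    have h3 : (-1 : F) ^ (2 + 1) = -1 := by norm_num
    simp only [h3, neg_one_mul, true_implies, hev]
    have hqodd : q % 2 = 1 := by omega
    by_cases h4 : q % 4 = 1
    · have hsq : IsSquare (-1 : F) := FiniteField.isSquare_neg_one_iff.2 (by omega)
      obtain ⟨i, hi⟩ := hsq
      have hneg : ∀ c : F, (∀ b : F, b ^ 2 ≠ c) → ∀ b : F, b ^ 2 ≠ -c := by
        intro c hc b hb
        apply hc (i * b)
        rw [mul_pow, hb, pow_two i, ← hi]; ring
      constructor
      · rintro ⟨c, hc, hck⟩ ⟨h5, -⟩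
        have := val_le_of_not_pow (hneg c hc) hk0 hck
        omega
      · intro h5
        have h6 : ¬ (padicValNat 2 n ≤ padicValNat 2 (q - 1)) := fun h => h5 ⟨h, h4⟩
        obtain ⟨c, hc, hck⟩ := exists_not_pow (F := F) hrq (k := n / 2) (by omega)
        exact ⟨-c, hneg c hc, by rw [neg_neg]; exact hck⟩
    · constructor
      · rintro - ⟨-, h5⟩
        exact h4 h5
      · rintro -
        refine ⟨-1, ?_, by rw [neg_neg, one_pow]⟩
        intro b hb
        have hsq : IsSquare (-1 : F) := ⟨b, by rw [← hb, pow_two]⟩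
        rw [FiniteField.isSquare_neg_one_iff] at hsq
        omega
  · have h3 : (-1 : F) ^ (r + 1) = 1 := by
      obtain ⟨s, hs⟩ := hodd
      rw [hs, show 2 * s + 1 + 1 = 2 * (s + 1) by ring, pow_mul]; norm_num
    have hr2 : r ≠ 2 := by rintro rfl; exact absurd hodd (by decide)
    simp only [h3, one_mul]
    constructor
    · rintro ⟨c, hc, hck⟩ ⟨h5, -⟩
      have := val_le_of_not_pow hc hk0 hck
      omega
    · intro h5
      have h6 : ¬ (padicValNat r n ≤ padicValNat r (q - 1)) := fun h => h5 ⟨h, fun h => absurd h hr2⟩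
      exact exists_not_pow (F := F) hrq (k := n / r) (by omega)

end nt

end H85.PrimeSub
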