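import Mathlib
import Cfsg.Agent.Lib.H85.PrimeSub3

set_option autoImplicit false
set_option maxHeartbeats 400000

/-! Invariant subspaces of elements of prime order: existence of invariant pairs. -/

namespace H85.PrimeSub

open Module Polynomial Submodule

universe u v

variable {F : Type u} [Field F] [Fintype F]

local notation "q" => Fintype.card F

theorem dvd_iff_ord {r : ℕ} (e : ℕ) : r ∣ q ^ e - 1 ↔ orderOf ((q : ℕ) : ZMod r) ∣ e := by
  rw [orderOf_dvd_iff_pow_eq_one]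
  have h1 : 1 ≤ q ^ e := Nat.one_le_pow _ _ Fintype.card_pos
  constructor
  · intro h
    have h2 : ((q ^ e - 1 : ℕ) : ZMod r) = 0 := (ZMod.natCast_eq_zero_iff _ _).2 h
    rw [Nat.cast_sub h1, sub_eq_zero] at h2
    push_cast at h2
    exact h2
  · intro h
    rw [← ZMod.natCast_eq_zero_iff, Nat.cast_sub h1, sub_eq_zero]
    push_cast
    exact h

/-- two disjoint invariant sums of blocks with dimensions `m`, `m'` -/
def HasBlk {V : Type v} [AddCommGroup V] [Module F V] (T : V →ₗ[F] V) (m m' : ℕ) : Prop :=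
  ∃ (k : ℕ) (d : Fin k → ℕ) (b : Basis (Σ i : Fin k, Fin (d i)) F V) (J J' : Finset (Fin k)),
    Disjoint J J' ∧ ∑ j ∈ J, d j = m ∧ ∑ j ∈ J', d j = m' ∧
    ∀ x : (Σ i : Fin k, Fin (d i)), T (b x) ∈ span F (b '' {y | y.1 = x.1})

theorem HasBlk.compl {V : Type v} [AddCommGroup V] [Module F V] {T : V →ₗ[F] V} {m m' : ℕ}
    (h : HasBlk T m m') : ∃ U W : Submodule F V, IsCompl U W ∧ finrank F U = m ∧ U.map T ≤ U ∧ W.map T ≤ W := by
  classical
  obtain ⟨k, d, b, J, J', -, h1, -, hT⟩ := h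
  exact ⟨blk b J, blk b Jᶜ, isCompl_blk b J, by rw [finrank_blk, h1], blk_inv b T hT J, blk_inv b T hT _⟩

theorem HasBlk.flag {V : Type v} [AddCommGroup V] [Module F V] [FiniteDimensional F V] {T : V →ₗ[F] V} {m m' : ℕ}
    (h : HasBlk T m m') : ∃ U W : Submodule F V, U ≤ W ∧ finrank F U = m ∧ finrank F W = finrank F V - m' ∧
      U.map T ≤ U ∧ W.map T ≤ W := by
  classical
  obtain ⟨k, d, b, J, J', hJJ, h1, h2, hT⟩ := h
  refine ⟨blk b J, blk b J'ᶜ, blk_mono b ?_, by rw [finrank_blk, h1], ?_, blk_inv b T hT J, blk_inv b T hT _⟩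
  · intro i hi
    rw [Finset.mem_compl]
    exact fun hi' => Finset.disjoint_left.1 hJJ hi hi'
  · have h3 := Submodule.finrank_add_eq_of_isCompl (isCompl_blk b J')
    rw [finrank_blk, h2] at h3
    omega

theorem HasBlk.smul {V : Type v} [AddCommGroup V] [Module F V] {T S : V →ₗ[F] V} {m m' : ℕ} {c : F} (hTS : T = c • S)
    (h : HasBlk S m m') : HasBlk T m m' := by
  obtain ⟨k, d, b, J, J', hJJ, h1, h2, hT⟩ := h
  refine ⟨k, d, b, J, J', hJJ, h1, h2, fun x => ?_⟩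
  rw [hTS]
  exact smul_mem _ _ (hT x)

theorem toLin_pow {n r : ℕ} (x : Matrix (Fin n) (Fin n) F) (c : F) (hx : x ^ r = c • (1 : Matrix (Fin n) (Fin n) F)) :
    (Matrix.toLin' x) ^ r = c • (1 : (Fin n → F) →ₗ[F] (Fin n → F)) := by
  rw [← Matrix.toLin'_pow, hx]
  ext; simp

theorem c_ne_zero {n r : ℕ} (hn : n ≠ 0) (x : Matrix (Fin n) (Fin n) F) (hdet : x.det = 1) (c : F)
    (hx : x ^ r = c • (1 : Matrix (Fin n) (Fin n) F)) : c ≠ 0 := by
  rintro rfl
  have h1 := congrArg Matrix.det hx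
  haveI : Nonempty (Fin n) := ⟨⟨0, by omega⟩⟩
  rw [zero_smul, Matrix.det_zero, Matrix.det_pow, hdet, one_pow] at h1
  exact one_ne_zero h1

theorem hasBlk_one {p : ℕ} [Fact p.Prime] [CharP F p] {r : ℕ} [Fact r.Prime] (hrp : r ≠ p) (hrq : r ∣ q - 1)
    {n m : ℕ} (hn : n ≠ 0) (hmn : 2 * m ≤ n)
    (hcond : r ∣ m ∨ (padicValNat r n ≤ padicValNat r (q - 1) ∧ (r = 2 → Even n → q % 4 = 1)))
    (x : Matrix (Fin n) (Fin n) F) (hdet : x.det = 1) (c : F) (hx : x ^ r = c • (1 : Matrix (Fin n) (Fin n) F)) :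
    HasBlk (Matrix.toLin' x) m m := by
  have hr : r.Prime := Fact.out
  have hc0 := c_ne_zero hn x hdet c hx
  have hT := toLin_pow x c hx
  by_cases hpw : ∃ b : F, b ^ r = c
  · obtain ⟨e, he⟩ := hpw
    have he0 : e ≠ 0 := by rintro rfl; rw [zero_pow hr.ne_zero] at he; exact hc0 he.symm
    apply HasBlk.smul (c := e) (S := e⁻¹ • Matrix.toLin' x) (by rw [smul_smul, mul_inv_cancel₀ he0, one_smul])
    have hS : (e⁻¹ • Matrix.toLin' x) ^ r = 1 := by
      rw [_root_.smul_pow, hT, smul_smul, inv_pow, he, inv_mul_cancel₀ hc0, one_smul]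
    obtain ⟨k, d, b, hd, hsum, hb⟩ := exists_blocks (e⁻¹ • Matrix.toLin' x) (X ^ r - 1)
      (by rw [map_sub, map_pow, aeval_X, map_one, hS, sub_self]) (fun k => k = 1) (by
        intro g e' hg hgm he' hdvd
        have hsq := H99.Blk.squarefree_X_pow (F := F) r (H99.Blk.natCast_ne (p := p) hr hrp)
        have he1 : e' = 1 := by
          by_contra hne
          have h2 : g * g ∣ X ^ r - 1 := by
            refine dvd_trans ?_ hdvd
            rw [← pow_two]
            exact pow_dvd_pow g (by omega)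
          exact hg.not_isUnit (hsq g h2)
        subst he1
        rw [pow_one] at hdvd ⊢
        obtain ⟨ζ, hζ⟩ := H99.Elts.exists_root (F := F) r hr.pos hrq
        rw [X_pow_sub_one_eq_prod hr.pos hζ, hg.prime.dvd_finset_prod_iff] at hdvd
        obtain ⟨a, -, ha⟩ := hdvd
        have h2 : Associated g (X - C a) := hg.associated_of_dvd (irreducible_X_sub_C a) ha
        rw [natDegree_eq_of_degree_eq (degree_eq_degree_of_associated h2), natDegree_X_sub_C])
    obtain ⟨h1, h2⟩ := exists_sub_const d hd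
    rw [hsum, finrank_fintype_fun_eq_card, Fintype.card_fin] at h1
    obtain ⟨J, J', hJJ, hJ, hJ'⟩ := h2 m m (by omega)
    exact ⟨k, d, b, J, J', hJJ, by rw [hJ, mul_one], by rw [hJ', mul_one], hb⟩
  · push Not at hpw
    obtain ⟨hrn, hd1⟩ := det_eq hr hpw x hx
    rw [hdet] at hd1
    have hrm : r ∣ m := by
      rcases hcond with h | h
      · exact h
      · exact absurd h ((crit (F := F) hrq hn hrn).1 ⟨c, hpw, hd1.symm⟩)
    obtain ⟨k, d, b, hd, hsum, hb⟩ := blocks_not_pow hr hpw (Matrix.toLin' x) hT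
    obtain ⟨h1, h2⟩ := exists_sub_const d hd
    rw [hsum, finrank_fintype_fun_eq_card, Fintype.card_fin] at h1
    obtain ⟨m', rfl⟩ := hrm
    have : m' + m' ≤ k := by
      have h3 : r * (m' + m') ≤ r * k := by rw [mul_comm r k, ← h1]; linarith
      exact Nat.le_of_mul_le_mul_left h3 hr.pos
    obtain ⟨J, J', hJJ, hJ, hJ'⟩ := h2 m' m' this
    exact ⟨k, d, b, J, J', hJJ, by rw [hJ, mul_comm], by rw [hJ', mul_comm], hb⟩

/-- necessity for `r ∣ q - 1` -/
theorem nec_one {r : ℕ} [Fact r.Prime] (hrq : r ∣ q - 1) {n m : ℕ} (hn : 2 ≤ n)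
    (hcond : ¬ (r ∣ m ∨ (padicValNat r n ≤ padicValNat r (q - 1) ∧ (r = 2 → Even n → q % 4 = 1)))) :
    ∃ x : Matrix (Fin n) (Fin n) F, x.det = 1 ∧ (∃ c : F, x ^ r = c • (1 : Matrix (Fin n) (Fin n) F)) ∧
      (∀ z : F, x ≠ z • (1 : Matrix (Fin n) (Fin n) F)) ∧
      ∀ U : Submodule F (Fin n → F), U.map (Matrix.toLin' x) ≤ U → finrank F U ≠ m := by
  have hr : r.Prime := Fact.out
  push Not at hcond
  obtain ⟨hrm, hcr⟩ := hcond
  have hrn : r ∣ n := by
    by_contra h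
    have h1 := hcr (by rw [padicValNat.eq_zero_of_not_dvd h]; omega)
    obtain ⟨h2, h3, -⟩ := h1
    rw [h2] at h
    exact h (even_iff_two_dvd.1 h3)
  obtain ⟨c, hc, hcn⟩ := (crit (F := F) hrq (show n ≠ 0 by omega) hrn).2 (by
    rintro ⟨h1, h2⟩
    obtain ⟨h3, h4, h5⟩ := hcr h1
    exact h5 (h2 h3 h4))
  obtain ⟨x, hdet, hx⟩ := exists_elt_not_pow hr hc hrn hcn
  refine ⟨x, hdet, ⟨c, hx⟩, ?_, ?_⟩
  · intro z hz
    rw [hz, _root_.smul_pow, one_pow] at hx
    have := congrFun (congrFun hx ⟨0, by omega⟩) ⟨0, by omega⟩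
    simp at this
    exact hc z this
  · intro U hU h
    have := inv_dvd hr hc (Matrix.toLin' x) (toLin_pow x c hx) U hU
    rw [h] at this
    exact hrm this

theorem root_exists {r : ℕ} (hr : r.Prime) (hrq : ¬ r ∣ q - 1) (c : F) : ∃ e : F, e ^ r = c := by
  rcases eq_or_ne c 0 with rfl | hc
  · exact ⟨0, zero_pow hr.ne_zero⟩
  · have hcop : r.Coprime (q - 1) := (Nat.Prime.coprime_iff_not_dvd hr).2 hrq
    classical
    have h1 : (Nat.card Fˣ).Coprime r := by
      rw [Nat.card_eq_fintype_card, Fintype.card_units]; exact hcop.symm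
    obtain ⟨e, he⟩ := (powCoprime h1).surjective (Units.mk0 c hc)
    refine ⟨e, ?_⟩
    have := congrArg Units.val he
    rw [powCoprime_apply, Units.val_pow_eq_pow_val] at this
    exact this

theorem hasBlk_two {p : ℕ} [Fact p.Prime] [CharP F p] {r : ℕ} [Fact r.Prime] (hrp : r ≠ p) (hrq : ¬ r ∣ q - 1)
    {n m : ℕ} (hn : n ≠ 0)
    (x : Matrix (Fin n) (Fin n) F) (hdet : x.det = 1) (c : F) (hx : x ^ r = c • (1 : Matrix (Fin n) (Fin n) F))
    (m' : ℕ) (hm' : (m' = 0 ∧ m ≤ n ∧ m % orderOf ((q : ℕ) : ZMod r) ≤ n % orderOf ((q : ℕ) : ZMod r)) ∨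
      (m' = m ∧ 2 * m ≤ n ∧ 2 * (m % orderOf ((q : ℕ) : ZMod r)) ≤ n % orderOf ((q : ℕ) : ZMod r))) :
    HasBlk (Matrix.toLin' x) m m' := by
  have hr : r.Prime := Fact.out
  have hc0 := c_ne_zero hn x hdet c hx
  have hT := toLin_pow x c hx
  obtain ⟨e, he⟩ := root_exists hr hrq c
  have he0 : e ≠ 0 := by rintro rfl; rw [zero_pow hr.ne_zero] at he; exact hc0 he.symm
  apply HasBlk.smul (c := e) (S := e⁻¹ • Matrix.toLin' x) (by rw [smul_smul, mul_inv_cancel₀ he0, one_smul])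
  have hS : (e⁻¹ • Matrix.toLin' x) ^ r = 1 := by
    rw [_root_.smul_pow, hT, smul_smul, inv_pow, he, inv_mul_cancel₀ hc0, one_smul]
  obtain ⟨l, d, b, hd, hsum, hb⟩ := blocks_ne hr hrp (e⁻¹ • Matrix.toLin' x) hS
  set i := orderOf ((q : ℕ) : ZMod r) with hi
  have hi2 : 2 ≤ i := by
    have h1 : i ≠ 1 := by
      intro h
      apply hrq
      have := (dvd_iff_ord (F := F) (r := r) 1).2 (by rw [← hi, h])
      rwa [pow_one] at this
    have h0 : i ≠ 0 := by
      have hu : IsUnit ((q : ℕ) : ZMod r) := by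
        rw [isUnit_iff_ne_zero]
        intro h
        rw [ZMod.natCast_eq_zero_iff] at h
        obtain ⟨f, hpf, hcardF⟩ := FiniteField.card F p
        rw [hcardF] at h
        exact hrp ((Nat.prime_dvd_prime_iff_eq hr hpf).1 (hr.dvd_of_dvd_pow h))
      obtain ⟨w, hw⟩ := hu
      rw [hi, ← hw, orderOf_units]
      exact (orderOf_pos w).ne'
    omega
  obtain ⟨k, f, h1, h2, -⟩ := exists_sub d hd hi2
  rw [hsum, finrank_fintype_fun_eq_card, Fintype.card_fin] at h1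
  have hnf : n % i ≤ f := by
    rw [h1, mul_comm, Nat.mul_add_mod]
    exact Nat.mod_le _ _
  have hmdiv : i * (m / i) + m % i = m := Nat.div_add_mod m i
  rcases hm' with ⟨rfl, hmn, hmi⟩ | ⟨rfl, hmn, hmi⟩
  · rcases le_or_gt (m / i) k with hk | hk
    · obtain ⟨J, J', hJJ, hJ, hJ'⟩ := h2 (m % i) (m / i) 0 0 (by omega) (by omega)
      exact ⟨l, d, b, J, J', hJJ, by rw [hJ, mul_comm]; exact hmdiv, by rw [hJ']; ring, hb⟩
    · have h3 : k * i ≤ m := by
        have : k * i ≤ m / i * i := Nat.mul_le_mul hk.le le_rfl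
        rw [mul_comm i] at hmdiv
        omega
      obtain ⟨J, J', hJJ, hJ, hJ'⟩ := h2 (m - k * i) k 0 0 (by omega) (by omega)
      exact ⟨l, d, b, J, J', hJJ, by rw [hJ]; omega, by rw [hJ']; ring, hb⟩
  · rcases le_or_gt (2 * (m' / i)) k with hk | hk
    · obtain ⟨J, J', hJJ, hJ, hJ'⟩ := h2 (m' % i) (m' / i) (m' % i) (m' / i) (by omega) (by omega)
      exact ⟨l, d, b, J, J', hJJ, by rw [hJ, mul_comm]; exact hmdiv, by rw [hJ', mul_comm]; exact hmdiv, hb⟩
    · set b1 := min k (m' / i) with hb1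
      have hb1k : b1 ≤ k := min_le_left _ _
      have hb1m : b1 ≤ m' / i := min_le_right _ _
      have hb2m : k - b1 ≤ m' / i := by
        rcases le_total k (m' / i) with h | h
        · rw [hb1, min_eq_left h]; omega
        · rw [hb1, min_eq_right h]; omega
      have e1 : b1 * i ≤ m' / i * i := Nat.mul_le_mul hb1m le_rfl
      have e2 : (k - b1) * i ≤ m' / i * i := Nat.mul_le_mul hb2m le_rfl
      have e3 : b1 * i + (k - b1) * i = k * i := by rw [← add_mul]; congr 1; omega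
      rw [mul_comm i] at hmdiv
      obtain ⟨J, J', hJJ, hJ, hJ'⟩ := h2 (m' - b1 * i) b1 (m' - (k - b1) * i) (k - b1) (by omega) (by omega)
      exact ⟨l, d, b, J, J', hJJ, by rw [hJ]; omega, by rw [hJ']; omega, hb⟩

/-- necessity for `r ∤ q - 1` -/
theorem nec_two {p : ℕ} [Fact p.Prime] [CharP F p] {r : ℕ} [Fact r.Prime] (hrp : r ≠ p) (hrq : ¬ r ∣ q - 1)
    {n : ℕ} (hin : orderOf ((q : ℕ) : ZMod r) ≤ n) :
    ∃ x : Matrix (Fin n) (Fin n) F, x.det = 1 ∧ (∃ c : F, x ^ r = c • (1 : Matrix (Fin n) (Fin n) F)) ∧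
      (∀ z : F, x ≠ z • (1 : Matrix (Fin n) (Fin n) F)) ∧
      ∀ U : Submodule F (Fin n → F), U.map (Matrix.toLin' x) ≤ U →
        ∃ b, finrank F U = finrank F (U ⊓ LinearMap.ker (Matrix.toLin' x - 1) : Submodule F (Fin n → F)) + b * orderOf ((q : ℕ) : ZMod r) ∧
          finrank F (U ⊓ LinearMap.ker (Matrix.toLin' x - 1) : Submodule F (Fin n → F)) ≤ n % orderOf ((q : ℕ) : ZMod r) := by
  have hr : r.Prime := Fact.out
  obtain ⟨x, hdet, hxr, hns, hker⟩ := exists_elt_blocks (F := F) hr hrp hrq n hin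
  refine ⟨x, hdet, ⟨1, by rw [hxr, one_smul]⟩, hns, fun U hU => ?_⟩
  have hT : (Matrix.toLin' x) ^ r = 1 := by rw [← Matrix.toLin'_pow, hxr, Matrix.toLin'_one]; rfl
  obtain ⟨b, hb⟩ := finrank_inv hr (H99.Blk.natCast_ne (p := p) hr hrp) (Matrix.toLin' x) hT U hU
  refine ⟨b, hb, ?_⟩
  exact (Submodule.finrank_mono inf_le_right).trans hker

theorem ord_ge_two {p : ℕ} [Fact p.Prime] [CharP F p] {r : ℕ} [Fact r.Prime] (hrp : r ≠ p) (hrq : ¬ r ∣ q - 1) :
    2 ≤ orderOf ((q : ℕ) : ZMod r) := by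
  obtain ⟨i, -, -, hi, hi2, -⟩ := H99.Blk.exists_comp_block (F := F) (p := p) (Fact.out : r.Prime) hrp hrq
  rw [← hi]; exact hi2

theorem ord_eq_one {r : ℕ} (hrq : r ∣ q - 1) : orderOf ((q : ℕ) : ZMod r) = 1 := by
  have := (dvd_iff_ord (F := F) (r := r) 1).1 (by rwa [pow_one])
  exact Nat.dvd_one.1 this

/-- `p` does not divide `q ^ e - 1` -/
theorem char_not_dvd {p : ℕ} [Fact p.Prime] [CharP F p] {e : ℕ} (he : e ≠ 0) : ¬ p ∣ q ^ e - 1 := by
  have hp : p.Prime := Fact.out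
  intro h
  obtain ⟨f, hpf, hcardF⟩ := FiniteField.card F p
  have h1 : p ∣ q ^ e := by
    rw [hcardF, ← pow_mul]
    exact dvd_pow_self p (Nat.mul_ne_zero f.ne_zero he)
  have h2 : 1 ≤ q ^ e := Nat.one_le_pow _ _ Fintype.card_pos
  have h3 : p ∣ 1 := by
    have := (Nat.dvd_sub_iff_right h2 h1).1 h
    exact this
  exact hp.one_lt.ne' (Nat.dvd_one.1 h3)

end H85.PrimeSub
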