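import Mathlib
import Cfsg.Agent.Lib.H85.PrimeSub4

set_option autoImplicit false
set_option maxHeartbeats 400000

/-! Unipotent elements: Jordan types and invariant decompositions. -/

namespace H85.PrimeSub

open Module Polynomial Submodule

universe u v

variable {F : Type u} [Field F]

/-- a multiset of positive numbers is determined by truncated sums -/
theorem multiset_ext (A B : Multiset ℕ) (hA : ∀ a ∈ A, 0 < a) (hB : ∀ a ∈ B, 0 < a)
    (h : ∀ k : ℕ, (A.map (fun a => a - k)).sum = (B.map (fun a => a - k)).sum) : A = B := by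
  classical
  have key : ∀ (C : Multiset ℕ) (c : ℕ), 1 ≤ c →
      (C.map (fun a => a - (c - 1))).sum + (C.map (fun a => a - (c + 1))).sum =
        2 * (C.map (fun a => a - c)).sum + C.count c := by
    intro C c hc
    induction C using Multiset.induction_on with
    | empty => simp
    | cons a C ih =>
      rw [Multiset.map_cons, Multiset.sum_cons, Multiset.map_cons, Multiset.sum_cons, Multiset.map_cons, Multiset.sum_cons,
        Multiset.count_cons]
      split_ifs with hac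
      · subst hac; omega
      · omega
  ext c
  rcases Nat.eq_zero_or_pos c with rfl | hc
  · rw [Multiset.count_eq_zero_of_notMem (fun h => absurd (hA _ h) (lt_irrefl _)),
      Multiset.count_eq_zero_of_notMem (fun h => absurd (hB _ h) (lt_irrefl _))]
  · have h1 := key A c hc
    have h2 := key B c hc
    rw [h, h, h] at h1
    omega

theorem exists_le_of_le_map {α β : Type*} (f : α → β) (s : Multiset α) : ∀ (t : Multiset β), t ≤ s.map f →
    ∃ u ≤ s, u.map f = t := by
  classical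
  induction s using Multiset.induction_on with
  | empty =>
    intro t ht
    refine ⟨0, le_rfl, ?_⟩
    rw [Multiset.map_zero] at ht ⊢
    exact (Multiset.le_zero.1 ht).symm
  | cons a s ih =>
    intro t ht
    rw [Multiset.map_cons] at ht
    by_cases ha : f a ∈ t
    · obtain ⟨t', rfl⟩ := Multiset.exists_cons_of_mem ha
      obtain ⟨u, hu, hut⟩ := ih t' ((Multiset.cons_le_cons_iff _).1 ht)
      exact ⟨a ::ₘ u, Multiset.cons_le_cons _ hu, by rw [Multiset.map_cons, hut]⟩
    · obtain ⟨u, hu, hut⟩ := ih t ((Multiset.le_cons_of_notMem ha).1 ht)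
      exact ⟨u, hu.trans (Multiset.le_cons_self _ _), hut⟩

section jordan
variable {V : Type v} [AddCommGroup V] [Module F V] {k : ℕ} {d : Fin k → ℕ}

/-- Jordan basis -/
def IsJ (N : V →ₗ[F] V) (b : Basis (Σ i : Fin k, Fin (d i)) F V) : Prop :=
  ∀ i (j : Fin (d i)), N (b ⟨i, j⟩) = if h : (j : ℕ) + 1 < d i then b ⟨i, ⟨j + 1, h⟩⟩ else 0

theorem IsJ.pow {N : V →ₗ[F] V} {b : Basis (Σ i : Fin k, Fin (d i)) F V} (h : IsJ N b) (l : ℕ) (i : Fin k) (j : Fin (d i)) :
    (N ^ l) (b ⟨i, j⟩) = if h : (j : ℕ) + l < d i then b ⟨i, ⟨j + l, h⟩⟩ else 0 := by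
  induction l with
  | zero =>
    rw [pow_zero, dif_pos (show (j : ℕ) + 0 < d i from j.2)]
    rfl
  | succ l ih =>
    rw [pow_succ', Module.End.mul_apply, ih]
    split_ifs with h1 h2 h2
    · rw [h i ⟨j + l, h1⟩, dif_pos (show (j : ℕ) + l + 1 < d i by omega)]
      rfl
    · rw [h i ⟨j + l, h1⟩, dif_neg (show ¬ (j : ℕ) + l + 1 < d i by omega)]
    · omega
    · rw [map_zero]

theorem IsJ.finrank_range {N : V →ₗ[F] V} {b : Basis (Σ i : Fin k, Fin (d i)) F V} (h : IsJ N b) (l : ℕ) :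
    finrank F (LinearMap.range (N ^ l)) = ∑ i, (d i - l) := by
  classical
  have h1 : LinearMap.range (N ^ l) = span F (b '' {x | l ≤ (x.2 : ℕ)}) := by
    rw [LinearMap.range_eq_map, ← b.span_eq, map_span]
    apply le_antisymm
    · rw [span_le]
      rintro _ ⟨_, ⟨⟨i, j⟩, rfl⟩, rfl⟩
      rw [h.pow]
      split_ifs with h2
      · exact subset_span ⟨⟨i, ⟨j + l, h2⟩⟩, Nat.le_add_left _ _, rfl⟩
      · exact zero_mem _
    · rw [span_le]
      rintro _ ⟨⟨i, j⟩, hj, rfl⟩
      refine subset_span ⟨b ⟨i, ⟨j - l, by have := j.2; omega⟩⟩, ⟨_, rfl⟩, ?_⟩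
      have hj' : l ≤ (j : ℕ) := hj
      rw [h.pow, dif_pos (by show (j : ℕ) - l + l < d i; have := j.2; omega)]
      congr 2
      exact Fin.ext (by show (j : ℕ) - l + l = j; omega)
  have h2 : LinearIndependent F (fun x : {x : (Σ i : Fin k, Fin (d i)) // l ≤ (x.2 : ℕ)} => b x) :=
    b.linearIndependent.comp _ Subtype.val_injective
  have h3 := finrank_span_eq_card h2
  have h4 : (b '' {x | l ≤ (x.2 : ℕ)}) = Set.range (fun x : {x : (Σ i : Fin k, Fin (d i)) // l ≤ (x.2 : ℕ)} => b x) := by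
    ext y; constructor
    · rintro ⟨x, hx, rfl⟩; exact ⟨⟨x, hx⟩, rfl⟩
    · rintro ⟨x, rfl⟩; exact ⟨x.1, x.2, rfl⟩
  rw [h1, h4, h3, Fintype.card_subtype]
  have h5 : (Finset.univ.filter (fun x : (Σ i : Fin k, Fin (d i)) => l ≤ (x.2 : ℕ))) =
      (Finset.univ : Finset (Fin k)).sigma (fun i => (Finset.univ : Finset (Fin (d i))).filter (fun j : Fin (d i) => l ≤ (j : ℕ))) := by
    ext ⟨i, j⟩
    simp
  rw [h5, Finset.card_sigma]
  refine Finset.sum_congr rfl fun i _ => ?_
  have h6 : ((Finset.univ : Finset (Fin (d i))).filter (fun j : Fin (d i) => l ≤ (j : ℕ))).card = (Finset.Ico l (d i)).card := by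
    refine Finset.card_bij (fun j _ => (j : ℕ)) ?_ ?_ ?_
    · intro j hj
      rw [Finset.mem_Ico]
      exact ⟨(Finset.mem_filter.1 hj).2, j.2⟩
    · intro a _ b _ hab
      exact Fin.ext hab
    · intro j hj
      rw [Finset.mem_Ico] at hj
      exact ⟨⟨j, hj.2⟩, Finset.mem_filter.2 ⟨Finset.mem_univ _, hj.1⟩, rfl⟩
  rw [h6, Nat.card_Ico]

end jordan

theorem restrict_pow {V : Type v} [AddCommGroup V] [Module F V] (N : V →ₗ[F] V) (U : Submodule F V)
    (hU : ∀ v ∈ U, N v ∈ U) (l : ℕ) (v : U) : (((N.restrict hU) ^ l) v : V) = (N ^ l) v := by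
  induction l with
  | zero => rfl
  | succ l ih => rw [pow_succ', pow_succ', Module.End.mul_apply, Module.End.mul_apply, ← ih]; rfl

/-- the Jordan type of an invariant complemented subspace is part of the Jordan type -/
theorem jordan_sub {V : Type v} [AddCommGroup V] [Module F V] [FiniteDimensional F V] {k : ℕ} {d : Fin k → ℕ}
    (hd : ∀ i, 0 < d i) (N : V →ₗ[F] V) (b : Basis (Σ i : Fin k, Fin (d i)) F V) (hN : IsJ N b)
    (e : ℕ) (he : N ^ e = 0)
    (U W : Submodule F V) (hUW : IsCompl U W) (hU : ∀ v ∈ U, N v ∈ U) (hW : ∀ v ∈ W, N v ∈ W) :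
    ∃ ν : Multiset ℕ, ν ≤ (Finset.univ : Finset (Fin k)).val.map d ∧ ν.sum = finrank F U := by
  classical
  have hnil : ∀ (U : Submodule F V) (hU : ∀ v ∈ U, N v ∈ U), (N.restrict hU) ^ e = 0 := by
    intro U hU
    ext v
    rw [restrict_pow, he]; rfl
  obtain ⟨kU, dU, bU, hdU, hbU⟩ := H99.Cyclic.exists_jordan (N.restrict hU) e (hnil U hU)
  obtain ⟨kW, dW, bW, hdW, hbW⟩ := H99.Cyclic.exists_jordan (N.restrict hW) e (hnil W hW)
  have hr : ∀ l, finrank F (LinearMap.range (N ^ l)) =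
      finrank F (LinearMap.range ((N.restrict hU) ^ l)) + finrank F (LinearMap.range ((N.restrict hW) ^ l)) := by
    intro l
    have hR : ∀ (U : Submodule F V) (hU : ∀ v ∈ U, N v ∈ U),
        (LinearMap.range ((N.restrict hU) ^ l)).map U.subtype = U.map (N ^ l) := by
      intro U hU
      ext v
      constructor
      · rintro ⟨_, ⟨w, rfl⟩, rfl⟩
        exact ⟨w, w.2, (restrict_pow N U hU l w).symm⟩
      · rintro ⟨w, hw, rfl⟩
        exact ⟨((N.restrict hU) ^ l) ⟨w, hw⟩, ⟨⟨w, hw⟩, rfl⟩, restrict_pow N U hU l ⟨w, hw⟩⟩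
    have hpow : ∀ (U : Submodule F V) (hU : ∀ v ∈ U, N v ∈ U), U.map (N ^ l) ≤ U := by
      rintro U hU _ ⟨w, hw, rfl⟩
      rw [← restrict_pow N U hU l ⟨w, hw⟩]
      exact (((N.restrict hU) ^ l) ⟨w, hw⟩).2
    have h1 : LinearMap.range (N ^ l) = U.map (N ^ l) ⊔ W.map (N ^ l) := by
      rw [← Submodule.map_sup, hUW.sup_eq_top, LinearMap.range_eq_map]
    have h2 : U.map (N ^ l) ⊓ W.map (N ^ l) = ⊥ := by
      rw [eq_bot_iff, ← hUW.inf_eq_bot]
      exact inf_le_inf (hpow U hU) (hpow W hW)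
    have h3 := Submodule.finrank_sup_add_finrank_inf_eq (U.map (N ^ l)) (W.map (N ^ l))
    rw [h2, finrank_bot, add_zero, ← h1, ← hR U hU, ← hR W hW, finrank_map_subtype_eq, finrank_map_subtype_eq] at h3
    exact h3
  have hJU : IsJ (N.restrict hU) bU := hbU
  have hJW : IsJ (N.restrict hW) bW := hbW
  have hsum : ∀ (k : ℕ) (d : Fin k → ℕ) (l : ℕ),
      (((Finset.univ : Finset (Fin k)).val.map d).map (fun a => a - l)).sum = ∑ i, (d i - l) := by
    intro k d l
    rw [Multiset.map_map]; rfl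
  have hms : (Finset.univ : Finset (Fin k)).val.map d =
      (Finset.univ : Finset (Fin kU)).val.map dU + (Finset.univ : Finset (Fin kW)).val.map dW := by
    apply multiset_ext
    · intro a ha
      obtain ⟨i, -, rfl⟩ := Multiset.mem_map.1 ha
      exact hd i
    · intro a ha
      rcases Multiset.mem_add.1 ha with h | h
      · obtain ⟨i, -, rfl⟩ := Multiset.mem_map.1 h
        exact (hdU i).1
      · obtain ⟨i, -, rfl⟩ := Multiset.mem_map.1 h
        exact (hdW i).1
    · intro l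
      rw [Multiset.map_add, Multiset.sum_add, hsum, hsum, hsum, ← hN.finrank_range, ← hJU.finrank_range, ← hJW.finrank_range, hr]
  refine ⟨(Finset.univ : Finset (Fin kU)).val.map dU, by rw [hms]; exact Multiset.le_add_right _ _, ?_⟩
  rw [finrank_eq_card_basis bU, Fintype.card_sigma]
  simp only [Fintype.card_fin]
  rfl

/-- a unipotent matrix with given Jordan type -/
theorem exists_unip {p : ℕ} [Fact p.Prime] [CharP F p] {n k : ℕ} (d : Fin k → ℕ) (hd : ∀ i, d i ≤ p) (hn : ∑ i, d i = n)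
    (hne : ∃ i, d i ≠ 1) (hpos : ∀ i, 0 < d i) :
    ∃ (x : Matrix (Fin n) (Fin n) F) (b : Basis (Σ i : Fin k, Fin (d i)) F (Fin n → F)), x.det = 1 ∧ x ^ p = 1 ∧
      (∀ z : F, x ≠ z • (1 : Matrix (Fin n) (Fin n) F)) ∧ IsJ (Matrix.toLin' x - 1) b ∧ (Matrix.toLin' x - 1) ^ p = 0 := by
  classical
  have hp : p.Prime := Fact.out
  have hcard : Fintype.card (Σ i : Fin k, Fin (d i)) = n := by
    rw [Fintype.card_sigma]; simpa using hn
  let e : (Σ i : Fin k, Fin (d i)) ≃ Fin n := Fintype.equivFinOfCardEq hcard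
  let b : Basis (Σ i : Fin k, Fin (d i)) F (Fin n → F) := (Pi.basisFun F (Fin n)).reindex e.symm
  let N : (Fin n → F) →ₗ[F] (Fin n → F) := b.constr F (fun x => if h : (x.2 : ℕ) + 1 < d x.1 then b ⟨x.1, ⟨x.2 + 1, h⟩⟩ else 0)
  have hN : IsJ N b := by
    intro i j
    exact b.constr_basis F _ _
  have hNp : N ^ p = 0 := by
    apply b.ext
    rintro ⟨i, j⟩
    rw [hN.pow, dif_neg (by have := hd i; omega)]
    rfl
  let x : Matrix (Fin n) (Fin n) F := 1 + LinearMap.toMatrix' N
  have hxN : Matrix.toLin' x - 1 = N := by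
    show Matrix.toLin' (1 + LinearMap.toMatrix' N) - 1 = N
    rw [map_add, Matrix.toLin'_one, Matrix.toLin'_toMatrix', Module.End.one_eq_id, add_sub_cancel_left]
  have hMp : (LinearMap.toMatrix' N) ^ p = 0 := by
    apply Matrix.toLin'.injective
    rw [Matrix.toLin'_pow, Matrix.toLin'_toMatrix', hNp, map_zero]
  have hxp : x ^ p = 1 := by
    have h1 : Commute (1 : Matrix (Fin n) (Fin n) F) (LinearMap.toMatrix' N) := Commute.one_left _
    rcases isEmpty_or_nonempty (Fin n) with hE | hE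
    · exact Subsingleton.elim _ _
    · have h2 := add_pow_char_of_commute (R := Matrix (Fin n) (Fin n) F) (p := p) h1
      rw [one_pow, hMp, add_zero] at h2
      exact h2
  refine ⟨x, b, H99.Elts.det_eq_one_of_pow_char x hxp, hxp, ?_, by rw [hxN]; exact hN, by rw [hxN]; exact hNp⟩
  intro z hz
  obtain ⟨i, hi⟩ := hne
  have hi0 := hpos i
  have h1 : N (b ⟨i, ⟨0, hi0⟩⟩) = b ⟨i, ⟨0 + 1, by omega⟩⟩ := by
    rw [hN, dif_pos]
  have h2 : N = (z - 1) • (1 : (Fin n → F) →ₗ[F] (Fin n → F)) := by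
    rw [← hxN, hz, map_smul, Matrix.toLin'_one]
    rw [sub_smul (M := (Fin n → F) →ₗ[F] (Fin n → F)), one_smul (M := F)]; rfl
  rw [h2] at h1
  have h3 : b ⟨i, ⟨0 + 1, by omega⟩⟩ ∈ span F {b ⟨i, ⟨0, hi0⟩⟩} := by
    rw [← h1]
    exact smul_mem _ _ (mem_span_singleton_self _)
  have h4 := b.linearIndependent.notMem_span_image (s := {⟨i, ⟨0, hi0⟩⟩}) (x := ⟨i, ⟨0 + 1, by omega⟩⟩) (by
    rw [Set.mem_singleton_iff]
    intro h
    have h5 := congrArg (fun y : (Σ i : Fin k, Fin (d i)) => (y.2 : ℕ)) h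
    simp at h5)
  rw [Set.image_singleton] at h4
  exact h4 h3

end H85.PrimeSub
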