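import Mathlib
import Cfsg.Agent.Lib.H85.PrimeSub5

set_option autoImplicit false
set_option maxHeartbeats 400000

/-! Elements of order `p` and invariant decompositions. -/

namespace H85.PrimeSub

open Module Polynomial Submodule

universe u v

variable {F : Type u} [Field F] [Fintype F]

/-- the partition condition -/
def PartCond (p n m : ℕ) : Prop :=
  ∀ μ : Multiset ℕ, (∀ a ∈ μ, 0 < a ∧ a ≤ p) → μ.sum = n → ∃ ν : Multiset ℕ, ν ≤ μ ∧ ν.sum = m

theorem part_of_cond {p : ℕ} [Fact p.Prime] [CharP F p] {n m : ℕ} (hn : n ≠ 0) (hM : PartCond p n m)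
    (x : Matrix (Fin n) (Fin n) F) (hdet : x.det = 1) (c : F) (hx : x ^ p = c • (1 : Matrix (Fin n) (Fin n) F)) :
    HasBlk (Matrix.toLin' x) m 0 := by
  classical
  have hp : p.Prime := Fact.out
  have hc0 := c_ne_zero hn x hdet c hx
  have hT := toLin_pow x c hx
  have hpq : ¬ p ∣ Fintype.card F - 1 := by
    have := char_not_dvd (F := F) (p := p) (e := 1) one_ne_zero
    rwa [pow_one] at this
  obtain ⟨e, he⟩ := root_exists hp hpq c
  have he0 : e ≠ 0 := by rintro rfl; rw [zero_pow hp.ne_zero] at he; exact hc0 he.symm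
  apply HasBlk.smul (c := e) (S := e⁻¹ • Matrix.toLin' x) (by rw [smul_smul, mul_inv_cancel₀ he0, one_smul])
  have hS : (e⁻¹ • Matrix.toLin' x) ^ p = 1 := by
    rw [_root_.smul_pow, hT, smul_smul, inv_pow, he, inv_mul_cancel₀ hc0, one_smul]
  have hpoly : (X - 1 : F[X]) ^ p = X ^ p - 1 := by
    have h := sub_pow_char (R := F[X]) (p := p) (X : F[X]) 1
    rw [h, one_pow]
  obtain ⟨k, d, b, hd, hsum, hb⟩ := exists_blocks (e⁻¹ • Matrix.toLin' x) ((X - 1 : F[X]) ^ p)
    (by rw [hpoly, map_sub, map_pow, aeval_X, map_one, hS, sub_self]) (fun k => 0 < k ∧ k ≤ p) (by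
      intro g l hg hgm hl hdvd
      have h1 : g ∣ X - 1 := hg.prime.dvd_of_dvd_pow ((dvd_pow_self g hl.ne').trans hdvd)
      have h2 : Associated g (X - 1) := hg.associated_of_dvd (by simpa using irreducible_X_sub_C (1 : F)) h1
      have h3 : g.natDegree = 1 := by
        rw [natDegree_eq_of_degree_eq (degree_eq_degree_of_associated h2)]
        simpa using natDegree_X_sub_C (1 : F)
      have h4 := natDegree_le_of_dvd hdvd (pow_ne_zero _ (by simpa using X_sub_C_ne_zero (1 : F)))
      have h5 : (X - 1 : F[X]).natDegree = 1 := by simpa using natDegree_X_sub_C (1 : F)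
      rw [natDegree_pow, natDegree_pow, h3, h5, mul_one, mul_one] at h4
      show 0 < (g ^ l).natDegree ∧ (g ^ l).natDegree ≤ p
      rw [natDegree_pow, h3, mul_one]
      exact ⟨hl, h4⟩)
  rw [finrank_fintype_fun_eq_card, Fintype.card_fin] at hsum
  obtain ⟨ν, hν, hνm⟩ := hM ((Finset.univ : Finset (Fin k)).val.map d) (by
    intro a ha
    obtain ⟨i, -, rfl⟩ := Multiset.mem_map.1 ha
    exact hd i) (by rw [← hsum]; rfl)
  obtain ⟨u, hu, rfl⟩ := exists_le_of_le_map d _ ν hν
  refine ⟨k, d, b, ⟨u, Multiset.nodup_of_le hu Finset.univ.nodup⟩, ∅, Finset.disjoint_empty_right _, hνm, rfl, hb⟩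

theorem cond_of_part {p : ℕ} [Fact p.Prime] [CharP F p] {n m : ℕ} (hmn : m ≤ n)
    (h : ∀ x : Matrix (Fin n) (Fin n) F, x.det = 1 → x ^ p = 1 → (∀ z : F, x ≠ z • (1 : Matrix (Fin n) (Fin n) F)) →
      ∃ U W : Submodule F (Fin n → F), IsCompl U W ∧ finrank F U = m ∧
        U.map (Matrix.toLin' x) ≤ U ∧ W.map (Matrix.toLin' x) ≤ W) : PartCond p n m := by
  classical
  intro μ hμ hμn
  by_cases h1 : ∀ a ∈ μ, a = 1
  · have h2 := Multiset.eq_replicate_card.2 h1
    have h3 : Multiset.card μ = n := by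
      rw [← hμn]
      conv_rhs => rw [h2]
      rw [Multiset.sum_replicate, smul_eq_mul, mul_one]
    refine ⟨Multiset.replicate m 1, ?_, by rw [Multiset.sum_replicate, smul_eq_mul, mul_one]⟩
    rw [h2, h3]
    exact (Multiset.replicate_le_replicate 1).2 hmn
  · push Not at h1
    obtain ⟨a, ha, ha1⟩ := h1
    let L := μ.toList
    have hL : ((Finset.univ : Finset (Fin L.length)).val.map L.get) = μ := by
      rw [Fin.univ_val_map, List.ofFn_get, Multiset.coe_toList]
    have hmem : ∀ i, L.get i ∈ μ := fun i => Multiset.mem_toList.1 (List.get_mem L i)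
    obtain ⟨i, hi⟩ := List.get_of_mem (Multiset.mem_toList.2 ha)
    obtain ⟨x, b, hdet, hxp, hns, hJ, hNp⟩ := exists_unip (F := F) (p := p) (n := n) L.get (fun i => (hμ _ (hmem i)).2) (by
        rw [← hμn]
        conv_rhs => rw [← hL]
        rfl) ⟨i, by rw [hi]; exact ha1⟩
      (fun i => (hμ _ (hmem i)).1)
    obtain ⟨U, W, hUW, hU, hUT, hWT⟩ := h x hdet hxp hns
    have hinv : ∀ U : Submodule F (Fin n → F), U.map (Matrix.toLin' x) ≤ U → ∀ v ∈ U, (Matrix.toLin' x - 1) v ∈ U := by
      intro U hU v hv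
      show Matrix.toLin' x v - v ∈ U
      exact sub_mem (hU (mem_map_of_mem hv)) hv
    obtain ⟨ν, hν, hνs⟩ := jordan_sub (fun i => (hμ _ (hmem i)).1) _ b hJ p hNp U W hUW (hinv U hUT) (hinv W hWT)
    exact ⟨ν, by rw [hL] at hν; exact hν, by rw [hνs, hU]⟩

theorem partCond_two {n m : ℕ} (hmn : 2 * m < n) : PartCond 2 n m ↔ (Odd n ∨ Even m) := by
  classical
  constructor
  · intro h
    by_contra hcon
    push Not at hcon
    obtain ⟨h1, h2⟩ := hcon
    rw [Nat.not_odd_iff_even] at h1
    obtain ⟨k, hk⟩ := h1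
    obtain ⟨ν, hν, hνm⟩ := h (Multiset.replicate k 2) (by
      intro a ha
      rw [Multiset.eq_of_mem_replicate ha]; omega) (by rw [Multiset.sum_replicate, smul_eq_mul]; omega)
    rw [Multiset.le_replicate_iff] at hν
    obtain ⟨l, -, rfl⟩ := hν
    rw [Multiset.sum_replicate, smul_eq_mul] at hνm
    apply h2
    exact ⟨l, by omega⟩
  · intro h μ hμ hμn
    -- split `μ` into twos and ones
    have hsplit : ∃ k l : ℕ, μ = Multiset.replicate k 2 + Multiset.replicate l 1 := by
      clear hμn
      induction μ using Multiset.induction_on with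
      | empty => exact ⟨0, 0, by simp⟩
      | cons a μ ih =>
        obtain ⟨k, l, hkl⟩ := ih (fun b hb => hμ b (Multiset.mem_cons_of_mem hb))
        have ha := hμ a (Multiset.mem_cons_self _ _)
        have : a = 1 ∨ a = 2 := by omega
        rcases this with rfl | rfl
        · refine ⟨k, l + 1, ?_⟩
          rw [hkl, Multiset.replicate_succ, Multiset.add_cons]
        · refine ⟨k + 1, l, ?_⟩
          rw [hkl, Multiset.replicate_succ, Multiset.cons_add]
    obtain ⟨k, l, rfl⟩ := hsplit
    rw [Multiset.sum_add, Multiset.sum_replicate, Multiset.sum_replicate, smul_eq_mul, smul_eq_mul, mul_one] at hμn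
    have hb : min k (m / 2) ≤ k := min_le_left _ _
    have hb2 : min k (m / 2) ≤ m / 2 := min_le_right _ _
    have hl : m - 2 * min k (m / 2) ≤ l := by
      rcases le_total k (m / 2) with h1 | h1
      · rw [min_eq_left h1]; omega
      · rw [min_eq_right h1]
        rcases h with h | h
        · obtain ⟨s, hs⟩ := h
          omega
        · obtain ⟨s, hs⟩ := h
          omega
    refine ⟨Multiset.replicate (min k (m / 2)) 2 + Multiset.replicate (m - 2 * min k (m / 2)) 1, ?_, ?_⟩
    · exact add_le_add ((Multiset.replicate_le_replicate 2).2 hb) ((Multiset.replicate_le_replicate 1).2 hl)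
    · rw [Multiset.sum_add, Multiset.sum_replicate, Multiset.sum_replicate, smul_eq_mul, smul_eq_mul, mul_one]
      omega

end H85.PrimeSub
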