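import Cfsg.Agent.Lib.H85.RankOneNormal

/-!
A rank one group with abelian unipotent subgroups acting quadratically (but not trivially quadratic as a whole) is special.
-/
set_option autoImplicit false

namespace H85.QuadModule

open Cfsg H85.RankOne H85.RankOneTrans

variable {X : Type*} [Group X] {N : Type*} [AddCommGroup N] [DistribMulAction X N]

/-- fixed points -/
def fixAdd (X : Type*) [Group X] (N : Type*) [AddCommGroup N] [DistribMulAction X N] : AddSubgroup N where
  carrier := {n | ∀ x : X, x • n = n}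
  zero_mem' := fun x => smul_zero x
  add_mem' := by
    intro a b ha hb x
    rw [smul_add, ha, hb]
  neg_mem' := by
    intro a ha x
    rw [smul_neg, ha]

theorem mem_fixAdd {n : N} : n ∈ fixAdd X N ↔ ∀ x : X, x • n = n := Iff.rfl

/-- [N, P] + C_N(X) -/
def commAdd (N : Type*) [AddCommGroup N] [DistribMulAction X N] (P : Subgroup X) : AddSubgroup N :=
  AddSubgroup.closure {n | ∃ p ∈ P, ∃ v : N, n = p • v - v} ⊔ fixAdd X N

theorem sub_mem {P : Subgroup X} {p : X} (hp : p ∈ P) (v : N) : p • v - v ∈ commAdd N P :=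
  AddSubgroup.mem_sup_left (AddSubgroup.subset_closure ⟨p, hp, v, rfl⟩)

theorem fix_le (P : Subgroup X) : fixAdd X N ≤ commAdd N P := le_sup_right

/-- If a property holds for commutators and fixed vectors and is preserved by sums/negation it holds on `commAdd` -/
theorem commAdd_le {P : Subgroup X} {S : AddSubgroup N} (h1 : ∀ p ∈ P, ∀ v : N, p • v - v ∈ S) (h2 : fixAdd X N ≤ S) :
    commAdd N P ≤ S := by
  refine sup_le ?_ h2
  rw [AddSubgroup.closure_le]
  rintro _ ⟨p, hp, v, rfl⟩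
  exact h1 p hp v

theorem smul_mem {P : Subgroup X} {n : N} (hn : n ∈ commAdd N P) (g : X) : g • n ∈ commAdd N (conjBy P g) := by
  have : commAdd N P ≤ (commAdd N (conjBy P g)).comap (DistribSMul.toAddMonoidHom N g) := by
    apply commAdd_le
    · intro p hp v
      show g • (p • v - v) ∈ commAdd N (conjBy P g)
      have h1 : g • (p • v - v) = (g * p * g⁻¹) • (g • v) - g • v := by
        rw [smul_sub]; simp only [← mul_smul]; congr 2; group
      rw [h1]
      exact sub_mem (conj_mem_conjBy hp) _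
    · intro z hz
      show g • z ∈ commAdd N (conjBy P g)
      rw [hz g]
      exact fix_le _ hz
  exact this hn

/-- the subgroup acting trivially on a set of vectors -/
def actsTrivially (M : AddSubgroup N) : Subgroup X where
  carrier := {x | ∀ m ∈ M, x • m = m}
  one_mem' := fun m _ => one_smul _ m
  mul_mem' := by
    intro x y hx hy m hm
    rw [mul_smul, hy m hm, hx m hm]
  inv_mem' := by
    intro x hx m hm
    rw [inv_smul_eq_iff]; exact (hx m hm).symm

theorem special_of_quadratic {A B : Subgroup X} (h : Cfsg.IsRankOneGroup X A B)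
    (hq : ∀ a ∈ A, ∀ a' ∈ A, ∀ n : N, a' • (a • n - n) = a • n - n)
    (hX : ∃ x y : X, ∃ n : N, y • (x • n - n) ≠ x • n - n) : Cfsg.IsSpecialRankOnePair A B := by
  obtain ⟨hgen, hp⟩ := h
  refine ⟨hp, ?_⟩
  intro a ha ha1 b hb hb1 hab
  -- B acts quadratically
  have hqB : ∀ b ∈ B, ∀ b' ∈ B, ∀ n : N, b' • (b • n - n) = b • n - n := by
    obtain ⟨x, -, hx⟩ := right_mem hp
    intro b hb b' hb' n
    rw [hx, mem_conjBy] at hb hb'
    have h1 := hq _ hb _ hb' (x⁻¹ • n)
    have h2 : (x⁻¹ * b * x) • (x⁻¹ • n) = x⁻¹ • (b • n) := by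
      simp only [← mul_smul]; congr 1; group
    rw [h2, ← smul_sub] at h1
    have h3 : (x⁻¹ * b' * x) • x⁻¹ • (b • n - n) = x⁻¹ • (b' • (b • n - n)) := by
      simp only [← mul_smul]; congr 1; group
    rw [h3] at h1
    exact smul_left_cancel _ h1
  have hAfix : ∀ n ∈ commAdd N A, ∀ a ∈ A, a • n = n := by
    intro n hn
    have : commAdd N A ≤ (⟨⟨⟨{n | ∀ a ∈ A, a • n = n}, by
      intro x y hx hy a ha; rw [smul_add, hx a ha, hy a ha]⟩, by
      intro a _; exact smul_zero a⟩, by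
      intro x hx a ha
      show a • (-x) = -x
      rw [smul_neg, hx a ha]⟩ : AddSubgroup N) := by
      apply commAdd_le
      · intro p hp v a ha
        exact hq p hp a ha v
      · intro z hz a _
        exact hz a
    exact this hn
  have hBfix : ∀ n ∈ commAdd N B, ∀ b ∈ B, b • n = n := by
    intro n hn
    have : commAdd N B ≤ (⟨⟨⟨{n | ∀ a ∈ B, a • n = n}, by
      intro x y hx hy a ha; rw [smul_add, hx a ha, hy a ha]⟩, by
      intro a _; exact smul_zero a⟩, by
      intro x hx a ha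
      show a • (-x) = -x
      rw [smul_neg, hx a ha]⟩ : AddSubgroup N) := by
      apply commAdd_le
      · intro p hp v a ha
        exact hqB p hp a ha v
      · intro z hz a _
        exact hz a
    exact this hn
  have hinter : ∀ n, (∀ a ∈ A, a • n = n) → (∀ b ∈ B, b • n = n) → n ∈ fixAdd X N := by
    intro n h1 h2 x
    have hx : x ∈ A ⊔ B := by rw [hgen]; trivial
    refine sup_induct (A := A) (B := B) (p := fun x => x • n = n) h1 h2 ?_ hx
    intro x y hx hy
    rw [mul_smul, hy, hx]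
  have hint2 : ∀ n, n ∈ commAdd N A → n ∈ commAdd N B → n ∈ fixAdd X N := fun n h1 h2 =>
    hinter n (hAfix n h1) (hBfix n h2)
  -- transfer
  have htr : ∀ n ∈ commAdd N A, a • b⁻¹ • n ∈ commAdd N B := by
    intro n hn
    have h1 := smul_mem hn b⁻¹
    rw [hab] at h1
    have h2 := smul_mem h1 a
    rwa [conjBy_conjBy_inv] at h2
  have htr' : ∀ m ∈ commAdd N B, b • a⁻¹ • m ∈ commAdd N A := by
    intro n hn
    have h1 := smul_mem hn a⁻¹
    rw [← hab] at h1
    have h2 := smul_mem h1 b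
    rwa [conjBy_conjBy_inv] at h2
  -- the maps α, β
  have hαmem : ∀ m : N, a⁻¹ • m - m ∈ commAdd N A := fun m => sub_mem (A.inv_mem ha) m
  have hβmem : ∀ m : N, b⁻¹ • m - m ∈ commAdd N B := fun m => sub_mem (B.inv_mem hb) m
  have hαβ : ∀ n ∈ commAdd N A, ∃ z ∈ fixAdd X N, a⁻¹ • (b⁻¹ • n - n) - (b⁻¹ • n - n) = n + z := by
    intro n hn
    -- b⁻¹ n = a⁻¹ m
    have hm := htr n hn
    set m := a • b⁻¹ • n with hmdef
    have e1 : b⁻¹ • n = a⁻¹ • m := by rw [hmdef, inv_smul_smul]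
    have hz : m - (b⁻¹ • n - n) ∈ fixAdd X N := by
      apply hint2
      · have : m - (b⁻¹ • n - n) = n - (a⁻¹ • m - m) := by rw [e1]; abel
        rw [this]; exact AddSubgroup.sub_mem _ hn (hαmem m)
      · exact AddSubgroup.sub_mem _ hm (hβmem n)
    refine ⟨-(m - (b⁻¹ • n - n)), AddSubgroup.neg_mem _ hz, ?_⟩
    have e2 : b⁻¹ • n - n = m - (m - (b⁻¹ • n - n)) := by abel
    have e3 : a⁻¹ • (b⁻¹ • n - n) = a⁻¹ • m - (m - (b⁻¹ • n - n)) := by
      conv_lhs => rw [e2]
      rw [smul_sub, hz]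
    rw [e3, ← e1]; abel
  have hβα : ∀ m ∈ commAdd N B, ∃ z ∈ fixAdd X N, b⁻¹ • (a⁻¹ • m - m) - (a⁻¹ • m - m) = m + z := by
    intro m hm
    have hn := htr' m hm
    set n := b • a⁻¹ • m with hndef
    have e1 : a⁻¹ • m = b⁻¹ • n := by rw [hndef, inv_smul_smul]
    have hz : n - (a⁻¹ • m - m) ∈ fixAdd X N := by
      apply hint2
      · exact AddSubgroup.sub_mem _ hn (hαmem m)
      · have : n - (a⁻¹ • m - m) = m - (b⁻¹ • n - n) := by rw [e1]; abel
        rw [this]; exact AddSubgroup.sub_mem _ hm (hβmem n)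
    refine ⟨-(n - (a⁻¹ • m - m)), AddSubgroup.neg_mem _ hz, ?_⟩
    have e2 : a⁻¹ • m - m = n - (n - (a⁻¹ • m - m)) := by abel
    have e3 : b⁻¹ • (a⁻¹ • m - m) = b⁻¹ • n - (n - (a⁻¹ • m - m)) := by
      conv_lhs => rw [e2]
      rw [smul_sub, hz]
    rw [e3, ← e1]; abel
  have ham : ∀ m : N, a • m = m - (a⁻¹ • m - m) := by
    intro m
    have h1 := hAfix _ (hαmem m) a ha
    rw [smul_sub, smul_inv_smul] at h1
    rw [← h1]; abel
  -- the key identity on M = [N,A]+[N,B]+Z
  have hkey : ∀ n ∈ commAdd N A, ∀ m ∈ commAdd N B, a • b⁻¹ • a • (n + m) = b⁻¹ • a • b⁻¹ • (n + m) := by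
    intro n hn m hm
    obtain ⟨z1, hz1, e1⟩ := hαβ n hn
    obtain ⟨z2, hz2, e2⟩ := hβα m hm
    set αm := a⁻¹ • m - m with hαm
    set βn := b⁻¹ • n - n with hβn
    have f1 : a • n = n := hAfix n hn a ha
    have f2 : a • m = m - αm := ham m
    have f3 : b⁻¹ • n = n + βn := by rw [hβn]; abel
    have f4 : b⁻¹ • m = m := hBfix m hm _ (B.inv_mem hb)
    have f5 : b⁻¹ • αm = αm + (m + z2) := by rw [← e2]; abel
    have f6 : a • βn = βn - (n + z1) := by rw [ham βn, e1]
    have f7 : a • αm = αm := hAfix _ (hαmem m) a ha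
    have f8 : b⁻¹ • βn = βn := hBfix _ (hβmem n) _ (B.inv_mem hb)
    have f9 : ∀ x : X, x • z1 = z1 := hz1
    have f10 : ∀ x : X, x • z2 = z2 := hz2
    simp only [smul_add, smul_sub, f1, f2, f3, f4, f5, f6, f7, f8, f9, f10]
    abel
  -- K = kernel on M
  set M : AddSubgroup N := commAdd N A ⊔ commAdd N B with hM
  have hMinv : ∀ x : X, ∀ m ∈ M, x • m ∈ M := by
    intro x
    have hx : x ∈ A ⊔ B := by rw [hgen]; trivial
    refine sup_induct (A := A) (B := B) (p := fun x => ∀ m ∈ M, x • m ∈ M) ?_ ?_ ?_ hx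
    · intro a ha m hm
      have : a • m = m + (a • m - m) := by abel
      rw [this]
      exact AddSubgroup.add_mem _ hm (AddSubgroup.mem_sup_left (sub_mem ha m))
    · intro a ha m hm
      have : a • m = m + (a • m - m) := by abel
      rw [this]
      exact AddSubgroup.add_mem _ hm (AddSubgroup.mem_sup_right (sub_mem ha m))
    · intro x y hx hy m hm
      rw [mul_smul]; exact hx _ (hy _ hm)
  let K : Subgroup X := actsTrivially M
  have hKn : K.Normal := by
    constructor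
    intro k hk g m hm
    have h1 : k • g⁻¹ • m = g⁻¹ • m := hk _ (hMinv _ _ hm)
    rw [mul_smul, mul_smul, h1, smul_inv_smul]
  have hgK : (b⁻¹ * a * b) * (a⁻¹ * b⁻¹ * a)⁻¹ ∈ K := by
    have h1 : ∀ m ∈ M, (a * b⁻¹ * a) • m = (b⁻¹ * a * b⁻¹) • m := by
      intro v hv
      obtain ⟨n, hn, m, hm, rfl⟩ := AddSubgroup.mem_sup.1 hv
      have := hkey n hn m hm
      simp only [mul_smul]; exact this
    have h2 : (a * b⁻¹ * a)⁻¹ * (b⁻¹ * a * b⁻¹) ∈ K := by
      intro m hm
      rw [mul_smul, inv_smul_eq_iff]; exact (h1 m hm).symm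
    -- (b⁻¹ a b)(a⁻¹ b a) is conjugate to an element of K
    have h3 := hKn.conj_mem _ (K.inv_mem h2) (b⁻¹ * a * b⁻¹ * a⁻¹ * b)
    have h4 : b⁻¹ * a * b * (a⁻¹ * b⁻¹ * a)⁻¹ =
        (a⁻¹) * ((a * b⁻¹ * a) * (b⁻¹ * a * b⁻¹)⁻¹) * (a⁻¹)⁻¹ := by group
    rw [h4]
    apply hKn.conj_mem
    have h5 : (a * b⁻¹ * a) * (b⁻¹ * a * b⁻¹)⁻¹ = (b⁻¹ * a * b⁻¹) * ((a * b⁻¹ * a)⁻¹ * (b⁻¹ * a * b⁻¹))⁻¹ * (b⁻¹ * a * b⁻¹)⁻¹ := by
      group
    rw [h5]
    exact hKn.conj_mem _ (K.inv_mem h2) _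
  have hgP : (b⁻¹ * a * b) * (a⁻¹ * b⁻¹ * a)⁻¹ ∈ conjBy A b⁻¹ := by
    apply Subgroup.mul_mem
    · have := conj_mem_conjBy (g := b⁻¹) ha
      rwa [inv_inv] at this
    · rw [hab]
      have := conj_mem_conjBy (g := a⁻¹) (B.inv_mem hb)
      rw [inv_inv] at this
      exact Subgroup.inv_mem _ this
  rcases RankOneNormal.dichotomy ⟨hgen, hp⟩ K with hK | hK
  · exfalso
    obtain ⟨x, y, n, hxy⟩ := hX
    apply hxy
    have hAZ : ∀ n ∈ commAdd N A, n ∈ fixAdd X N := by
      intro n hn x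
      have hx : x ∈ K ⊔ A := by rw [hK]; trivial
      obtain ⟨k, hk, a', ha', rfl⟩ := Subgroup.mem_sup_of_normal_left.1 hx
      rw [mul_smul, hAfix n hn a' ha']
      exact hk n (AddSubgroup.mem_sup_left hn)
    have hBZ : ∀ m ∈ commAdd N B, m ∈ fixAdd X N := by
      intro m hm
      obtain ⟨z, hz, e⟩ := hβα m hm
      have h1 := hAZ _ (hαmem m)
      rw [h1 b⁻¹, sub_self] at e
      have : m = -z := by rw [eq_neg_iff_add_eq_zero]; exact e.symm
      rw [this]; exact AddSubgroup.neg_mem _ hz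
    have hall : ∀ x : X, ∀ n : N, x • n - n ∈ fixAdd X N := by
      intro x
      have hx : x ∈ A ⊔ B := by rw [hgen]; trivial
      refine sup_induct (A := A) (B := B) (p := fun x => ∀ n : N, x • n - n ∈ fixAdd X N) ?_ ?_ ?_ hx
      · intro a ha n; exact hAZ _ (sub_mem ha n)
      · intro a ha n; exact hBZ _ (sub_mem ha n)
      · intro x y hx hy n
        have : (x * y) • n - n = (x • (y • n) - y • n) + (y • n - n) := by rw [mul_smul]; abel
        rw [this]
        exact AddSubgroup.add_mem _ (hx _) (hy _)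
    exact hall x n y
  · have hg1 : (b⁻¹ * a * b) * (a⁻¹ * b⁻¹ * a)⁻¹ = 1 := by
      have hP : conjBy A b⁻¹ ∈ unipotentSubgroups A B :=
        unip_conj_mem left_mem (Subgroup.mem_sup_right (B.inv_mem hb))
      have hPA : conjBy A b⁻¹ ≠ A := conjBy_ne_left hp (B.inv_mem hb) (inv_ne_one.2 hb1)
      apply eq_one_of_central (isRankOnePair_of_mem hp hP left_mem hPA) hgP
      intro x _
      exact (Subgroup.mem_center_iff.1 (hK hgK) x).symm
    rwa [mul_inv_eq_one] at hg1

end H85.QuadModule
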