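import Cfsg.Agent.Lib.H85.RankOneTrans

/-!
Normal subgroups of rank one groups: dichotomy, quasisimplicity, second centre.
-/
set_option autoImplicit false

namespace H85.RankOneNormal

open Cfsg H85.RankOne H85.RankOneTrans

variable {X : Type*} [Group X]

theorem nilpotent_quotient_of_sup {M A : Subgroup X} [M.Normal] (hA : Group.IsNilpotent A) (h : M ⊔ A = ⊤) :
    Group.IsNilpotent (X ⧸ M) := by
  have hsurj : Function.Surjective ((QuotientGroup.mk' M).comp A.subtype) := by
    intro q
    obtain ⟨x, rfl⟩ := QuotientGroup.mk'_surjective M q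
    have hx : x ∈ M ⊔ A := by rw [h]; trivial
    obtain ⟨m, hm, a, ha, rfl⟩ := Subgroup.mem_sup_of_normal_left.1 hx
    refine ⟨⟨a, ha⟩, ?_⟩
    simp only [MonoidHom.comp_apply, Subgroup.coe_subtype, QuotientGroup.mk'_apply]
    rw [QuotientGroup.eq]
    have h3 := (inferInstance : M.Normal).conj_mem _ hm a⁻¹
    have : a⁻¹ * (m * a) = a⁻¹ * m * a⁻¹⁻¹ := by group
    rw [this]; exact h3
  exact Group.nilpotent_of_surjective _ hsurj

theorem dichotomy {A B : Subgroup X} (h : IsRankOneGroup X A B) (N : Subgroup X) [N.Normal] :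
    N ⊔ A = ⊤ ∨ N ≤ Subgroup.center X := by
  obtain ⟨hgen, hp⟩ := h
  rcases normal_dichotomy' hp N (by rw [hgen]; exact le_top) (fun x _ => conjBy_normal x) with h1 | h1
  · left; rw [h1, hgen]
  · right
    intro n hn
    rw [Subgroup.mem_center_iff]
    intro g
    exact (h1 n hn g (by rw [hgen]; trivial)).symm

theorem center_ne_top {A B : Subgroup X} (h : IsRankOnePair A B) : Subgroup.center X ≠ ⊤ := by
  intro hc
  apply bracket_ne_bot h
  rw [bracket_eq_bot_iff]
  intro a _ b _
  have : b ∈ Subgroup.center X := by rw [hc]; trivial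
  exact Subgroup.mem_center_iff.1 this a

theorem quasisimple {A B : Subgroup X} (h : IsRankOneGroup X A B) (hperf : Group.IsPerfect X) : IsQuasisimple X := by
  refine ⟨hperf, ?_⟩
  have hXA : ∀ M : Subgroup X, M.Normal → M ⊔ A = ⊤ → M = ⊤ := by
    intro M hM hMA
    by_contra hMt
    have hnil : Group.IsNilpotent (X ⧸ M) := nilpotent_quotient_of_sup h.2.nilpotent_left hMA
    have hp2 : Group.IsPerfect (X ⧸ M) := inferInstance
    have : Nontrivial (X ⧸ M) := by
      rw [QuotientGroup.nontrivial_iff]; exact hMt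
    exact (Group.IsPerfect.not_isNilpotent (X ⧸ M)) hnil
  have hnt : Nontrivial (X ⧸ Subgroup.center X) := by
    rw [QuotientGroup.nontrivial_iff]; exact center_ne_top h.2
  refine { exists_pair_ne := hnt.exists_pair_ne, eq_bot_or_eq_top_of_normal := ?_ }
  intro K hK
  have hM : (K.comap (QuotientGroup.mk' (Subgroup.center X))).Normal := hK.comap _
  rcases dichotomy h (K.comap (QuotientGroup.mk' (Subgroup.center X))) with h1 | h1
  · right
    have h2 := hXA _ hM h1
    rw [eq_top_iff]
    intro q _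
    obtain ⟨x, rfl⟩ := QuotientGroup.mk'_surjective _ q
    have : x ∈ K.comap (QuotientGroup.mk' (Subgroup.center X)) := by rw [h2]; trivial
    exact this
  · left
    rw [eq_bot_iff]
    intro q hq
    obtain ⟨x, rfl⟩ := QuotientGroup.mk'_surjective _ q
    have hx : x ∈ K.comap (QuotientGroup.mk' (Subgroup.center X)) := hq
    have := h1 hx
    rw [Subgroup.mem_bot]
    exact (QuotientGroup.eq_one_iff x).2 this

theorem upperCentralSeries_two {A B : Subgroup X} (h : IsRankOneGroup X A B) :
    Subgroup.upperCentralSeries X 2 = Subgroup.center X := by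
  have hle : Subgroup.center X ≤ Subgroup.upperCentralSeries X 2 := by
    rw [← Subgroup.upperCentralSeries_one]
    exact Subgroup.upperCentralSeries_mono X (by norm_num)
  refine le_antisymm ?_ hle
  rcases normal_dichotomy h.2 (Subgroup.upperCentralSeries X 2) (by rw [h.1]; exact le_top)
    (fun x _ => conjBy_normal x) with ⟨n, hn, e⟩ | h1
  · exfalso
    rw [show (2 : ℕ) = 1 + 1 from rfl, Subgroup.mem_upperCentralSeries_succ_iff] at hn
    obtain ⟨b, hb, hb1⟩ := exists_ne_one (right_ne_bot h.2)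
    -- b = n a n⁻¹ with n a n⁻¹ a⁻¹ central
    have hb' : b ∈ conjBy A n := by rw [e]; exact hb
    rw [mem_conjBy] at hb'
    have h2 := hn (n⁻¹ * b * n)
    rw [Subgroup.upperCentralSeries_one] at h2
    rw [commutatorElement_def] at h2
    have h3 : n * (n⁻¹ * b * n) * n⁻¹ * (n⁻¹ * b * n)⁻¹ = b * (n⁻¹ * b * n)⁻¹ := by group
    rw [h3] at h2
    apply hb1
    apply eq_one_of_conjBy_eq' h.2 hb
    have h4 : b = (b * (n⁻¹ * b * n)⁻¹) * (n⁻¹ * b * n) := by group
    rw [h4, conjBy_mul, conjBy_self hb', conjBy_eq_self_iff]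
    exact Subgroup.center_le_normalizer _ h2
  · intro n hn
    rw [Subgroup.mem_center_iff]
    intro g
    exact (h1 n hn g (by rw [h.1]; trivial)).symm

theorem not_nilpotent {A B : Subgroup X} (h : IsRankOneGroup X A B) : ¬ Group.IsNilpotent X := by
  intro hn
  obtain ⟨n, hn⟩ := Group.IsNilpotent.nilpotent X
  have h1 : ∀ m, Subgroup.upperCentralSeries X (m + 1) = Subgroup.center X := by
    intro m
    induction m with
    | zero => exact Subgroup.upperCentralSeries_one X
    | succ k ih =>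
      ext x
      rw [Subgroup.mem_upperCentralSeries_succ_iff, ih, ← upperCentralSeries_two h, show (2 : ℕ) = 1 + 1 from rfl,
        Subgroup.mem_upperCentralSeries_succ_iff, Subgroup.upperCentralSeries_one]
      rw [show (1 : ℕ) + 1 = 2 from rfl, upperCentralSeries_two h]
  have h2 : Subgroup.upperCentralSeries X (n + 1) = ⊤ := by
    rw [eq_top_iff, ← hn]
    exact Subgroup.upperCentralSeries_mono X (by omega)
  rw [h1] at h2
  exact center_ne_top h.2 h2

/-- the rank one group ⟨A, B⟩ as a group -/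
theorem isRankOneGroup_subgroupOf {G : Type*} [Group G] {A B : Subgroup G} (h : IsRankOnePair A B) :
    IsRankOneGroup ↥(A ⊔ B) (A.subgroupOf (A ⊔ B)) (B.subgroupOf (A ⊔ B)) := by
  have hA : A ≤ A ⊔ B := le_sup_left
  have hB : B ≤ A ⊔ B := le_sup_right
  have mc : ∀ (C : Subgroup G) (g : ↥(A ⊔ B)), C ≤ A ⊔ B →
      conjBy (C.subgroupOf (A ⊔ B)) g = (conjBy C (g : G)).subgroupOf (A ⊔ B) := by
    intro C g _
    ext x
    rw [mem_conjBy, Subgroup.mem_subgroupOf, Subgroup.mem_subgroupOf, mem_conjBy]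
    simp
  refine ⟨?_, ?_, ?_, ?_, ?_, ?_⟩
  · rw [← Subgroup.subgroupOf_sup hA hB, Subgroup.subgroupOf_self]
  · intro e
    apply h.ne
    have := congrArg (Subgroup.map (A ⊔ B).subtype) e
    rwa [Subgroup.map_subgroupOf_eq_of_le hA, Subgroup.map_subgroupOf_eq_of_le hB] at this
  · haveI := h.nilpotent_left
    exact Group.nilpotent_of_mulEquiv (Subgroup.subgroupOfEquivOfLe hA).symm
  · haveI := h.nilpotent_right
    exact Group.nilpotent_of_mulEquiv (Subgroup.subgroupOfEquivOfLe hB).symm
  · intro a ha ha1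
    obtain ⟨b, hb, hb1, e⟩ := h.cond_left a ha (fun e => ha1 (Subtype.ext e))
    refine ⟨⟨b, hB hb⟩, hb, fun e => hb1 (congrArg Subtype.val e), ?_⟩
    rw [mc _ _ hA, mc _ _ hB]
    simp only [InvMemClass.coe_inv]
    rw [e]
  · intro a ha ha1
    obtain ⟨b, hb, hb1, e⟩ := h.cond_right a ha (fun e => ha1 (Subtype.ext e))
    refine ⟨⟨b, hA hb⟩, hb, fun e => hb1 (congrArg Subtype.val e), ?_⟩
    rw [mc _ _ hA, mc _ _ hB]
    simp only [InvMemClass.coe_inv]
    rw [e]

theorem not_nilpotent_sup {G : Type*} [Group G] {A B : Subgroup G} (h : IsRankOnePair A B) :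
    ¬ Group.IsNilpotent ↥(A ⊔ B) := not_nilpotent (isRankOneGroup_subgroupOf h)

end H85.RankOneNormal
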