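import Cfsg.Agent.Lib.H85.RootSub2

/-!
Sets of abstract root subgroups: connected components of the graph of rank one pairs (S5031, S5032, S5035).
-/
set_option autoImplicit false

namespace H85.RootComp

open Cfsg H85.RankOne H85.RankOneTrans H85.RootSub H85.RootSub2

variable {G : Type*} [Group G] {S : Set (Subgroup G)}

/-- A, B commuting members, (A, D) a rank one pair, (D, B) in the commutator case: a member meeting the set A# B is a
rank one partner of D. -/
theorem rankOne_of_case (hS : IsRootSubgroupSet S) {A B D E : Subgroup G} (hD : D ∈ S) (hE : E ∈ S)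
    (hAB : ∀ a ∈ A, ∀ b ∈ B, a * b = b * a) (hAD : IsRankOnePair A D) (hDB : RootCommutatorCase S D B) {a b : G}
    (ha : a ∈ A) (ha1 : a ≠ 1) (hb : b ∈ B) (hab : a * b ∈ E) : IsRankOnePair E D := by
  rcases rankOne_or_conj_comm hS hE hD with h | h
  · exact h
  exfalso
  have h1 := h (a * b) hab
  rw [hAB a ha b hb, conjBy_mul] at h1
  -- P = D^a commutes with D^{b⁻¹}
  have hP : conjBy D a ∈ S := hS.conj_mem D hD a
  have hDP : IsRankOnePair D (conjBy D a) := pair_conj_right hAD ha ha1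
  obtain ⟨δ, hδ, hδ1⟩ := exists_ne_one (hS.ne_bot D hD)
  set f := δ⁻¹ * b⁻¹ * δ⁻¹⁻¹ * b⁻¹⁻¹ with hf
  have hfF : f ∈ ⁅D, B⁆ := bracket_mem (D.inv_mem hδ) (B.inv_mem hb)
  have h2 : ∀ p ∈ conjBy D a, p * (δ * f) = (δ * f) * p := by
    intro p hp
    have e1 : δ * f = b⁻¹ * δ * b := by rw [hf]; group
    have h3 := h1 (b * p * b⁻¹) (conj_mem_conjBy hp) δ hδ
    rw [e1]
    calc p * (b⁻¹ * δ * b) = b⁻¹ * ((b * p * b⁻¹) * δ) * b := by group
      _ = b⁻¹ * (δ * (b * p * b⁻¹)) * b := by rw [h3]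
      _ = _ := by group
  have h3 : conjBy (conjBy D a) (δ * f) = conjBy D a := by
    ext x
    rw [mem_conjBy]
    constructor
    · intro hx
      have h4 := h2 _ hx
      have : x = (δ * f)⁻¹ * x * (δ * f) := by
        calc x = (δ * f) * ((δ * f)⁻¹ * x * (δ * f)) * (δ * f)⁻¹ := by group
          _ = _ := by rw [← h4]; group
      rw [this]; exact hx
    · intro hx
      have h4 := h2 _ hx
      have : (δ * f)⁻¹ * x * (δ * f) = x := by rw [mul_assoc, h4]; group
      rw [this]; exact hx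
  have h4 : conjBy (conjBy D a) f = conjBy (conjBy D a) δ⁻¹ := by
    rw [conjBy_mul, conjBy_eq_iff] at h3; exact h3
  have h5 : IsRankOnePair (conjBy D a) (conjBy (conjBy D a) δ⁻¹) :=
    pair_conj_left (RankOnePair_symm hDP) (D.inv_mem hδ) (inv_ne_one.2 hδ1)
  have hf1 : f ≠ 1 := by
    intro e
    rw [e, conjBy_one] at h4
    exact h5.ne h4
  rcases rankOne_or_conj_comm hS hDB.1 hP with h6 | h6
  · obtain ⟨p, hp, -, ep⟩ := conj_partner' h6 hfF hf1
    obtain ⟨p', hp', -, ep'⟩ := conj_partner' hDP (D.inv_mem hδ) (inv_ne_one.2 hδ1)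
    have e1 : ⁅D, B⁆ = conjBy D (p⁻¹ * p') := by
      rw [conjBy_mul, ep', ← h4, ← ep, conjBy_inv_conjBy]
    have hcomm : ⁅D, ⁅D, B⁆⁆ = ⊥ := by
      rw [bracket_eq_bot_iff]
      intro d hd c hc
      exact (hDB.2.1 c hc d (Subgroup.mem_sup_left hd)).symm
    by_cases h7 : p⁻¹ * p' = 1
    · rw [h7, conjBy_one] at e1
      apply hS.ne_bot _ hDB.1
      rw [bracket_eq_bot_iff]
      intro d hd x hx
      rw [← e1] at hd
      exact hDB.2.1 d hd x (Subgroup.mem_sup_right hx)
    · have h8 := pair_conj_left hDP ((conjBy D a).mul_mem ((conjBy D a).inv_mem hp) hp') h7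
      rw [← e1] at h8
      exact bracket_ne_bot h8 hcomm
  · apply bracket_ne_bot h5
    rw [← h4, bracket_eq_bot_iff]
    intro x hx y hy
    exact (h6 f hfF y hy x hx).symm

/-! ### Reachability in 𝓕(S) -/

theorem FAdj_symm {A B : Subgroup G} (h : FAdj S A B) : FAdj S B A := ⟨h.2.1, h.1, RankOnePair_symm h.2.2⟩

theorem reach_symm {A B : Subgroup G} (h : Relation.ReflTransGen (FAdj S) A B) : Relation.ReflTransGen (FAdj S) B A := by
  induction h with
  | refl => exact Relation.ReflTransGen.refl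
  | tail _ h ih => exact (Relation.ReflTransGen.single (FAdj_symm h)).trans ih

theorem reach_mem {A B : Subgroup G} (hA : A ∈ S) (h : Relation.ReflTransGen (FAdj S) A B) : B ∈ S := by
  induction h with
  | refl => exact hA
  | tail _ h _ => exact h.2.1

theorem reach_conj (hS : IsRootSubgroupSet S) {A B : Subgroup G} (g : G) (h : Relation.ReflTransGen (FAdj S) A B) :
    Relation.ReflTransGen (FAdj S) (conjBy A g) (conjBy B g) := by
  induction h with
  | refl => exact Relation.ReflTransGen.refl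
  | tail _ h ih =>
    exact ih.tail ⟨hS.conj_mem _ h.1 g, hS.conj_mem _ h.2.1 g, isRankOnePair_conj h.2.2 g⟩

theorem component_eq {A B : Subgroup G} (h : Relation.ReflTransGen (FAdj S) A B) :
    componentOf (FAdj S) S A = componentOf (FAdj S) S B := by
  ext C
  exact ⟨fun ⟨hC, h1⟩ => ⟨hC, (reach_symm h).trans h1⟩, fun ⟨hC, h1⟩ => ⟨hC, h.trans h1⟩⟩

theorem exists_partner_of_component {A B : Subgroup G} (h : Relation.ReflTransGen (FAdj S) A B) (hne : B ≠ A) :
    ∃ D ∈ S, IsRankOnePair A D := by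
  rcases Relation.ReflTransGen.cases_head h with e | ⟨D, hD, -⟩
  · exact absurd e.symm hne
  · exact ⟨D, hD.2.1, hD.2.2⟩

/-- Members of a line with rank one partners lie in the same component. -/
theorem reach_of_line (hS : IsRootSubgroupSet S) {A B D D' E : Subgroup G} (hA : A ∈ S) (hB : B ∈ S) (hD : D ∈ S)
    (hAD : IsRankOnePair A D) (hD' : D' ∈ S) (hBD' : IsRankOnePair B D')
    (hAB : ∀ a ∈ A, ∀ b ∈ B, a * b = b * a) {a b : G} (ha : a ∈ A) (ha1 : a ≠ 1) (hb : b ∈ B) (hb1 : b ≠ 1)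
    (hE : E ∈ S) (hab : a * b ∈ E) (hab1 : a * b ≠ 1) : Relation.ReflTransGen (FAdj S) A B := by
  by_contra hc
  have key : ∀ {A B D : Subgroup G}, A ∈ S → B ∈ S → D ∈ S → IsRankOnePair A D →
      (∀ a ∈ A, ∀ b ∈ B, a * b = b * a) → ∀ {a b : G}, a ∈ A → a ≠ 1 → b ∈ B → b ≠ 1 → a * b ∈ E → a * b ≠ 1 →
      ¬ Relation.ReflTransGen (FAdj S) A B → Relation.ReflTransGen (FAdj S) A E := by
    intro A B D hA hB hD hAD hAB a b ha ha1 hb hb1 hab hab1 hc
    rcases hS.pair D hD B hB with h | h | h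
    · exfalso
      rw [bracket_eq_bot_iff] at h
      have hz : ∀ x ∈ A ⊔ D, b * x = x * b :=
        commute_sup (fun a ha => (hAB a ha b hb).symm) (fun d hd => (h d hd b hb).symm)
      have e := hAB a ha b hb
      rw [e] at hab hab1
      exact zmul_notMem hS hA hD hAD hz hb1 ha ha1 hE hab hab1
    · exfalso
      exact hc ((Relation.ReflTransGen.single ⟨hA, hD, hAD⟩).tail ⟨hD, hB, h⟩)
    · have h1 := rankOne_of_case hS hD hE hAB hAD h ha ha1 hb hab
      exact (Relation.ReflTransGen.single ⟨hA, hD, hAD⟩).tail ⟨hD, hE, RankOnePair_symm h1⟩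
  have h1 := key hA hB hD hAD hAB ha ha1 hb hb1 hab hab1 hc
  have e := hAB a ha b hb
  have h2 := key hB hA hD' hBD' (fun b hb a ha => (hAB a ha b hb).symm) hb hb1 ha ha1 (by rw [← e]; exact hab)
    (by rw [← e]; exact hab1) (fun h => hc (reach_symm h))
  exact hc (h1.trans (reach_symm h2))

theorem reach_of_linePartner (hS : IsRootSubgroupSet S) {A B D D' : Subgroup G} (hA : A ∈ S) (hD : D ∈ S)
    (hAD : IsRankOnePair A D) (hD' : D' ∈ S) (hBD' : IsRankOnePair B D') (hB : B ∈ linePartners S A) :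
    Relation.ReflTransGen (FAdj S) A B := by
  obtain ⟨⟨hBS, hBA, hcomm⟩, hpart⟩ := hB
  rw [bracket_eq_bot_iff] at hcomm
  obtain ⟨a, ha, ha1⟩ := exists_ne_one (hS.ne_bot A hA)
  obtain ⟨b, hb, hb1⟩ := exists_ne_one (hS.ne_bot B hBS)
  have hab1 : a * b ≠ 1 := by
    intro e
    apply hBA
    apply Eq.symm
    apply eq_of_mem hS hD hAD hBS ha _ ha1
    rw [eq_inv_of_mul_eq_one_left e]; exact B.inv_mem hb
  obtain ⟨E, ⟨hE, -⟩, hab⟩ := hpart.2.1 (a * b) (Subgroup.mul_mem _ (Subgroup.mem_sup_left ha) (Subgroup.mem_sup_right hb)) hab1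
  exact reach_of_line hS hA hBS hD hAD hD' hBD' hcomm ha ha1 hb hb1 hE hab hab1

theorem result_5031 (hS : Cfsg.IsRootSubgroupSet S)
    {A B : Subgroup G} (hA : A ∈ S) (_hB : B ∈ S)
    (hne : Cfsg.componentOf (Cfsg.FAdj S) S A ≠ Cfsg.componentOf (Cfsg.FAdj S) S B)
    (hA2 : ∃ A' ∈ Cfsg.componentOf (Cfsg.FAdj S) S A, A' ≠ A) (hB2 : ∃ B' ∈ Cfsg.componentOf (Cfsg.FAdj S) S B, B' ≠ B) :
    B ∉ Cfsg.linePartners S A := by
  intro h
  obtain ⟨A', ⟨-, hA'⟩, hAA'⟩ := hA2
  obtain ⟨B', ⟨-, hB'⟩, hBB'⟩ := hB2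
  obtain ⟨D, hD, hAD⟩ := exists_partner_of_component hA' hAA'
  obtain ⟨D', hD', hBD'⟩ := exists_partner_of_component hB' hBB'
  exact hne (component_eq (reach_of_linePartner hS hA hD hAD hD' hBD' h))

/-- In the commutator case (with rank one partners for A, B and C = ⁅A, B⁆) the members A, B lie in one component. -/
theorem reach_of_case (hS : IsRootSubgroupSet S) (hF : ∀ A ∈ S, ¬ IsIsolatedIn (FAdj S) S A) {A B : Subgroup G}
    (hA : A ∈ S) (hB : B ∈ S) (h : RootCommutatorCase S A B) :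
    Relation.ReflTransGen (FAdj S) A B ∧ Relation.ReflTransGen (FAdj S) A ⁅A, B⁆ := by
  obtain ⟨D, hD, hAD⟩ := not_isolated (hF A hA) hA
  obtain ⟨D', hD', hBD'⟩ := not_isolated (hF B hB) hB
  obtain ⟨D'', hD'', hCD''⟩ := not_isolated (hF _ h.1) h.1
  have h1 := (line_partition hS h hA (lineData hS h hD hAD hA)).2.2
  have h2 := (line_partition hS (case_symm h) hB (lineData hS (case_symm h) hD' hBD' hB)).2.2
  rw [Subgroup.commutator_comm B A] at h2
  have h3 := reach_of_linePartner hS h.1 hD'' hCD'' hD hAD h1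
  have h4 := reach_of_linePartner hS h.1 hD'' hCD'' hD' hBD' h2
  exact ⟨(reach_symm h3).trans h4, reach_symm h3⟩

theorem conj_of_FAdj {A B : Subgroup G} (h : IsRankOnePair A B) : ∃ g : G, B = conjBy A g := by
  obtain ⟨x, -, e⟩ := right_mem h
  exact ⟨x, e⟩

theorem conj_of_reach {A B : Subgroup G} (h : Relation.ReflTransGen (FAdj S) A B) : ∃ g : G, B = conjBy A g := by
  induction h with
  | refl => exact ⟨1, by rw [conjBy_one]⟩
  | tail _ h ih =>
    obtain ⟨g, rfl⟩ := ih
    obtain ⟨x, rfl⟩ := conj_of_FAdj h.2.2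
    exact ⟨x * g, by rw [conjBy_mul]⟩

theorem nonisolated_conj (hS : IsRootSubgroupSet S) {A : Subgroup G} (hA : ¬ IsIsolatedIn (FAdj S) S A) (hAS : A ∈ S)
    (g : G) : ¬ IsIsolatedIn (FAdj S) S (conjBy A g) := by
  obtain ⟨D, hD, hAD⟩ := not_isolated hA hAS
  exact not_isolated_of (hS.conj_mem A hAS g) (hS.conj_mem D hD g) (isRankOnePair_conj hAD g)

theorem class_nonisolated (hS : IsRootSubgroupSet S) (hc : IsConjClassOfSubgroups S)
    (hne : ∃ A ∈ S, ¬ IsIsolatedIn (FAdj S) S A) : ∀ A ∈ S, ¬ IsIsolatedIn (FAdj S) S A := by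
  obtain ⟨A, hA, hA'⟩ := hne
  intro B hB
  obtain ⟨g, rfl⟩ := hc.2 A hA B hB
  exact nonisolated_conj hS hA' hA g

theorem connected_of_class (hS : IsRootSubgroupSet S) (hc : IsConjClassOfSubgroups S)
    (hne : ∃ A ∈ S, ¬ IsIsolatedIn (FAdj S) S A) : IsConnectedFamily (FAdj S) S := by
  have hF := class_nonisolated hS hc hne
  intro A₀ hA₀ B₀ hB₀
  have step : ∀ B ∈ S, ∀ b ∈ B, ∀ E ∈ S, Relation.ReflTransGen (FAdj S) A₀ E → Relation.ReflTransGen (FAdj S) A₀ (conjBy E b) := by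
    intro B hB b hb E hE hr
    by_cases hBr : Relation.ReflTransGen (FAdj S) A₀ B
    · have h1 : Relation.ReflTransGen (FAdj S) B E := (reach_symm hBr).trans hr
      have h2 := reach_conj hS b h1
      rw [conjBy_self hb] at h2
      exact hBr.trans h2
    · have hcomm : ∀ x ∈ E, ∀ y ∈ B, x * y = y * x := by
        rcases hS.pair E hE B hB with h | h | h
        · rwa [bracket_eq_bot_iff] at h
        · exact absurd (hr.tail ⟨hE, hB, h⟩) hBr
        · exact absurd (hr.trans (reach_of_case hS hF hE hB h).1) hBr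
      have : conjBy E b = E := by
        ext x
        rw [mem_conjBy]
        constructor
        · intro hx
          have h4 := hcomm _ hx b hb
          have : x = b⁻¹ * x * b := by
            calc x = b * (b⁻¹ * x * b) * b⁻¹ := by group
              _ = _ := by rw [← h4]; group
          rw [this]; exact hx
        · intro hx
          have h4 := hcomm _ hx b hb
          have : b⁻¹ * x * b = x := by rw [mul_assoc, h4]; group
          rw [this]; exact hx
      rw [this]; exact hr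
  let N : Subgroup G :=
    { carrier := {g | ∀ E ∈ S, Relation.ReflTransGen (FAdj S) A₀ (conjBy E g) ↔ Relation.ReflTransGen (FAdj S) A₀ E}
      one_mem' := by intro E _; rw [conjBy_one]
      mul_mem' := by
        intro g h hg hh E hE
        rw [conjBy_mul, hg _ (hS.conj_mem E hE h), hh E hE]
      inv_mem' := by
        intro g hg E hE
        have := hg _ (hS.conj_mem E hE g⁻¹)
        rw [← this, ← conjBy_mul, mul_inv_cancel, conjBy_one] }
  have hN : (⊤ : Subgroup G) ≤ N := by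
    rw [← hS.generates]
    apply iSup₂_le
    intro B hB b hb E hE
    constructor
    · intro h
      have := step B hB b⁻¹ (B.inv_mem hb) _ (hS.conj_mem E hE b) h
      rwa [← conjBy_mul, inv_mul_cancel, conjBy_one] at this
    · exact step B hB b hb E hE
  obtain ⟨g, rfl⟩ := hc.2 A₀ hA₀ B₀ hB₀
  exact (hN (Subgroup.mem_top g) A₀ hA₀).2 Relation.ReflTransGen.refl

theorem result_5032 (hS : Cfsg.IsRootSubgroupSet S) (h2 : ∃ A ∈ S, ∃ B ∈ S, A ≠ B) :
    Cfsg.IsConnectedFamily (Cfsg.FAdj S) S ↔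
      (Cfsg.IsConjClassOfSubgroups S ∧ ∃ A ∈ S, ¬ Cfsg.IsIsolatedIn (Cfsg.FAdj S) S A) := by
  constructor
  · intro hc
    obtain ⟨A, hA, B, hB, hne⟩ := h2
    refine ⟨⟨⟨A, hA⟩, fun A hA B hB => conj_of_reach (hc A hA B hB)⟩, A, hA, ?_⟩
    obtain ⟨D, hD, hAD⟩ := exists_partner_of_component (hc A hA B hB) hne.symm
    exact not_isolated_of hA hD hAD
  · rintro ⟨hc, hne⟩
    exact connected_of_class hS hc hne

/-! ### Homomorphic images -/

variable {H : Type*} [Group H]

theorem map_conjBy (f : G →* H) (A : Subgroup G) (g : G) : (conjBy A g).map f = conjBy (A.map f) (f g) := by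
  ext x
  rw [mem_conjBy]
  constructor
  · rintro ⟨y, hy, rfl⟩
    have hy' : y ∈ conjBy A g := hy
    rw [mem_conjBy] at hy'
    exact ⟨_, hy', by simp⟩
  · rintro ⟨y, hy, e⟩
    refine ⟨g * y * g⁻¹, conj_mem_conjBy hy, ?_⟩
    rw [map_mul, map_mul, e, map_inv]; group

theorem map_rankOne (hS : IsRootSubgroupSet S) {A B : Subgroup G} (hA : A ∈ S) (h : IsRankOnePair A B)
    (f : G →* H) : A.map f = B.map f ∨ IsRankOnePair (A.map f) (B.map f) := by
  have hker : ∀ x ∈ A ⊔ B, conjBy (f.ker ⊓ (A ⊔ B)) x = f.ker ⊓ (A ⊔ B) := by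
    intro x hx
    rw [conjBy_inf, conjBy_normal, conjBy_self hx]
  rcases normal_dichotomy h (f.ker ⊓ (A ⊔ B)) inf_le_right hker with ⟨n, hn, e⟩ | h1
  · left
    rw [← e, map_conjBy, show f n = 1 from hn.1, conjBy_one]
  · right
    have hAcomm := comm_mem hS hA
    have hmapne : A.map f ≠ B.map f := by
      intro e
      obtain ⟨a, ha, ha1⟩ := exists_ne_one (left_ne_bot h)
      obtain ⟨b, hb, hb1⟩ := exists_ne_one (right_ne_bot h)
      have h2 : a * b * a⁻¹ * b⁻¹ ∈ f.ker ⊓ (A ⊔ B) := by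
        refine ⟨?_, bracket_le (bracket_mem ha hb)⟩
        have : f b ∈ A.map f := by rw [e]; exact ⟨b, hb, rfl⟩
        obtain ⟨a', ha', e'⟩ := this
        show f (a * b * a⁻¹ * b⁻¹) = 1
        rw [map_mul, map_mul, map_mul, map_inv, map_inv, ← e', ← map_mul, hAcomm a ha a' ha']
        simp
      have h3 := h1 _ h2 a (Subgroup.mem_sup_left ha)
      have hp := pair_conj_left h (B.inv_mem hb) (inv_ne_one.2 hb1)
      have h4 : b⁻¹ * a * b⁻¹⁻¹ ∈ conjBy A b⁻¹ := conj_mem_conjBy ha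
      have h5 : a * (b⁻¹ * a * b⁻¹⁻¹) = (b⁻¹ * a * b⁻¹⁻¹) * a := by
        have e5 : a * b * a⁻¹ * b⁻¹ * a = a * (a * b * a⁻¹ * b⁻¹) := h3
        have e6 : b * a⁻¹ * b⁻¹ * a = a * b * a⁻¹ * b⁻¹ := by
          have := congrArg (fun z => a⁻¹ * z) e5
          simpa [mul_assoc] using this
        have e7 : a⁻¹ * (b⁻¹ * a * b) = (b⁻¹ * a * b) * a⁻¹ := by
          calc a⁻¹ * (b⁻¹ * a * b) = b⁻¹ * (b * a⁻¹ * b⁻¹ * a) * b := by group
            _ = b⁻¹ * (a * b * a⁻¹ * b⁻¹) * b := by rw [e6]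
            _ = _ := by group
        rw [inv_inv]
        calc a * (b⁻¹ * a * b) = a * ((b⁻¹ * a * b) * a⁻¹) * a := by group
          _ = a * (a⁻¹ * (b⁻¹ * a * b)) * a := by rw [e7]
          _ = _ := by group
      rcases eq_one_or_of_commute hp ha h4 h5 with h6 | h6
      · exact ha1 h6
      · apply ha1
        calc a = b * (b⁻¹ * a * b⁻¹⁻¹) * b⁻¹ := by group
          _ = 1 := by rw [h6]; group
    have hnil : ∀ {C : Subgroup G}, Group.IsNilpotent C → Group.IsNilpotent (C.map f) := by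
      intro C hC
      have := hC
      exact Group.nilpotent_of_surjective (f.subgroupMap C) (f.subgroupMap_surjective C)
    have hcond : ∀ {A B : Subgroup G}, IsRankOnePair A B → (∀ n ∈ f.ker ⊓ (A ⊔ B), ∀ x ∈ A ⊔ B, n * x = x * n) →
        RankOneCondition (A.map f) (B.map f) := by
      rintro A B h h1 _ ⟨a, ha, rfl⟩ ha1
      have ha1' : a ≠ 1 := by rintro rfl; exact ha1 (map_one f)
      obtain ⟨b, hb, hb1, e⟩ := h.cond_left a ha ha1'
      refine ⟨f b, ⟨b, hb, rfl⟩, ?_, ?_⟩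
      · intro hfb
        exact hb1 (eq_one_of_central (RankOnePair_symm h) hb
          (by rw [sup_comm]; exact h1 b ⟨hfb, Subgroup.mem_sup_right hb⟩))
      · rw [← map_inv, ← map_inv, ← map_conjBy, ← map_conjBy, e]
    refine ⟨hmapne, hnil h.nilpotent_left, hnil h.nilpotent_right, hcond h h1, ?_⟩
    apply hcond (RankOnePair_symm h)
    rw [sup_comm B A]; exact h1

theorem result_5035 (hS : Cfsg.IsRootSubgroupSet S)
    (hc : Cfsg.IsConnectedFamily (Cfsg.FAdj S) S) (f : G →* H) (hf : Function.Surjective f) :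
    (Cfsg.IsRootSubgroupSet ((fun A : Subgroup G => A.map f) '' S) ∧
      Cfsg.IsConnectedFamily (Cfsg.FAdj ((fun A : Subgroup G => A.map f) '' S)) ((fun A : Subgroup G => A.map f) '' S)) ∨
    ∃ A ∈ S, A.map f = ⊤ := by
  have hgen : (⨆ A ∈ S, A.map f) = ⊤ := by
    have h1 : (⨆ A ∈ S, A.map f) = (⨆ A ∈ S, A).map f := by
      simp only [Subgroup.map_iSup]
    rw [h1, hS.generates, ← MonoidHom.range_eq_map, MonoidHom.range_eq_top.2 hf]
  by_cases hbot : ∃ A ∈ S, A.map f = ⊥
  · right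
    obtain ⟨A, hA, hAf⟩ := hbot
    refine ⟨A, hA, ?_⟩
    rw [hAf, ← hgen, eq_comm, eq_bot_iff]
    apply iSup₂_le
    intro B hB
    obtain ⟨g, rfl⟩ := conj_of_reach (hc A hA B hB)
    rw [map_conjBy, hAf, conjBy_eq_bot.2 rfl]
  · left
    push Not at hbot
    constructor
    · refine ⟨?_, ?_, ?_, ?_, ?_⟩
      · rintro _ ⟨A, hA, rfl⟩
        constructor
        constructor
        rintro ⟨_, ⟨x, hx, rfl⟩⟩ ⟨_, ⟨y, hy, rfl⟩⟩
        apply Subtype.ext
        show f x * f y = f y * f x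
        rw [← map_mul, comm_mem hS hA x hx y hy, map_mul]
      · rintro _ ⟨A, hA, rfl⟩; exact hbot A hA
      · rw [iSup_image]; exact hgen
      · rintro _ ⟨A, hA, rfl⟩ h
        obtain ⟨g, rfl⟩ := hf h
        exact ⟨conjBy A g, hS.conj_mem A hA g, map_conjBy f A g⟩
      · rintro _ ⟨A, hA, rfl⟩ _ ⟨B, hB, rfl⟩
        rcases hS.pair A hA B hB with h | h | h
        · left
          show ⁅A.map f, B.map f⁆ = ⊥
          rw [← Subgroup.map_commutator, h, Subgroup.map_bot]
        · rcases map_rankOne hS hA h f with e | h1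
          · left
            show ⁅A.map f, B.map f⁆ = ⊥
            rw [← e, bracket_eq_bot_iff]
            rintro _ ⟨x, hx, rfl⟩ _ ⟨y, hy, rfl⟩
            rw [← map_mul, comm_mem hS hA x hx y hy, map_mul]
          · exact Or.inr (Or.inl h1)
        · right; right
          have hbr : ⁅A.map f, B.map f⁆ = ⁅A, B⁆.map f := (Subgroup.map_commutator A B f).symm
          refine ⟨?_, ?_, ?_, ?_⟩
          · show ⁅A.map f, B.map f⁆ ∈ _
            rw [hbr]; exact ⟨_, h.1, rfl⟩
          · show ∀ c ∈ ⁅A.map f, B.map f⁆, ∀ x ∈ A.map f ⊔ B.map f, c * x = x * c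
            rw [hbr, ← Subgroup.map_sup]
            rintro _ ⟨c, hc, rfl⟩ _ ⟨x, hx, rfl⟩
            rw [← map_mul, h.2.1 c hc x hx, map_mul]
          · rintro _ ⟨a, ha, rfl⟩ ha1
            have ha1' : a ≠ 1 := by rintro rfl; exact ha1 (map_one f)
            show Subgroup.closure ((fun b : H => f a * b * (f a)⁻¹ * b⁻¹) '' ((B.map f : Subgroup H) : Set H)) = ⁅A.map f, B.map f⁆
            rw [hbr, ← h.2.2.1 a ha ha1', MonoidHom.map_closure]
            congr 1
            ext x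
            constructor
            · rintro ⟨_, ⟨b, hb, rfl⟩, rfl⟩
              exact ⟨_, ⟨b, hb, rfl⟩, by simp⟩
            · rintro ⟨_, ⟨b, hb, rfl⟩, rfl⟩
              exact ⟨f b, ⟨b, hb, rfl⟩, by simp⟩
          · rintro _ ⟨b, hb, rfl⟩ hb1
            have hb1' : b ≠ 1 := by rintro rfl; exact hb1 (map_one f)
            show Subgroup.closure ((fun a : H => a * f b * a⁻¹ * (f b)⁻¹) '' ((A.map f : Subgroup H) : Set H)) = ⁅A.map f, B.map f⁆
            rw [hbr, ← h.2.2.2 b hb hb1', MonoidHom.map_closure]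
            congr 1
            ext x
            constructor
            · rintro ⟨_, ⟨a, ha, rfl⟩, rfl⟩
              exact ⟨_, ⟨a, ha, rfl⟩, by simp⟩
            · rintro ⟨_, ⟨a, ha, rfl⟩, rfl⟩
              exact ⟨f a, ⟨a, ha, rfl⟩, by simp⟩
    · rintro _ ⟨A, hA, rfl⟩ _ ⟨B, hB, rfl⟩
      have := hc A hA B hB
      induction this with
      | refl => exact Relation.ReflTransGen.refl
      | tail h1 h2 ih =>
        have ih' := ih h2.1
        rcases map_rankOne hS h2.1 h2.2.2 f with e | h3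
        · show Relation.ReflTransGen _ _ (Subgroup.map f _)
          rw [← e]; exact ih'
        · exact ih'.tail ⟨⟨_, h2.1, rfl⟩, ⟨_, h2.2.1, rfl⟩, h3⟩

end H85.RootComp
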