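import Cfsg.Agent.Lib.H85.RootSpecial

/-!
Non-degenerate classes of abstract root subgroups: S5037, S5040, S5041, S5042.
-/
set_option autoImplicit false

namespace H85.RootGen

open Cfsg H85.RankOne H85.RankOneTrans H85.RootSub H85.RootSub2 H85.RootComp H85.RootLine H85.RootSpecial

variable {G : Type*} [Group G] {S : Set (Subgroup G)}

theorem eadj_of_line {A B : Subgroup G} (h : IsLine S A B) : EAdj S S A B := ⟨h.pS, h.qS, (isLine_iff h.pS).1 h⟩

theorem apt_path (hS : IsRootSubgroupSet S) (hF : ∀ A ∈ S, ¬ IsIsolatedIn (FAdj S) S A) {P Q D : Subgroup G}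
    (h : Apt S P Q D) : Relation.ReflTransGen (EAdj S S) P D := by
  obtain ⟨DQ, hDQ, hp⟩ := not_isolated (hF Q h.qS) h.qS
  have h1 := h.line hS
  have h2 := line_of_case hS (case_symm h.case1) hDQ hp h.qS
  rw [Subgroup.commutator_comm Q D] at h2
  have h3 := (h.lineD hS).symm
  exact ((Relation.ReflTransGen.single (eadj_of_line h1)).tail (eadj_of_line h2)).tail (eadj_of_line h3)

theorem result_5041 (hS : Cfsg.IsRootSubgroupClass S) (hnd : Cfsg.IsNondegenerateRootSet S) :
    Cfsg.IsConnectedFamily (Cfsg.EAdj S S) S ∧ Cfsg.IsConnectedFamily (Cfsg.DAdj S) S := by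
  obtain ⟨hF, hl⟩ := class_facts hS hnd
  have hE : IsConnectedFamily (EAdj S S) S := by
    have hc : IsConnectedFamily (FAdj S) S := by
      obtain ⟨A, hA⟩ := hS.2.1
      exact connected_of_class hS.1 hS.2 ⟨A, hA, hF A hA⟩
    intro A hA B hB
    have := hc A hA B hB
    induction this with
    | refl => exact Relation.ReflTransGen.refl
    | tail h1 h2 ih =>
      obtain ⟨E, hE⟩ := exists_apt_of_pair hS.1 hF hl h2.1 h2.2.1 h2.2.2
      exact (ih h2.1).trans (apt_path hS.1 hF hE)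
  refine ⟨hE, ?_⟩
  intro A hA B hB
  have := hE A hA B hB
  induction this with
  | refl => exact Relation.ReflTransGen.refl
  | tail h1 h2 ih =>
    obtain ⟨hP, hQ, h⟩ := h2
    exact (ih hP).tail ⟨hP, hQ, h.1.2.1.symm, h.1.2.2⟩

theorem result_5042 (hS : Cfsg.IsRootSubgroupClass S) (hnd : Cfsg.IsNondegenerateRootSet S)
    {A B : Subgroup G} (hA : A ∈ S) (hB : B ∈ Cfsg.rankOnePartners S A) :
    (⨆ C ∈ Cfsg.linePartners S A, C) ⊔ B = ⊤ := by
  obtain ⟨hF, hl⟩ := class_facts hS hnd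
  set U := (⨆ C ∈ linePartners S A, C) ⊔ B with hU
  have hle : ∀ P, IsLine S A P → P ≤ U := by
    intro P h
    exact (le_iSup_mem ((isLine_iff hA).1 h)).trans le_sup_left
  have hBU : B ≤ U := le_sup_right
  -- A ≤ U
  have hAU : A ≤ U := by
    obtain ⟨C, hL⟩ := hl A hA
    obtain ⟨D, hD⟩ := exists_apt hS.1 hF hL
    obtain ⟨f, hf, hf1⟩ := exists_ne_one (hS.1.ne_bot _ hD.fS)
    have h1 : conjBy A f ∈ membersIn S (A ⊔ C) := ⟨hS.1.conj_mem A hA f, hD.conj_le hS.1 hf⟩
    have h2 : C ≠ conjBy A f := by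
      intro e
      apply hL.ne
      rw [← hD.conjQ hf] at e
      exact (conjBy_inj.1 e).symm
    have h3 := (apt_of_points hS.1 hF hL hL.right_mem h1 h2).2.1
    have h4 := (apt_of_points hS.1 hF hL hL.left_mem h1 (hD.conj_ne hS.1 hf hf1).symm).2.2
    have h5 : A ≤ C ⊔ conjBy A f := by rw [h3]; exact le_sup_left
    exact h5.trans (sup_le (hle C hL) (hle _ h4))
  have hconj : ∀ P, IsLine S A P → ∃ u ∈ U, P = conjBy A u := by
    intro P hL
    obtain ⟨E, hE, e⟩ := line_opp hS.1 hF hL hB.1 hB.2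
    have hFU : ⁅B, E⁆ ≤ U := (Subgroup.commutator_mono hBU (hle E (hE.line hS.1))).trans (Subgroup.commutator_le_self _)
    have hmem : P ∈ membersIn S (A ⊔ E) := by rw [e]; exact hL.right_mem
    rcases hE.members hS.1 hmem with rfl | ⟨f, hf, h1⟩
    · obtain ⟨D', hD'⟩ := exists_apt hS.1 hF hL.symm
      obtain ⟨p, hp, hp1⟩ := exists_ne_one (hS.1.ne_bot _ hD'.fS)
      have hne := hD'.conj_ne hS.1 hp hp1
      have hpU : p ∈ U := by
        have h2 := line_of_case hS.1 (case_symm hD'.case1) hB.1 hB.2 hA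
        rw [Subgroup.commutator_comm A D'] at h2
        exact hle _ h2 hp
      have hmem2 : conjBy P p ∈ membersIn S (A ⊔ P) := by
        refine ⟨hS.1.conj_mem P hL.qS p, ?_⟩
        rw [sup_comm]; exact hD'.conj_le hS.1 hp
      rcases hE.members hS.1 hmem2 with h3 | ⟨f, hf, h3⟩
      · exact absurd h3 hne
      · refine ⟨p⁻¹ * f, U.mul_mem (U.inv_mem hpU) (hFU hf), ?_⟩
        rw [conjBy_mul, ← h3, conjBy_inv_conjBy]
    · exact ⟨f, hFU hf, h1⟩
  have hall : ∀ P ∈ S, ∃ u ∈ U, P = conjBy A u := by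
    intro P hP
    have := (result_5041 hS hnd).1 A hA P hP
    induction this with
    | refl => exact ⟨1, U.one_mem, (conjBy_one A).symm⟩
    | tail h1 h2 ih =>
      obtain ⟨u, hu, rfl⟩ := ih h2.1
      have h3 := ((isLine_iff h2.1).2 h2.2.2).conj hS.1 u⁻¹
      rw [conjBy_inv_conjBy] at h3
      obtain ⟨v, hv, e⟩ := hconj _ h3
      refine ⟨u * v, U.mul_mem hu hv, ?_⟩
      rw [conjBy_mul, ← e, ← conjBy_mul, mul_inv_cancel, conjBy_one]
  rw [eq_top_iff, ← hS.1.generates]
  apply iSup₂_le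
  intro P hP
  obtain ⟨u, hu, rfl⟩ := hall P hP
  exact conjBy_le_of_mem hAU hu

theorem result_5040 (hS : Cfsg.IsRootSubgroupClass S) (hnd : Cfsg.IsNondegenerateRootSet S)
    {Δ : Set (Subgroup G)} (hΔ : Cfsg.IsWeakTISubset S Δ) : Cfsg.IsAbelianFamily Δ := by
  obtain ⟨hF, hl⟩ := class_facts hS hnd
  obtain ⟨hsub, -, hneS, hTI⟩ := hΔ
  let N : Subgroup G :=
    { carrier := {g | ∀ A, conjBy A g ∈ Δ ↔ A ∈ Δ}
      one_mem' := fun A => by rw [conjBy_one]
      mul_mem' := fun {x y} hx hy A => by rw [conjBy_mul, hx, hy]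
      inv_mem' := fun {x} hx A => by
        rw [← hx (conjBy A x⁻¹), ← conjBy_mul, mul_inv_cancel, conjBy_one] }
  have hN : ∀ E ∈ S, ∀ A ∈ Δ, Cm E A → E ≤ N := by
    intro E hE A hA hcm e he
    by_cases he1 : e = 1
    · rw [he1]; exact N.one_mem
    · have h1 : conjBy A e = A := conjBy_of_comm (fun x hx => hcm e he x hx)
      rcases hTI e ⟨he1, E, hE, he⟩ with h2 | h2
      · intro C
        constructor
        · intro hC
          rw [← h2] at hC
          obtain ⟨C', hC', e'⟩ := hC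
          have : C' = C := conjBy_inj.1 e'
          rwa [← this]
        · intro hC
          rw [← h2]; exact ⟨C, hC, rfl⟩
      · exfalso
        exact Set.disjoint_left.1 h2 ⟨A, hA, h1⟩ hA
  have hfin : ∀ A ∈ Δ, ∀ B ∈ rankOnePartners S A, B ≤ N → False := by
    intro A hA B hB hBN
    have h1 := result_5042 hS hnd (hsub hA) hB
    have h2 : (⊤ : Subgroup G) ≤ N := by
      rw [← h1]
      refine sup_le (iSup₂_le ?_) hBN
      intro C hC
      have hL := (isLine_iff (hsub hA)).2 hC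
      exact hN C hL.qS A hA hL.cm.symm
    apply hneS
    apply Set.Subset.antisymm hsub
    intro C hC
    obtain ⟨g, rfl⟩ := hS.2.2 A (hsub hA) C hC
    exact (h2 (Subgroup.mem_top g) A).2 hA
  intro A hA B hB
  rcases pair' hS.1 (hsub hA) (hsub hB) with h | h | h
  · exact h
  · exfalso
    exact hfin A hA B ⟨hsub hB, h⟩ (hN B (hsub hB) B hB (comm_mem hS.1 (hsub hB)))
  · exfalso
    obtain ⟨D, hD, hAD, hL⟩ := exists_opp hS.1 hF (hsub hA) (hsub hB) h
    exact hfin A hA D ⟨hD, hAD⟩ (hN D hD B hB hL.cm.symm)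

/-! ### S5037 -/

theorem mem_centralizing {A B : Subgroup G} : B ∈ centralizingMembers S A ↔ B ∈ S ∧ Cm B A := by
  refine and_congr_right fun _ => ⟨fun h b hb a ha => ?_, fun h b hb => ?_⟩
  · exact (Subgroup.mem_centralizer_iff.1 (h hb) a ha).symm
  · rw [Subgroup.mem_centralizer_iff]
    intro a ha; exact (h b hb a ha).symm

/-- A ≼ C: members commuting with A commute with C -/
def Dom (S : Set (Subgroup G)) (A C : Subgroup G) : Prop := ∀ B ∈ S, Cm B A → Cm B C

theorem Dom.conj (hS : IsRootSubgroupSet S) {A C : Subgroup G} (h : Dom S A C) (g : G) : Dom S (conjBy A g) (conjBy C g) := by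
  intro B hB hBA
  have h1 := h (conjBy B g⁻¹) (hS.conj_mem B hB _) (by
    have := cm_conj hBA g⁻¹
    rwa [conjBy_inv_conjBy] at this)
  have h2 := cm_conj h1 g
  rwa [← conjBy_mul, mul_inv_cancel, conjBy_one] at h2

theorem Dom.trans {A B C : Subgroup G} (h : Dom S A B) (h' : Dom S B C) : Dom S A C := fun D hD h1 => h' D hD (h D hD h1)

theorem Dom.conj_iff (hS : IsRootSubgroupSet S) {A C : Subgroup G} (g : G) :
    Dom S (conjBy A g) (conjBy C g) ↔ Dom S A C := by
  refine ⟨fun h => ?_, fun h => h.conj hS g⟩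
  have := h.conj hS g⁻¹
  rwa [conjBy_inv_conjBy, conjBy_inv_conjBy] at this

/-- The degenerate case. -/
theorem dom_symm (hS : IsRootSubgroupSet S) {A C D : Subgroup G} (hD : D ∈ S)
    (hAC : Cm A C) (hAD : IsRankOnePair A D) (hCD : IsRankOnePair C D) (h : Dom S A C) : Dom S C A := by
  -- R a c : a ∈ A, c ∈ C and D^{ac} ≼ D
  have hR1 : ∀ a₁ ∈ A, ∀ a₂ ∈ A, ∀ c ∈ C, Dom S (conjBy D (a₁ * c)) D → Dom S (conjBy D (a₂ * c)) D → a₁ = a₂ := by
    intro a₁ ha₁ a₂ ha₂ c hc h1 h2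
    by_contra hne
    have aux : ∀ a ∈ A, Dom S (conjBy D (a * c)) D → Cm (conjBy D a) (conjBy D c⁻¹) := by
      intro a ha h1
      have h3 := h1 _ (hS.conj_mem D hD _) (comm_mem hS (hS.conj_mem D hD (a * c)))
      have h4 := cm_conj h3 c⁻¹
      rw [← conjBy_mul, hAC a ha c hc] at h4
      have e : c⁻¹ * (c * a) = a := by group
      rwa [e] at h4
    have h5 := cm_sup (aux a₁ ha₁ h1) (aux a₂ ha₂ h2)
    have hne' : conjBy D a₁ ≠ conjBy D a₂ := by
      intro e
      apply hne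
      have e1 : conjBy D (a₂⁻¹ * a₁) = D := by rw [conjBy_mul, e, conjBy_inv_conjBy]
      have := eq_one_of_conjBy_eq hAD (A.mul_mem (A.inv_mem ha₂) ha₁) e1
      exact (inv_mul_eq_one.1 this).symm
    have hmem : ∀ a ∈ A, conjBy D a ∈ unipotentSubgroups A D :=
      fun a ha => unip_conj_mem (right_mem hAD) (Subgroup.mem_sup_left ha)
    rw [sup_eq_of_mem hAD (hmem a₁ ha₁) (hmem a₂ ha₂) hne'] at h5
    have h6 : Cm A (conjBy D c⁻¹) := cm_mono h5 le_sup_left le_rfl
    have h7 := isRankOnePair_conj hAD c⁻¹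
    rw [conjBy_of_comm (A := A) (fun x hx => (hAC x hx c⁻¹ (C.inv_mem hc)).symm)] at h7
    exact not_cm_of_pair h7 h6
  have key : ∀ d ∈ D, d ≠ 1 → ∃ a ∈ A, ∃ c ∈ C, conjBy A d = conjBy D a ∧ conjBy C d = conjBy D c ∧
      Dom S (conjBy D (a * c⁻¹)) D := by
    intro d hd hd1
    obtain ⟨a, ha, ha1, ea⟩ := conj_partner hAD hd hd1
    obtain ⟨c, hc, hc1, ec⟩ := conj_partner hCD hd hd1
    refine ⟨a, ha, c, hc, ea, ec, ?_⟩
    have h1 := h.conj hS d
    rw [ea, ec] at h1
    have h2 := h1.conj hS c⁻¹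
    rw [conjBy_inv_conjBy, ← conjBy_mul] at h2
    rwa [hAC a ha c⁻¹ (C.inv_mem hc)]
  have hex : ∀ c ∈ C, ∃ a ∈ A, Dom S (conjBy D (a * c)) D := by
    intro c hc
    by_cases hc1 : c = 1
    · refine ⟨1, A.one_mem, ?_⟩
      rw [hc1, mul_one, conjBy_one]; exact fun _ _ h => h
    · obtain ⟨d, hd, hd1, e⟩ := conj_partner' hCD (C.inv_mem hc) (inv_ne_one.2 hc1)
      obtain ⟨a, ha, c', hc', ea, ec, h1⟩ := key d hd hd1
      have : c' = c⁻¹ := by
        rw [e] at ec
        have e1 : conjBy D (c * c') = D := by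
          rw [conjBy_mul, ← ec, ← conjBy_mul, mul_inv_cancel, conjBy_one]
        exact eq_inv_of_mul_eq_one_right (eq_one_of_conjBy_eq hCD (C.mul_mem hc hc') e1)
      rw [this, inv_inv] at h1
      exact ⟨a, ha, h1⟩
  have hmul : ∀ a₁ ∈ A, ∀ a₂ ∈ A, ∀ c₁ ∈ C, ∀ c₂ ∈ C, Dom S (conjBy D (a₁ * c₁)) D → Dom S (conjBy D (a₂ * c₂)) D →
      Dom S (conjBy D (a₁ * a₂ * (c₁ * c₂))) D := by
    intro a₁ ha₁ a₂ ha₂ c₁ hc₁ c₂ hc₂ h1 h2
    have e : a₁ * a₂ * (c₁ * c₂) = (a₁ * c₁) * (a₂ * c₂) := by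
      calc a₁ * a₂ * (c₁ * c₂) = a₁ * (a₂ * c₁) * c₂ := by simp only [mul_assoc]
        _ = a₁ * (c₁ * a₂) * c₂ := by rw [hAC a₂ ha₂ c₁ hc₁]
        _ = _ := by simp only [mul_assoc]
    rw [e, conjBy_mul]
    exact (h2.conj hS (a₁ * c₁)).trans h1
  have hinv : ∀ a ∈ A, ∀ c ∈ C, Dom S (conjBy D (a * c)) D → Dom S (conjBy D (a⁻¹ * c⁻¹)) D := by
    intro a ha c hc h1
    obtain ⟨a', ha', h2⟩ := hex c⁻¹ (C.inv_mem hc)
    have h3 := hmul a ha a' ha' c hc c⁻¹ (C.inv_mem hc) h1 h2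
    rw [mul_inv_cancel] at h3
    have h4 := hR1 (a * a') (A.mul_mem ha ha') 1 A.one_mem 1 C.one_mem h3 (by
      rw [mul_one, conjBy_one]; exact fun _ _ h => h)
    rwa [eq_inv_of_mul_eq_one_right h4] at h2
  obtain ⟨d, hd, hd1⟩ := exists_ne_one (right_ne_bot hAD)
  obtain ⟨a, ha, c, hc, ea, ec, h1⟩ := key d hd hd1
  have h2 := hinv a ha c⁻¹ (C.inv_mem hc) h1
  rw [inv_inv] at h2
  -- D^{a⁻¹c} ≼ D, so D^c ≼ D^a
  have h3 := h2.conj hS a
  rw [← conjBy_mul, mul_inv_cancel_left, ← ea, ← ec, Dom.conj_iff hS] at h3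
  exact h3

/-- In the non-degenerate case: if A ≼ C then Ω_A ⊆ Ω_C. -/
theorem omega_sub (hS : IsRootSubgroupClass S) (hnd : IsNondegenerateRootSet S) {A C : Subgroup G} (hA : A ∈ S)
    (hC : C ∈ S) (hdom : Dom S A C) : rankOnePartners S A ⊆ rankOnePartners S C := by
  obtain ⟨hF, hl⟩ := class_facts hS hnd
  rintro B ⟨hB, hAB⟩
  refine ⟨hB, ?_⟩
  have hAC : Cm A C := hdom A hA (comm_mem hS.1 hA)
  have hcen : ¬ Cm B C := by
    intro hBC
    have h1 := result_5042 hS hnd hA ⟨hB, hAB⟩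
    obtain ⟨D, hD, hCD⟩ := not_isolated (hF C hC) hC
    have h2 : (⊤ : Subgroup G) ≤ Subgroup.centralizer (C : Set G) := by
      rw [← h1]
      apply sup_le
      · apply iSup₂_le
        intro P hP
        have hL := (isLine_iff hA).2 hP
        exact (mem_centralizing.2 ⟨hL.qS, hdom P hL.qS hL.cm.symm⟩).2
      · exact (mem_centralizing.2 ⟨hB, hBC⟩).2
    apply not_cm_of_pair hCD
    intro c hc d _
    exact Subgroup.mem_centralizer_iff.1 (h2 (Subgroup.mem_top d)) c hc
  rcases pair' hS.1 hB hC with h | h | h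
  · exact absurd h hcen
  · exact RankOnePair_symm h
  · exfalso
    have NM := nm hS.1 hA hB hAB hAC h
    have hBC : IsRankOnePair B A := RankOnePair_symm hAB
    obtain ⟨c, hc, hc1⟩ := exists_ne_one (hS.1.ne_bot C hC)
    obtain ⟨e', he', hz⟩ := NM.cent c hc
    have he1 : e' ≠ 1 := by
      rintro rfl
      obtain ⟨b, hb, hb1⟩ := exists_ne_one (hS.1.ne_bot B hB)
      rw [one_mul] at hz
      exact case_ne_comm hS.1 h hA hBC hB hb hc hb1 hc1 (hz b (Subgroup.mem_sup_right hb)).symm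
    have hL1 : IsLine S A ⁅A, ⁅B, C⁆⁆ := line_of_case hS.1 NM.case1 hB hAB hA
    obtain ⟨D', hD'⟩ := exists_apt hS.1 hF hL1.symm
    -- P' = ⁅D', A⁆ with ⁅E', P'⁆ = A
    have hL2 : IsLine S A ⁅A, D'⁆ := line_of_case hS.1 (case_symm hD'.case1) hB hAB hA
    rw [Subgroup.commutator_comm A D'] at hL2
    obtain ⟨Q, hQ, eQ⟩ := line_opp hS.1 hF hL2 hB hAB
    have hQC : Cm Q C := hdom Q hQ.qS hQ.cm.symm
    have hEA : Cm ⁅A, ⁅B, C⁆⁆ A := hL1.cm.symm
    have hbr : ∀ p ∈ ⁅D', A⁆, e' * p * e'⁻¹ * p⁻¹ ∈ A := by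
      intro p hp
      have := bracket_mem he' hp
      rwa [hD'.eq] at this
    have hform : ∀ q ∈ Q, ∃ p ∈ ⁅D', A⁆, e' * q * e'⁻¹ * q⁻¹ = e' * p * e'⁻¹ * p⁻¹ ∧ (q ≠ 1 → p ≠ 1) := by
      intro q hq
      have h1 : q ∈ A ⊔ ⁅D', A⁆ := by rw [← eQ]; exact Subgroup.mem_sup_right hq
      rw [mem_sup_comm hL2.cm] at h1
      obtain ⟨a, ha, p, hp, rfl⟩ := h1
      refine ⟨p, hp, ?_, ?_⟩
      · have h2 := hbr p hp
        have h3 := comm_mem hS.1 hA a ha _ h2
        have h4 := hEA e' he' a ha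
        calc e' * (a * p) * e'⁻¹ * (a * p)⁻¹ = (e' * a) * p * e'⁻¹ * p⁻¹ * a⁻¹ := by group
          _ = a * (e' * p * e'⁻¹ * p⁻¹) * a⁻¹ := by rw [h4]; group
          _ = _ := by rw [h3]; group
      · intro hq1 hp1
        rw [hp1, mul_one] at hq hq1
        have hlQ : IsLine S A Q := hQ.line hS.1
        exact hlQ.ne (hlQ.eq_of_mem hlQ.left_mem hlQ.right_mem hq1 ha hq)
    have hlQ : IsLine S A Q := hQ.line hS.1
    have hzQ : conjBy Q (e' * c) = conjBy Q e' := by
      rw [conjBy_mul, conjBy_of_comm (A := Q) (fun x hx => (hQC x hx c hc).symm)]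
    have hle : conjBy Q e' ≤ A ⊔ Q := by
      intro x hx
      rw [mem_conjBy] at hx
      obtain ⟨p, hp, e1, -⟩ := hform _ hx
      have e2 : x = (e' * (e'⁻¹ * x * e') * e'⁻¹ * (e'⁻¹ * x * e')⁻¹) * (e'⁻¹ * x * e') := by group
      rw [e2]
      refine Subgroup.mul_mem _ (Subgroup.mem_sup_left ?_) (Subgroup.mem_sup_right hx)
      rw [e1]; exact hbr p hp
    have hconjQ : conjBy Q e' = Q := by
      have hmem : conjBy Q e' ∈ membersIn S (A ⊔ Q) := ⟨hS.1.conj_mem Q hQ.qS e', hle⟩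
      rcases hQ.members hS.1 hmem with h1 | ⟨f, hf, h1⟩
      · exact h1
      · exfalso
        have h2 := hQ.pair_conj hf
        rw [← h1, ← hzQ] at h2
        have h3 := case_conj hS.1 hQ.dS hQ.qS hQ.case1 (e' * c)
        have h4 : conjBy B (e' * c) = B :=
          conjBy_of_comm (fun b hb => hz b (Subgroup.mem_sup_right hb))
        rw [h4] at h3
        exact not_pair_of_case h3 (RankOnePair_symm h2)
    obtain ⟨q, hq, hq1⟩ := exists_ne_one (hS.1.ne_bot Q hQ.qS)
    obtain ⟨p, hp, e1, hp1⟩ := hform q hq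
    have h1 : e' * q * e'⁻¹ * q⁻¹ ∈ Q := by
      have h2 : e' * q * e'⁻¹ ∈ conjBy Q e' := conj_mem_conjBy hq
      rw [hconjQ] at h2
      exact Q.mul_mem h2 (Q.inv_mem hq)
    have h3 : e' * q * e'⁻¹ * q⁻¹ = 1 := by
      by_contra h4
      apply hlQ.ne
      apply hlQ.eq_of_mem hlQ.left_mem hlQ.right_mem h4 _ h1
      rw [e1]; exact hbr p hp
    rw [e1] at h3
    apply case_ne_comm hS.1 hD'.case2 hD'.dS hD'.pair hD'.pS he' hp he1 (hp1 hq1)
    calc e' * p = (e' * p * e'⁻¹ * p⁻¹) * (p * e') := by group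
      _ = p * e' := by rw [h3, one_mul]

/-- A line partner... if z centralizes D and C, (D, C) a rank one pair, then z is on no line with D. -/
theorem no_line_cent (hS : IsRootSubgroupSet S) {B C D : Subgroup G} (hC : C ∈ S) (hBC : Cm B C)
    (hL : IsLine S B D) (hDC : IsRankOnePair D C) : False := by
  obtain ⟨b, hb, hb1⟩ := exists_ne_one (hS.ne_bot B hL.pS)
  obtain ⟨d, hd, hd1⟩ := exists_ne_one (hS.ne_bot D hL.qS)
  have h1 : b * d ≠ 1 := by
    intro e
    apply hL.ne
    apply hL.eq_of_mem hL.left_mem hL.right_mem hb1 hb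
    rw [eq_inv_of_mul_eq_one_left e]; exact D.inv_mem hd
  obtain ⟨E, ⟨hE, -⟩, hbd⟩ := hL.part.2.1 (b * d) (Subgroup.mul_mem _ (Subgroup.mem_sup_left hb) (Subgroup.mem_sup_right hd)) h1
  exact zmul_notMem hS hL.qS hC hDC (commute_sup (fun x hx => hL.cm b hb x hx) (fun x hx => hBC b hb x hx))
    hb1 hd hd1 hE hbd h1

theorem result_5037 (hS : Cfsg.IsRootSubgroupClass S)
    (hdn : Cfsg.IsDegenerateRootSet S ∨ Cfsg.IsNondegenerateRootSet S)
    {A C : Subgroup G} (hA : A ∈ S) (hC : C ∈ S) (_hAC : A ≠ C) :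
    (Cfsg.centralizingMembers S A ⊆ Cfsg.centralizingMembers S C →
      Cfsg.centralizingMembers S A = Cfsg.centralizingMembers S C) ∧
    (Cfsg.rankOnePartners S A ⊆ Cfsg.rankOnePartners S C →
      ⁅A, C⁆ = ⊥ ∧ Cfsg.rankOnePartners S A = Cfsg.rankOnePartners S C) := by
  have hdomiff : ∀ A C : Subgroup G, centralizingMembers S A ⊆ centralizingMembers S C ↔ Dom S A C := by
    intro A C
    constructor
    · intro h B hB hBA
      exact (mem_centralizing.1 (h (mem_centralizing.2 ⟨hB, hBA⟩))).2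
    · intro h B hB
      rw [mem_centralizing] at hB ⊢
      exact ⟨hB.1, h B hB.1 hB.2⟩
  rcases hdn with hdeg | hnd
  · -- degenerate case
    have two : ∀ {A B : Subgroup G}, A ∈ S → B ∈ S → Cm A B ∨ IsRankOnePair A B := by
      intro A B hA hB
      rcases pair' hS.1 hA hB with h | h | h
      · exact Or.inl h
      · exact Or.inr h
      · exact absurd h (hdeg A hA B hB)
    by_cases hex : ∃ A ∈ S, ∃ B ∈ S, IsRankOnePair A B
    · have hF : ∀ A ∈ S, ¬ IsIsolatedIn (FAdj S) S A := by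
        obtain ⟨A, hA, B, hB, h⟩ := hex
        exact class_nonisolated hS.1 hS.2 ⟨A, hA, not_isolated_of hA hB h⟩
      have key : ∀ {A C : Subgroup G}, A ∈ S → C ∈ S → Dom S A C → Dom S C A := by
        intro A C hA hC h
        obtain ⟨D, hD, hCD⟩ := not_isolated (hF C hC) hC
        have hAC : Cm A C := h A hA (comm_mem hS.1 hA)
        have hAD : IsRankOnePair A D := by
          rcases two hD hA with h1 | h1
          · exact absurd (h D hD h1).symm (not_cm_of_pair hCD)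
          · exact RankOnePair_symm h1
        exact dom_symm hS.1 hD hAC hAD hCD h
      refine ⟨fun h => ?_, fun h => ?_⟩
      · rw [hdomiff] at h
        exact Set.Subset.antisymm ((hdomiff A C).2 h) ((hdomiff C A).2 (key hA hC h))
      · have h1 : Dom S C A := by
          intro B hB hBC
          rcases two hB hA with h2 | h2
          · exact h2
          · exact absurd hBC.symm (not_cm_of_pair (h ⟨hB, RankOnePair_symm h2⟩).2)
        refine ⟨cm_iff.2 (h1 C hC (comm_mem hS.1 hC)).symm, Set.Subset.antisymm h ?_⟩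
        rintro B ⟨hB, hCB⟩
        refine ⟨hB, ?_⟩
        rcases two hA hB with h2 | h2
        · exact absurd (key hC hA h1 B hB h2.symm).symm (not_cm_of_pair hCB)
        · exact h2
    · push Not at hex
      have hall : ∀ {A B : Subgroup G}, A ∈ S → B ∈ S → Cm A B := by
        intro A B hA hB
        rcases two hA hB with h | h
        · exact h
        · exact absurd h (hex A hA B hB)
      refine ⟨fun h => ?_, fun _ => ⟨cm_iff.2 (hall hA hC), ?_⟩⟩
      · apply Set.Subset.antisymm h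
        intro B hB
        rw [mem_centralizing] at hB ⊢
        exact ⟨hB.1, hall hB.1 hA⟩
      · ext B
        exact ⟨fun h => absurd h.2 (hex A hA B h.1), fun h => absurd h.2 (hex C hC B h.1)⟩
  · -- non-degenerate case
    obtain ⟨hF, hl⟩ := class_facts hS hnd
    refine ⟨fun h => ?_, fun h => ?_⟩
    · rw [hdomiff] at h
      have hsub := omega_sub hS hnd hA hC h
      have hAC : Cm A C := h A hA (comm_mem hS.1 hA)
      apply Set.Subset.antisymm ((hdomiff A C).2 h)
      rw [hdomiff]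
      intro B hB hBC
      rcases pair' hS.1 hA hB with h1 | h1 | h1
      · exact h1.symm
      · exfalso
        exact not_cm_of_pair (hsub ⟨hB, h1⟩).2 hBC.symm
      · exfalso
        obtain ⟨D, hD, hAD, hL⟩ := exists_opp hS.1 hF hA hB h1
        exact no_line_cent hS.1 hC hBC hL (RankOnePair_symm (hsub ⟨hD, hAD⟩).2)
    · have hAC : Cm A C := by
        rcases pair' hS.1 hA hC with h1 | h1 | h1
        · exact h1
        · exfalso
          exact (h ⟨hC, h1⟩).2.ne rfl
        · exfalso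
          obtain ⟨D, hD, hAD, hL⟩ := exists_opp hS.1 hF hA hC h1
          exact not_cm_of_pair (h ⟨hD, hAD⟩).2 hL.cm
      refine ⟨cm_iff.2 hAC, Set.Subset.antisymm h ?_⟩
      rintro B ⟨hB, hCB⟩
      refine ⟨hB, ?_⟩
      rcases pair' hS.1 hA hB with h1 | h1 | h1
      · exfalso
        -- some P ∈ Λ_C does not commute with A
        have hP : ∃ P, IsLine S C P ∧ ¬ Cm A P := by
          by_contra hc
          push Not at hc
          have h2 := result_5042 hS hnd hC ⟨hB, hCB⟩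
          obtain ⟨D, hD, hAD⟩ := not_isolated (hF A hA) hA
          have h3 : (⊤ : Subgroup G) ≤ Subgroup.centralizer (A : Set G) := by
            rw [← h2]
            apply sup_le
            · apply iSup₂_le
              intro P hP
              have hL := (isLine_iff hC).2 hP
              exact (mem_centralizing.2 ⟨hL.qS, (hc P hL).symm⟩).2
            · exact (mem_centralizing.2 ⟨hB, h1.symm⟩).2
          apply not_cm_of_pair hAD
          intro a ha d _
          exact Subgroup.mem_centralizer_iff.1 (h3 (Subgroup.mem_top d)) a ha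
        obtain ⟨P, hL, hncm⟩ := hP
        rcases pair' hS.1 hA hL.qS with h2 | h2 | h2
        · exact hncm h2
        · exact not_cm_of_pair (h ⟨hL.qS, h2⟩).2 hL.cm
        · obtain ⟨D, hD, hAD, hL'⟩ := exists_opp hS.1 hF hA hL.qS h2
          exact no_line_cent hS.1 hC hL.cm.symm hL' (RankOnePair_symm (h ⟨hD, hAD⟩).2)
      · exact h1
      · exfalso
        obtain ⟨D, hD, hAD, hL⟩ := exists_opp hS.1 hF hA hB h1
        have hL' := hL.symm
        obtain ⟨E, hE, eE⟩ := line_opp hS.1 hF hL' hA (RankOnePair_symm hAD)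
        have hBE : B = E := by
          rcases hE.members hS.1 (R := B) (by rw [eE]; exact hL'.right_mem) with h2 | ⟨f, hf, h2⟩
          · exact h2
          · exfalso
            have h3 := hE.pair_conj hf
            rw [← h2] at h3
            exact not_pair_of_case h1 (RankOnePair_symm h3)
        obtain ⟨E', hE', eE'⟩ := line_opp hS.1 hF hL' hC (RankOnePair_symm (h ⟨hD, hAD⟩).2)
        rcases hE.members hS.1 (R := E') (by rw [eE, ← eE']; exact (hE'.line hS.1).right_mem) with h2 | ⟨f, hf, h2⟩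
        · have h3 := hE'.case1
          rw [h2, ← hBE] at h3
          exact not_pair_of_case h3 hCB
        · have h3 := hE.pair_conj hf
          rw [← h2] at h3
          exact not_pair_of_case hE'.case1 (h ⟨hE'.qS, RankOnePair_symm h3⟩).2

end H85.RootGen
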