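import Cfsg.Agent.Lib.H85.RootComp
import Cfsg.Agent.Lib.H85.QuadModule

/-!
Sets of abstract root subgroups: lines, two-transitivity (S5038), special pairs (S5034).
-/
set_option autoImplicit false

namespace H85.RootLine

open Cfsg H85.RankOne H85.RankOneTrans H85.RootSub H85.RootSub2 H85.RootComp

variable {G : Type*} [Group G] {S : Set (Subgroup G)}

/-- A and B commute elementwise -/
abbrev Cm (A B : Subgroup G) : Prop := ∀ a ∈ A, ∀ b ∈ B, a * b = b * a

theorem Cm.symm {A B : Subgroup G} (h : Cm A B) : Cm B A := fun b hb a ha => (h a ha b hb).symm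

theorem cm_iff {A B : Subgroup G} : ⁅A, B⁆ = ⊥ ↔ Cm A B := bracket_eq_bot_iff

theorem cm_conj {A B : Subgroup G} (h : Cm A B) (g : G) : Cm (conjBy A g) (conjBy B g) := by
  intro x hx y hy
  rw [mem_conjBy] at hx hy
  have := h _ hx _ hy
  calc x * y = g * ((g⁻¹ * x * g) * (g⁻¹ * y * g)) * g⁻¹ := by group
    _ = g * ((g⁻¹ * y * g) * (g⁻¹ * x * g)) * g⁻¹ := by rw [this]
    _ = _ := by group

theorem cm_conj_iff {A B : Subgroup G} (g : G) : Cm (conjBy A g) (conjBy B g) ↔ Cm A B := by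
  refine ⟨fun h => ?_, fun h => cm_conj h g⟩
  have := cm_conj h g⁻¹
  rwa [← conjBy_mul, ← conjBy_mul, inv_mul_cancel, conjBy_one, conjBy_one] at this

theorem conjBy_of_comm {A : Subgroup G} {g : G} (h : ∀ x ∈ A, g * x = x * g) : conjBy A g = A := by
  ext x
  rw [mem_conjBy]
  constructor
  · intro hx
    have h4 := h _ hx
    have : x = g⁻¹ * x * g := by
      calc x = g * (g⁻¹ * x * g) * g⁻¹ := by group
        _ = _ := by rw [h4]; group
    rw [this]; exact hx
  · intro hx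
    have h4 := h _ hx
    have : g⁻¹ * x * g = x := by rw [mul_assoc, ← h4]; group
    rw [this]; exact hx

theorem cm_sup {A B C : Subgroup G} (hA : Cm A C) (hB : Cm B C) : Cm (A ⊔ B) C := by
  intro x hx c hc
  exact (commute_sup (n := c) (fun a ha => (hA a ha c hc).symm) (fun b hb => (hB b hb c hc).symm) x hx).symm

theorem cm_sup_right {A B C : Subgroup G} (hA : Cm C A) (hB : Cm C B) : Cm C (A ⊔ B) :=
  (cm_sup hA.symm hB.symm).symm

theorem cm_mono {A B C D : Subgroup G} (h : Cm A B) (h1 : C ≤ A) (h2 : D ≤ B) : Cm C D :=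
  fun x hx y hy => h x (h1 hx) y (h2 hy)

/-- An element commuting with A and B commutes with ⁅A, B⁆. -/
theorem cm_bracket {A B C : Subgroup G} (hA : Cm C A) (hB : Cm C B) : Cm C ⁅A, B⁆ :=
  cm_mono (cm_sup_right hA hB) le_rfl bracket_le

theorem pair' (hS : IsRootSubgroupSet S) {A B : Subgroup G} (hA : A ∈ S) (hB : B ∈ S) :
    Cm A B ∨ IsRankOnePair A B ∨ RootCommutatorCase S A B := by
  rcases hS.pair A hA B hB with h | h | h
  · exact Or.inl (cm_iff.1 h)
  · exact Or.inr (Or.inl h)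
  · exact Or.inr (Or.inr h)

theorem not_cm_of_pair {A B : Subgroup G} (h : IsRankOnePair A B) : ¬ Cm A B := fun hc => bracket_ne_bot h (cm_iff.2 hc)

theorem not_cm_of_case (hS : IsRootSubgroupSet S) {A B : Subgroup G} (h : RootCommutatorCase S A B) : ¬ Cm A B :=
  fun hc => hS.ne_bot _ h.1 (cm_iff.2 hc)

theorem case_cm_left {A B : Subgroup G} (h : RootCommutatorCase S A B) : Cm A ⁅A, B⁆ :=
  fun a ha c hc => (h.2.1 c hc a (Subgroup.mem_sup_left ha)).symm

theorem case_cm_right {A B : Subgroup G} (h : RootCommutatorCase S A B) : Cm B ⁅A, B⁆ :=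
  fun a ha c hc => (h.2.1 c hc a (Subgroup.mem_sup_right ha)).symm

theorem not_pair_of_case {A B : Subgroup G} (h : RootCommutatorCase S A B) : ¬ IsRankOnePair A B := by
  intro hp
  obtain ⟨a, ha, ha1⟩ := exists_ne_one (left_ne_bot hp)
  obtain ⟨b, hb, hb1⟩ := exists_ne_one (right_ne_bot hp)
  have h1 := pair_conj_left hp hb hb1
  have h2 : b * a * b⁻¹ ∈ conjBy A b := conj_mem_conjBy ha
  have h3 : a * (b * a * b⁻¹) = (b * a * b⁻¹) * a := by
    have h4 := case_cm_left h a ha _ (bracket_mem (A.inv_mem ha) hb)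
    have h5 := case_cm_right h b hb _ (bracket_mem (A.inv_mem ha) hb)
    -- b a b⁻¹ = a ⬝ [a⁻¹, b]
    have e : b * a * b⁻¹ = a * (a⁻¹ * b * a⁻¹⁻¹ * b⁻¹) := by group
    rw [e, mul_assoc a _ a, ← h4]
  rcases eq_one_or_of_commute h1 ha h2 h3 with h4 | h4
  · exact ha1 h4
  · apply ha1
    calc a = b⁻¹ * (b * a * b⁻¹) * b := by group
      _ = 1 := by rw [h4]; group

theorem case_conj (hS : IsRootSubgroupSet S) {A B : Subgroup G} (hA : A ∈ S) (hB : B ∈ S) (h : RootCommutatorCase S A B)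
    (g : G) : RootCommutatorCase S (conjBy A g) (conjBy B g) := by
  apply case_of_mem hS (hS.conj_mem A hA g) (hS.conj_mem B hB g)
  rw [← conjBy_commutator]
  exact hS.conj_mem _ h.1 g

/-- P, Q commuting, both rank one with R. -/
theorem two_pairs {P Q R : Subgroup G} (hPR : IsRankOnePair P R) (hQR : IsRankOnePair Q R) (hPQ : Cm P Q) {r : G}
    (hr : r ∈ R) (hr1 : r ≠ 1) : ∃ p ∈ P, p ≠ 1 ∧ ∃ q ∈ Q, q ≠ 1 ∧ conjBy P r = conjBy R p ∧ conjBy Q r = conjBy R q ∧
      Cm (conjBy R (p⁻¹ * q)) R := by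
  obtain ⟨p, hp, hp1, ep⟩ := conj_partner hPR hr hr1
  obtain ⟨q, hq, hq1, eq⟩ := conj_partner hQR hr hr1
  refine ⟨p, hp, hp1, q, hq, hq1, ep, eq, ?_⟩
  have h1 := cm_conj hPQ r
  rw [ep, eq] at h1
  have h2 := cm_conj h1.symm p⁻¹
  rwa [← conjBy_mul, conjBy_inv_conjBy] at h2

/-- (R, R^x) is a rank one pair for non-identity x in a rank one partner; in particular not commuting. -/
theorem not_cm_conj {P R : Subgroup G} (h : IsRankOnePair P R) {x : G} (hx : x ∈ P) (hx1 : x ≠ 1) : ¬ Cm (conjBy R x) R :=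
  fun hc => not_cm_of_pair (RankOnePair_symm (pair_conj_right h hx hx1)) hc

structure NMData (S : Set (Subgroup G)) (A B E : Subgroup G) : Prop where
  case1 : RootCommutatorCase S A ⁅B, E⁆
  case2 : RootCommutatorCase S B ⁅A, ⁅B, E⁆⁆
  eqF : ⁅B, ⁅A, ⁅B, E⁆⁆⁆ = ⁅B, E⁆
  cmE : Cm E ⁅A, ⁅B, E⁆⁆
  cent : ∀ e ∈ E, ∃ e' ∈ ⁅A, ⁅B, E⁆⁆, ∀ x ∈ A ⊔ B, (e' * e) * x = x * (e' * e)
  mem : ∀ a ∈ A, a ≠ 1 → ∀ e ∈ E, ∀ C ∈ S, a * e ∈ C → a * e ≠ 1 → e ∈ ⁅A, ⁅B, E⁆⁆

theorem nm (hS : IsRootSubgroupSet S) {A B E : Subgroup G} (hA : A ∈ S) (hB : B ∈ S)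
    (hAB : IsRankOnePair A B) (hAE : Cm A E) (hBE : RootCommutatorCase S B E) : NMData S A B E := by
  have hBA := RankOnePair_symm hAB
  obtain ⟨α, hα, hα1⟩ := exists_ne_one (hS.ne_bot A hA)
  obtain ⟨β, hβ, hβ1⟩ := exists_ne_one (hS.ne_bot B hB)
  have hBF : Cm B ⁅B, E⁆ := case_cm_left hBE
  have hEF : Cm E ⁅B, E⁆ := case_cm_right hBE
  have L := lineData hS hBE hA hBA hB
  obtain ⟨f, hf, hf1⟩ := exists_ne_one (hS.ne_bot _ hBE.1)
  have h1 : RootCommutatorCase S A ⁅B, E⁆ := by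
    rcases pair' hS hA hBE.1 with h | h | h
    · exfalso
      apply not_cm_of_case hS hBE
      intro b hb e he
      have hAe : ∀ x ∈ A ⊔ conjBy A β⁻¹, e * x = x * e := by
        apply commute_sup
        · intro a ha; exact (hAE a ha e he).symm
        · intro x hx
          rw [mem_conjBy, inv_inv] at hx
          have h2 := h _ hx _ (bracket_mem hβ he)
          have h3 := hAE _ hx e he
          have h4 : (β * e * β⁻¹) * (β * x * β⁻¹) = (β * x * β⁻¹) * (β * e * β⁻¹) := by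
            have e1 : β * e * β⁻¹ = (β * e * β⁻¹ * e⁻¹) * e := by group
            rw [e1, mul_assoc, ← h3, ← mul_assoc, ← h2, mul_assoc, mul_assoc]
          calc e * x = β⁻¹ * ((β * e * β⁻¹) * (β * x * β⁻¹)) * β := by group
            _ = β⁻¹ * ((β * x * β⁻¹) * (β * e * β⁻¹)) * β := by rw [h4]
            _ = _ := by group
      have h5 : A ⊔ conjBy A β⁻¹ = A ⊔ B :=
        sup_eq_of_mem hAB left_mem (unip_conj_mem left_mem (Subgroup.mem_sup_right (B.inv_mem hβ)))
          (conjBy_ne_left hAB (B.inv_mem hβ) (inv_ne_one.2 hβ1)).symm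
      rw [h5] at hAe
      exact (hAe b (Subgroup.mem_sup_right hb)).symm
    · exfalso
      obtain ⟨b, hb, hb1, f, hf, hf1, -, -, hc⟩ := two_pairs hBA (RankOnePair_symm h) hBF hα hα1
      have hne : b⁻¹ * f ≠ 1 := by
        intro e
        rw [inv_mul_eq_one] at e
        exact hb1 (L.inf_left b hb (by rw [e]; exact hf))
      rcases L.mem_or (b⁻¹ * f) (Subgroup.mul_mem _ (Subgroup.inv_mem _ (Subgroup.mem_sup_left hb)) (Subgroup.mem_sup_right hf))
        with h2 | ⟨e, he, h2⟩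
      · apply hb1
        apply L.inf_left b hb
        have : b = f * (b⁻¹ * f)⁻¹ := by group
        rw [this]; exact Subgroup.mul_mem _ hf (Subgroup.inv_mem _ h2)
      · have h3 : IsRankOnePair (conjBy B e) A := by
          have := isRankOnePair_conj hBA e
          rwa [conjBy_of_comm (A := A) (fun x hx => (hAE x hx e he).symm)] at this
        exact not_cm_conj h3 h2 hne hc
    · exact h
  have hAE' : Cm A ⁅A, ⁅B, E⁆⁆ := case_cm_left h1
  have hFE' : Cm ⁅B, E⁆ ⁅A, ⁅B, E⁆⁆ := case_cm_right h1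
  have L1 := lineData hS h1 hB hAB hA
  have hAfB : ∀ f ∈ ⁅B, E⁆, IsRankOnePair (conjBy A f) B := by
    intro f hf
    have := isRankOnePair_conj hAB f
    rwa [conjBy_of_comm (A := B) (fun x hx => (hBF x hx f hf).symm)] at this
  have h2 : RootCommutatorCase S B ⁅A, ⁅B, E⁆⁆ := by
    rcases pair' hS hB h1.1 with h | h | h
    · exfalso
      set z := f * α * f⁻¹ * α⁻¹ with hz
      have hzE : z ∈ ⁅A, ⁅B, E⁆⁆ := by
        have : z = (α * f * α⁻¹ * f⁻¹)⁻¹ := by rw [hz]; group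
        rw [this]; exact Subgroup.inv_mem _ (bracket_mem hα hf)
      have hz1 : z ≠ 1 := by
        intro e
        apply case_ne_comm hS h1 hB hAB hA hα hf hα1 hf1
        have : f * α = z * (α * f) := by rw [hz]; group
        rw [this, e, one_mul]
      have hza : z * α = f * α * f⁻¹ := by rw [hz]; group
      apply zmul_notMem hS hA hB hAB (z := z) _ hz1 hα hα1 (hS.conj_mem A hA f)
      · rw [hza]; exact conj_mem_conjBy hα
      · rw [hza]
        intro e
        apply hα1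
        calc α = f⁻¹ * (f * α * f⁻¹) * f := by group
          _ = 1 := by rw [e]; group
      · exact commute_sup (fun a ha => (hAE' a ha z hzE).symm) (fun b hb => (h b hb z hzE).symm)
    · exfalso
      obtain ⟨a, ha, ha1, ε, hε, hε1, -, -, hc⟩ := two_pairs hAB (RankOnePair_symm h) hAE' hβ hβ1
      have hne : a⁻¹ * ε ≠ 1 := by
        intro e
        rw [inv_mul_eq_one] at e
        exact ha1 (L1.inf_left a ha (by rw [e]; exact hε))
      rcases L1.mem_or (a⁻¹ * ε) (Subgroup.mul_mem _ (Subgroup.inv_mem _ (Subgroup.mem_sup_left ha)) (Subgroup.mem_sup_right hε))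
        with h3 | ⟨f, hf, h3⟩
      · apply ha1
        apply L1.inf_left a ha
        have : a = ε * (a⁻¹ * ε)⁻¹ := by group
        rw [this]; exact Subgroup.mul_mem _ hε (Subgroup.inv_mem _ h3)
      · exact not_cm_conj (hAfB f hf) h3 hne hc
    · exact h
  have hEE' : Cm E ⁅A, ⁅B, E⁆⁆ := cm_bracket hAE.symm hEF
  have hcent : ∀ e ∈ E, ∃ e' ∈ ⁅A, ⁅B, E⁆⁆, ∀ x ∈ A ⊔ B, (e' * e) * x = x * (e' * e) := by
    intro e he
    obtain ⟨β, hβ, hβ1, eβ⟩ := conj_partner' hAB hα hα1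
    have h3 : Cm (conjBy E (α⁻¹ * β)) B := by
      have h4 := cm_conj hAE.symm β
      rw [eβ] at h4
      have h5 := cm_conj h4 α⁻¹
      rwa [← conjBy_mul, conjBy_inv_conjBy] at h5
    set f := β * e * β⁻¹ * e⁻¹ with hfd
    have hf : f ∈ ⁅B, E⁆ := bracket_mem hβ he
    set e' := α⁻¹ * f * α⁻¹⁻¹ * f⁻¹ with hed
    have he' : e' ∈ ⁅A, ⁅B, E⁆⁆ := bracket_mem (A.inv_mem hα) hf
    refine ⟨e', he', ?_⟩
    apply commute_sup
    · intro a ha
      rw [mul_assoc, ← hAE a ha e he, ← mul_assoc, ← hAE' a ha e' he', mul_assoc]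
    · intro b hb
      have h4 : (α⁻¹ * β) * e * (α⁻¹ * β)⁻¹ ∈ conjBy E (α⁻¹ * β) := conj_mem_conjBy he
      have h5 := h3 _ h4 b hb
      have h6 : (α⁻¹ * β) * e * (α⁻¹ * β)⁻¹ = e' * f * e := by
        have e1 : (α⁻¹ * β) * e * (α⁻¹ * β)⁻¹ = α⁻¹ * (f * (e * α)) := by rw [hfd]; group
        rw [e1, ← hAE α hα e he, hed]; group
      have h7 : e' * e = (e' * f * e) * f⁻¹ := by
        have := hEF e he f hf
        calc e' * e = e' * (f * e) * (e⁻¹ * f⁻¹ * e) := by group
          _ = e' * (f * e) * (e⁻¹ * (f⁻¹ * e)) := by group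
          _ = e' * (f * e) * (e⁻¹ * (e * f⁻¹)) := by rw [hEF e he f⁻¹ (Subgroup.inv_mem _ hf)]
          _ = _ := by group
      rw [h7, ← h6, mul_assoc, ← hBF b hb f⁻¹ (Subgroup.inv_mem _ hf), ← mul_assoc, h5, mul_assoc]
  refine ⟨h1, h2, ?_, hEE', hcent, ?_⟩
  · obtain ⟨e, he, he1⟩ : ∃ e ∈ E, e ≠ 1 := by
      apply exists_ne_one
      rintro rfl
      apply hS.ne_bot _ hBE.1
      exact Subgroup.commutator_bot_right _
    obtain ⟨e', he', hz⟩ := hcent e he
    have he'1 : e' ≠ 1 := by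
      rintro rfl
      rw [one_mul] at hz
      exact case_ne_comm hS hBE hA hBA hB hβ he hβ1 he1 (hz β (Subgroup.mem_sup_right hβ)).symm
    rw [← h2.2.2.2 e' he' he'1, ← hBE.2.2.2 e⁻¹ (E.inv_mem he) (inv_ne_one.2 he1)]
    apply congrArg
    apply Set.image_congr
    intro b hb
    have h3 := hz b (Subgroup.mem_sup_right hb)
    have e1 : e' = (e' * e) * e⁻¹ := by group
    have h4 : b * (e' * e) = (e' * e) * b := h3.symm
    have h5 := hEE' e he e' he'
    generalize e' * e = z at e1 h4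
    have h6 : z * e = e * z := by
      have : z = e' * e := by rw [e1]; group
      rw [this, ← mul_assoc e e' e, h5]
    rw [e1]
    calc b * (z * e⁻¹) * b⁻¹ * (z * e⁻¹)⁻¹ = (b * z) * (e⁻¹ * b⁻¹ * e) * z⁻¹ := by group
      _ = z * (b * (e⁻¹ * (b⁻¹ * e))) * z⁻¹ := by rw [h4]; simp only [mul_assoc]
      _ = b * e⁻¹ * b⁻¹ * e⁻¹⁻¹ := by
        have c1 : b⁻¹ * z = z * b⁻¹ := by
          calc b⁻¹ * z = b⁻¹ * (z * b) * b⁻¹ := by group
            _ = b⁻¹ * (b * z) * b⁻¹ := by rw [h4]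
            _ = _ := by group
        have c2 : e⁻¹ * z = z * e⁻¹ := by
          calc e⁻¹ * z = e⁻¹ * (z * e) * e⁻¹ := by group
            _ = e⁻¹ * (e * z) * e⁻¹ := by rw [h6]
            _ = _ := by group
        have c3 : z * (b * (e⁻¹ * (b⁻¹ * e))) = (b * (e⁻¹ * (b⁻¹ * e))) * z := by
          symm
          simp only [mul_assoc]
          rw [← h6, ← mul_assoc b⁻¹ z, c1, mul_assoc z, ← mul_assoc e⁻¹ z, c2, mul_assoc z, ← mul_assoc b z, h4, mul_assoc]
        rw [c3]; group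
  · intro a ha ha1 e he C hC haeC hae1
    by_contra heE'
    obtain ⟨e', he', hz⟩ := hcent e he
    have hz1 : e' * e ≠ 1 := by
      intro h3
      apply heE'
      rw [eq_inv_of_mul_eq_one_right h3]; exact Subgroup.inv_mem _ he'
    have e1 : a * e = (e' * e) * (a * e'⁻¹) := by
      have h3 := hEE' e he e'⁻¹ (Subgroup.inv_mem _ he')
      have h4 := hAE' a ha e'⁻¹ (Subgroup.inv_mem _ he')
      rw [h4]
      calc a * e = e * a := hAE a ha e he
        _ = e' * (e'⁻¹ * e) * a := by group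
        _ = e' * (e * e'⁻¹) * a := by rw [h3]
        _ = _ := by group
    rcases L1.mem_or (a * e'⁻¹) (Subgroup.mul_mem _ (Subgroup.mem_sup_left ha) (Subgroup.inv_mem _ (Subgroup.mem_sup_right he')))
      with h3 | ⟨f, hf, h3⟩
    · apply ha1
      apply L1.inf_left a ha
      have : a = (a * e'⁻¹) * e' := by group
      rw [this]; exact Subgroup.mul_mem _ h3 he'
    · have hne : a * e'⁻¹ ≠ 1 := by
        intro h4
        apply ha1
        apply L1.inf_left a ha
        rw [mul_inv_eq_one.1 h4]; exact he'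
      rw [e1] at haeC hae1
      apply zmul_notMem hS (hS.conj_mem A hA f) hB (hAfB f hf) (z := e' * e) _ hz1 h3 hne hC haeC hae1
      apply commute_sup
      · intro x hx
        rw [mem_conjBy] at hx
        have h5 := hz _ (Subgroup.mem_sup_left hx)
        have h6 : (e' * e) * f = f * (e' * e) := by
          rw [mul_assoc, hEF e he f hf, ← mul_assoc, ← hFE' f hf e' he', mul_assoc]
        generalize e' * e = z at h5 h6
        have h7 : f⁻¹ * z = z * f⁻¹ := by
          calc f⁻¹ * z = f⁻¹ * (z * f) * f⁻¹ := by group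
            _ = f⁻¹ * (f * z) * f⁻¹ := by rw [h6]
            _ = _ := by group
        calc z * x = z * (f * (f⁻¹ * x * f) * f⁻¹) := by group
          _ = (z * f) * (f⁻¹ * x * f) * f⁻¹ := by simp only [mul_assoc]
          _ = f * (z * (f⁻¹ * x * f)) * f⁻¹ := by rw [h6]; simp only [mul_assoc]
          _ = f * ((f⁻¹ * x * f) * z) * f⁻¹ := by rw [h5]
          _ = f * (f⁻¹ * x * f) * (z * f⁻¹) := by simp only [mul_assoc]
          _ = f * (f⁻¹ * x * f) * (f⁻¹ * z) := by rw [h7]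
          _ = _ := by group
      · intro b hb
        exact hz b (Subgroup.mem_sup_right hb)

end H85.RootLine
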