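import Cfsg.Agent.Lib.H85.RootLine

/-!
Sets of abstract root subgroups: lines, two-transitivity (S5038), special pairs (S5034).
-/
set_option autoImplicit false

namespace H85.RootLine

open Cfsg H85.RankOne H85.RankOneTrans H85.RootSub H85.RootSub2 H85.RootComp

variable {G : Type*} [Group G] {S : Set (Subgroup G)}

theorem le_iSup_mem {T : Set (Subgroup G)} {E : Subgroup G} (hE : E ∈ T) : E ≤ ⨆ F ∈ T, F :=
  le_iSup₂ (f := fun F (_ : F ∈ T) => F) E hE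

/-- P and Q are two points of a line P ⊔ Q. -/
structure IsLine (S : Set (Subgroup G)) (P Q : Subgroup G) : Prop where
  pS : P ∈ S
  qS : Q ∈ S
  ne : P ≠ Q
  cm : Cm P Q
  part : IsSubgroupPartition (P ⊔ Q) (membersIn S (P ⊔ Q))

theorem isLine_iff {P Q : Subgroup G} (hP : P ∈ S) : IsLine S P Q ↔ Q ∈ linePartners S P := by
  constructor
  · intro h
    exact ⟨⟨h.qS, h.ne.symm, cm_iff.2 h.cm⟩, h.part⟩
  · rintro ⟨⟨h1, h2, h3⟩, h4⟩
    exact ⟨hP, h1, h2.symm, cm_iff.1 h3, h4⟩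

theorem IsLine.symm {P Q : Subgroup G} (h : IsLine S P Q) : IsLine S Q P :=
  ⟨h.qS, h.pS, h.ne.symm, h.cm.symm, by rw [sup_comm]; exact h.part⟩

theorem IsLine.of_sup {P Q P' Q' : Subgroup G} (h : IsLine S P Q) (hP : P' ∈ S) (hQ : Q' ∈ S) (hne : P' ≠ Q')
    (hcm : Cm P' Q') (e : P' ⊔ Q' = P ⊔ Q) : IsLine S P' Q' := ⟨hP, hQ, hne, hcm, by rw [e]; exact h.part⟩

theorem IsLine.cm_all (hS : IsRootSubgroupSet S) {P Q : Subgroup G} (h : IsLine S P Q) : Cm (P ⊔ Q) (P ⊔ Q) := by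
  apply cm_sup <;> apply cm_sup_right
  · exact comm_mem hS h.pS
  · exact h.cm
  · exact h.cm.symm
  · exact comm_mem hS h.qS

theorem IsLine.eq_of_mem {P Q E F : Subgroup G} (h : IsLine S P Q) (hE : E ∈ membersIn S (P ⊔ Q))
    (hF : F ∈ membersIn S (P ⊔ Q)) {x : G} (hx1 : x ≠ 1) (hxE : x ∈ E) (hxF : x ∈ F) : E = F := by
  by_contra hne
  have h1 : x ∈ E ⊓ F := ⟨hxE, hxF⟩
  rw [h.part.2.2 E hE F hF hne] at h1
  exact hx1 h1

theorem IsLine.left_mem {P Q : Subgroup G} (h : IsLine S P Q) : P ∈ membersIn S (P ⊔ Q) := ⟨h.pS, le_sup_left⟩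
theorem IsLine.right_mem {P Q : Subgroup G} (h : IsLine S P Q) : Q ∈ membersIn S (P ⊔ Q) := ⟨h.qS, le_sup_right⟩

theorem partition_conj {N : Subgroup G} (hS : IsRootSubgroupSet S) (h : IsSubgroupPartition N (membersIn S N)) (g : G) :
    IsSubgroupPartition (conjBy N g) (membersIn S (conjBy N g)) := by
  refine ⟨fun C hC => hC.2, ?_, ?_⟩
  · intro x hx hx1
    rw [mem_conjBy] at hx
    obtain ⟨C, ⟨hC, hCle⟩, hxC⟩ := h.2.1 _ hx (by
      intro e; apply hx1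
      calc x = g * (g⁻¹ * x * g) * g⁻¹ := by group
        _ = 1 := by rw [e]; group)
    exact ⟨conjBy C g, ⟨hS.conj_mem C hC g, conjBy_le_conjBy.2 hCle⟩, mem_conjBy.2 hxC⟩
  · rintro C ⟨hC, hCle⟩ D ⟨hD, hDle⟩ hne
    have h1 : conjBy C g⁻¹ ≤ N := by
      have := conjBy_le_conjBy (g := g⁻¹).2 hCle
      rwa [← conjBy_mul, inv_mul_cancel, conjBy_one] at this
    have h2 : conjBy D g⁻¹ ≤ N := by
      have := conjBy_le_conjBy (g := g⁻¹).2 hDle
      rwa [← conjBy_mul, inv_mul_cancel, conjBy_one] at this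
    have h3 := h.2.2 _ ⟨hS.conj_mem C hC _, h1⟩ _ ⟨hS.conj_mem D hD _, h2⟩ (fun e => hne (conjBy_inj.1 e))
    rw [← conjBy_inf, conjBy_eq_bot] at h3
    exact h3

theorem IsLine.conj (hS : IsRootSubgroupSet S) {P Q : Subgroup G} (h : IsLine S P Q) (g : G) :
    IsLine S (conjBy P g) (conjBy Q g) := by
  refine ⟨hS.conj_mem _ h.pS g, hS.conj_mem _ h.qS g, fun e => h.ne (conjBy_inj.1 e), cm_conj h.cm g, ?_⟩
  rw [← conjBy_sup]
  exact partition_conj hS h.part g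

theorem line_of_case (hS : IsRootSubgroupSet S) {A B D : Subgroup G} (h : RootCommutatorCase S A B)
    (hD : D ∈ S) (hAD : IsRankOnePair A D) (hA : A ∈ S) : IsLine S A ⁅A, B⁆ := by
  have h1 := (line_partition hS h hA (lineData hS h hD hAD hA)).2.2
  exact ((isLine_iff h.1).2 h1).symm

/-- The configuration of a point P of a line PQ, an opposite D and the unique point Q not opposite to D. -/
structure Apt (S : Set (Subgroup G)) (P Q D : Subgroup G) : Prop where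
  pS : P ∈ S
  qS : Q ∈ S
  dS : D ∈ S
  pair : IsRankOnePair P D
  cm : Cm P Q
  case1 : RootCommutatorCase S D Q
  case2 : RootCommutatorCase S P ⁅D, Q⁆
  eq : ⁅P, ⁅D, Q⁆⁆ = Q

namespace Apt

variable {P Q D : Subgroup G}

theorem fS (h : Apt S P Q D) : ⁅D, Q⁆ ∈ S := h.case1.1

theorem ne (h : Apt S P Q D) : P ≠ Q := by
  rintro rfl
  exact not_pair_of_case h.case1 (RankOnePair_symm h.pair)

theorem line (hS : IsRootSubgroupSet S) (h : Apt S P Q D) : IsLine S P Q := by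
  have := line_of_case hS h.case2 h.dS h.pair h.pS
  rwa [h.eq] at this

theorem lineD (hS : IsRootSubgroupSet S) (h : Apt S P Q D) : IsLine S D ⁅D, Q⁆ :=
  line_of_case hS h.case1 h.pS (RankOnePair_symm h.pair) h.dS

theorem cmDF (h : Apt S P Q D) : Cm D ⁅D, Q⁆ := case_cm_left h.case1
theorem cmQF (h : Apt S P Q D) : Cm Q ⁅D, Q⁆ := case_cm_right h.case1

theorem conj (hS : IsRootSubgroupSet S) (h : Apt S P Q D) (g : G) : Apt S (conjBy P g) (conjBy Q g) (conjBy D g) := by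
  refine ⟨hS.conj_mem _ h.pS g, hS.conj_mem _ h.qS g, hS.conj_mem _ h.dS g, isRankOnePair_conj h.pair g,
    cm_conj h.cm g, case_conj hS h.dS h.qS h.case1 g, ?_, ?_⟩
  · rw [← conjBy_commutator]; exact case_conj hS h.pS h.fS h.case2 g
  · rw [← conjBy_commutator, ← conjBy_commutator, h.eq]

theorem data (hS : IsRootSubgroupSet S) (h : Apt S P Q D) : LineData S P ⁅D, Q⁆ :=
  lineData hS h.case2 h.dS h.pair h.pS

theorem members (hS : IsRootSubgroupSet S) (h : Apt S P Q D) {R : Subgroup G} (hR : R ∈ membersIn S (P ⊔ Q)) :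
    R = Q ∨ ∃ f ∈ ⁅D, Q⁆, R = conjBy P f := by
  have h1 := (h.data hS).members R hR.1
  rw [h.eq] at h1
  exact h1 hR.2

theorem conjQ (h : Apt S P Q D) {f : G} (hf : f ∈ ⁅D, Q⁆) : conjBy Q f = Q :=
  conjBy_of_comm (fun x hx => (h.cmQF x hx f hf).symm)

theorem conj_le (hS : IsRootSubgroupSet S) (h : Apt S P Q D) {f : G} (hf : f ∈ ⁅D, Q⁆) : conjBy P f ≤ P ⊔ Q := by
  have := (h.data hS).conj_le f hf
  rwa [h.eq] at this

theorem conj_sup (hS : IsRootSubgroupSet S) (h : Apt S P Q D) {f : G} (hf : f ∈ ⁅D, Q⁆) : conjBy (P ⊔ Q) f = P ⊔ Q := by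
  have key : ∀ f ∈ ⁅D, Q⁆, conjBy (P ⊔ Q) f ≤ P ⊔ Q := by
    intro f hf
    rw [conjBy_sup, h.conjQ hf]
    exact sup_le (h.conj_le hS hf) le_sup_right
  apply le_antisymm (key f hf)
  have := conjBy_le_conjBy (g := f).2 (key f⁻¹ (Subgroup.inv_mem _ hf))
  rwa [← conjBy_mul, mul_inv_cancel, conjBy_one] at this

theorem conj_ne (hS : IsRootSubgroupSet S) (h : Apt S P Q D) {f : G} (hf : f ∈ ⁅D, Q⁆) (hf1 : f ≠ 1) : conjBy P f ≠ P := by
  intro e
  obtain ⟨p, hp, hp1⟩ := exists_ne_one (hS.ne_bot P h.pS)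
  have h1 : f * p * f⁻¹ ∈ P := by
    have : f * p * f⁻¹ ∈ conjBy P f := conj_mem_conjBy hp
    rwa [e] at this
  have h2 : p * f * p⁻¹ * f⁻¹ ∈ P := by
    have e1 : p * f * p⁻¹ * f⁻¹ = p * (f * p * f⁻¹)⁻¹ := by group
    rw [e1]; exact P.mul_mem hp (P.inv_mem h1)
  have h3 := (h.data hS).inf_left _ h2 (bracket_mem hp hf)
  apply case_ne_comm hS h.case2 h.dS h.pair h.pS hp hf hp1 hf1
  calc p * f = (p * f * p⁻¹ * f⁻¹) * (f * p) := by group
    _ = f * p := by rw [h3, one_mul]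

theorem pair_conj (h : Apt S P Q D) {f : G} (hf : f ∈ ⁅D, Q⁆) : IsRankOnePair (conjBy P f) D := by
  have := isRankOnePair_conj h.pair f
  rwa [conjBy_of_comm (A := D) (fun x hx => (h.cmDF x hx f hf).symm)] at this

end Apt

/-- Given a line AB and D opposite to A there is a unique point E of AB not opposite to D. -/
theorem line_opp (hS : IsRootSubgroupSet S) (hF : ∀ A ∈ S, ¬ IsIsolatedIn (FAdj S) S A) {A B D : Subgroup G}
    (hL : IsLine S A B) (hD : D ∈ S) (hAD : IsRankOnePair A D) : ∃ E, Apt S A E D ∧ A ⊔ E = A ⊔ B := by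
  obtain ⟨a, ha, ha1⟩ := exists_ne_one (hS.ne_bot A hL.pS)
  obtain ⟨δ, hδ, hδ1⟩ := exists_ne_one (hS.ne_bot D hD)
  have hcmN := hL.cm_all hS
  have ex : ∃ E ∈ S, E ≤ A ⊔ B ∧ RootCommutatorCase S D E ∧ ∃ b ∈ B, b ≠ 1 ∧ b ∈ A ⊔ E := by
    rcases pair' hS hD hL.qS with h | h | h
    · exfalso
      obtain ⟨b, hb, hb1⟩ := exists_ne_one (hS.ne_bot B hL.qS)
      have hba1 : b * a ≠ 1 := by
        intro e
        apply hL.ne
        apply hL.eq_of_mem hL.left_mem hL.right_mem ha1 ha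
        rw [eq_inv_of_mul_eq_one_right e]; exact B.inv_mem hb
      obtain ⟨C, ⟨hC, -⟩, hc⟩ := hL.part.2.1 (b * a)
        (Subgroup.mul_mem _ (Subgroup.mem_sup_right hb) (Subgroup.mem_sup_left ha)) hba1
      exact zmul_notMem hS hL.pS hD hAD (commute_sup (fun a ha => (hL.cm a ha b hb).symm) (fun d hd => (h d hd b hb).symm))
        hb1 ha ha1 hC hc hba1
    · obtain ⟨a, ha, ha1, b, hb, hb1, -, -, hc⟩ := two_pairs hAD (RankOnePair_symm h) hL.cm hδ hδ1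
      have hab1 : a⁻¹ * b ≠ 1 := by
        intro e
        rw [inv_mul_eq_one] at e
        apply hL.ne
        apply hL.eq_of_mem hL.left_mem hL.right_mem ha1 ha
        rw [e]; exact hb
      obtain ⟨E, ⟨hE, hEle⟩, he⟩ := hL.part.2.1 (a⁻¹ * b)
        (Subgroup.mul_mem _ (Subgroup.inv_mem _ (Subgroup.mem_sup_left ha)) (Subgroup.mem_sup_right hb)) hab1
      refine ⟨E, hE, hEle, ?_, b, hb, hb1, ?_⟩
      · rcases pair' hS hD hE with h1 | h1 | h1
        · exfalso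
          have e1 : (a⁻¹ * b) * a = b := by
            rw [mul_assoc, ← hL.cm a ha b hb]; group
          apply zmul_notMem hS hL.pS hD hAD (z := a⁻¹ * b) _ hab1 ha ha1 hL.qS (by rw [e1]; exact hb) (by rw [e1]; exact hb1)
          apply commute_sup
          · intro x hx
            exact hcmN _ (hEle he) x (Subgroup.mem_sup_left hx)
          · intro d hd
            exact (h1 d hd _ he).symm
        · exact absurd hc (not_cm_conj (RankOnePair_symm h1) he hab1)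
        · exact h1
      · have : b = a * (a⁻¹ * b) := by group
        rw [this]
        exact Subgroup.mul_mem _ (Subgroup.mem_sup_left ha) (Subgroup.mem_sup_right he)
    · obtain ⟨b, hb, hb1⟩ := exists_ne_one (hS.ne_bot B hL.qS)
      exact ⟨B, hL.qS, le_sup_right, h, b, hb, hb1, Subgroup.mem_sup_right hb⟩
  obtain ⟨E, hE, hEle, hcase, b, hb, hb1, hbAE⟩ := ex
  have hEA : A ≠ E := by
    rintro rfl
    exact not_pair_of_case hcase (RankOnePair_symm hAD)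
  have hAE : Cm A E := cm_mono hcmN le_sup_left hEle
  have hEm : E ∈ membersIn S (A ⊔ B) := ⟨hE, hEle⟩
  have NM := nm hS hL.pS hD hAD hAE hcase
  have hle : E ≤ ⁅A, ⁅D, E⁆⁆ := by
    intro e he
    have hne : a * e ≠ 1 := by
      intro h1
      apply hEA
      apply hL.eq_of_mem hL.left_mem hEm ha1 ha
      rw [eq_inv_of_mul_eq_one_left h1]; exact E.inv_mem he
    obtain ⟨C, ⟨hC, -⟩, hc⟩ := hL.part.2.1 (a * e) (Subgroup.mul_mem _ (Subgroup.mem_sup_left ha) (hEle he)) hne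
    exact NM.mem a ha ha1 e he C hC hc hne
  have hEE : E = ⁅A, ⁅D, E⁆⁆ := by
    obtain ⟨DE, hDE, hp⟩ := not_isolated (hF E hE) hE
    obtain ⟨e, he, he1⟩ := exists_ne_one (hS.ne_bot E hE)
    exact eq_of_mem hS hDE hp NM.case1.1 he (hle he) he1
  have hApt : Apt S A E D := ⟨hL.pS, hE, hD, hAD, hAE, hcase, NM.case1, hEE.symm⟩
  refine ⟨E, hApt, ?_⟩
  apply le_antisymm (sup_le le_sup_left hEle)
  apply sup_le le_sup_left
  have L1 := hApt.data hS
  rcases L1.mem_or b (by rw [hApt.eq]; exact hbAE) with h1 | ⟨f, hf, h1⟩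
  · rw [hApt.eq] at h1
    have : B = E := hL.eq_of_mem hL.right_mem hEm hb1 hb h1
    rw [this]; exact le_sup_right
  · have := L1.conj_eq f hf B hL.qS b h1 hb hb1
    rw [this]; exact hApt.conj_le hS hf

section TwoTrans

theorem norm_mem {N : Subgroup G} {x : G} (hx : x ∈ ⨆ E ∈ normalizingMembers S N, E) : conjBy N x = N := by
  have : (⨆ E ∈ normalizingMembers S N, E) ≤ Subgroup.normalizer (N : Set G) := iSup₂_le (fun E hE => hE.2)
  exact conjBy_eq_self_iff.2 (this hx)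

variable (hS : IsRootSubgroupSet S) (hF : ∀ A ∈ S, ¬ IsIsolatedIn (FAdj S) S A)
include hS

theorem members_conj {N R : Subgroup G} {x : G} (hx : conjBy N x = N) (hR : R ∈ membersIn S N) :
    conjBy R x ∈ membersIn S N :=
  ⟨hS.conj_mem R hR.1 x, by rw [← hx]; exact conjBy_le_conjBy.2 hR.2⟩

include hF

/-- The members of a line: two-transitivity, together with the Apt configuration at one pair of points. -/
theorem two_trans {A B : Subgroup G} (hL : IsLine S A B) :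
    (∃ E D, Apt S A E D ∧ A ⊔ E = A ⊔ B) ∧
    ∀ P ∈ membersIn S (A ⊔ B), ∀ Q ∈ membersIn S (A ⊔ B), ∀ P' ∈ membersIn S (A ⊔ B), ∀ Q' ∈ membersIn S (A ⊔ B),
      P ≠ Q → P' ≠ Q' → ∃ x ∈ ⨆ E ∈ normalizingMembers S (A ⊔ B), E, conjBy P x = P' ∧ conjBy Q x = Q' := by
  obtain ⟨D, hD, hAD⟩ := not_isolated (hF A hL.pS) hL.pS
  obtain ⟨E, h1, e1⟩ := line_opp hS hF hL hD hAD
  refine ⟨⟨E, D, h1, e1⟩, ?_⟩
  obtain ⟨D₂, hD₂, hED₂⟩ := not_isolated (hF E h1.qS) h1.qS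
  have hL2 : IsLine S E A := hL.of_sup h1.qS h1.pS h1.ne.symm h1.cm.symm (by rw [sup_comm]; exact e1)
  obtain ⟨E₂, h2, e2⟩ := line_opp hS hF hL2 hD₂ hED₂
  have e2' : E ⊔ E₂ = A ⊔ B := by rw [e2, sup_comm]; exact e1
  generalize A ⊔ B = N at *
  subst e1
  have mem1 : ∀ {R : Subgroup G}, R ∈ membersIn S (A ⊔ E) → R = E ∨ ∃ f ∈ ⁅D, E⁆, R = conjBy A f := fun hR => h1.members hS hR
  have mem2 : ∀ {R : Subgroup G}, R ∈ membersIn S (A ⊔ E) → R = E₂ ∨ ∃ f ∈ ⁅D₂, E₂⁆, R = conjBy E f := by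
    intro R hR
    rw [← e2'] at hR
    exact h2.members hS hR
  have hF1 : ⁅D, E⁆ ≤ ⨆ E' ∈ normalizingMembers S (A ⊔ E), E' := by
    apply le_iSup_mem
    exact ⟨h1.fS, fun f hf => conjBy_eq_self_iff.1 (h1.conj_sup hS hf)⟩
  have hF2 : ⁅D₂, E₂⁆ ≤ ⨆ E' ∈ normalizingMembers S (A ⊔ E), E' := by
    apply le_iSup_mem
    refine ⟨h2.fS, fun f hf => conjBy_eq_self_iff.1 ?_⟩
    rw [← e2']
    exact h2.conj_sup hS hf
  have h3 : ∃ P₃ ∈ membersIn S (A ⊔ E), P₃ ≠ E ∧ P₃ ≠ E₂ := by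
    by_cases hAE2 : A = E₂
    · obtain ⟨f, hf, hf1⟩ := exists_ne_one (hS.ne_bot _ h1.fS)
      refine ⟨conjBy A f, ⟨hS.conj_mem A h1.pS f, h1.conj_le hS hf⟩, ?_, ?_⟩
      · intro e
        apply h1.ne
        rw [← h1.conjQ hf] at e
        exact conjBy_inj.1 e
      · rw [← hAE2]
        exact h1.conj_ne hS hf hf1
    · exact ⟨A, ⟨h1.pS, le_sup_left⟩, h1.ne, hAE2⟩
  obtain ⟨P₃, hP₃, hP₃E, hP₃E₂⟩ := h3
  have hto : ∀ P ∈ membersIn S (A ⊔ E), ∃ x ∈ ⨆ E' ∈ normalizingMembers S (A ⊔ E), E', conjBy P x = E := by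
    intro P hP
    rcases mem1 hP with rfl | ⟨f, hf, rfl⟩
    · exact ⟨1, Subgroup.one_mem _, conjBy_one _⟩
    · rcases mem1 hP₃ with h4 | ⟨f₃, hf₃, rfl⟩
      · exact absurd h4 hP₃E
      · rcases mem2 hP₃ with h5 | ⟨f₂, hf₂, h5⟩
        · exact absurd h5 hP₃E₂
        · refine ⟨f₂⁻¹ * (f₃ * f⁻¹), Subgroup.mul_mem _ (Subgroup.inv_mem _ (hF2 hf₂))
            (Subgroup.mul_mem _ (hF1 hf₃) (Subgroup.inv_mem _ (hF1 hf))), ?_⟩
          rw [← conjBy_mul]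
          have : f₂⁻¹ * (f₃ * f⁻¹) * f = f₂⁻¹ * f₃ := by group
          rw [this, conjBy_mul, h5, conjBy_inv_conjBy]
  intro P hP Q hQ P' hP' Q' hQ' hne hne'
  obtain ⟨x, hx, ex⟩ := hto P hP
  obtain ⟨x', hx', ex'⟩ := hto P' hP'
  have hQ1 := members_conj hS (norm_mem hx) hQ
  have hQ2 := members_conj hS (norm_mem hx') hQ'
  rcases mem1 hQ1 with h4 | ⟨f, hf, h4⟩
  · exfalso
    apply hne
    rw [← ex] at h4
    exact (conjBy_inj.1 h4).symm
  · rcases mem1 hQ2 with h5 | ⟨f', hf', h5⟩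
    · exfalso
      apply hne'
      rw [← ex'] at h5
      exact (conjBy_inj.1 h5).symm
    · refine ⟨x'⁻¹ * (f' * f⁻¹) * x, Subgroup.mul_mem _ (Subgroup.mul_mem _ (Subgroup.inv_mem _ hx')
        (Subgroup.mul_mem _ (hF1 hf') (Subgroup.inv_mem _ (hF1 hf)))) hx, ?_, ?_⟩
      · rw [conjBy_mul, ex, conjBy_mul, h1.conjQ (Subgroup.mul_mem _ hf' (Subgroup.inv_mem _ hf)), ← ex', conjBy_inv_conjBy]
      · rw [conjBy_mul, h4, ← conjBy_mul]
        have : x'⁻¹ * (f' * f⁻¹) * f = x'⁻¹ * f' := by group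
        rw [this, conjBy_mul, ← h5, conjBy_inv_conjBy]

/-- Any two points of a line generate it, and are in an Apt configuration. -/
theorem apt_of_points {A B P Q : Subgroup G} (hL : IsLine S A B) (hP : P ∈ membersIn S (A ⊔ B))
    (hQ : Q ∈ membersIn S (A ⊔ B)) (hne : P ≠ Q) : (∃ D, Apt S P Q D) ∧ P ⊔ Q = A ⊔ B ∧ IsLine S P Q := by
  obtain ⟨⟨E, D, h1, e1⟩, h2⟩ := two_trans hS hF hL
  have hE : E ∈ membersIn S (A ⊔ B) := ⟨h1.qS, by rw [← e1]; exact le_sup_right⟩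
  obtain ⟨x, hx, eA, eE⟩ := h2 A hL.left_mem E hE P hP Q hQ h1.ne hne
  have h3 := h1.conj hS x
  rw [eA, eE] at h3
  refine ⟨⟨_, h3⟩, ?_, h3.line hS⟩
  rw [← eA, ← eE, ← conjBy_sup, e1, norm_mem hx]

theorem exists_apt {A B : Subgroup G} (hL : IsLine S A B) : ∃ D, Apt S A B D :=
  (apt_of_points hS hF hL hL.left_mem hL.right_mem hL.ne).1

end TwoTrans

theorem result_5038 (hS : Cfsg.IsRootSubgroupSet S)
    (hF : ∀ A ∈ S, ¬ Cfsg.IsIsolatedIn (Cfsg.FAdj S) S A) {A B : Subgroup G} (hA : A ∈ S) (hB : B ∈ Cfsg.linePartners S A) :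
    ∀ C₁ ∈ Cfsg.membersIn S (A ⊔ B), ∀ C₂ ∈ Cfsg.membersIn S (A ⊔ B), ∀ D₁ ∈ Cfsg.membersIn S (A ⊔ B),
      ∀ D₂ ∈ Cfsg.membersIn S (A ⊔ B), C₁ ≠ C₂ → D₁ ≠ D₂ →
        ∃ x ∈ ⨆ E ∈ Cfsg.normalizingMembers S (A ⊔ B), E, Cfsg.conjBy C₁ x = D₁ ∧ Cfsg.conjBy C₂ x = D₂ :=
  (two_trans hS hF ((isLine_iff hA).2 hB)).2

end H85.RootLine
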