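import Cfsg.Agent.Lib.H85.SLRoot

/-!
Rank one pairs, images of SL₂ and commutator cases pull back along injective homomorphisms; restriction of a family of
root subgroups to the subgroup it generates; SL₂-pairs constructed from a monoid homomorphism into matrices.
-/
set_option autoImplicit false

namespace H85.RootPull

open Cfsg H85.RankOne H85.RankOneTrans H85.RootSub H85.RootSub2 H85.RootComp H85.RootLine H85.RootSpecial H85.SLRoot
open Matrix

section Pull

variable {H G : Type*} [Group H] [Group G] {f : H →* G} (hf : Function.Injective f)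

include hf

theorem cond_of_map {A B : Subgroup H} (h : RankOneCondition (A.map f) (B.map f)) : RankOneCondition A B := by
  intro a ha ha1
  obtain ⟨_, ⟨b, hb, rfl⟩, hb1, e⟩ := h (f a) ⟨a, ha, rfl⟩ (fun e => ha1 (hf (by rw [e, map_one])))
  refine ⟨b, hb, fun e => hb1 (by rw [e, map_one]), ?_⟩
  rw [← map_inv, ← map_inv, ← map_conjBy, ← map_conjBy] at e
  exact Subgroup.map_injective hf e

theorem nilpotent_of_map {A : Subgroup H} (h : Group.IsNilpotent (A.map f)) : Group.IsNilpotent A := by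
  have := h
  exact Group.nilpotent_of_mulEquiv (A.equivMapOfInjective f hf).symm

theorem pair_of_map {A B : Subgroup H} (h : IsRankOnePair (A.map f) (B.map f)) : IsRankOnePair A B :=
  ⟨fun e => h.ne (by rw [e]), nilpotent_of_map hf h.nilpotent_left, nilpotent_of_map hf h.nilpotent_right,
    cond_of_map hf h.cond_left, cond_of_map hf h.cond_right⟩

theorem pair_map_iff {A B : Subgroup H} : IsRankOnePair (A.map f) (B.map f) ↔ IsRankOnePair A B :=
  ⟨pair_of_map hf, fun h => isRankOnePair_map h f hf⟩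

theorem psl_of_map {k : Type*} [Field k] {A B : Subgroup H} (h : IsPSL2PairOver k (A.map f) (B.map f)) :
    IsPSL2PairOver k A B := by
  obtain ⟨φ, hr, hk, hA, hB⟩ := h
  have hmem : ∀ x, φ x ∈ f.range := by
    intro x
    have : φ x ∈ A.map f ⊔ B.map f := by rw [← hr]; exact ⟨x, rfl⟩
    rw [← Subgroup.map_sup] at this
    obtain ⟨y, _, e⟩ := this
    exact ⟨y, e⟩
  let ψ : Matrix.SpecialLinearGroup (Fin 2) k →* H := (MonoidHom.ofInjective hf).symm.toMonoidHom.comp (φ.codRestrict f.range hmem)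
  have hψ : ∀ x, f (ψ x) = φ x := by
    intro x
    have : MonoidHom.ofInjective hf (ψ x) = φ.codRestrict f.range hmem x := by
      simp [ψ]
    have := congrArg Subtype.val this
    rwa [MonoidHom.ofInjective_apply] at this
  have hψ' : f.comp ψ = φ := MonoidHom.ext hψ
  refine ⟨ψ, ?_, ?_, ?_, ?_⟩
  · apply Subgroup.map_injective hf
    rw [← MonoidHom.range_comp, hψ', hr, Subgroup.map_sup]
  · intro x hx
    apply hk
    rw [MonoidHom.mem_ker] at hx ⊢
    rw [← hψ, hx, map_one]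
  · apply Subgroup.map_injective hf
    rw [Subgroup.map_map, hψ', hA]
  · apply Subgroup.map_injective hf
    rw [Subgroup.map_map, hψ', hB]

end Pull

section Restrict

variable {G : Type*} [Group G] {S : Set (Subgroup G)}

/-- the subgroup generated by the members of S -/
def gen (S : Set (Subgroup G)) : Subgroup G := ⨆ A ∈ S, A

theorem le_gen {A : Subgroup G} (hA : A ∈ S) : A ≤ gen S := le_iSup₂_of_le (f := fun (A : Subgroup G) (_ : A ∈ S) => A) A hA le_rfl

theorem map_sub {A : Subgroup G} (hA : A ∈ S) : (A.subgroupOf (gen S)).map (gen S).subtype = A :=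
  Subgroup.map_subgroupOf_eq_of_le (le_gen hA)

/-- the family S viewed inside the subgroup it generates -/
def rest (S : Set (Subgroup G)) : Set (Subgroup ↥(gen S)) := (fun A => A.subgroupOf (gen S)) '' S

theorem pair_rest {A B : Subgroup G} (hA : A ∈ S) (hB : B ∈ S) :
    IsRankOnePair (A.subgroupOf (gen S)) (B.subgroupOf (gen S)) ↔ IsRankOnePair A B := by
  rw [← pair_map_iff (gen S).subtype_injective, map_sub hA, map_sub hB]

theorem comm_rest {A B : Subgroup G} (hA : A ∈ S) (hB : B ∈ S) :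
    (⁅A.subgroupOf (gen S), B.subgroupOf (gen S)⁆).map (gen S).subtype = ⁅A, B⁆ := by
  rw [Subgroup.map_commutator, map_sub hA, map_sub hB]

theorem closure_rest {B : Subgroup G} (hB : B ∈ S) (a : ↥(gen S)) :
    (Subgroup.closure ((fun b : ↥(gen S) => a * b * a⁻¹ * b⁻¹) '' (B.subgroupOf (gen S) : Set ↥(gen S)))).map (gen S).subtype =
      Subgroup.closure ((fun b : G => (a : G) * b * (a : G)⁻¹ * b⁻¹) '' (B : Set G)) := by
  rw [MonoidHom.map_closure]
  congr 1
  ext x
  constructor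
  · rintro ⟨_, ⟨b, hb, rfl⟩, rfl⟩
    exact ⟨(b : G), hb, rfl⟩
  · rintro ⟨b, hb, rfl⟩
    exact ⟨_, ⟨⟨b, le_gen hB hb⟩, hb, rfl⟩, rfl⟩

theorem closure_rest' {A : Subgroup G} (hA : A ∈ S) (b : ↥(gen S)) :
    (Subgroup.closure ((fun a : ↥(gen S) => a * b * a⁻¹ * b⁻¹) '' (A.subgroupOf (gen S) : Set ↥(gen S)))).map (gen S).subtype =
      Subgroup.closure ((fun a : G => (a : G) * b * (a : G)⁻¹ * (b : G)⁻¹) '' (A : Set G)) := by
  rw [MonoidHom.map_closure]
  congr 1
  ext x
  constructor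
  · rintro ⟨_, ⟨a, ha, rfl⟩, rfl⟩
    exact ⟨(a : G), ha, rfl⟩
  · rintro ⟨a, ha, rfl⟩
    exact ⟨_, ⟨⟨a, le_gen hA ha⟩, ha, rfl⟩, rfl⟩

theorem case_rest {A B : Subgroup G} (hA : A ∈ S) (hB : B ∈ S) (h : RootCommutatorCase S A B) :
    RootCommutatorCase (rest S) (A.subgroupOf (gen S)) (B.subgroupOf (gen S)) := by
  have hinj := Subgroup.map_injective (gen S).subtype_injective
  refine ⟨⟨_, h.1, ?_⟩, ?_, ?_, ?_⟩
  · apply hinj
    show (⁅A, B⁆.subgroupOf (gen S)).map (gen S).subtype = _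
    rw [map_sub h.1, comm_rest hA hB]
  · intro c hc x hx
    apply Subtype.ext
    apply h.2.1
    · rw [← comm_rest hA hB]; exact ⟨c, hc, rfl⟩
    · rw [← map_sub hA, ← map_sub hB, ← Subgroup.map_sup]; exact ⟨x, hx, rfl⟩
  · intro a ha ha1
    apply hinj
    rw [closure_rest hB, comm_rest hA hB]
    exact h.2.2.1 a ha (fun e => ha1 (Subtype.ext e))
  · intro b hb hb1
    apply hinj
    rw [closure_rest' hA, comm_rest hA hB]
    exact h.2.2.2 b hb (fun e => hb1 (Subtype.ext e))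

theorem case_of_rest {A B : Subgroup G} (hA : A ∈ S) (hB : B ∈ S)
    (h : RootCommutatorCase (rest S) (A.subgroupOf (gen S)) (B.subgroupOf (gen S))) : RootCommutatorCase S A B := by
  have hmem : ⁅A, B⁆ ∈ S := by
    obtain ⟨⟨C, hC, e⟩, _⟩ := h
    have := congrArg (fun X => X.map (gen S).subtype) e
    simp only [map_sub hC, comm_rest hA hB] at this
    rw [← this]; exact hC
  refine ⟨hmem, ?_, ?_, ?_⟩
  · intro c hc x hx
    rw [← comm_rest hA hB] at hc
    rw [← map_sub hA, ← map_sub hB, ← Subgroup.map_sup] at hx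
    obtain ⟨c', hc', rfl⟩ := hc
    obtain ⟨x', hx', rfl⟩ := hx
    exact congrArg Subtype.val (h.2.1 c' hc' x' hx')
  · intro a ha ha1
    have := h.2.2.1 ⟨a, le_gen hA ha⟩ ha (fun e => ha1 (congrArg Subtype.val e))
    have := congrArg (fun X => X.map (gen S).subtype) this
    rw [closure_rest hB, comm_rest hA hB] at this
    exact this
  · intro b hb hb1
    have := h.2.2.2 ⟨b, le_gen hB hb⟩ hb (fun e => hb1 (congrArg Subtype.val e))
    have := congrArg (fun X => X.map (gen S).subtype) this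
    rw [closure_rest' hA, comm_rest hA hB] at this
    exact this

theorem conj_rest (A : Subgroup G) (g : ↥(gen S)) :
    conjBy (A.subgroupOf (gen S)) g = (conjBy A (g : G)).subgroupOf (gen S) := by
  ext x
  rw [mem_conjBy, Subgroup.mem_subgroupOf, Subgroup.mem_subgroupOf, mem_conjBy]
  rfl

theorem gen_rest : (⨆ A ∈ rest S, A) = ⊤ := by
  apply Subgroup.map_injective (gen S).subtype_injective
  rw [← MonoidHom.range_eq_map, Subgroup.range_subtype]
  apply le_antisymm
  · rw [Subgroup.map_iSup]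
    apply iSup_le
    intro A
    rw [Subgroup.map_iSup]
    apply iSup_le
    rintro ⟨B, hB, rfl⟩
    show (B.subgroupOf (gen S)).map _ ≤ _
    rw [map_sub hB]; exact le_gen hB
  · apply iSup₂_le
    intro A hA
    rw [← map_sub hA]
    apply Subgroup.map_mono
    exact le_iSup₂_of_le (f := fun (A : Subgroup ↥(gen S)) (_ : A ∈ rest S) => A) (A.subgroupOf (gen S)) ⟨A, hA, rfl⟩ le_rfl

theorem isRoot_rest (hc : ∀ A ∈ S, IsMulCommutative A) (hb : ∀ A ∈ S, A ≠ ⊥) (hconj : ∀ A ∈ S, ∀ g : G, conjBy A g ∈ S)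
    (hp : ∀ A ∈ S, ∀ B ∈ S, ⁅A, B⁆ = ⊥ ∨ IsRankOnePair A B ∨ RootCommutatorCase S A B) : IsRootSubgroupSet (rest S) := by
  refine ⟨?_, ?_, gen_rest, ?_, ?_⟩
  · rintro _ ⟨A, hA, rfl⟩
    constructor
    constructor
    rintro ⟨x, hx⟩ ⟨y, hy⟩
    have := (hc A hA).1.1 ⟨x.1, hx⟩ ⟨y.1, hy⟩
    have := congrArg Subtype.val this
    exact Subtype.ext (Subtype.ext this)
  · rintro _ ⟨A, hA, rfl⟩ e
    apply hb A hA
    rw [← map_sub hA, show A.subgroupOf (gen S) = ⊥ from e, Subgroup.map_bot]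
  · rintro _ ⟨A, hA, rfl⟩ g
    exact ⟨_, hconj A hA g, (conj_rest A g).symm⟩
  · rintro _ ⟨A, hA, rfl⟩ _ ⟨B, hB, rfl⟩
    rcases hp A hA B hB with h | h | h
    · left
      apply Subgroup.map_injective (gen S).subtype_injective
      show (⁅A.subgroupOf (gen S), B.subgroupOf (gen S)⁆).map (gen S).subtype = _
      rw [comm_rest hA hB, h, Subgroup.map_bot]
    · right; left
      exact (pair_rest hA hB).2 h
    · right; right
      exact case_rest hA hB h

theorem isKRoot_rest {k : Type*} [Field k] (hR : IsRootSubgroupSet (rest S))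
    (hp : ∀ A ∈ S, ∀ B ∈ S, IsRankOnePair A B → IsPSL2PairOver k A B) : IsKRootSubgroupSet k (rest S) := by
  refine ⟨hR, ?_⟩
  rintro _ ⟨A, hA, rfl⟩ _ ⟨B, hB, rfl⟩ h
  apply psl_of_map (gen S).subtype_injective
  show IsPSL2PairOver k ((A.subgroupOf (gen S)).map (gen S).subtype) ((B.subgroupOf (gen S)).map (gen S).subtype)
  rw [map_sub hA, map_sub hB]
  exact hp A hA B hB ((pair_rest hA hB).1 h)

theorem connected_rest (h : IsConnectedFamily (FAdj S) S) : IsConnectedFamily (FAdj (rest S)) (rest S) := by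
  rintro _ ⟨A, hA, rfl⟩ _ ⟨B, hB, rfl⟩
  have := h A hA B hB
  clear hB
  induction this with
  | refl => exact Relation.ReflTransGen.refl
  | tail h1 h2 ih => exact ih.tail ⟨⟨_, h2.1, rfl⟩, ⟨_, h2.2.1, rfl⟩, (pair_rest h2.1 h2.2.1).2 h2.2.2⟩

theorem class_of_connected {T : Set (Subgroup G)} (hne : T.Nonempty) (h : IsConnectedFamily (FAdj T) T) : IsConjClassOfSubgroups T :=
  ⟨hne, fun A hA B hB => conj_of_reach (h A hA B hB)⟩

/-- no commutator case if any two members commute or form a rank one pair -/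
theorem degenerate_of {T : Set (Subgroup G)} (hb : ∀ A ∈ T, A ≠ ⊥)
    (h : ∀ A ∈ T, ∀ B ∈ T, ⁅A, B⁆ = ⊥ ∨ IsRankOnePair A B) : IsDegenerateRootSet T := by
  intro A hA B hB hc
  rcases h A hA B hB with h1 | h1
  · exact hb _ hc.1 h1
  · exact not_pair_of_case hc h1

theorem degenerate_rest (hb : ∀ A ∈ S, A ≠ ⊥)
    (h : ∀ A ∈ S, ∀ B ∈ S, ⁅A, B⁆ = ⊥ ∨ IsRankOnePair A B) : IsDegenerateRootSet (rest S) := by
  rintro _ ⟨A, hA, rfl⟩ _ ⟨B, hB, rfl⟩ hc
  exact degenerate_of hb h A hA B hB (case_of_rest hA hB hc)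

end Restrict

/-! ### pairs from a monoid homomorphism of SL₂ -/

section Core

variable {k : Type*} [Field k] {M : Type*} [Monoid M] {H : Type*} [Group H]

theorem core (ρ : Matrix.SpecialLinearGroup (Fin 2) k →* M) (hρ : Function.Injective ρ) (f : H →* M) (hf : Function.Injective f)
    {A B : Subgroup H} (hA1 : ∀ t : k, ∃ a ∈ A, f a = ρ (SL2.up t)) (hA2 : ∀ a ∈ A, ∃ t : k, f a = ρ (SL2.up t))
    (hB1 : ∀ t : k, ∃ b ∈ B, f b = ρ (SL2.lo t)) (hB2 : ∀ b ∈ B, ∃ t : k, f b = ρ (SL2.lo t)) :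
    IsPSL2PairOver k A B ∧ IsRankOnePair A B := by
  let K : Subgroup (Matrix.SpecialLinearGroup (Fin 2) k) :=
    { carrier := {g | ∃ h : H, f h = ρ g}
      one_mem' := ⟨1, by rw [map_one, map_one]⟩
      mul_mem' := by
        rintro a b ⟨x, hx⟩ ⟨y, hy⟩
        exact ⟨x * y, by rw [map_mul, map_mul, hx, hy]⟩
      inv_mem' := by
        rintro a ⟨x, hx⟩
        refine ⟨x⁻¹, ?_⟩
        have h1 : f x⁻¹ * f x = 1 := by rw [← map_mul, inv_mul_cancel, map_one]
        have h2 : ρ a * ρ a⁻¹ = 1 := by rw [← map_mul, mul_inv_cancel, map_one]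
        rw [hx] at h1
        calc f x⁻¹ = f x⁻¹ * (ρ a * ρ a⁻¹) := by rw [h2, mul_one]
          _ = ρ a⁻¹ := by rw [← mul_assoc, h1, one_mul] }
  have hK : K = ⊤ := by
    rw [eq_top_iff, ← SL2.sup_eq_top]
    apply sup_le
    · intro g hg
      obtain ⟨t, rfl⟩ := SL2.mem_lower.1 hg
      obtain ⟨b, _, e⟩ := hB1 t
      exact ⟨b, e⟩
    · intro g hg
      obtain ⟨t, rfl⟩ := SL2.mem_upper.1 hg
      obtain ⟨a, _, e⟩ := hA1 t
      exact ⟨a, e⟩
  have hall : ∀ g, ∃ h : H, f h = ρ g := fun g => by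
    have : g ∈ K := by rw [hK]; trivial
    exact this
  choose φ hφ using hall
  let ψ : Matrix.SpecialLinearGroup (Fin 2) k →* H := MonoidHom.mk' φ (fun a b => hf (by rw [map_mul, hφ, hφ, hφ, map_mul]))
  have hψ : ∀ g, f (ψ g) = ρ g := hφ
  have hinj : Function.Injective ψ := by
    intro a b e
    apply hρ
    rw [← hψ, ← hψ, e]
  have hU : (upperUnipotentSL2 k).map ψ = A := by
    ext x
    constructor
    · rintro ⟨y, hy, rfl⟩
      obtain ⟨t, rfl⟩ := SL2.mem_upper.1 hy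
      obtain ⟨a, ha, e⟩ := hA1 t
      have : ψ (SL2.up t) = a := hf (by rw [hψ, e])
      rw [this]; exact ha
    · intro hx
      obtain ⟨t, e⟩ := hA2 x hx
      exact ⟨SL2.up t, SL2.up_mem _, hf (by rw [hψ, e])⟩
  have hL : (lowerUnipotentSL2 k).map ψ = B := by
    ext x
    constructor
    · rintro ⟨y, hy, rfl⟩
      obtain ⟨t, rfl⟩ := SL2.mem_lower.1 hy
      obtain ⟨a, ha, e⟩ := hB1 t
      have : ψ (SL2.lo t) = a := hf (by rw [hψ, e])
      rw [this]; exact ha
    · intro hx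
      obtain ⟨t, e⟩ := hB2 x hx
      exact ⟨SL2.lo t, SL2.lo_mem _, hf (by rw [hψ, e])⟩
  constructor
  · refine ⟨ψ, ?_, ?_, hU, hL⟩
    · rw [MonoidHom.range_eq_map, ← SL2.sup_eq_top, Subgroup.map_sup, hU, hL, sup_comm]
    · rw [(MonoidHom.ker_eq_bot_iff _).2 hinj]; exact bot_le
  · rw [← hU, ← hL]
    exact isRankOnePair_map (RankOnePair_symm SL2.isRankOnePair) _ hinj

end Core

/-! ### the embedding X ↦ 1 + P (X - 1) Q -/

section Emb

variable {m r : Type*} [Fintype m] [DecidableEq m] [Fintype r] [DecidableEq r] {F : Type*} [Field F]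

/-- the homomorphism X ↦ 1 + P (X - 1) Q -/
def emb (P : Matrix m r F) (Q : Matrix r m F) (hQP : Q * P = 1) : Matrix r r F →* Matrix m m F where
  toFun X := 1 + P * (X - 1) * Q
  map_one' := by simp
  map_mul' g h := by
    have e : P * (g - 1) * Q * (P * (h - 1) * Q) = P * ((g - 1) * (h - 1)) * Q := by
      calc P * (g - 1) * Q * (P * (h - 1) * Q) = P * (g - 1) * (Q * P) * (h - 1) * Q := by simp only [Matrix.mul_assoc]
        _ = _ := by rw [hQP]; simp only [Matrix.mul_assoc, Matrix.one_mul]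
    have e2 : g * h - 1 = (g - 1) * (h - 1) + (g - 1) + (h - 1) := by noncomm_ring
    rw [e2]
    generalize g - 1 = g' at *
    generalize h - 1 = h' at *
    rw [add_mul, mul_add, mul_add, e, one_mul, one_mul, mul_one, Matrix.mul_add, Matrix.mul_add, Matrix.add_mul, Matrix.add_mul]
    abel

theorem emb_apply (P : Matrix m r F) (Q : Matrix r m F) (hQP : Q * P = 1) (X : Matrix r r F) :
    emb P Q hQP X = 1 + P * (X - 1) * Q := rfl

theorem emb_injective (P : Matrix m r F) (Q : Matrix r m F) (hQP : Q * P = 1) : Function.Injective (emb P Q hQP) := by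
  have key : ∀ g : Matrix r r F, Q * (emb P Q hQP g) * P = g := by
    intro g
    rw [emb_apply, Matrix.mul_add, Matrix.add_mul, Matrix.mul_one, hQP]
    have : Q * (P * (g - 1) * Q) * P = (Q * P) * (g - 1) * (Q * P) := by
      simp only [Matrix.mul_assoc]
    rw [this, hQP, Matrix.one_mul, Matrix.mul_one]; abel
  intro g h e
  rw [← key g, ← key h, e]

end Emb

/-! ### transvection pairs over a subfield -/

section Trans

variable {m : Type*} [Fintype m] [DecidableEq m] {F L : Type*} [Field F] [Field L] (ι : L →+* F)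

/-- SL₂(L) → M₂(F) -/
def slMap : Matrix.SpecialLinearGroup (Fin 2) L →* Matrix (Fin 2) (Fin 2) F where
  toFun g := (g : Matrix (Fin 2) (Fin 2) L).map ι
  map_one' := by rw [Matrix.SpecialLinearGroup.coe_one]; exact Matrix.map_one ι (map_zero ι) (map_one ι)
  map_mul' g h := by rw [Matrix.SpecialLinearGroup.coe_mul]; exact Matrix.map_mul

theorem slMap_apply (g : Matrix.SpecialLinearGroup (Fin 2) L) : slMap ι g = (g : Matrix (Fin 2) (Fin 2) L).map ι := rfl

theorem slMap_injective : Function.Injective (slMap ι) := by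
  intro g h e
  apply Subtype.ext
  ext i j
  apply ι.injective
  exact congrFun (congrFun e i) j

theorem trans_pair {v φ w ψ : m → F} (h : φ ⬝ᵥ v = 0) (h' : ψ ⬝ᵥ w = 0) (h1 : φ ⬝ᵥ w ≠ 0) (h2 : ψ ⬝ᵥ v ≠ 0)
    {ε : F} (hε : ε ≠ 0) {l : L} (hl : ι l = ε * ε * (φ ⬝ᵥ w) * (ψ ⬝ᵥ v)) {H : Type*} [Group H] (f : H →* Matrix m m F)
    (hf : Function.Injective f) {A B : Subgroup H}
    (hA1 : ∀ t : L, ∃ a ∈ A, f a = 1 + (ε * ι t) • vecMulVec v φ)
    (hA2 : ∀ a ∈ A, ∃ t : L, f a = 1 + (ε * ι t) • vecMulVec v φ)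
    (hB1 : ∀ t : L, ∃ b ∈ B, f b = 1 + (ε * ι t) • vecMulVec w ψ)
    (hB2 : ∀ b ∈ B, ∃ t : L, f b = 1 + (ε * ι t) • vecMulVec w ψ) : IsPSL2PairOver L A B ∧ IsRankOnePair A B := by
  have hl0 : ι l ≠ 0 := by
    rw [hl]; exact mul_ne_zero (mul_ne_zero (mul_ne_zero hε hε) h1) h2
  let P : Matrix m (Fin 2) F := Matrix.of fun i => ![(ε * (φ ⬝ᵥ w)) * v i, w i]
  let Q : Matrix (Fin 2) m F := Matrix.of ![((ε * (φ ⬝ᵥ w))⁻¹ * (ψ ⬝ᵥ v)⁻¹) • ψ, (φ ⬝ᵥ w)⁻¹ • φ]
  have hQP : Q * P = 1 := by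
    have hg : ∀ (a b : F) (χ u : m → F), ∑ x, (a * χ x) * (b * u x) = a * b * (χ ⬝ᵥ u) := by
      intro a b χ u; rw [dotProduct, Finset.mul_sum]; apply Finset.sum_congr rfl; intros; ring
    have hg' : ∀ (a : F) (χ u : m → F), ∑ x, (a * χ x) * (u x) = a * (χ ⬝ᵥ u) := by
      intro a χ u; rw [dotProduct, Finset.mul_sum]; apply Finset.sum_congr rfl; intros; ring
    ext i j
    fin_cases i <;> fin_cases j
    · simp only [Matrix.mul_apply, P, Q]
      simp [hg]
      field_simp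
    · simp only [Matrix.mul_apply, P, Q]
      simp [hg', h']
    · simp only [Matrix.mul_apply, P, Q]
      simp [hg, h]
    · simp only [Matrix.mul_apply, P, Q]
      simp [hg', h1]
  have hup : ∀ t : L, (emb P Q hQP).comp (slMap ι) (SL2.up t) = 1 + (ε * ι t) • vecMulVec v φ := by
    intro t
    rw [MonoidHom.comp_apply, emb_apply, slMap_apply]
    congr 1
    ext i j
    simp [Matrix.mul_apply, P, Q, Fin.sum_univ_two, vecMulVec_apply]
    field_simp
  have hlo : ∀ t : L, (emb P Q hQP).comp (slMap ι) (SL2.lo t) = 1 + (ε * ι (t / l)) • vecMulVec w ψ := by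
    intro t
    rw [MonoidHom.comp_apply, emb_apply, slMap_apply]
    congr 1
    ext i j
    simp [Matrix.mul_apply, P, Q, Fin.sum_univ_two, vecMulVec_apply]
    rw [hl]
    field_simp
  have hlL : l ≠ 0 := by rintro rfl; exact hl0 (map_zero ι)
  apply core ((emb P Q hQP).comp (slMap ι)) ((emb_injective P Q hQP).comp (slMap_injective ι)) f hf
  · intro t
    obtain ⟨a, ha, e⟩ := hA1 t
    exact ⟨a, ha, by rw [e, hup]⟩
  · intro a ha
    obtain ⟨t, e⟩ := hA2 a ha
    exact ⟨t, by rw [e, hup]⟩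
  · intro t
    obtain ⟨b, hb, e⟩ := hB1 (t / l)
    exact ⟨b, hb, by rw [e, hlo]⟩
  · intro b hb
    obtain ⟨t, e⟩ := hB2 b hb
    exact ⟨t * l, by rw [e, hlo, mul_div_cancel_right₀ _ hlL]⟩

end Trans

end H85.RootPull
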