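import Cfsg.Agent.Lib.H85.SpecialPSL

/-!
Structure dichotomy for special rank one groups.
-/
set_option autoImplicit false

namespace H85.SpecialDich

open Cfsg H85.RankOne H85.RankOneTrans H85.Special H85.SpecialPow H85.SL2 H85.SpecialPSL

variable {G : Type*} [Group G] {A B : Subgroup G}

theorem mu_mem {a b : G} (p : Partner A B a b) : mu a b ∈ A ⊔ B := by
  unfold mu
  exact Subgroup.mul_mem _ (Subgroup.mul_mem _ (Subgroup.inv_mem _ (Subgroup.mem_sup_left p.ha)) (Subgroup.mem_sup_right p.hb))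
    (Subgroup.inv_mem _ (Subgroup.mem_sup_left p.ha))

theorem mem_diagonal {g : G} (hg : g ∈ A ⊔ B) (h1 : conjBy A g = A) (h2 : conjBy B g = B) : g ∈ rankOneDiagonal A B :=
  ⟨⟨hg, conjBy_eq_self_iff.1 h1⟩, conjBy_eq_self_iff.1 h2⟩

/-- the key fact: a⁻¹ b ∈ [A, H] whenever a, b, ab ≠ 1. -/
theorem quot_mem (h : IsSpecialRankOnePair A B) (hab : HasAbelianUnipotents A B) {a b : G} (ha : a ∈ A) (hb : b ∈ A)
    (ha1 : a ≠ 1) (hb1 : b ≠ 1) (hab1 : a * b ≠ 1) : b * a⁻¹ ∈ ⁅A, rankOneDiagonal A B⁆ := by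
  obtain ⟨a', pa⟩ := exists_left h.1 ha ha1
  obtain ⟨b', pb⟩ := exists_left h.1 hb hb1
  have hc : a * b ∈ A := A.mul_mem ha hb
  have ex : ∀ {u u' : G}, Partner A B u u' → ∃ x, Partner A B x ((mu u u')⁻¹ * (a * b) * mu u u') := by
    intro u u' pu
    apply exists_right h.1
    · rw [← conjBy_mu_left h pu]
      have := conj_mem_conjBy (A := A) (g := (mu u u')⁻¹) hc
      rwa [inv_inv] at this
    · intro e
      apply hab1
      calc a * b = (mu u u') * ((mu u u')⁻¹ * (a * b) * mu u u') * (mu u u')⁻¹ := by group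
        _ = 1 := by rw [e]; group
  obtain ⟨x, px⟩ := ex pa
  obtain ⟨y, py⟩ := ex pb
  have hadd := add_formula h hab pa pb px py
  -- h = μ_b⁻¹ μ_a
  set g := (mu b b')⁻¹ * mu a a' with hg
  have q1 := partner_swap py (g := (mu b b')⁻¹) (by rw [inv_inv]; exact conjBy_mu_left' h pb)
    (by rw [inv_inv]; exact conjBy_mu_right' h pb)
  have q2 := partner_swap q1 (g := mu a a') (conjBy_mu_left h pa) (conjBy_mu_right h pa)
  have e1 : (mu a a')⁻¹ * ((mu b b')⁻¹⁻¹ * ((mu b b')⁻¹ * (a * b) * mu b b') * (mu b b')⁻¹) * mu a a' =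
      (mu a a')⁻¹ * (a * b) * mu a a' := by group
  rw [e1] at q2
  have hyx := unique_right h.1 q2 px
  have hyx' : g⁻¹ * y * g = x := by rw [← hyx, hg]; group
  have hgH : g ∈ rankOneDiagonal A B := by
    apply mem_diagonal
    · exact Subgroup.mul_mem _ (Subgroup.inv_mem _ (mu_mem pb)) (mu_mem pa)
    · rw [hg, conjBy_mul, conjBy_mu_left' h pa, conjBy_mu_right h pb]
    · rw [hg, conjBy_mul, conjBy_mu_right' h pa, conjBy_mu_left h pb]
  have h1 := bracket_mem (Subgroup.inv_mem _ py.ha) (Subgroup.inv_mem _ hgH)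
  have e2 : y⁻¹ * g⁻¹ * y⁻¹⁻¹ * g⁻¹⁻¹ = y⁻¹ * x := by rw [← hyx']; group
  rw [e2] at h1
  have e3 : y⁻¹ * x = b * a⁻¹ := by
    have : x = y * b * a⁻¹ := by rw [← hadd]; group
    rw [this]; group
  rwa [e3] at h1

theorem le_bracket (h : IsSpecialRankOnePair A B) (hab : HasAbelianUnipotents A B) (hcard : 3 < ENat.card A) :
    A ≤ ⁅A, rankOneDiagonal A B⁆ := by
  intro d hd
  by_cases hd1 : d = 1
  · rw [hd1]; exact Subgroup.one_mem _
  -- find a ∉ {1, d⁻¹} with a² ≠ d⁻¹
  have key : ∃ a ∈ A, a ≠ 1 ∧ a ≠ d⁻¹ ∧ a * a ≠ d⁻¹ := by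
    by_contra hc
    push Not at hc
    -- two different elements outside {1, d⁻¹}
    have hex : ∀ F : Finset A, F.card ≤ 3 → ∃ x : A, x ∉ F := by
      intro F hF
      by_contra hall
      push Not at hall
      have h1 : ENat.card A ≤ 3 := by
        have h2 : (Set.univ : Set A) ⊆ (F : Set A) := fun x _ => hall x
        have h3 := Set.encard_le_encard h2
        rw [Set.encard_univ, Set.encard_coe_eq_coe_finsetCard] at h3
        exact h3.trans (by exact_mod_cast hF)
      exact absurd hcard (not_lt.2 h1)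
    classical
    obtain ⟨x, hx⟩ := hex {1, ⟨d⁻¹, A.inv_mem hd⟩} (Finset.card_le_two.trans (by norm_num))
    obtain ⟨y, hy⟩ := hex {1, ⟨d⁻¹, A.inv_mem hd⟩, x} Finset.card_le_three
    simp only [Finset.mem_insert, Finset.mem_singleton, not_or] at hx hy
    have hx1 : (x : G) ≠ 1 := fun e => hx.1 (Subtype.ext e)
    have hx2 : (x : G) ≠ d⁻¹ := fun e => hx.2 (Subtype.ext e)
    have hy1 : (y : G) ≠ 1 := fun e => hy.1 (Subtype.ext e)
    have hy2 : (y : G) ≠ d⁻¹ := fun e => hy.2.1 (Subtype.ext e)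
    have ex := hc x x.2 hx1 hx2
    have ey := hc y y.2 hy1 hy2
    have hne : (x : G) * (y : G)⁻¹ ≠ 1 := by
      intro e
      apply hy.2.2
      apply Subtype.ext
      exact (mul_inv_eq_one.1 e).symm
    have hsq : ((x : G) * (y : G)⁻¹) ^ 2 = 1 := by
      have hcm := commA hab x x.2 y y.2
      rw [pow_two]
      calc (x : G) * (y : G)⁻¹ * (x * (y : G)⁻¹) = (x * ((y : G)⁻¹ * x)) * (y : G)⁻¹ := by group
        _ = (x * (x * (y : G)⁻¹)) * (y : G)⁻¹ := by
          have : (y : G)⁻¹ * x = x * (y : G)⁻¹ := by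
            calc (y : G)⁻¹ * x = (y : G)⁻¹ * (x * y) * (y : G)⁻¹ := by group
              _ = x * (y : G)⁻¹ := by rw [hcm]; group
          rw [this]
        _ = (x * x) * (y * y : G)⁻¹ := by group
        _ = 1 := by rw [ex, ey]; group
    have hmem : (x : G) * (y : G)⁻¹ ∈ A := A.mul_mem x.2 (A.inv_mem y.2)
    rcases structure_unipotent h hab with ⟨p, hp, hpA⟩ | ⟨htf, -⟩
    · have h2 := hpA.2 _ hmem
      have ho : orderOf ((x : G) * (y : G)⁻¹) = 2 := orderOf_eq_prime hsq hne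
      have hdv : 2 ∣ p := by rw [← ho]; exact orderOf_dvd_of_pow_eq_one h2
      have hp2 : p = 2 := ((Nat.prime_dvd_prime_iff_eq Nat.prime_two hp).1 hdv).symm
      have h3 := hpA.2 x x.2
      rw [hp2, pow_two, ex] at h3
      exact hd1 (inv_eq_one.1 h3)
    · exact htf _ hmem hne (isOfFinOrder_iff_pow_eq_one.2 ⟨2, by norm_num, hsq⟩)
  obtain ⟨a, ha, ha1, ha2, ha3⟩ := key
  have hda : d * a ≠ 1 := by
    intro e; apply ha2
    exact (inv_eq_of_mul_eq_one_right e).symm
  have := quot_mem h hab ha (A.mul_mem hd ha) ha1 hda (by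
    intro e
    apply ha3
    have hcm := commA hab d hd a ha
    rw [hcm, ← mul_assoc] at e
    exact eq_inv_of_mul_eq_one_left e)
  have e : d * a * a⁻¹ = d := by group
  rwa [e] at this

theorem diagonal_symm (A B : Subgroup G) : rankOneDiagonal A B = rankOneDiagonal B A := by
  unfold rankOneDiagonal
  rw [sup_comm, inf_assoc, inf_assoc, inf_comm (Subgroup.normalizer (A : Set G))]

/-- If |A| > 3 then ⟨A, B⟩ is perfect. -/
theorem perfect_of_card (h : IsSpecialRankOnePair A B) (hab : HasAbelianUnipotents A B) (hcard : 3 < ENat.card A) :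
    ⁅A ⊔ B, A ⊔ B⁆ = A ⊔ B := by
  apply le_antisymm (Subgroup.commutator_le_self _)
  have hA : A ≤ ⁅A ⊔ B, A ⊔ B⁆ :=
    (le_bracket h hab hcard).trans (Subgroup.commutator_mono le_sup_left (inf_le_left.trans inf_le_left))
  apply sup_le hA
  obtain ⟨x, hx, e⟩ := right_mem h.1
  rw [e]
  have h1 : conjBy ⁅A ⊔ B, A ⊔ B⁆ x = ⁅A ⊔ B, A ⊔ B⁆ := by
    rw [conjBy_commutator, conjBy_self hx]
  have h2 := (conjBy_le_conjBy (g := x)).2 hA
  rwa [h1, e] at h2

theorem card_zpowers {H : Subgroup G} {p : ℕ} [hp : Fact p.Prime] (hc : Nat.card H = p) {a : G} (ha : a ∈ H) (ha1 : a ≠ 1) :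
    H = Subgroup.zpowers a := by
  apply le_antisymm
  · intro x hx
    have h1 := zpowers_eq_top_of_prime_card hc (g := (⟨a, ha⟩ : H)) (fun e => ha1 (congrArg Subtype.val e))
    have h2 : (⟨x, hx⟩ : H) ∈ Subgroup.zpowers (⟨a, ha⟩ : H) := by rw [h1]; trivial
    obtain ⟨n, hn⟩ := h2
    exact ⟨n, congrArg Subtype.val hn⟩
  · rw [Subgroup.zpowers_le]; exact ha

/-- small case -/
theorem small (h : IsSpecialRankOnePair A B) (hab : HasAbelianUnipotents A B) {p : ℕ} [hp : Fact p.Prime]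
    (hc : Nat.card A = p) : ∃ φ : Matrix.SpecialLinearGroup (Fin 2) (ZMod p) →* G, φ.range = A ⊔ B ∧ φ.ker ≤ Subgroup.center _ := by
  obtain ⟨a, ha, ha1⟩ := exists_ne_one (left_ne_bot h.1)
  obtain ⟨b, pab⟩ := exists_left h.1 ha ha1
  have hA : ∀ a ∈ A, a ^ p = 1 := by
    intro x hx
    have : (⟨x, hx⟩ : A) ^ p = 1 := by rw [← hc]; exact pow_card_eq_one'
    exact congrArg Subtype.val this
  obtain ⟨φ, -, -, h3, h4⟩ := psl_of_partner h hab hA pab
  refine ⟨φ, ?_, h4⟩
  rw [h3]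
  have hcB : Nat.card B = p := by
    obtain ⟨x, -, e⟩ := right_mem h.1
    rw [e, ← hc]
    exact (Nat.card_congr (conjByEquiv A x).toEquiv).symm
  rw [card_zpowers hc ha ha1, card_zpowers hcB pab.hb pab.hb1, Set.insert_eq, Subgroup.closure_union,
    Subgroup.zpowers_eq_closure, Subgroup.zpowers_eq_closure]

theorem center_SL2_two : Subgroup.center (Matrix.SpecialLinearGroup (Fin 2) (ZMod 2)) = ⊥ := by
  rw [eq_bot_iff]
  intro x hx
  obtain ⟨r, hr, e⟩ := Matrix.SpecialLinearGroup.mem_center_iff.1 hx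
  have hall : ∀ r : ZMod 2, r ^ 2 = 1 → r = 1 := by decide
  have hr1 : r = 1 := by
    rw [Fintype.card_fin] at hr
    exact hall r hr
  rw [Subgroup.mem_bot]
  apply Subtype.ext
  rw [← e, hr1]; simp

theorem result_5020 {X : Type*} [Group X] {A B : Subgroup X} (h : Cfsg.IsRankOneGroup X A B)
    (hs : Cfsg.IsSpecialRankOnePair A B) (hab : Cfsg.HasAbelianUnipotents A B) :
    (ENat.card A ≤ 3 ∧ (Nonempty (X ≃* Matrix.SpecialLinearGroup (Fin 2) (ZMod 2)) ∨
        Nonempty (X ≃* Matrix.SpecialLinearGroup (Fin 2) (ZMod 3)) ∨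
        Nonempty (X ≃* Matrix.ProjectiveSpecialLinearGroup (Fin 2) (ZMod 3)))) ∨
    (commutator X ⊔ A = ⊤ ∧ Cfsg.IsQuasisimple (commutator X) ∧
      3 < ENat.card ↥(⁅A, Cfsg.rankOneDiagonal A B⁆ : Subgroup X)) := by
  rcases lt_or_ge 3 (ENat.card A) with hc | hc
  · right
    have hperf := perfect_of_card hs hab hc
    have hcomm : commutator X = A ⊔ B := by
      have : commutator X = ⁅(⊤ : Subgroup X), ⊤⁆ := rfl
      rw [this, ← h.1, hperf]
    refine ⟨?_, ?_, ?_⟩
    · rw [hcomm, h.1, top_sup_eq]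
    · rw [hcomm]
      exact RankOneNormal.quasisimple (RankOneNormal.isRankOneGroup_subgroupOf h.2) (Subgroup.isPerfect_iff.2 hperf)
    · refine lt_of_lt_of_le hc ?_
      exact ENat.card_le_card_of_injective (Subgroup.inclusion_injective (le_bracket hs hab hc))
  · left
    refine ⟨hc, ?_⟩
    have hfin : Finite A := by
      rw [← ENat.card_lt_top]
      exact lt_of_le_of_lt hc (by exact ENat.natCast_lt_top 3)
    have hc' : Nat.card A ≤ 3 := by
      rw [ENat.card_eq_coe_natCard] at hc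
      exact_mod_cast hc
    have hc0 : 0 < Nat.card A := Nat.card_pos
    have hc1 : Nat.card A ≠ 1 := by
      intro e
      exact left_ne_bot h.2 (Subgroup.card_eq_one.1 e)
    have h23 : Nat.card A = 2 ∨ Nat.card A = 3 := by omega
    rcases h23 with h2 | h3
    · left
      have : Fact (Nat.Prime 2) := ⟨Nat.prime_two⟩
      obtain ⟨φ, hr, hk⟩ := small hs hab h2
      have hinj : Function.Injective φ := by
        rw [← MonoidHom.ker_eq_bot_iff, eq_bot_iff, ← center_SL2_two]; exact hk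
      have hsur : Function.Surjective φ := by
        rw [← MonoidHom.range_eq_top, hr, h.1]
      exact ⟨(MulEquiv.ofBijective φ ⟨hinj, hsur⟩).symm⟩
    · right
      have : Fact (Nat.Prime 3) := ⟨Nat.prime_three⟩
      obtain ⟨φ, hr, hk⟩ := small hs hab h3
      have e : φ.range ≃* X := (MulEquiv.subgroupCongr (by rw [hr, h.1])).trans Subgroup.topEquiv
      rcases range_equiv φ hk with hf | hf
      · left; exact hf.elim fun f => ⟨e.symm.trans f⟩
      · right; exact hf.elim fun f => ⟨e.symm.trans f⟩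

end H85.SpecialDich
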