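import Cfsg.Agent.Lib.H85.RootGen
import Cfsg.Agent.Lib.H85.SpecialDich
import Cfsg.Agent.Lib.H26.Quasisimple

/-!
The quasisimplicity criterion for groups generated by abstract root subgroups (S5033).
-/
set_option autoImplicit false

namespace H85.RootSimple

open Cfsg H85.RankOne H85.RankOneTrans H85.RootSub H85.RootSub2 H85.RootComp H85.RootLine H85.RootSpecial H85.RootGen
open scoped commutatorElement

variable {G : Type*} [Group G] {S : Set (Subgroup G)}

theorem nondeg_of_not_deg (hS : IsRootSubgroupSet S) (hF : ∀ A ∈ S, ¬ IsIsolatedIn (FAdj S) S A) (hd : ¬ IsDegenerateRootSet S) :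
    IsNondegenerateRootSet S := by
  unfold IsDegenerateRootSet at hd
  push Not at hd
  obtain ⟨A, hA, B, hB, h⟩ := hd
  obtain ⟨D, hD, hAD⟩ := not_isolated (hF A hA) hA
  have hL := line_of_case hS h hD hAD hA
  exact ⟨⟨A, hA, _, h.1, hL.ne, cm_iff.2 hL.cm⟩, ⟨A, hA, D, hD, hAD⟩, A, hA, B, hB, h⟩

/-- An element normalizing all members is central. -/
theorem central_of_fix (hS : IsRootSubgroupSet S) (hF : ∀ A ∈ S, ¬ IsIsolatedIn (FAdj S) S A) {n : G}
    (hn : ∀ A ∈ S, conjBy A n = A) : n ∈ Subgroup.center G := by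
  have key : ∀ B ∈ S, ∀ b ∈ B, n * b = b * n := by
    intro B hB b hb
    obtain ⟨A, hA, hBA⟩ := not_isolated (hF B hB) hB
    have hAB := RankOnePair_symm hBA
    have hmem : n * b * n⁻¹ ∈ B := by
      have : n * b * n⁻¹ ∈ conjBy B n := conj_mem_conjBy hb
      rwa [hn B hB] at this
    have hAn : conjBy A n⁻¹ = A := by rw [conjBy_eq_iff, inv_inv, hn A hA]
    have h1 : conjBy A (n * b * n⁻¹) = conjBy A b := by
      rw [conjBy_mul, hAn, conjBy_mul, hn _ (hS.conj_mem A hA b)]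
    have h2 : conjBy A (b⁻¹ * (n * b * n⁻¹)) = A := by rw [conjBy_mul, h1, conjBy_inv_conjBy]
    have h3 := eq_one_of_conjBy_eq' hAB (B.mul_mem (B.inv_mem hb) hmem) h2
    have h4 : b = n * b * n⁻¹ := inv_mul_eq_one.1 h3
    calc n * b = (n * b * n⁻¹) * n := by group
      _ = b * n := by rw [← h4]
  rw [Subgroup.mem_center_iff]
  have h2 : (⊤ : Subgroup G) ≤ Subgroup.centralizer {n} := by
    rw [← hS.generates]
    apply iSup₂_le
    intro B hB b hb
    rw [Subgroup.mem_centralizer_iff]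
    rintro _ rfl
    exact key B hB b hb
  intro g
  exact (Subgroup.mem_centralizer_iff.1 (h2 (Subgroup.mem_top g)) n rfl).symm

/-- a normal subgroup containing one member is everything. -/
theorem top_of_mem (hS : IsRootSubgroupSet S) (hc : IsConjClassOfSubgroups S) {N : Subgroup G} (hN : N.Normal) {A : Subgroup G}
    (hA : A ∈ S) (hle : A ≤ N) : N = ⊤ := by
  rw [eq_top_iff, ← hS.generates]
  apply iSup₂_le
  intro B hB
  obtain ⟨g, rfl⟩ := hc.2 A hA B hB
  intro x hx
  rw [mem_conjBy] at hx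
  have := hN.conj_mem _ (hle hx) g
  have e : g * (g⁻¹ * x * g) * g⁻¹ = x := by group
  rwa [e] at this

theorem perfect (hS : IsRootSubgroupSet S) (hc : IsConjClassOfSubgroups S) (hF : ∀ A ∈ S, ¬ IsIsolatedIn (FAdj S) S A)
    (h3 : IsDegenerateRootSet S → ∀ A ∈ S, 3 < ENat.card A)
    (h4 : ∀ A ∈ S, ∀ B ∈ rankOnePartners S A, IsSpecialRankOnePair A B) : commutator G = ⊤ := by
  obtain ⟨A, hA⟩ := hc.1
  obtain ⟨D, hD, hAD⟩ := not_isolated (hF A hA) hA
  by_cases hd : IsDegenerateRootSet S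
  · have hab : HasAbelianUnipotents A D := ⟨hS.commutative A hA, hS.commutative D hD⟩
    have h1 := SpecialDich.perfect_of_card (h4 A hA D ⟨hD, hAD⟩) hab (h3 hd A hA)
    apply top_of_mem hS hc inferInstance hA
    have h2 : A ≤ ⁅A ⊔ D, A ⊔ D⁆ := by rw [h1]; exact le_sup_left
    exact h2.trans (by rw [commutator_def]; exact Subgroup.commutator_mono le_top le_top)
  · obtain ⟨-, -, A₁, hA₁, B₁, hB₁, h⟩ := nondeg_of_not_deg hS hF hd
    apply top_of_mem hS hc inferInstance h.1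
    rw [commutator_def]; exact Subgroup.commutator_mono le_top le_top

theorem normal_dich (hS : IsRootSubgroupSet S) (hc : IsConjClassOfSubgroups S) (hF : ∀ A ∈ S, ¬ IsIsolatedIn (FAdj S) S A)
    (h2' : ∀ A ∈ S, ∀ C ∈ S, A ≠ C → centralizingMembers S A ≠ centralizingMembers S C)
    (h3 : IsDegenerateRootSet S → ∀ A ∈ S, 3 < ENat.card A)
    (h4 : ∀ A ∈ S, ∀ B ∈ rankOnePartners S A, IsSpecialRankOnePair A B) {N : Subgroup G} (hN : N.Normal) :
    N ≤ Subgroup.center G ∨ N = ⊤ := by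
  by_cases hfix : ∀ n ∈ N, ∀ A ∈ S, conjBy A n = A
  · left
    intro n hn
    exact central_of_fix hS hF (hfix n hn)
  right
  push Not at hfix
  obtain ⟨n, hn, A, hA, hne⟩ := hfix
  -- P, P' = P^n and C commuting with P but not with P'
  have hex : ∃ P ∈ S, ∃ n ∈ N, ∃ C ∈ S, Cm C P ∧ ¬ Cm C (conjBy P n) := by
    have h1 := h2' A hA _ (hS.conj_mem A hA n) hne.symm
    by_contra hcon
    push Not at hcon
    apply h1
    ext C
    rw [mem_centralizing, mem_centralizing]
    constructor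
    · rintro ⟨hC, hcm⟩
      exact ⟨hC, hcon A hA n hn C hC hcm⟩
    · rintro ⟨hC, hcm⟩
      have := hcon _ (hS.conj_mem A hA n) n⁻¹ (N.inv_mem hn) C hC hcm
      rw [conjBy_inv_conjBy] at this
      exact ⟨hC, this⟩
  obtain ⟨P, hP, n, hn, C, hC, hcm, hncm⟩ := hex
  have hP' : conjBy P n ∈ S := hS.conj_mem P hP n
  -- [P', C] ≤ N
  have hbr : ∀ p ∈ conjBy P n, ∀ c ∈ C, p * c * p⁻¹ * c⁻¹ ∈ N := by
    intro p' hp' c hc
    rw [mem_conjBy] at hp'
    set p := n⁻¹ * p' * n with hp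
    have e : p' = n * p * n⁻¹ := by rw [hp]; group
    have h1 := hcm c hc p hp'
    have h2 : p * c * p⁻¹ * c⁻¹ = 1 := by rw [← h1]; group
    have h3 : p' * c * p'⁻¹ * c⁻¹ = n * (p * n⁻¹ * p⁻¹) * ((p * c) * n * (p * c)⁻¹) * ((p * c * p⁻¹ * c⁻¹) * (c * n⁻¹ * c⁻¹)) := by
      rw [e]; group
    rw [h3, h2, one_mul]
    have cm : ∀ g x : G, x ∈ N → g * x * g⁻¹ ∈ N := fun g x hx => hN.conj_mem x hx g
    exact N.mul_mem (N.mul_mem (N.mul_mem hn (cm _ _ (N.inv_mem hn))) (cm _ _ hn)) (cm _ _ (N.inv_mem hn))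
  have hbr' : ⁅conjBy P n, C⁆ ≤ N := by
    rw [Subgroup.commutator_le]
    intro p hp c hc
    exact hbr p hp c hc
  rcases pair' hS hP' hC with h | h | h
  · exact absurd h.symm hncm
  · -- rank one
    by_cases hd : IsDegenerateRootSet S
    · have hab : HasAbelianUnipotents (conjBy P n) C := ⟨hS.commutative _ hP', hS.commutative C hC⟩
      have h1 := SpecialDich.perfect_of_card (h4 _ hP' C ⟨hC, h⟩) hab (h3 hd _ hP')
      have h5 : ⁅conjBy P n ⊔ C, conjBy P n ⊔ C⁆ ≤ N := by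
        -- mod N the two groups commute
        have hq : Cm ((conjBy P n ⊔ C).map (QuotientGroup.mk' N)) ((conjBy P n ⊔ C).map (QuotientGroup.mk' N)) := by
          rw [Subgroup.map_sup]
          have c1 : Cm ((conjBy P n).map (QuotientGroup.mk' N)) ((conjBy P n).map (QuotientGroup.mk' N)) := by
            rintro _ ⟨x, hx, rfl⟩ _ ⟨y, hy, rfl⟩
            rw [← map_mul, ← map_mul, comm_mem hS hP' x hx y hy]
          have c2 : Cm (C.map (QuotientGroup.mk' N)) (C.map (QuotientGroup.mk' N)) := by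
            rintro _ ⟨x, hx, rfl⟩ _ ⟨y, hy, rfl⟩
            rw [← map_mul, ← map_mul, comm_mem hS hC x hx y hy]
          have c3 : Cm ((conjBy P n).map (QuotientGroup.mk' N)) (C.map (QuotientGroup.mk' N)) := by
            rintro _ ⟨x, hx, rfl⟩ _ ⟨y, hy, rfl⟩
            rw [← map_mul, ← map_mul]
            have h6 := hbr x hx y hy
            rw [QuotientGroup.mk'_apply, QuotientGroup.mk'_apply, QuotientGroup.eq]
            have e : (x * y)⁻¹ * (y * x) = (y * x)⁻¹ * (x * y * x⁻¹ * y⁻¹)⁻¹ * (y * x)⁻¹⁻¹ := by group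
            rw [e]
            exact hN.conj_mem _ (N.inv_mem h6) _
          exact cm_sup (cm_sup_right c1 c3) (cm_sup_right c3.symm c2)
        rw [Subgroup.commutator_le]
        intro x hx y hy
        have h6 := hq _ ⟨x, hx, rfl⟩ _ ⟨y, hy, rfl⟩
        rw [← map_mul, ← map_mul, QuotientGroup.mk'_apply, QuotientGroup.mk'_apply, QuotientGroup.eq] at h6
        have e : ⁅x, y⁆ = (y * x) * ((x * y)⁻¹ * (y * x))⁻¹ * (y * x)⁻¹ := by
          rw [commutatorElement_def]; group
        rw [e]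
        exact hN.conj_mem _ (N.inv_mem h6) _
      rw [h1] at h5
      exact top_of_mem hS hc hN hC (le_sup_right.trans h5)
    · have hnd := nondeg_of_not_deg hS hF hd
      obtain ⟨hF', hl⟩ := class_facts ⟨hS, hc⟩ hnd
      obtain ⟨E, hE⟩ := exists_apt_of_pair hS hF hl hP' hC h
      -- E = [P', [C, E]] and [P', C], [P', E] ≤ N
      apply top_of_mem hS hc hN hE.qS
      have h5 : ⁅conjBy P n, ⁅C, E⁆⁆ ≤ N := by
        have hq : Cm ((conjBy P n).map (QuotientGroup.mk' N)) (⁅C, E⁆.map (QuotientGroup.mk' N)) := by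
          rw [Subgroup.map_commutator]
          apply cm_bracket
          · rintro _ ⟨x, hx, rfl⟩ _ ⟨y, hy, rfl⟩
            rw [← map_mul, ← map_mul]
            have h6 := hbr x hx y hy
            rw [QuotientGroup.mk'_apply, QuotientGroup.mk'_apply, QuotientGroup.eq]
            have e : (x * y)⁻¹ * (y * x) = (y * x)⁻¹ * (x * y * x⁻¹ * y⁻¹)⁻¹ * (y * x)⁻¹⁻¹ := by group
            rw [e]
            exact hN.conj_mem _ (N.inv_mem h6) _
          · rintro _ ⟨x, hx, rfl⟩ _ ⟨y, hy, rfl⟩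
            rw [← map_mul, ← map_mul, hE.cm x hx y hy]
        rw [Subgroup.commutator_le]
        intro x hx y hy
        have h6 := hq _ ⟨x, hx, rfl⟩ _ ⟨y, hy, rfl⟩
        rw [← map_mul, ← map_mul, QuotientGroup.mk'_apply, QuotientGroup.mk'_apply, QuotientGroup.eq] at h6
        have e : ⁅x, y⁆ = (y * x) * ((x * y)⁻¹ * (y * x))⁻¹ * (y * x)⁻¹ := by
          rw [commutatorElement_def]; group
        rw [e]
        exact hN.conj_mem _ (N.inv_mem h6) _
      rwa [hE.eq] at h5
  · exact top_of_mem hS hc hN h.1 hbr'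

theorem result_5033 (hS : Cfsg.IsRootSubgroupSet S) (h2 : ∃ A ∈ S, ∃ B ∈ S, A ≠ B)
    (h1 : Cfsg.IsConnectedFamily (Cfsg.FAdj S) S)
    (h2' : ∀ A ∈ S, ∀ C ∈ S, A ≠ C → Cfsg.centralizingMembers S A ≠ Cfsg.centralizingMembers S C)
    (h3 : Cfsg.IsDegenerateRootSet S → ∀ A ∈ S, 3 < ENat.card A)
    (h4 : ∀ A ∈ S, ∀ B ∈ Cfsg.rankOnePartners S A, Cfsg.IsSpecialRankOnePair A B) :
    (∀ A ∈ S, commutator G ⊔ A = ⊤ ∧ A ⊓ commutator G ≠ ⊥) ∧ Cfsg.IsQuasisimple ↥(commutator G) ∧
    (Cfsg.IsNondegenerateRootSet S → commutator G = ⊤) ∧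
    ((∃ A ∈ S, ∃ B ∈ Cfsg.rankOnePartners S A, Group.IsPerfect ↥(A ⊔ B)) → commutator G = ⊤) := by
  obtain ⟨hc, hne⟩ := (result_5032 hS h2).1 h1
  have hF := class_nonisolated hS hc hne
  have hperf := perfect hS hc hF h3 h4
  have hqs : IsQuasisimple G := by
    refine ⟨(Group.isPerfect_def).2 hperf, ?_⟩
    have hnt : Nontrivial (G ⧸ Subgroup.center G) := by
      rw [QuotientGroup.nontrivial_iff]
      intro h5
      obtain ⟨A, hA⟩ := hc.1
      obtain ⟨D, hD, hAD⟩ := not_isolated (hF A hA) hA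
      apply not_cm_of_pair hAD
      intro a _ b _
      have : b ∈ Subgroup.center G := by rw [h5]; trivial
      exact Subgroup.mem_center_iff.1 this a
    refine { exists_pair_ne := hnt.exists_pair_ne, eq_bot_or_eq_top_of_normal := ?_ }
    intro K hK
    have hM : (K.comap (QuotientGroup.mk' (Subgroup.center G))).Normal := hK.comap _
    rcases normal_dich hS hc hF h2' h3 h4 hM with h5 | h5
    · left
      rw [eq_bot_iff]
      intro q hq
      obtain ⟨x, rfl⟩ := QuotientGroup.mk'_surjective _ q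
      have hx : x ∈ K.comap (QuotientGroup.mk' (Subgroup.center G)) := hq
      have := h5 hx
      rw [Subgroup.mem_bot]
      exact (QuotientGroup.eq_one_iff x).2 this
    · right
      rw [eq_top_iff]
      intro q _
      obtain ⟨x, rfl⟩ := QuotientGroup.mk'_surjective _ q
      have : x ∈ K.comap (QuotientGroup.mk' (Subgroup.center G)) := by rw [h5]; trivial
      exact this
  refine ⟨fun A hA => ?_, ?_, fun _ => hperf, fun _ => hperf⟩
  · rw [hperf, top_sup_eq, inf_top_eq]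
    exact ⟨rfl, hS.ne_bot A hA⟩
  · rw [hperf]
    exact H26.Quasisimple.of_mulEquiv Subgroup.topEquiv.symm hqs

end H85.RootSimple
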