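import Cfsg.Agent.Lib.H85.RootLine2

/-!
Special rank one pairs from Apt configurations (S5034), and the configuration of S5036.
-/
set_option autoImplicit false

namespace H85.RootSpecial

open Cfsg H85.RankOne H85.RankOneTrans H85.RankOneNormal H85.RootSub H85.RootSub2 H85.RootComp H85.RootLine

variable {G : Type*} [Group G] {S : Set (Subgroup G)}

/-- A rank one group acting quadratically by conjugation on an abelian subgroup is special. -/
theorem special_of_quadratic_conj {A B N : Subgroup G} (h : IsRankOnePair A B) (hN : Cm N N)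
    (hnorm : ∀ x ∈ A ⊔ B, ∀ n ∈ N, x * n * x⁻¹ ∈ N)
    (hq : ∀ a ∈ A, ∀ a' ∈ A, ∀ n ∈ N, a' * (a * n * a⁻¹ * n⁻¹) = (a * n * a⁻¹ * n⁻¹) * a')
    (hX : ∃ x ∈ A ⊔ B, ∃ y ∈ A ⊔ B, ∃ n ∈ N, y * (x * n * x⁻¹ * n⁻¹) ≠ (x * n * x⁻¹ * n⁻¹) * y) :
    IsSpecialRankOnePair A B := by
  letI : CommGroup ↥N := { (inferInstance : Group ↥N) with
    mul_comm := fun x y => Subtype.ext (hN x x.2 y y.2) }
  letI : DistribMulAction ↥(A ⊔ B) (Additive ↥N) :=
    { smul := fun x n => Additive.ofMul ⟨(x : G) * ((Additive.toMul n : ↥N) : G) * (x : G)⁻¹, hnorm x x.2 _ (Additive.toMul n).2⟩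
      one_smul := by
        intro n
        apply Additive.toMul.injective
        apply Subtype.ext
        show (1 : G) * ((Additive.toMul n : ↥N) : G) * (1 : G)⁻¹ = _
        group
      mul_smul := by
        intro x y n
        apply Additive.toMul.injective
        apply Subtype.ext
        show ((x : G) * (y : G)) * ((Additive.toMul n : ↥N) : G) * ((x : G) * (y : G))⁻¹ =
          (x : G) * ((y : G) * ((Additive.toMul n : ↥N) : G) * (y : G)⁻¹) * (x : G)⁻¹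
        group
      smul_zero := by
        intro x
        apply Additive.toMul.injective
        apply Subtype.ext
        show (x : G) * (1 : G) * (x : G)⁻¹ = 1
        group
      smul_add := by
        intro x n m
        apply Additive.toMul.injective
        apply Subtype.ext
        show (x : G) * (((Additive.toMul n : ↥N) : G) * ((Additive.toMul m : ↥N) : G)) * (x : G)⁻¹ =
          ((x : G) * ((Additive.toMul n : ↥N) : G) * (x : G)⁻¹) * ((x : G) * ((Additive.toMul m : ↥N) : G) * (x : G)⁻¹)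
        group }
  have hsm : ∀ (x : ↥(A ⊔ B)) (n : Additive ↥N), ((Additive.toMul (x • n) : ↥N) : G) = (x : G) * ((Additive.toMul n : ↥N) : G) * (x : G)⁻¹ :=
    fun x n => rfl
  have hsub : ∀ (n m : Additive ↥N), ((Additive.toMul (n - m) : ↥N) : G) = ((Additive.toMul n : ↥N) : G) * ((Additive.toMul m : ↥N) : G)⁻¹ := by
    intro n m
    rw [toMul_sub, div_eq_mul_inv]; rfl
  have hconj : ∀ u v : G, u * v * u⁻¹ = v ↔ u * v = v * u := by
    intro u v
    rw [mul_inv_eq_iff_eq_mul]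
  have key := QuadModule.special_of_quadratic (N := Additive ↥N) (isRankOneGroup_subgroupOf h) (by
    intro a ha a' ha' n
    apply Additive.toMul.injective
    apply Subtype.ext
    rw [hsm, hsub, hsm, hconj]
    exact hq a ha a' ha' _ (Additive.toMul n).2) (by
    obtain ⟨x, hx, y, hy, n, hn, hne⟩ := hX
    refine ⟨⟨x, hx⟩, ⟨y, hy⟩, Additive.ofMul ⟨n, hn⟩, ?_⟩
    intro e
    have e1 := congrArg (fun z : Additive ↥N => ((Additive.toMul z : ↥N) : G)) e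
    beta_reduce at e1
    rw [hsm, hsub, hsm, hconj] at e1
    exact hne e1)
  refine ⟨h, ?_⟩
  intro a ha ha1 b hb hb1 e
  have h1 := key.2 ⟨a, Subgroup.mem_sup_left ha⟩ ha (fun h => ha1 (congrArg Subtype.val h)) ⟨b, Subgroup.mem_sup_right hb⟩ hb
    (fun h => hb1 (congrArg Subtype.val h)) (by
      ext x
      rw [mem_conjBy, mem_conjBy, Subgroup.mem_subgroupOf, Subgroup.mem_subgroupOf]
      have e2 : ((x : G) ∈ conjBy A b⁻¹) ↔ ((x : G) ∈ conjBy B a⁻¹) := by rw [e]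
      rw [mem_conjBy, mem_conjBy] at e2
      exact e2)
  exact congrArg Subtype.val h1

theorem apt_special (hS : IsRootSubgroupSet S) {P Q D : Subgroup G} (h : Apt S P Q D) : IsSpecialRankOnePair P D := by
  have hQF : Cm Q ⁅D, Q⁆ := h.cmQF
  have hcm : Cm (Q ⊔ ⁅D, Q⁆) (Q ⊔ ⁅D, Q⁆) := by
    apply cm_sup <;> apply cm_sup_right
    · exact comm_mem hS h.qS
    · exact hQF
    · exact hQF.symm
    · exact comm_mem hS h.fS
  have hP : ∀ p ∈ P, ∀ n ∈ Q ⊔ ⁅D, Q⁆, p * n * p⁻¹ * n⁻¹ ∈ Q := by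
    intro p hp n hn
    rw [mem_sup_comm hQF] at hn
    obtain ⟨q, hq, f, hf, rfl⟩ := hn
    have h1 : p * f * p⁻¹ * f⁻¹ ∈ Q := by
      have := bracket_mem hp hf
      rwa [h.eq] at this
    have e : p * (q * f) * p⁻¹ * (q * f)⁻¹ = q * (p * f * p⁻¹ * f⁻¹) * q⁻¹ := by
      calc p * (q * f) * p⁻¹ * (q * f)⁻¹ = (p * q) * f * p⁻¹ * f⁻¹ * q⁻¹ := by group
        _ = _ := by rw [h.cm p hp q hq]; group
    rw [e]
    exact Q.mul_mem (Q.mul_mem hq h1) (Q.inv_mem hq)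
  have hD : ∀ d ∈ D, ∀ n ∈ Q ⊔ ⁅D, Q⁆, d * n * d⁻¹ * n⁻¹ ∈ ⁅D, Q⁆ := by
    intro d hd n hn
    rw [mem_sup_comm hQF] at hn
    obtain ⟨q, hq, f, hf, rfl⟩ := hn
    have h2 : f * d⁻¹ = d⁻¹ * f := (h.cmDF d⁻¹ (D.inv_mem hd) f hf).symm
    have e : d * (q * f) * d⁻¹ * (q * f)⁻¹ = d * q * d⁻¹ * q⁻¹ := by
      calc d * (q * f) * d⁻¹ * (q * f)⁻¹ = d * q * (f * d⁻¹) * f⁻¹ * q⁻¹ := by group
        _ = _ := by rw [h2]; group
    rw [e]
    exact bracket_mem hd hq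
  have hnorm : ∀ x ∈ P ⊔ D, ∀ n ∈ Q ⊔ ⁅D, Q⁆, x * n * x⁻¹ ∈ Q ⊔ ⁅D, Q⁆ := by
    intro x hx
    refine sup_induct (A := P) (B := D) (p := fun x => ∀ n ∈ Q ⊔ ⁅D, Q⁆, x * n * x⁻¹ ∈ Q ⊔ ⁅D, Q⁆) ?_ ?_ ?_ hx
    · intro p hp n hn
      have e : p * n * p⁻¹ = (p * n * p⁻¹ * n⁻¹) * n := by group
      rw [e]
      exact Subgroup.mul_mem _ (Subgroup.mem_sup_left (hP p hp n hn)) hn
    · intro p hp n hn
      have e : p * n * p⁻¹ = (p * n * p⁻¹ * n⁻¹) * n := by group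
      rw [e]
      exact Subgroup.mul_mem _ (Subgroup.mem_sup_right (hD p hp n hn)) hn
    · intro x y hx hy n hn
      have e : x * y * n * (x * y)⁻¹ = x * (y * n * y⁻¹) * x⁻¹ := by group
      rw [e]; exact hx _ (hy n hn)
  apply special_of_quadratic_conj h.pair hcm hnorm
  · intro a ha a' ha' n hn
    exact h.cm a' ha' _ (hP a ha n hn)
  · obtain ⟨x, hx, hx1⟩ := exists_ne_one (hS.ne_bot _ h.pS)
    obtain ⟨f, hf, hf1⟩ := exists_ne_one (hS.ne_bot _ h.fS)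
    obtain ⟨y, hy, hy1⟩ := exists_ne_one (hS.ne_bot _ h.dS)
    refine ⟨x, Subgroup.mem_sup_left hx, y, Subgroup.mem_sup_right hy, f, Subgroup.mem_sup_right hf, ?_⟩
    have h1 : x * f * x⁻¹ * f⁻¹ ∈ Q := by
      have := bracket_mem hx hf
      rwa [h.eq] at this
    have h2 : x * f * x⁻¹ * f⁻¹ ≠ 1 := by
      intro e
      apply case_ne_comm hS h.case2 h.dS h.pair h.pS hx hf hx1 hf1
      calc x * f = (x * f * x⁻¹ * f⁻¹) * (f * x) := by group
        _ = f * x := by rw [e, one_mul]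
    exact case_ne_comm hS h.case1 h.pS (RankOnePair_symm h.pair) h.dS hy h1 hy1 h2

/-- In a non-degenerate class there are no isolated members and every member is on a line. -/
theorem class_facts (hS : IsRootSubgroupClass S) (hnd : IsNondegenerateRootSet S) :
    (∀ A ∈ S, ¬ IsIsolatedIn (FAdj S) S A) ∧ ∀ A ∈ S, ∃ B, IsLine S A B := by
  have hF : ∀ A ∈ S, ¬ IsIsolatedIn (FAdj S) S A := by
    obtain ⟨-, ⟨A, hA, B, hB, h⟩, -⟩ := hnd
    exact class_nonisolated hS.1 hS.2 ⟨A, hA, not_isolated_of hA hB h⟩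
  refine ⟨hF, ?_⟩
  obtain ⟨-, -, ⟨A₁, hA₁, B₁, hB₁, h⟩⟩ := hnd
  obtain ⟨D, hD, hp⟩ := not_isolated (hF A₁ hA₁) hA₁
  have hL := line_of_case hS.1 h hD hp hA₁
  intro A hA
  obtain ⟨g, rfl⟩ := hS.2.2 A₁ hA₁ A hA
  exact ⟨_, hL.conj hS.1 g⟩

theorem exists_apt_of_pair (hS : IsRootSubgroupSet S) (hF : ∀ A ∈ S, ¬ IsIsolatedIn (FAdj S) S A)
    (hl : ∀ A ∈ S, ∃ B, IsLine S A B) {A D : Subgroup G} (hA : A ∈ S) (hD : D ∈ S) (h : IsRankOnePair A D) :
    ∃ E, Apt S A E D := by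
  obtain ⟨B, hL⟩ := hl A hA
  obtain ⟨E, hE, -⟩ := line_opp hS hF hL hD h
  exact ⟨E, hE⟩

theorem result_5034 (hS : Cfsg.IsRootSubgroupClass S) (hnd : Cfsg.IsNondegenerateRootSet S)
    {A B : Subgroup G} (hA : A ∈ S) (hB : B ∈ Cfsg.rankOnePartners S A) :
    (∃ C ∈ Cfsg.linePartners S A, C ∈ Cfsg.commutatorPartners S B) ∧ Cfsg.IsSpecialRankOnePair A B := by
  obtain ⟨hF, hl⟩ := class_facts hS hnd
  obtain ⟨E, hE⟩ := exists_apt_of_pair hS.1 hF hl hA hB.1 hB.2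
  exact ⟨⟨E, (isLine_iff hA).1 (hE.line hS.1), hE.qS, hE.fS⟩, apt_special hS.1 hE⟩

/-! ### S5036 -/

section S5036

variable {A B D : Subgroup G}

/-- the composite surjections exclude the commutator case -/
theorem pair_of_cycle (hS : IsRootSubgroupSet S) (hA : A ∈ S) (hB : B ∈ S) (hC : ⁅A, B⁆ ∈ S) (hD : D ∈ S)
    (hDC : ⁅D, ⁅A, B⁆⁆ = A) : IsRankOnePair B D := by
  have h1 := case_of_mem hS hA hB hC
  have h2 := case_of_mem hS hD hC (by rw [hDC]; exact hA)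
  have hAC : Cm A ⁅A, B⁆ := case_cm_left h1
  have hBC : Cm B ⁅A, B⁆ := case_cm_right h1
  have hDA : Cm D A := by
    have := case_cm_left h2
    rwa [hDC] at this
  rcases pair' hS hB hD with h | h | h
  · exfalso
    apply hS.ne_bot A hA
    rw [← hDC, cm_iff]
    exact cm_bracket hDA h.symm
  · exact h
  · exfalso
    obtain ⟨c₃, hc₃, hc₃1⟩ := exists_ne_one (hS.ne_bot _ hC)
    obtain ⟨b, hb, hb1⟩ := exists_ne_one (hS.ne_bot _ hB)
    obtain ⟨d, hd, hd1⟩ := exists_ne_one (hS.ne_bot _ hD)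
    have s1 : ∀ c ∈ ⁅A, B⁆, ∃ a ∈ A, b * a * b⁻¹ * a⁻¹ = c := by
      intro c hc
      obtain ⟨a, ha, e⟩ := case_surj_left h1 hb hb1 (Subgroup.inv_mem _ hc)
      refine ⟨a, ha, ?_⟩
      rw [← inv_inj, ← e]; group
    have s2 : ∀ d' ∈ D, d' ≠ 1 → ∀ a ∈ A, ∃ c ∈ ⁅A, B⁆, d' * c * d'⁻¹ * c⁻¹ = a := by
      intro d' hd' hd'1 a ha
      exact case_surj_right h2 hd' hd'1 (by rw [hDC]; exact ha)
    obtain ⟨a₂, ha₂, e₂⟩ := s1 c₃ hc₃
    obtain ⟨c₁, hc₁, e₁⟩ := s2 d hd hd1 a₂ ha₂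
    obtain ⟨a₁, ha₁, e₀⟩ := s1 c₁ hc₁
    obtain ⟨c, hc, e⟩ := s2 d⁻¹ (D.inv_mem hd) (inv_ne_one.2 hd1) a₁ ha₁
    -- b commutes with y = d b d⁻¹
    have hy : b * (d * b * d⁻¹) = (d * b * d⁻¹) * b := by
      have hf := bracket_mem hb hd
      have h3 := h.2.1 _ hf b (Subgroup.mem_sup_left hb)
      have h4 := h.2.1 _ hf d (Subgroup.mem_sup_right hd)
      -- d b d⁻¹ = [b,d]⁻¹ b
      have e3 : d * b * d⁻¹ = (b * d * b⁻¹ * d⁻¹)⁻¹ * b := by group
      rw [e3]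
      generalize b * d * b⁻¹ * d⁻¹ = f at h3
      have h5 : f⁻¹ * b = b * f⁻¹ := by
        calc f⁻¹ * b = f⁻¹ * (b * f) * f⁻¹ := by group
          _ = f⁻¹ * (f * b) * f⁻¹ := by rw [h3]
          _ = _ := by group
      rw [← mul_assoc, ← h5]
    -- y c y⁻¹ = c c₁ a₂
    have hyc : (d * b * d⁻¹) * c * (d * b * d⁻¹)⁻¹ = c * c₁ * a₂ := by
      have t1 : d⁻¹ * c * d = a₁ * c := by rw [← e]; group
      have t2 : b * (a₁ * c) * b⁻¹ = c₁ * a₁ * c := by
        have : b * c * b⁻¹ = c := by rw [hBC b hb c hc]; group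
        calc b * (a₁ * c) * b⁻¹ = (b * a₁ * b⁻¹ * a₁⁻¹) * a₁ * (b * c * b⁻¹) := by group
          _ = _ := by rw [e₀, this]
      have t3 : d * c₁ * d⁻¹ = a₂ * c₁ := by rw [← e₁]; group
      have t4 : d * (a₁ * c) * d⁻¹ = c := by rw [← t1]; group
      have t5 : (d * b * d⁻¹) * c * (d * b * d⁻¹)⁻¹ = (d * c₁ * d⁻¹) * (d * (a₁ * c) * d⁻¹) := by
        calc (d * b * d⁻¹) * c * (d * b * d⁻¹)⁻¹ = d * (b * (d⁻¹ * c * d) * b⁻¹) * d⁻¹ := by group
          _ = d * (c₁ * a₁ * c) * d⁻¹ := by rw [t1, t2]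
          _ = _ := by group
      rw [t5, t3, t4, mul_assoc, hAC a₂ ha₂ (c₁ * c) (Subgroup.mul_mem _ hc₁ hc), comm_mem hS hC c₁ hc₁ c hc]
    -- b commutes with y c y⁻¹
    have hbc : b * ((d * b * d⁻¹) * c * (d * b * d⁻¹)⁻¹) = ((d * b * d⁻¹) * c * (d * b * d⁻¹)⁻¹) * b := by
      have h5 := hBC b hb c hc
      generalize d * b * d⁻¹ = y at hy
      calc b * (y * c * y⁻¹) = (b * y) * c * y⁻¹ := by group
        _ = y * (b * c) * y⁻¹ := by rw [hy]; group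
        _ = y * c * (b * y⁻¹) := by rw [h5]; group
        _ = y * c * (y⁻¹ * (y * b) * y⁻¹) := by group
        _ = y * c * (y⁻¹ * (b * y) * y⁻¹) := by rw [hy]
        _ = _ := by group
    rw [hyc] at hbc
    have h6 := hBC b hb (c * c₁) (Subgroup.mul_mem _ hc hc₁)
    have h7 : b * a₂ = a₂ * b := by
      have : c * c₁ * (b * a₂) = c * c₁ * (a₂ * b) := by
        rw [← mul_assoc, ← h6, mul_assoc, hbc, mul_assoc]
      exact mul_left_cancel this
    apply hc₃1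
    rw [← e₂, h7]; group

structure Cyc (S : Set (Subgroup G)) (A B C D : Subgroup G) : Prop where
  hA : A ∈ S
  hB : B ∈ S
  hC : C ∈ S
  hD : D ∈ S
  eC : ⁅A, B⁆ = C
  eA : ⁅C, D⁆ = A
  case1 : RootCommutatorCase S A B
  case2 : RootCommutatorCase S C D
  pair : IsRankOnePair B D

theorem cyc_of (hS : IsRootSubgroupSet S) (hA : A ∈ S) (hB : B ∈ S) (hC : ⁅A, B⁆ ∈ S) (hD : D ∈ S)
    (hDC : ⁅D, ⁅A, B⁆⁆ = A) : Cyc S A B ⁅A, B⁆ D := by
  have e : ⁅⁅A, B⁆, D⁆ = A := by rw [Subgroup.commutator_comm]; exact hDC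
  exact ⟨hA, hB, hC, hD, rfl, e, case_of_mem hS hA hB hC, case_of_mem hS hC hD (by rw [e]; exact hA),
    pair_of_cycle hS hA hB hC hD hDC⟩

namespace Cyc

variable {C : Subgroup G}

theorem symm (h : Cyc S A B C D) : Cyc S C D A B :=
  ⟨h.hC, h.hD, h.hA, h.hB, h.eA, h.eC, h.case2, h.case1, RankOnePair_symm h.pair⟩

theorem cmAC (h : Cyc S A B C D) : Cm A C := by
  have := case_cm_left h.case1
  rwa [h.eC] at this

theorem cmBC (h : Cyc S A B C D) : Cm B C := by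
  have := case_cm_right h.case1
  rwa [h.eC] at this

theorem cmDA (h : Cyc S A B C D) : Cm D A := h.symm.cmBC

/-- a ∈ A# does not commute with b ∈ B# -/
theorem ne_comm (hS : IsRootSubgroupSet S) (h : Cyc S A B C D) {a b : G} (ha : a ∈ A) (ha1 : a ≠ 1) (hb : b ∈ B)
    (hb1 : b ≠ 1) : a * b ≠ b * a := by
  intro hab
  obtain ⟨b', hb', hne⟩ := not_comm_of_case hS h.case1 ha ha1
  apply hne
  have h1 : ∀ x ∈ D ⊔ conjBy D b, a * x = x * a := by
    apply commute_sup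
    · intro d hd; exact (h.cmDA d hd a ha).symm
    · intro x hx
      rw [mem_conjBy] at hx
      have h2 := h.cmDA _ hx a ha
      have h3 : a * b⁻¹ = b⁻¹ * a := by
        calc a * b⁻¹ = b⁻¹ * (b * a) * b⁻¹ := by group
          _ = b⁻¹ * (a * b) * b⁻¹ := by rw [hab]
          _ = _ := by group
      calc a * x = (a * b) * (b⁻¹ * x * b) * b⁻¹ := by group
        _ = b * (a * (b⁻¹ * x * b)) * b⁻¹ := by rw [hab]; group
        _ = b * (b⁻¹ * x * b) * (a * b⁻¹) := by rw [← h2]; group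
        _ = _ := by rw [h3]; group
  have hDb : D ⊔ conjBy D b = B ⊔ D := by
    have := sup_eq_of_mem (RankOnePair_symm h.pair) left_mem (unip_conj_mem left_mem (Subgroup.mem_sup_right hb))
      (conjBy_ne_left (RankOnePair_symm h.pair) hb hb1).symm
    rw [this, sup_comm]
  rw [hDb] at h1
  exact h1 b' (Subgroup.mem_sup_left hb')

theorem inf (hS : IsRootSubgroupSet S) (h : Cyc S A B C D) {x : G} (hxA : x ∈ A) (hxC : x ∈ C) : x = 1 := by
  by_contra hx1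
  obtain ⟨b, hb, hb1⟩ := exists_ne_one (hS.ne_bot _ h.hB)
  exact h.ne_comm hS hxA hx1 hb hb1 (h.cmBC b hb x hxC).symm

theorem mem_or (h : Cyc S A B C D) {x : G} (hx : x ∈ A ⊔ C) : x ∈ C ∨ ∃ b ∈ B, x ∈ conjBy A b := by
  rw [mem_sup_comm h.cmAC] at hx
  obtain ⟨a, ha, c, hc, rfl⟩ := hx
  by_cases ha1 : a = 1
  · left; rw [ha1, one_mul]; exact hc
  · right
    obtain ⟨b, hb, e⟩ := case_surj_right h.case1 ha ha1 (c := c⁻¹) (by rw [h.eC]; exact Subgroup.inv_mem _ hc)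
    refine ⟨b, hb, ?_⟩
    have e1 : a * c = b * a * b⁻¹ := by
      have : c = (a * b * a⁻¹ * b⁻¹)⁻¹ := by rw [e, inv_inv]
      rw [h.cmAC a ha c hc, this]; group
    rw [e1]; exact conj_mem_conjBy ha

theorem conjC (h : Cyc S A B C D) {b : G} (hb : b ∈ B) : conjBy C b = C := conjBy_of_comm (fun c hc => h.cmBC b hb c hc)

theorem conj_le (h : Cyc S A B C D) {b : G} (hb : b ∈ B) : conjBy A b ≤ A ⊔ C := by
  intro x hx
  rw [mem_conjBy] at hx
  have e : x = (b⁻¹ * x * b) * ((b⁻¹ * x * b)⁻¹ * b * (b⁻¹ * x * b)⁻¹⁻¹ * b⁻¹) := by group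
  rw [e]
  refine Subgroup.mul_mem _ (Subgroup.mem_sup_left hx) (Subgroup.mem_sup_right ?_)
  have := bracket_mem (A.inv_mem hx) hb
  rwa [h.eC] at this

theorem conjN (h : Cyc S A B C D) {b : G} (hb : b ∈ B) : conjBy (A ⊔ C) b = A ⊔ C := by
  have key : ∀ b ∈ B, conjBy (A ⊔ C) b ≤ A ⊔ C := by
    intro b hb
    rw [conjBy_sup, h.conjC hb]
    exact sup_le (h.conj_le hb) le_sup_right
  apply le_antisymm (key b hb)
  have := conjBy_le_conjBy (g := b).2 (key b⁻¹ (Subgroup.inv_mem _ hb))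
  rwa [← conjBy_mul, mul_inv_cancel, conjBy_one] at this

theorem conjN' (h : Cyc S A B C D) {x : G} (hx : x ∈ B ⊔ D) : conjBy (A ⊔ C) x = A ⊔ C := by
  refine sup_induct (A := B) (B := D) (p := fun x => conjBy (A ⊔ C) x = A ⊔ C) (fun b hb => h.conjN hb) ?_ ?_ hx
  · intro d hd
    have := h.symm.conjN hd
    rwa [sup_comm] at this
  · intro x y hx hy
    rw [conjBy_mul, hy, hx]

/-- A is the centralizer of D in AC -/
theorem mem_left_iff (hS : IsRootSubgroupSet S) (h : Cyc S A B C D) {x : G} :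
    x ∈ A ↔ x ∈ A ⊔ C ∧ ∀ d ∈ D, d * x = x * d := by
  constructor
  · intro hx; exact ⟨Subgroup.mem_sup_left hx, fun d hd => h.cmDA d hd x hx⟩
  · rintro ⟨hx, hd⟩
    rw [mem_sup_comm h.cmAC] at hx
    obtain ⟨a, ha, c, hc, rfl⟩ := hx
    by_cases hc1 : c = 1
    · rw [hc1, mul_one]; exact ha
    · exfalso
      obtain ⟨d, hd', hd1⟩ := exists_ne_one (hS.ne_bot _ h.hD)
      apply h.symm.ne_comm hS hc hc1 hd' hd1
      have h1 := hd d hd'
      have h2 := h.cmDA d hd' a ha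
      have : a * (c * d) = a * (d * c) := by
        rw [← mul_assoc, ← h1, ← mul_assoc, h2, mul_assoc]
      exact mul_left_cancel this

/-- a conjugate of the centralizer -/
theorem mem_conj_iff (hS : IsRootSubgroupSet S) (h : Cyc S A B C D) {g : G} (hg : g ∈ B ⊔ D) {x : G} :
    x ∈ conjBy A g ↔ x ∈ A ⊔ C ∧ ∀ d ∈ conjBy D g, d * x = x * d := by
  rw [mem_conjBy, h.mem_left_iff hS, ← mem_conjBy, h.conjN' hg]
  apply and_congr_right
  intro _
  constructor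
  · intro h1 d hd
    rw [mem_conjBy] at hd
    have h2 := h1 _ hd
    calc d * x = g * ((g⁻¹ * d * g) * (g⁻¹ * x * g)) * g⁻¹ := by group
      _ = g * ((g⁻¹ * x * g) * (g⁻¹ * d * g)) * g⁻¹ := by rw [h2]
      _ = _ := by group
  · intro h1 d hd
    have h2 := h1 _ (conj_mem_conjBy (g := g) hd)
    calc d * (g⁻¹ * x * g) = g⁻¹ * ((g * d * g⁻¹) * x) * g := by group
      _ = g⁻¹ * (x * (g * d * g⁻¹)) * g := by rw [h2]
      _ = _ := by group

/-- A^b = C^d when D^b = B^d -/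
theorem conj_eq (hS : IsRootSubgroupSet S) (h : Cyc S A B C D) {b d : G} (hb : b ∈ B) (hd : d ∈ D)
    (e : conjBy B d = conjBy D b) : conjBy A b = conjBy C d := by
  ext x
  rw [h.mem_conj_iff hS (Subgroup.mem_sup_left hb), h.symm.mem_conj_iff hS (Subgroup.mem_sup_left hd), sup_comm C A, e]

theorem sets_subset (hS : IsRootSubgroupSet S) (h : Cyc S A B C D) {E : Subgroup G}
    (hE : E ∈ (fun b : G => conjBy A b) '' (B : Set G) ∪ {C}) : E ∈ (fun d : G => conjBy C d) '' (D : Set G) ∪ {A} := by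
  rcases hE with ⟨b, hb, rfl⟩ | hE
  · by_cases hb1 : b = 1
    · right; show conjBy A b = A; rw [hb1, conjBy_one]
    · left
      obtain ⟨d, hd, hd1, e⟩ := conj_partner' h.pair hb hb1
      exact ⟨d, hd, (h.conj_eq hS hb hd e).symm⟩
  · left
    rw [Set.mem_singleton_iff.1 hE]
    exact ⟨1, D.one_mem, conjBy_one _⟩

theorem sets_eq (hS : IsRootSubgroupSet S) (h : Cyc S A B C D) :
    (fun b : G => conjBy A b) '' (B : Set G) ∪ {C} = (fun d : G => conjBy C d) '' (D : Set G) ∪ {A} :=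
  Set.Subset.antisymm (fun _ hE => h.sets_subset hS hE) (fun _ hE => h.symm.sets_subset hS hE)

theorem exists_swap (h : Cyc S A B C D) : ∃ x ∈ B ⊔ D, conjBy B x = D ∧ conjBy D x = B := by
  obtain ⟨x, hx, e1, e2⟩ := exists_conj_pair h.pair (right_mem h.pair) left_mem h.pair.ne.symm
  exact ⟨x, hx, e1, e2⟩

theorem exists_conj_AC (hS : IsRootSubgroupSet S) (h : Cyc S A B C D) : ∃ x ∈ B ⊔ D, conjBy A x = C := by
  obtain ⟨x, hx, e1, e2⟩ := h.exists_swap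
  refine ⟨x, hx, ?_⟩
  ext y
  rw [h.mem_conj_iff hS hx, h.symm.mem_left_iff hS, e2, sup_comm C A]

theorem orbit_eq (hS : IsRootSubgroupSet S) (h : Cyc S A B C D) :
    {E | ∃ x ∈ B ⊔ D, E = conjBy A x} = (fun b : G => conjBy A b) '' (B : Set G) ∪ {C} := by
  ext E
  constructor
  · rintro ⟨x, hx, rfl⟩
    have key : ∀ E ∈ (fun b : G => conjBy A b) '' (B : Set G) ∪ {C}, conjBy E x ∈ (fun b : G => conjBy A b) '' (B : Set G) ∪ {C} := by
      refine sup_induct (A := B) (B := D)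
        (p := fun x => ∀ E ∈ (fun b : G => conjBy A b) '' (B : Set G) ∪ {C}, conjBy E x ∈ (fun b : G => conjBy A b) '' (B : Set G) ∪ {C})
        ?_ ?_ ?_ hx
      · intro b hb E hE
        rcases hE with ⟨b', hb', rfl⟩ | hE
        · left; exact ⟨b * b', B.mul_mem hb hb', conjBy_mul _ _ _⟩
        · right; rw [Set.mem_singleton_iff.1 hE]; exact h.conjC hb
      · intro d hd E hE
        rw [h.sets_eq hS] at hE ⊢
        rcases hE with ⟨b', hb', rfl⟩ | hE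
        · left; exact ⟨d * b', D.mul_mem hd hb', conjBy_mul _ _ _⟩
        · right; rw [Set.mem_singleton_iff.1 hE]; exact h.symm.conjC hd
      · intro x y hx hy E hE
        rw [conjBy_mul]; exact hx _ (hy _ hE)
    exact key A (Or.inl ⟨1, B.one_mem, conjBy_one _⟩)
  · rintro (⟨b, hb, rfl⟩ | hE)
    · exact ⟨b, Subgroup.mem_sup_left hb, rfl⟩
    · rw [Set.mem_singleton_iff.1 hE]
      obtain ⟨x, hx, e⟩ := h.exists_conj_AC hS
      exact ⟨x, hx, e.symm⟩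

theorem orbit_eq' (hS : IsRootSubgroupSet S) (h : Cyc S A B C D) :
    {E | ∃ x ∈ B ⊔ D, E = conjBy A x} = {E | ∃ x ∈ B ⊔ D, E = conjBy C x} := by
  obtain ⟨y, hy, e⟩ := h.exists_conj_AC hS
  ext E
  constructor
  · rintro ⟨x, hx, rfl⟩
    refine ⟨x * y⁻¹, Subgroup.mul_mem _ hx (Subgroup.inv_mem _ hy), ?_⟩
    rw [← e, ← conjBy_mul, inv_mul_cancel_right]
  · rintro ⟨x, hx, rfl⟩
    exact ⟨x * y, Subgroup.mul_mem _ hx hy, by rw [← e, ← conjBy_mul]⟩

theorem partition (hS : IsRootSubgroupSet S) (h : Cyc S A B C D) :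
    IsSubgroupPartition (A ⊔ C) ((fun b : G => conjBy A b) '' (B : Set G) ∪ {C}) := by
  have hCb : ∀ b ∈ B, ∀ x ∈ conjBy A b, x ∈ C → x = 1 := by
    intro b hb x hx hxC
    rw [mem_conjBy] at hx
    rw [← h.conjC hb, mem_conjBy] at hxC
    have := h.inf hS hx hxC
    calc x = b * (b⁻¹ * x * b) * b⁻¹ := by group
      _ = 1 := by rw [this]; group
  have hA : ∀ b ∈ B, b ≠ 1 → ∀ x ∈ A, x ∈ conjBy A b → x = 1 := by
    intro b hb hb1 x hx hxb
    rw [mem_conjBy] at hxb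
    by_contra hx1
    set a := b⁻¹ * x * b with ha
    have ha1 : a ≠ 1 := by
      intro e; apply hx1
      calc x = b * (b⁻¹ * x * b) * b⁻¹ := by group
        _ = 1 := by rw [← ha, e]; group
    have h1 : a⁻¹ * b * a⁻¹⁻¹ * b⁻¹ ∈ C := by
      have := bracket_mem (A.inv_mem hxb) hb
      rwa [h.eC] at this
    have h2 : a⁻¹ * b * a⁻¹⁻¹ * b⁻¹ = a⁻¹ * x := by rw [ha]; group
    have h3 := h.inf hS (x := a⁻¹ * x) (A.mul_mem (A.inv_mem hxb) hx) (by rw [← h2]; exact h1)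
    have h4 : a = x := inv_mul_eq_one.1 h3
    apply h.ne_comm hS hx hx1 hb hb1
    calc x * b = b * (b⁻¹ * x * b) := by group
      _ = b * x := by rw [← ha, h4]
  refine ⟨?_, ?_, ?_⟩
  · rintro E (⟨b, hb, rfl⟩ | hE)
    · exact h.conj_le hb
    · rw [Set.mem_singleton_iff.1 hE]; exact le_sup_right
  · intro x hx hx1
    rcases h.mem_or hx with h1 | ⟨b, hb, h1⟩
    · exact ⟨C, Or.inr rfl, h1⟩
    · exact ⟨_, Or.inl ⟨b, hb, rfl⟩, h1⟩
  · rintro E (⟨b, hb, rfl⟩ | hE) F (⟨b', hb', rfl⟩ | hF) hne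
    · rw [eq_bot_iff]
      rintro x ⟨h1, h2⟩
      rw [Subgroup.mem_bot]
      have h1' : x ∈ conjBy A b := h1
      have h2' : x ∈ conjBy A b' := h2
      rw [mem_conjBy] at h1'
      have h3 : b⁻¹ * x * b ∈ conjBy A (b⁻¹ * b') := by
        rw [mem_conjBy] at h2' ⊢
        have e : (b⁻¹ * b')⁻¹ * (b⁻¹ * x * b) * (b⁻¹ * b') = b'⁻¹ * x * b' := by group
        rwa [e]
      have h4 : b⁻¹ * b' ≠ 1 := by
        intro e
        apply hne
        rw [inv_mul_eq_one.1 e]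
      have h5 := hA _ (B.mul_mem (B.inv_mem hb) hb') h4 _ h1' h3
      calc x = b * (b⁻¹ * x * b) * b⁻¹ := by group
        _ = 1 := by rw [h5]; group
    · rw [Set.mem_singleton_iff.1 hF, eq_bot_iff]
      rintro x ⟨h1, h2⟩
      exact hCb b hb x h1 h2
    · rw [Set.mem_singleton_iff.1 hE, eq_bot_iff]
      rintro x ⟨h1, h2⟩
      exact hCb b' hb' x h2 h1
    · exact absurd ((Set.mem_singleton_iff.1 hE).trans (Set.mem_singleton_iff.1 hF).symm) hne

theorem cent (hS : IsRootSubgroupSet S) (h : Cyc S A B C D) :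
    ∀ x ∈ B ⊔ D, (∀ n ∈ A ⊔ C, n * x = x * n) → ∀ y ∈ B ⊔ D, x * y = y * x := by
  intro x hx hxN
  apply commute_of_fix_all h.pair hx
  intro U hU
  by_contra hne
  obtain ⟨y, hy, rfl⟩ := hU
  -- both U = B^y and U^x centralize C^y
  have hmem : conjBy B y ∈ unipotentSubgroups B D := ⟨y, hy, rfl⟩
  have h1 : Cm (conjBy B y) (conjBy C y) := cm_conj h.cmBC y
  have hCy : conjBy C y ≤ A ⊔ C := by
    have := conjBy_le_conjBy (g := y).2 (le_sup_right : C ≤ A ⊔ C)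
    rwa [h.conjN' hy] at this
  have h2 : Cm (conjBy (conjBy B y) x) (conjBy C y) := by
    have h3 := cm_conj h1 x
    have h4 : conjBy (conjBy C y) x = conjBy C y := conjBy_of_comm (fun n hn => (hxN n (hCy hn)).symm)
    rwa [h4] at h3
  have h3 := cm_sup h1 h2
  rw [sup_eq_of_mem h.pair hmem (unip_conj_mem hmem hx) (fun e => hne e.symm)] at h3
  have h4 : Cm (conjBy D y) (conjBy C y) := cm_mono h3 (conjBy_le_of_mem le_sup_right hy) le_rfl
  rw [cm_conj_iff] at h4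
  exact not_cm_of_case hS h.case2 h4.symm

end Cyc

end S5036

theorem result_5036 (hS : Cfsg.IsRootSubgroupSet S)
    {A B D : Subgroup G} (hA : A ∈ S) (hB : B ∈ S) (hC : ⁅A, B⁆ ∈ S) (hD : D ∈ S) (hDC : ⁅D, ⁅A, B⁆⁆ = A) :
    Cfsg.IsRankOnePair B D ∧
    {E | ∃ x ∈ B ⊔ D, E = Cfsg.conjBy A x} = {E | ∃ x ∈ B ⊔ D, E = Cfsg.conjBy ⁅A, B⁆ x} ∧
    {E | ∃ x ∈ B ⊔ D, E = Cfsg.conjBy A x} = (fun b : G => Cfsg.conjBy A b) '' (B : Set G) ∪ {⁅A, B⁆} ∧
    {E | ∃ x ∈ B ⊔ D, E = Cfsg.conjBy A x} = (fun d : G => Cfsg.conjBy ⁅A, B⁆ d) '' (D : Set G) ∪ {A} ∧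
    Cfsg.IsSubgroupPartition (A ⊔ ⁅A, B⁆) {E | ∃ x ∈ B ⊔ D, E = Cfsg.conjBy A x} ∧
    ∀ x ∈ (B ⊔ D) ⊓ Subgroup.centralizer ((A ⊔ ⁅A, B⁆ : Subgroup G) : Set G), ∀ y ∈ B ⊔ D, x * y = y * x := by
  have h := cyc_of hS hA hB hC hD hDC
  refine ⟨h.pair, h.orbit_eq' hS, h.orbit_eq hS, ?_, ?_, ?_⟩
  · rw [h.orbit_eq hS, h.sets_eq hS]
  · rw [h.orbit_eq hS]; exact h.partition hS
  · rintro x ⟨hx, hx'⟩
    apply h.cent hS x hx
    intro n hn
    exact Subgroup.mem_centralizer_iff.1 hx' n hn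

/-- OPP: a commutator partner B of A has a line partner opposite to A. -/
theorem exists_opp (hS : IsRootSubgroupSet S) (hF : ∀ A ∈ S, ¬ IsIsolatedIn (FAdj S) S A) {A B : Subgroup G}
    (hA : A ∈ S) (hB : B ∈ S) (h : RootCommutatorCase S A B) :
    ∃ D ∈ S, IsRankOnePair A D ∧ IsLine S B D := by
  obtain ⟨DB, hDB, hp⟩ := not_isolated (hF B hB) hB
  have hL : IsLine S B ⁅B, A⁆ := line_of_case hS (case_symm h) hDB hp hB
  obtain ⟨D, hapt⟩ := exists_apt hS hF hL.symm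
  -- Apt S E B D with E = [B, A]: ⁅E, F⁆ = B where F = ⁅D, B⁆
  have hFS := hapt.fS
  have e := hapt.eq
  have hcyc := cyc_of hS hB hA (by rw [Subgroup.commutator_comm B A]; exact h.1) hFS
    (by rw [Subgroup.commutator_comm]; exact e)
  refine ⟨_, hFS, hcyc.pair, ?_⟩
  obtain ⟨DF, hDF, hpF⟩ := not_isolated (hF _ hFS) hFS
  have h2 := line_of_case hS (case_symm hapt.case2) hDF hpF hFS
  rw [Subgroup.commutator_comm ⁅D, B⁆, e] at h2
  exact h2.symm

end H85.RootSpecial
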