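import Cfsg.Agent.Lib.H85.RankOneNormal

/-!
Sets of abstract root subgroups: first properties (S5024 - S5029).
-/
set_option autoImplicit false

namespace H85.RootSub

open Cfsg H85.RankOne H85.RankOneTrans
open scoped commutatorElement

variable {G : Type*} [Group G]

/-- An element of ⟨A, B⟩ fixing all unipotent subgroups is central in ⟨A, B⟩. -/
theorem commute_of_fix_all {A B : Subgroup G} (h : IsRankOnePair A B) {n : G} (hn : n ∈ A ⊔ B)
    (hfix : ∀ C ∈ unipotentSubgroups A B, conjBy C n = C) : ∀ x ∈ A ⊔ B, n * x = x * n := by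
  let N : Subgroup G :=
    { carrier := {n | n ∈ A ⊔ B ∧ ∀ C ∈ unipotentSubgroups A B, conjBy C n = C}
      one_mem' := ⟨Subgroup.one_mem _, fun C _ => conjBy_one C⟩
      mul_mem' := by
        rintro x y ⟨hx, hx'⟩ ⟨hy, hy'⟩
        refine ⟨Subgroup.mul_mem _ hx hy, fun C hC => ?_⟩
        rw [conjBy_mul, hy' C hC, hx' C hC]
      inv_mem' := by
        rintro x ⟨hx, hx'⟩
        refine ⟨Subgroup.inv_mem _ hx, fun C hC => ?_⟩
        rw [conjBy_eq_iff, inv_inv, hx' C hC] }
  apply commute_of_fix h N _ (fun n hn => hn.2 A left_mem) (fun n hn => hn.2 B (right_mem h)) n ⟨hn, hfix⟩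
  intro x hx
  have key : ∀ x ∈ A ⊔ B, ∀ n ∈ N, x⁻¹ * n * x ∈ N := by
    rintro x hx n ⟨hn1, hn2⟩
    refine ⟨Subgroup.mul_mem _ (Subgroup.mul_mem _ (Subgroup.inv_mem _ hx) hn1) hx, fun C hC => ?_⟩
    rw [mul_assoc, conjBy_mul, conjBy_mul, hn2 _ (unip_conj_mem hC hx), conjBy_inv_conjBy]
  ext y
  rw [mem_conjBy]
  constructor
  · intro hy
    have := key x⁻¹ (Subgroup.inv_mem _ hx) _ hy
    have e : x⁻¹⁻¹ * (x⁻¹ * y * x) * x⁻¹ = y := by group
    rwa [e] at this
  · intro hy
    exact key x hx y hy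

variable {S : Set (Subgroup G)}

theorem comm_mem (hS : IsRootSubgroupSet S) {A : Subgroup G} (hA : A ∈ S) : ∀ u ∈ A, ∀ v ∈ A, u * v = v * u := by
  intro u hu v hv
  have := (hS.commutative A hA).is_comm.comm (⟨u, hu⟩ : A) ⟨v, hv⟩
  exact congrArg Subtype.val this

/-- B^a commutes with B unless (A, B) is a rank one pair. -/
theorem rankOne_or_conj_comm (hS : IsRootSubgroupSet S) {A B : Subgroup G} (hA : A ∈ S) (hB : B ∈ S) :
    IsRankOnePair A B ∨ ∀ a ∈ A, ∀ x ∈ conjBy B a, ∀ y ∈ B, x * y = y * x := by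
  rcases hS.pair A hA B hB with h | h | h
  · right
    rw [bracket_eq_bot_iff] at h
    intro a ha x hx y hy
    rw [mem_conjBy] at hx
    have h1 := h a ha _ hx
    have h2 : x = a⁻¹ * x * a := by
      calc x = a * (a⁻¹ * x * a) * a⁻¹ := by group
        _ = a⁻¹ * x * a := by rw [h1]; group
    rw [h2]
    exact comm_mem hS hB _ hx _ hy
  · exact Or.inl h
  · right
    intro a ha x hx y hy
    rw [mem_conjBy] at hx
    set b := a⁻¹ * x * a with hb
    have h1 : x = (a * b * a⁻¹ * b⁻¹) * b := by rw [hb]; group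
    have h2 := h.2.1 _ (bracket_mem ha hx) y (Subgroup.mem_sup_right hy)
    have h3 := comm_mem hS hB b hx y hy
    rw [h1, mul_assoc, h3, ← mul_assoc, h2, mul_assoc]

theorem rankOne_of_conj (hS : IsRootSubgroupSet S) {A B : Subgroup G} (hA : A ∈ S) (hB : B ∈ S) {a : G} (ha : a ∈ A)
    (h : IsRankOnePair B (conjBy B a)) : IsRankOnePair A B := by
  rcases rankOne_or_conj_comm hS hA hB with h1 | h1
  · exact h1
  · exfalso
    apply bracket_ne_bot h
    rw [bracket_eq_bot_iff]
    intro b hb x hx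
    exact (h1 a ha x hx b hb).symm

theorem mem_unip_of_le (hS : IsRootSubgroupSet S) {A B C D : Subgroup G} (hA : A ∈ S) (hC : C ∈ S)
    (hAB : IsRankOnePair A B) (hCD : IsRankOnePair C D) (hle : A ⊔ B ≤ C ⊔ D) : A ∈ unipotentSubgroups C D := by
  by_contra hc
  have hex : ∃ a ∈ A, ∃ E ∈ unipotentSubgroups C D, conjBy E a ≠ E := by
    by_contra hall
    push Not at hall
    apply bracket_ne_bot hAB
    rw [bracket_eq_bot_iff]
    intro a ha b hb
    exact commute_of_fix_all hCD (hle (Subgroup.mem_sup_left ha)) (fun E hE => hall a ha E hE) b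
      (hle (Subgroup.mem_sup_right hb))
  obtain ⟨a, ha, E, hE, hne⟩ := hex
  have haX : a ∈ C ⊔ D := hle (Subgroup.mem_sup_left ha)
  have hES : E ∈ S := by
    obtain ⟨x, -, rfl⟩ := hE
    exact hS.conj_mem C hC x
  have h1 := isRankOnePair_of_mem hCD hE (unip_conj_mem hE haX) hne.symm
  have h2 := rankOne_of_conj hS hA hES ha h1
  apply hc
  obtain ⟨x, hx, e⟩ := right_mem (RankOnePair_symm h2)
  rw [e]
  apply unip_conj_mem hE
  have : E ⊔ A ≤ C ⊔ D := sup_le (unip_le hE) (le_sup_left.trans hle)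
  exact this hx

theorem result_5024 (hS : Cfsg.IsRootSubgroupSet S)
    {A B C D : Subgroup G} (hA : A ∈ S) (hC : C ∈ S) (hB : B ∈ Cfsg.rankOnePartners S A) (hD : D ∈ Cfsg.rankOnePartners S C)
    (hle : A ⊔ B ≤ C ⊔ D) : A ⊔ B = C ⊔ D ∧ C ∈ Cfsg.unipotentSubgroups A B ∧ D ∈ Cfsg.unipotentSubgroups A B := by
  have h1 := mem_unip_of_le hS hA hC hB.2 hD.2 hle
  have h2 := mem_unip_of_le hS hB.1 hC (RankOnePair_symm hB.2) hD.2 (by rw [sup_comm]; exact hle)
  have h3 := unip_eq_of_mem hD.2 h1 h2 hB.2.ne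
  refine ⟨sup_eq_of_mem hD.2 h1 h2 hB.2.ne, ?_, ?_⟩
  · rw [h3]; exact left_mem
  · rw [h3]; exact right_mem hD.2

/-- The commutator case excludes commuting elements. -/
theorem not_comm_of_case (hS : IsRootSubgroupSet S) {A B : Subgroup G} (h : RootCommutatorCase S A B) {a : G}
    (ha : a ∈ A) (ha1 : a ≠ 1) : ∃ b ∈ B, a * b ≠ b * a := by
  by_contra hc
  push Not at hc
  have h1 := h.2.2.1 a ha ha1
  apply hS.ne_bot _ h.1
  rw [← h1, eq_bot_iff, Subgroup.closure_le]
  rintro _ ⟨b, hb, rfl⟩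
  show a * b * a⁻¹ * b⁻¹ = 1
  rw [hc b hb]; group

theorem case_symm {A B : Subgroup G} (h : RootCommutatorCase S A B) : RootCommutatorCase S B A := by
  have e : ⁅B, A⁆ = ⁅A, B⁆ := Subgroup.commutator_comm B A
  have key : ∀ {A B : Subgroup G} (a : G), Subgroup.closure ((fun b : G => a * b * a⁻¹ * b⁻¹) '' (B : Set G)) =
      Subgroup.closure ((fun b : G => b * a * b⁻¹ * a⁻¹) '' (B : Set G)) := by
    intro A B a
    apply le_antisymm
    · rw [Subgroup.closure_le]
      rintro _ ⟨b, hb, rfl⟩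
      have : a * b * a⁻¹ * b⁻¹ = (b * a * b⁻¹ * a⁻¹)⁻¹ := by group
      show a * b * a⁻¹ * b⁻¹ ∈ Subgroup.closure _
      rw [this]
      exact Subgroup.inv_mem _ (Subgroup.subset_closure ⟨b, hb, rfl⟩)
    · rw [Subgroup.closure_le]
      rintro _ ⟨b, hb, rfl⟩
      have : b * a * b⁻¹ * a⁻¹ = (a * b * a⁻¹ * b⁻¹)⁻¹ := by group
      show b * a * b⁻¹ * a⁻¹ ∈ Subgroup.closure _
      rw [this]
      exact Subgroup.inv_mem _ (Subgroup.subset_closure ⟨b, hb, rfl⟩)
  refine ⟨by rw [e]; exact h.1, ?_, ?_, ?_⟩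
  · rw [e, sup_comm]; exact h.2.1
  · intro b hb hb1
    rw [e, ← h.2.2.2 b hb hb1]
    exact key (A := B) (B := A) b
  · intro a ha ha1
    rw [e, ← h.2.2.1 a ha ha1]
    exact (key (A := A) (B := B) a).symm

theorem sup_conj_of_centralize {A B : Subgroup G} {z : G} (hz : ∀ x ∈ A ⊔ B, z * x = x * z) {C : Subgroup G} (hC : C ≤ A ⊔ B) :
    conjBy C z = C := by
  ext x
  rw [mem_conjBy]
  constructor
  · intro hx
    have h1 := hz _ (hC hx)
    have : z⁻¹ * x * z = x := by
      calc z⁻¹ * x * z = (z * (z⁻¹ * x * z)) * z⁻¹ := by rw [h1]; group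
        _ = x := by group
    rwa [this] at hx
  · intro hx
    have h1 := hz _ (hC hx)
    have : z⁻¹ * x * z = x := by rw [mul_assoc, ← h1]; group
    rwa [this]

theorem zmul_notMem (hS : IsRootSubgroupSet S) {A B : Subgroup G} (hA : A ∈ S) (hBS : B ∈ S) (hAB : IsRankOnePair A B)
    {z : G} (hz : ∀ x ∈ A ⊔ B, z * x = x * z) (hz1 : z ≠ 1) {a : G} (ha : a ∈ A) (ha1 : a ≠ 1) {C : Subgroup G} (hC : C ∈ S)
    (hc : z * a ∈ C) (hc1 : z * a ≠ 1) : False := by
  have hBa : conjBy B a ≤ A ⊔ B := conjBy_le_of_mem le_sup_right (Subgroup.mem_sup_left ha)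
  have e1 : conjBy B (z * a) = conjBy B a := by
    rw [conjBy_mul, sup_conj_of_centralize hz hBa]
  have hCB : IsRankOnePair C B := by
    apply rankOne_of_conj hS hC hBS hc
    rw [e1]; exact pair_conj_right hAB ha ha1
  have hcomm : ∀ a' ∈ A, z * a * a' = a' * (z * a) := by
    intro a' ha'
    have h1 := hz a' (Subgroup.mem_sup_left ha')
    have h2 := comm_mem hS hA a ha a' ha'
    rw [mul_assoc, h2, ← mul_assoc, h1, mul_assoc]
  have hCA : ⁅C, A⁆ = ⊥ := by
    rcases hS.pair C hC A hA with h | h | h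
    · exact h
    · exfalso
      rcases eq_one_or_of_commute h hc ha (hcomm a ha) with h1 | h1
      · exact hc1 h1
      · exact ha1 h1
    · exfalso
      obtain ⟨b, hb, hne⟩ := not_comm_of_case hS h hc hc1
      exact hne (hcomm b hb)
  have hCeq : C = A := by
    obtain ⟨b, hb, -, eb⟩ := conj_partner' hAB ha ha1
    obtain ⟨b', hb', -, eb'⟩ := conj_partner' hCB hc hc1
    rw [e1, ← eb] at eb'
    have e2 : C = conjBy A (b'⁻¹ * b) := by
      rw [conjBy_mul, ← eb', conjBy_inv_conjBy]
    by_cases h1 : b'⁻¹ * b = 1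
    · rw [e2, h1, conjBy_one]
    · exfalso
      have h2 := pair_conj_left hAB (B.mul_mem (B.inv_mem hb') hb) h1
      rw [← e2] at h2
      apply bracket_ne_bot h2
      rw [Subgroup.commutator_comm]; exact hCA
  rw [hCeq] at hc
  have hzA : z ∈ A := by
    have : z = z * a * a⁻¹ := by group
    rw [this]; exact A.mul_mem hc (A.inv_mem ha)
  exact hz1 (eq_one_of_central hAB hzA hz)

theorem result_5025 (hS : Cfsg.IsRootSubgroupSet S)
    {A B : Subgroup G} (hA : A ∈ S) (hB : B ∈ Cfsg.rankOnePartners S A) {z : G}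
    (hz : z ∈ Subgroup.centralizer ((A ⊔ B : Subgroup G) : Set G)) (hz1 : z ≠ 1) :
    ∀ a ∈ A, a ≠ 1 → z * a ∉ Cfsg.rootElements S := by
  intro a ha ha1 hmem
  obtain ⟨h1, C, hC, hc⟩ := hmem
  exact zmul_notMem hS hA hB.1 hB.2 (fun x hx => ((Subgroup.mem_centralizer_iff.1 hz) x hx).symm) hz1 ha ha1 hC hc h1

theorem not_isolated {A : Subgroup G} (hA : ¬ IsIsolatedIn (FAdj S) S A) (hAS : A ∈ S) : ∃ B ∈ S, IsRankOnePair A B := by
  by_contra hc
  push Not at hc
  apply hA
  refine ⟨hAS, fun B => ⟨?_, ?_⟩⟩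
  · rintro ⟨-, hB, h⟩; exact hc B hB h
  · rintro ⟨hB, -, h⟩; exact hc B hB (RankOnePair_symm h)

theorem not_isolated_of {A B : Subgroup G} (hA : A ∈ S) (hB : B ∈ S) (h : IsRankOnePair A B) :
    ¬ IsIsolatedIn (FAdj S) S A := by
  intro hc
  exact (hc.2 B).1 ⟨hA, hB, h⟩

theorem second_center (hS : Cfsg.IsRootSubgroupSet S)
    (hF : ∀ A ∈ S, ¬ Cfsg.IsIsolatedIn (Cfsg.FAdj S) S A) : Subgroup.upperCentralSeries G 2 = Subgroup.center G := by
  apply le_antisymm
  · intro z hz
    rw [show (2 : ℕ) = 1 + 1 from rfl, Subgroup.mem_upperCentralSeries_succ_iff] at hz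
    have hcen : ∀ A ∈ S, ∀ a ∈ A, z * a = a * z := by
      intro A hA a ha
      by_contra hne
      obtain ⟨B, hB, hAB⟩ := not_isolated (hF A hA) hA
      have h1 := hz a
      rw [Subgroup.upperCentralSeries_one, commutatorElement_def, Subgroup.mem_center_iff] at h1
      have ha1 : a ≠ 1 := by rintro rfl; apply hne; simp
      apply zmul_notMem hS hA hB hAB (z := z * a * z⁻¹ * a⁻¹) (fun x _ => (h1 x).symm) _ ha ha1 (hS.conj_mem A hA z)
      · have : z * a * z⁻¹ * a⁻¹ * a = z * a * z⁻¹ := by group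
        rw [this]; exact conj_mem_conjBy ha
      · have : z * a * z⁻¹ * a⁻¹ * a = z * a * z⁻¹ := by group
        rw [this]
        intro e
        apply ha1
        calc a = z⁻¹ * (z * a * z⁻¹) * z := by group
          _ = 1 := by rw [e]; group
      · intro e
        apply hne
        calc z * a = (z * a * z⁻¹ * a⁻¹) * (a * z) := by group
          _ = a * z := by rw [e, one_mul]
    rw [Subgroup.mem_center_iff]
    have h2 : (⊤ : Subgroup G) ≤ Subgroup.centralizer {z} := by
      rw [← hS.generates]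
      apply iSup₂_le
      intro A hA a ha
      rw [Subgroup.mem_centralizer_iff]
      rintro _ rfl
      exact hcen A hA a ha
    intro g
    have := Subgroup.mem_centralizer_iff.1 (h2 (Subgroup.mem_top g)) z rfl
    exact this.symm
  · rw [← Subgroup.upperCentralSeries_one]
    exact Subgroup.upperCentralSeries_mono G (by norm_num)

/-- A non-isolated member meets every other member trivially. -/
theorem eq_of_mem (hS : IsRootSubgroupSet S) {A B C : Subgroup G} (hC : C ∈ S) (hAC : IsRankOnePair A C)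
    (hB : B ∈ S) {a : G} (ha : a ∈ A) (haB : a ∈ B) (ha1 : a ≠ 1) : A = B := by
  have hBC : IsRankOnePair B C := rankOne_of_conj hS hB hC haB (pair_conj_right hAC ha ha1)
  obtain ⟨c, hc, -, ec⟩ := conj_partner' hAC ha ha1
  obtain ⟨c', hc', -, ec'⟩ := conj_partner' hBC haB ha1
  have e2 : B = conjBy A (c'⁻¹ * c) := by
    rw [conjBy_mul, ec, ← ec', conjBy_inv_conjBy]
  apply eq_of_mem_inf hAC left_mem _ ha1 ha haB
  rw [e2]
  exact unip_conj_mem left_mem (Subgroup.mem_sup_right (C.mul_mem (C.inv_mem hc') hc))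

theorem result_5028 (hS : Cfsg.IsRootSubgroupSet S)
    {A : Subgroup G} (hA : ¬ Cfsg.IsIsolatedIn (Cfsg.FAdj S) S A) (hAS : A ∈ S) : ∀ B ∈ S, A ⊓ B = ⊥ ∨ A = B := by
  intro B hB
  obtain ⟨C, hC, hAC⟩ := not_isolated hA hAS
  by_cases h : A ⊓ B = ⊥
  · exact Or.inl h
  · right
    obtain ⟨a, ⟨haA, haB⟩, ha1⟩ := exists_ne_one h
    exact eq_of_mem hS hC hAC hB haA haB ha1

theorem result_5026 (hS : Cfsg.IsRootSubgroupSet S) (hdeg : Cfsg.IsDegenerateRootSet S)
    {a b : G} (ha : a ∈ Cfsg.rootElements S) (hb : b ∈ Cfsg.rootElements S) (hab : a * b = b * a) (hab1 : a * b ≠ 1) :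
    Cfsg.centralizingMembers S (Subgroup.zpowers (a * b)) =
      Cfsg.centralizingMembers S (Subgroup.zpowers a) ∩ Cfsg.centralizingMembers S (Subgroup.zpowers b) := by
  have hcz : ∀ (x : G) (C : Subgroup G), C ≤ Subgroup.centralizer ((Subgroup.zpowers x : Subgroup G) : Set G) ↔ ∀ c ∈ C, c * x = x * c := by
    intro x C
    constructor
    · intro h c hc
      exact (Subgroup.mem_centralizer_iff.1 (h hc) x (Subgroup.mem_zpowers x)).symm
    · intro h c hc
      rw [Subgroup.mem_centralizer_iff]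
      rintro _ ⟨n, rfl⟩
      have : Commute c x := h c hc
      exact (this.zpow_right n).eq.symm
  obtain ⟨ha1, A, hA, haA⟩ := ha
  obtain ⟨hb1, B, hB, hbB⟩ := hb
  have two : ∀ {A B : Subgroup G}, A ∈ S → B ∈ S → ⁅A, B⁆ = ⊥ ∨ IsRankOnePair A B := by
    intro A B hA hB
    rcases hS.pair A hA B hB with h | h | h
    · exact Or.inl h
    · exact Or.inr h
    · exact absurd h (hdeg A hA B hB)
  ext C
  constructor
  · rintro ⟨hC, hCc⟩
    rw [hcz] at hCc
    have hCa : ∀ c ∈ C, c * a = a * c := by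
      rcases two hA hC with h | h
      · rw [bracket_eq_bot_iff] at h
        intro c hc; exact (h a haA c hc).symm
      · exfalso
        rcases two hB hC with h' | h'
        · rw [bracket_eq_bot_iff] at h'
          obtain ⟨c, hc, hc1⟩ := exists_ne_one (hS.ne_bot C hC)
          have h1 : a * c = c * a := by
            have e1 := h' b hbB c hc
            have e2 := hCc c hc
            have e3 : a * b * c = c * (a * b) := e2.symm
            rw [mul_assoc, e1, ← mul_assoc, ← mul_assoc] at e3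
            exact mul_right_cancel e3
          rcases eq_one_or_of_commute h haA hc h1 with h2 | h2
          · exact ha1 h2
          · exact hc1 h2
        · have e0 : conjBy C (a * b) = C := by
            ext x
            rw [mem_conjBy]
            constructor
            · intro hx
              have e1 := hCc _ hx
              have : (a * b)⁻¹ * x * (a * b) = x := by
                calc (a * b)⁻¹ * x * (a * b) = (a * b) * ((a * b)⁻¹ * x * (a * b)) * (a * b)⁻¹ := by rw [← e1]; group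
                  _ = x := by group
              rwa [this] at hx
            · intro hx
              have e1 := hCc _ hx
              have : (a * b)⁻¹ * x * (a * b) = x := by rw [mul_assoc, e1]; group
              rwa [this]
          have e1 : conjBy C b = conjBy C a⁻¹ := by
            rw [conjBy_mul] at e0
            rw [conjBy_eq_iff] at e0
            exact e0
          obtain ⟨c, hc, -, ec⟩ := conj_partner' h (A.inv_mem haA) (inv_ne_one.2 ha1)
          obtain ⟨c', hc', -, ec'⟩ := conj_partner' h' hbB hb1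
          have e2 : B = conjBy A (c'⁻¹ * c) := by
            rw [conjBy_mul, ec, ← e1, ← ec', conjBy_inv_conjBy]
          rcases two hA hB with h3 | h3
          · by_cases h1 : c'⁻¹ * c = 1
            · rw [h1, conjBy_one] at e2
              rw [e2] at hbB
              obtain ⟨d, hd, hd1⟩ := exists_ne_one (hS.ne_bot C hC)
              rcases eq_one_or_of_commute h (A.mul_mem haA hbB) hd (hCc d hd).symm with h2 | h2
              · exact hab1 h2
              · exact hd1 h2
            · have h2 := pair_conj_left h (C.mul_mem (C.inv_mem hc') hc) h1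
              rw [← e2] at h2
              exact bracket_ne_bot h2 h3
          · rcases eq_one_or_of_commute h3 haA hbB hab with h2 | h2
            · exact ha1 h2
            · exact hb1 h2
    refine ⟨⟨hC, (hcz a C).2 hCa⟩, ⟨hC, (hcz b C).2 ?_⟩⟩
    intro c hc
    have e1 := hCa c hc
    have e2 := hCc c hc
    have e3 : a * (c * b) = a * (b * c) := by
      rw [← mul_assoc, ← e1, mul_assoc, e2, mul_assoc]
    exact mul_left_cancel e3
  · rintro ⟨⟨hC, h1⟩, ⟨-, h2⟩⟩
    rw [hcz] at h1 h2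
    refine ⟨hC, (hcz _ C).2 ?_⟩
    intro c hc
    rw [← mul_assoc, h1 c hc, mul_assoc, h2 c hc, mul_assoc]

end H85.RootSub
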