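import Cfsg.Agent.Lib.H85.RootSub

/-!
Sets of abstract root subgroups: the commutator case, lines, connected components of 𝓕(Σ) (S5029, S5031, S5032, S5035).
-/
set_option autoImplicit false

namespace H85.RootSub2

open Cfsg H85.RankOne H85.RankOneTrans H85.RootSub

variable {G : Type*} [Group G] {S : Set (Subgroup G)}

/-- ⁅A, B⁆ is normalized by ⟨A, B⟩. -/
theorem bracket_conj {A B : Subgroup G} : ∀ x ∈ A ⊔ B, conjBy ⁅A, B⁆ x = ⁅A, B⁆ := by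
  have hnA : ∀ a ∈ A, ∀ c ∈ ⁅A, B⁆, a * c * a⁻¹ ∈ ⁅A, B⁆ := by
    intro a ha c hc
    refine Subgroup.closure_induction (p := fun c _ => a * c * a⁻¹ ∈ ⁅A, B⁆) ?_ ?_ ?_ ?_ hc
    · rintro x ⟨g₁, hg₁, g₂, hg₂, rfl⟩
      have e : a * (g₁ * g₂ * g₁⁻¹ * g₂⁻¹) * a⁻¹ = (a * g₁ * g₂ * (a * g₁)⁻¹ * g₂⁻¹) * (a * g₂ * a⁻¹ * g₂⁻¹)⁻¹ := by group
      show a * (g₁ * g₂ * g₁⁻¹ * g₂⁻¹) * a⁻¹ ∈ _
      rw [e]
      exact Subgroup.mul_mem _ (bracket_mem (A.mul_mem ha hg₁) hg₂) (Subgroup.inv_mem _ (bracket_mem ha hg₂))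
    · rw [mul_one, mul_inv_cancel]; exact Subgroup.one_mem _
    · intro x y _ _ hx hy
      have e : a * (x * y) * a⁻¹ = (a * x * a⁻¹) * (a * y * a⁻¹) := by group
      rw [e]; exact Subgroup.mul_mem _ hx hy
    · intro x _ hx
      have e : a * x⁻¹ * a⁻¹ = (a * x * a⁻¹)⁻¹ := by group
      rw [e]; exact Subgroup.inv_mem _ hx
  have hnB : ∀ b ∈ B, ∀ c ∈ ⁅A, B⁆, b * c * b⁻¹ ∈ ⁅A, B⁆ := by
    intro b hb c hc
    refine Subgroup.closure_induction (p := fun c _ => b * c * b⁻¹ ∈ ⁅A, B⁆) ?_ ?_ ?_ ?_ hc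
    · rintro x ⟨g₁, hg₁, g₂, hg₂, rfl⟩
      have e : b * (g₁ * g₂ * g₁⁻¹ * g₂⁻¹) * b⁻¹ = (g₁ * b * g₁⁻¹ * b⁻¹)⁻¹ * (g₁ * (b * g₂) * g₁⁻¹ * (b * g₂)⁻¹) := by group
      show b * (g₁ * g₂ * g₁⁻¹ * g₂⁻¹) * b⁻¹ ∈ _
      rw [e]
      exact Subgroup.mul_mem _ (Subgroup.inv_mem _ (bracket_mem hg₁ hb)) (bracket_mem hg₁ (B.mul_mem hb hg₂))
    · rw [mul_one, mul_inv_cancel]; exact Subgroup.one_mem _
    · intro x y _ _ hx hy
      have e : b * (x * y) * b⁻¹ = (b * x * b⁻¹) * (b * y * b⁻¹) := by group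
      rw [e]; exact Subgroup.mul_mem _ hx hy
    · intro x _ hx
      have e : b * x⁻¹ * b⁻¹ = (b * x * b⁻¹)⁻¹ := by group
      rw [e]; exact Subgroup.inv_mem _ hx
  have hn : ∀ x ∈ A ⊔ B, ∀ c ∈ ⁅A, B⁆, x * c * x⁻¹ ∈ ⁅A, B⁆ := by
    intro x hx
    refine sup_induct (A := A) (B := B) (p := fun x => ∀ c ∈ ⁅A, B⁆, x * c * x⁻¹ ∈ ⁅A, B⁆) hnA hnB ?_ hx
    intro x y hx hy c hc
    have e : x * y * c * (x * y)⁻¹ = x * (y * c * y⁻¹) * x⁻¹ := by group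
    rw [e]; exact hx _ (hy _ hc)
  intro x hx
  ext y
  rw [mem_conjBy]
  constructor
  · intro hy
    have := hn x hx _ hy
    have e : x * (x⁻¹ * y * x) * x⁻¹ = y := by group
    rwa [e] at this
  · intro hy
    have := hn x⁻¹ (Subgroup.inv_mem _ hx) _ hy
    rwa [inv_inv] at this

theorem bracket_le {A B : Subgroup G} : ⁅A, B⁆ ≤ A ⊔ B :=
  (Subgroup.commutator_mono le_sup_left le_sup_right).trans (Subgroup.commutator_le_self _)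

/-- If [g, a] is central in X ≥ P ⊔ Q for g ∈ P and for g ∈ Q then for all g ∈ P ⊔ Q. -/
theorem central_comm_induct {P Q A X : Subgroup G} (hPX : P ≤ X) (hQX : Q ≤ X)
    (hP : ∀ g ∈ P, ∀ a ∈ A, ∀ x ∈ X, (g * a * g⁻¹ * a⁻¹) * x = x * (g * a * g⁻¹ * a⁻¹))
    (hQ : ∀ g ∈ Q, ∀ a ∈ A, ∀ x ∈ X, (g * a * g⁻¹ * a⁻¹) * x = x * (g * a * g⁻¹ * a⁻¹)) :
    ∀ g ∈ P ⊔ Q, ∀ a ∈ A, ∀ x ∈ X, (g * a * g⁻¹ * a⁻¹) * x = x * (g * a * g⁻¹ * a⁻¹) := by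
  intro g hg
  have key : g ∈ X ∧ ∀ a ∈ A, ∀ x ∈ X, (g * a * g⁻¹ * a⁻¹) * x = x * (g * a * g⁻¹ * a⁻¹) := by
    refine sup_induct (A := P) (B := Q)
      (p := fun g => g ∈ X ∧ ∀ a ∈ A, ∀ x ∈ X, (g * a * g⁻¹ * a⁻¹) * x = x * (g * a * g⁻¹ * a⁻¹)) ?_ ?_ ?_ hg
    · intro g hg; exact ⟨hPX hg, hP g hg⟩
    · intro g hg; exact ⟨hQX hg, hQ g hg⟩
    · rintro g h ⟨hgX, hg⟩ ⟨hhX, hh⟩
      refine ⟨X.mul_mem hgX hhX, fun a ha x hx => ?_⟩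
      have e : g * h * a * (g * h)⁻¹ * a⁻¹ = (h * a * h⁻¹ * a⁻¹) * (g * a * g⁻¹ * a⁻¹) := by
        calc g * h * a * (g * h)⁻¹ * a⁻¹ = (g * (h * a * h⁻¹ * a⁻¹)) * a * g⁻¹ * a⁻¹ := by group
          _ = ((h * a * h⁻¹ * a⁻¹) * g) * a * g⁻¹ * a⁻¹ := by rw [hh a ha g hgX]
          _ = _ := by group
      rw [e, mul_assoc, hg a ha x hx, ← mul_assoc, hh a ha x hx, mul_assoc]
  exact key.2

/-- If ⁅A, B⁆ ∈ S for members A, B of S then we are in the commutator case. -/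
theorem case_of_mem (hS : IsRootSubgroupSet S) {A B : Subgroup G} (hA : A ∈ S) (hB : B ∈ S) (hC : ⁅A, B⁆ ∈ S) :
    RootCommutatorCase S A B := by
  rcases hS.pair A hA B hB with h | h | h
  · exact absurd h (hS.ne_bot _ hC)
  · exfalso
    -- it suffices to find a contradiction when g a g⁻¹ a⁻¹ is central for g ∈ X, a ∈ A
    have hfin : (∀ g ∈ A ⊔ B, ∀ a ∈ A, ∀ x ∈ A ⊔ B, (g * a * g⁻¹ * a⁻¹) * x = x * (g * a * g⁻¹ * a⁻¹)) → False := by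
      intro hz
      obtain ⟨a, ha, ha1⟩ := exists_ne_one (hS.ne_bot A hA)
      obtain ⟨b, hb, hb1⟩ := exists_ne_one (hS.ne_bot B hB)
      have hp := pair_conj_left h hb hb1
      have h1 : b * a * b⁻¹ ∈ conjBy A b := conj_mem_conjBy ha
      have h2 := hz b (Subgroup.mem_sup_right hb) a ha a (Subgroup.mem_sup_left ha)
      have h3 : a * (b * a * b⁻¹) = (b * a * b⁻¹) * a := by
        calc a * (b * a * b⁻¹) = a * (b * a * b⁻¹ * a⁻¹) * a := by group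
          _ = (b * a * b⁻¹ * a⁻¹) * a * a := by rw [h2]
          _ = _ := by group
      rcases eq_one_or_of_commute hp ha h1 h3 with h4 | h4
      · exact ha1 h4
      · apply ha1
        calc a = b⁻¹ * (b * a * b⁻¹) * b := by group
          _ = 1 := by rw [h4]; group
    have h1A : ∀ g ∈ A, ∀ a ∈ A, ∀ x ∈ A ⊔ B, (g * a * g⁻¹ * a⁻¹) * x = x * (g * a * g⁻¹ * a⁻¹) := by
      intro g hg a ha x _
      have : g * a * g⁻¹ * a⁻¹ = 1 := by rw [comm_mem hS hA g hg a ha]; group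
      rw [this]; simp
    have hcentral : (∀ n ∈ ⁅A, B⁆, ∀ x ∈ A ⊔ B, n * x = x * n) → False := by
      intro hc
      apply hfin
      apply central_comm_induct le_sup_left le_sup_right h1A
      intro g hg a ha
      apply hc
      have : g * a * g⁻¹ * a⁻¹ = (a * g * a⁻¹ * g⁻¹)⁻¹ := by group
      rw [this]; exact Subgroup.inv_mem _ (bracket_mem ha hg)
    rcases normal_dichotomy' h ⁅A, B⁆ bracket_le bracket_conj with h1 | h1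
    · rcases hS.pair _ hC A hA with h2 | h2 | h2
      · apply hcentral
        rw [← h1]
        rw [bracket_eq_bot_iff] at h2
        intro n hn
        exact commute_sup (comm_mem hS hC n hn) (h2 n hn)
      · obtain ⟨a, ha, ha1⟩ := exists_ne_one (hS.ne_bot A hA)
        exact ha1 (eq_one_of_conjBy_eq' h2 ha (bracket_conj a (Subgroup.mem_sup_left ha)))
      · have h3 := h2.2.1
        rw [h1] at h3
        apply hfin
        have h4 : ∀ g ∈ ⁅A, B⁆ ⊔ A, ∀ a ∈ A, ∀ x ∈ A ⊔ B, (g * a * g⁻¹ * a⁻¹) * x = x * (g * a * g⁻¹ * a⁻¹) := by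
          apply central_comm_induct bracket_le le_sup_left _ h1A
          intro g hg a ha
          apply h3
          exact bracket_mem hg ha
        rwa [h1] at h4
    · exact hcentral h1
  · exact h

/-! ### The commutator case -/

theorem br_mul_right {A B : Subgroup G} (hc : ∀ c ∈ ⁅A, B⁆, ∀ x ∈ A ⊔ B, c * x = x * c) {a b b' : G} (ha : a ∈ A)
    (hb : b ∈ B) (hb' : b' ∈ B) :
    a * (b * b') * a⁻¹ * (b * b')⁻¹ = (a * b * a⁻¹ * b⁻¹) * (a * b' * a⁻¹ * b'⁻¹) := by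
  have h1 := hc _ (bracket_mem ha hb') (a * b * a⁻¹)
    (Subgroup.mul_mem _ (Subgroup.mul_mem _ (Subgroup.mem_sup_left ha) (Subgroup.mem_sup_right hb))
      (Subgroup.inv_mem _ (Subgroup.mem_sup_left ha)))
  have h2 := hc _ (bracket_mem ha hb') b⁻¹ (Subgroup.inv_mem _ (Subgroup.mem_sup_right hb))
  calc a * (b * b') * a⁻¹ * (b * b')⁻¹ = (a * b * a⁻¹) * (a * b' * a⁻¹ * b'⁻¹) * b⁻¹ := by group
    _ = (a * b * a⁻¹) * (b⁻¹ * (a * b' * a⁻¹ * b'⁻¹)) := by rw [mul_assoc, h2]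
    _ = _ := by simp only [mul_assoc]

theorem br_mul_left {A B : Subgroup G} (hc : ∀ c ∈ ⁅A, B⁆, ∀ x ∈ A ⊔ B, c * x = x * c) {a a' b : G} (ha : a ∈ A)
    (ha' : a' ∈ A) (hb : b ∈ B) :
    (a * a') * b * (a * a')⁻¹ * b⁻¹ = (a * b * a⁻¹ * b⁻¹) * (a' * b * a'⁻¹ * b⁻¹) := by
  have h1 := hc _ (bracket_mem ha' hb) a (Subgroup.mem_sup_left ha)
  have h2 := hc _ (bracket_mem ha' hb) (a * b * a⁻¹ * b⁻¹) (bracket_le (bracket_mem ha hb))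
  calc (a * a') * b * (a * a')⁻¹ * b⁻¹ = (a * (a' * b * a'⁻¹ * b⁻¹)) * b * a⁻¹ * b⁻¹ := by group
    _ = ((a' * b * a'⁻¹ * b⁻¹) * a) * b * a⁻¹ * b⁻¹ := by rw [h1]
    _ = (a' * b * a'⁻¹ * b⁻¹) * (a * b * a⁻¹ * b⁻¹) := by group
    _ = _ := h2

theorem case_surj_right {A B : Subgroup G} (h : RootCommutatorCase S A B) {a : G} (ha : a ∈ A) (ha1 : a ≠ 1) {c : G}
    (hc : c ∈ ⁅A, B⁆) : ∃ b ∈ B, a * b * a⁻¹ * b⁻¹ = c := by
  have h1 := h.2.2.1 a ha ha1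
  rw [← h1] at hc
  refine Subgroup.closure_induction (p := fun c _ => ∃ b ∈ B, a * b * a⁻¹ * b⁻¹ = c) ?_ ?_ ?_ ?_ hc
  · rintro _ ⟨b, hb, rfl⟩; exact ⟨b, hb, rfl⟩
  · exact ⟨1, B.one_mem, by group⟩
  · rintro _ _ _ _ ⟨b, hb, rfl⟩ ⟨b', hb', rfl⟩
    exact ⟨b * b', B.mul_mem hb hb', br_mul_right h.2.1 ha hb hb'⟩
  · rintro _ _ ⟨b, hb, rfl⟩
    refine ⟨b⁻¹, B.inv_mem hb, ?_⟩
    have := br_mul_right h.2.1 ha hb (B.inv_mem hb)
    rw [eq_inv_iff_mul_eq_one]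
    have h2 := h.2.1 _ (bracket_mem ha (B.inv_mem hb)) _ (bracket_le (bracket_mem ha hb))
    rw [h2, ← this]; group

theorem case_surj_left {A B : Subgroup G} (h : RootCommutatorCase S A B) {b : G} (hb : b ∈ B) (hb1 : b ≠ 1) {c : G}
    (hc : c ∈ ⁅A, B⁆) : ∃ a ∈ A, a * b * a⁻¹ * b⁻¹ = c := by
  have h1 := h.2.2.2 b hb hb1
  rw [← h1] at hc
  refine Subgroup.closure_induction (p := fun c _ => ∃ a ∈ A, a * b * a⁻¹ * b⁻¹ = c) ?_ ?_ ?_ ?_ hc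
  · rintro _ ⟨a, ha, rfl⟩; exact ⟨a, ha, rfl⟩
  · exact ⟨1, A.one_mem, by group⟩
  · rintro _ _ _ _ ⟨a, ha, rfl⟩ ⟨a', ha', rfl⟩
    exact ⟨a * a', A.mul_mem ha ha', br_mul_left h.2.1 ha ha' hb⟩
  · rintro _ _ ⟨a, ha, rfl⟩
    refine ⟨a⁻¹, A.inv_mem ha, ?_⟩
    have := br_mul_left h.2.1 (A.inv_mem ha) ha hb
    rw [eq_inv_iff_mul_eq_one, ← this]; group

/-- In the commutator case, non-identity elements do not commute (one of the members has a rank one partner). -/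
theorem case_ne_comm (hS : IsRootSubgroupSet S) {A B D : Subgroup G} (h : RootCommutatorCase S A B)
    (hD : D ∈ S) (hAD : IsRankOnePair A D) (hA : A ∈ S) {a b : G} (ha : a ∈ A) (hb : b ∈ B) (ha1 : a ≠ 1) (hb1 : b ≠ 1) :
    a * b ≠ b * a := by
  intro hab
  have h1 : a ∈ conjBy A b := by
    rw [mem_conjBy]
    have : b⁻¹ * a * b = a := by rw [mul_assoc, hab]; group
    rwa [this]
  have h2 : A = conjBy A b := eq_of_mem hS hD hAD (hS.conj_mem A hA b) ha h1 ha1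
  have h3 : ⁅A, B⁆ ≤ A := by
    rw [← h.2.2.2 b hb hb1, Subgroup.closure_le]
    rintro _ ⟨a', ha', rfl⟩
    show a' * b * a'⁻¹ * b⁻¹ ∈ A
    have h4 : b * a'⁻¹ * b⁻¹ ∈ conjBy A b := conj_mem_conjBy (A.inv_mem ha')
    rw [← h2] at h4
    have h5 : a' * b * a'⁻¹ * b⁻¹ = a' * (b * a'⁻¹ * b⁻¹) := by group
    rw [h5]; exact A.mul_mem ha' h4
  obtain ⟨c, hc, hc1⟩ := exists_ne_one (hS.ne_bot _ h.1)
  have h6 : A = ⁅A, B⁆ := eq_of_mem hS hD hAD h.1 (h3 hc) hc hc1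
  apply hS.ne_bot _ h.1
  rw [bracket_eq_bot_iff]
  intro x hx y hy
  rw [h6] at hx
  exact h.2.1 x hx y (Subgroup.mem_sup_right hy)

theorem case_inj_right (hS : IsRootSubgroupSet S) {A B D : Subgroup G} (h : RootCommutatorCase S A B)
    (hD : D ∈ S) (hAD : IsRankOnePair A D) (hA : A ∈ S) {a b b' : G} (ha : a ∈ A) (ha1 : a ≠ 1) (hb : b ∈ B)
    (hb' : b' ∈ B) (e : a * b * a⁻¹ * b⁻¹ = a * b' * a⁻¹ * b'⁻¹) : b = b' := by
  by_contra hne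
  have h1 : b * b'⁻¹ ≠ 1 := fun h => hne (mul_inv_eq_one.1 h)
  apply case_ne_comm hS h hD hAD hA ha (B.mul_mem hb (B.inv_mem hb')) ha1 h1
  have h2 := br_mul_right h.2.1 ha (B.mul_mem hb (B.inv_mem hb')) hb'
  rw [inv_mul_cancel_right, e] at h2
  have h3 : a * (b * b'⁻¹) * a⁻¹ * (b * b'⁻¹)⁻¹ = 1 := mul_eq_right.1 h2.symm
  calc a * (b * b'⁻¹) = (a * (b * b'⁻¹) * a⁻¹ * (b * b'⁻¹)⁻¹) * ((b * b'⁻¹) * a) := by group
    _ = _ := by rw [h3, one_mul]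

theorem case_inj_left (hS : IsRootSubgroupSet S) {A B D : Subgroup G} (h : RootCommutatorCase S A B)
    (hD : D ∈ S) (hAD : IsRankOnePair A D) (hA : A ∈ S) {a a' b : G} (hb : b ∈ B) (hb1 : b ≠ 1) (ha : a ∈ A)
    (ha' : a' ∈ A) (e : a * b * a⁻¹ * b⁻¹ = a' * b * a'⁻¹ * b⁻¹) : a = a' := by
  by_contra hne
  have h1 : a * a'⁻¹ ≠ 1 := fun h => hne (mul_inv_eq_one.1 h)
  apply case_ne_comm hS h hD hAD hA (A.mul_mem ha (A.inv_mem ha')) hb h1 hb1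
  have h2 := br_mul_left h.2.1 (A.mul_mem ha (A.inv_mem ha')) ha' hb
  rw [inv_mul_cancel_right, e] at h2
  have h3 : (a * a'⁻¹) * b * (a * a'⁻¹)⁻¹ * b⁻¹ = 1 := mul_eq_right.1 h2.symm
  calc (a * a'⁻¹) * b = ((a * a'⁻¹) * b * (a * a'⁻¹)⁻¹ * b⁻¹) * (b * (a * a'⁻¹)) := by group
    _ = _ := by rw [h3, one_mul]

theorem mem_sup_comm {A C : Subgroup G} (h : ∀ a ∈ A, ∀ c ∈ C, a * c = c * a) {x : G} :
    x ∈ A ⊔ C ↔ ∃ a ∈ A, ∃ c ∈ C, x = a * c := by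
  constructor
  · intro hx
    refine sup_induct (A := A) (B := C) (p := fun x => ∃ a ∈ A, ∃ c ∈ C, x = a * c) ?_ ?_ ?_ hx
    · intro a ha; exact ⟨a, ha, 1, C.one_mem, by simp⟩
    · intro c hc; exact ⟨1, A.one_mem, c, hc, by simp⟩
    · rintro _ _ ⟨a, ha, c, hc, rfl⟩ ⟨a', ha', c', hc', rfl⟩
      refine ⟨a * a', A.mul_mem ha ha', c * c', C.mul_mem hc hc', ?_⟩
      calc a * c * (a' * c') = a * (c * a') * c' := by group
        _ = a * (a' * c) * c' := by rw [h a' ha' c hc]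
        _ = _ := by group
  · rintro ⟨a, ha, c, hc, rfl⟩
    exact Subgroup.mul_mem _ (Subgroup.mem_sup_left ha) (Subgroup.mem_sup_right hc)

/-- All the facts on the line AC, C = ⁅A, B⁆ (A has a rank one partner). -/
structure LineData (S : Set (Subgroup G)) (A B : Subgroup G) : Prop where
  comm : ∀ a ∈ A, ∀ c ∈ ⁅A, B⁆, a * c = c * a
  ne : A ≠ ⁅A, B⁆
  inf_left : ∀ x ∈ A, x ∈ ⁅A, B⁆ → x = 1
  mem_or : ∀ x ∈ A ⊔ ⁅A, B⁆, x ∈ ⁅A, B⁆ ∨ ∃ b ∈ B, x ∈ conjBy A b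
  conj_le : ∀ b ∈ B, conjBy A b ≤ A ⊔ ⁅A, B⁆
  conj_inf : ∀ b ∈ B, ∀ x ∈ conjBy A b, x ∈ ⁅A, B⁆ → x = 1
  conj_eq : ∀ b ∈ B, ∀ E ∈ S, ∀ x ∈ conjBy A b, x ∈ E → x ≠ 1 → E = conjBy A b
  members : ∀ E ∈ S, E ≤ A ⊔ ⁅A, B⁆ → E = ⁅A, B⁆ ∨ ∃ b ∈ B, E = conjBy A b
  not_cent : ∀ D ∈ S, IsRankOnePair A D → ∀ c ∈ ⁅A, B⁆, c ≠ 1 → ¬ (∀ d ∈ D, c * d = d * c)

theorem lineData (hS : IsRootSubgroupSet S) {A B D : Subgroup G} (h : RootCommutatorCase S A B)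
    (hD : D ∈ S) (hAD : IsRankOnePair A D) (hA : A ∈ S) : LineData S A B := by
  have hcomm : ∀ a ∈ A, ∀ c ∈ ⁅A, B⁆, a * c = c * a := fun a ha c hc => (h.2.1 c hc a (Subgroup.mem_sup_left ha)).symm
  have hne : A ≠ ⁅A, B⁆ := by
    intro e
    apply hS.ne_bot _ h.1
    rw [bracket_eq_bot_iff]
    intro x hx y hy
    rw [e] at hx
    exact h.2.1 x hx y (Subgroup.mem_sup_right hy)
  have hCconj : ∀ b ∈ B, conjBy ⁅A, B⁆ b = ⁅A, B⁆ := fun b hb => bracket_conj b (Subgroup.mem_sup_right hb)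
  have hinf : ∀ x ∈ A, x ∈ ⁅A, B⁆ → x = 1 := by
    intro x hx hxC
    by_contra hx1
    exact hne (eq_of_mem hS hD hAD h.1 hx hxC hx1)
  have hcinf : ∀ b ∈ B, ∀ x ∈ conjBy A b, x ∈ ⁅A, B⁆ → x = 1 := by
    intro b hb x hx hxC
    rw [mem_conjBy] at hx
    rw [← hCconj b hb, mem_conjBy] at hxC
    have := hinf _ hx hxC
    calc x = b * (b⁻¹ * x * b) * b⁻¹ := by group
      _ = 1 := by rw [this]; group
  have hceq : ∀ b ∈ B, ∀ E ∈ S, ∀ x ∈ conjBy A b, x ∈ E → x ≠ 1 → E = conjBy A b := by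
    intro b hb E hE x hx hxE hx1
    exact (eq_of_mem hS (hS.conj_mem D hD b) (isRankOnePair_conj hAD b) hE hx hxE hx1).symm
  have hmemor : ∀ x ∈ A ⊔ ⁅A, B⁆, x ∈ ⁅A, B⁆ ∨ ∃ b ∈ B, x ∈ conjBy A b := by
    intro x hx
    rw [mem_sup_comm hcomm] at hx
    obtain ⟨a, ha, c, hc, rfl⟩ := hx
    by_cases ha1 : a = 1
    · left; rw [ha1, one_mul]; exact hc
    · right
      obtain ⟨b, hb, e⟩ := case_surj_right h ha ha1 (Subgroup.inv_mem _ hc)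
      refine ⟨b, hb, ?_⟩
      have e1 : a * c = b * a * b⁻¹ := by
        have : c = (a * b * a⁻¹ * b⁻¹)⁻¹ := by rw [e, inv_inv]
        rw [hcomm a ha c hc, this]; group
      rw [e1]; exact conj_mem_conjBy ha
  have hnc : ∀ D ∈ S, IsRankOnePair A D → ∀ c ∈ ⁅A, B⁆, c ≠ 1 → ¬ (∀ d ∈ D, c * d = d * c) := by
    intro D hD hAD c hc hc1 hcd
    obtain ⟨a, ha, ha1⟩ := exists_ne_one (hS.ne_bot A hA)
    have h1 : c * a ∈ A ⊔ ⁅A, B⁆ := Subgroup.mul_mem _ (Subgroup.mem_sup_right hc) (Subgroup.mem_sup_left ha)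
    have hca : c * a ≠ 1 := by
      intro e
      apply hc1
      apply hinf c _ hc
      rw [eq_inv_of_mul_eq_one_left e]; exact A.inv_mem ha
    have hz : ∀ x ∈ A ⊔ D, c * x = x * c :=
      commute_sup (fun a ha => (hcomm a ha c hc).symm) hcd
    rcases hmemor _ h1 with h2 | ⟨b, hb, h2⟩
    · apply ha1
      apply hinf a ha
      have : a = c⁻¹ * (c * a) := by group
      rw [this]; exact Subgroup.mul_mem _ (Subgroup.inv_mem _ hc) h2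
    · exact zmul_notMem hS hA hD hAD hz hc1 ha ha1 (hS.conj_mem A hA b) h2 hca
  refine ⟨hcomm, hne, hinf, hmemor, ?_, hcinf, hceq, ?_, hnc⟩
  · intro b hb x hx
    rw [mem_conjBy] at hx
    have e : x = (b⁻¹ * x * b) * ((b⁻¹ * x * b)⁻¹ * b * (b⁻¹ * x * b)⁻¹⁻¹ * b⁻¹) := by group
    rw [e]
    exact Subgroup.mul_mem _ (Subgroup.mem_sup_left hx) (Subgroup.mem_sup_right (bracket_mem (A.inv_mem hx) hb))
  · intro E hE hle
    by_cases hex : ∃ x ∈ E, x ∉ ⁅A, B⁆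
    · obtain ⟨x, hxE, hxC⟩ := hex
      have hx1 : x ≠ 1 := by rintro rfl; exact hxC (Subgroup.one_mem _)
      rcases hmemor x (hle hxE) with h1 | ⟨b, hb, h1⟩
      · exact absurd h1 hxC
      · right
        exact ⟨b, hb, hceq b hb E hE x h1 hxE hx1⟩
    · left
      push Not at hex
      obtain ⟨e, he, he1⟩ := exists_ne_one (hS.ne_bot E hE)
      obtain ⟨d, hd, hd1⟩ := exists_ne_one (hS.ne_bot D hD)
      rcases hS.pair D hD E hE with h1 | h1 | h1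
      · exfalso
        rw [bracket_eq_bot_iff] at h1
        exact hnc D hD hAD e (hex e he) he1 (fun d hd => (h1 d hd e he).symm)
      · exact eq_of_mem hS hD (RankOnePair_symm h1) h.1 he (hex e he) he1
      · rcases hS.pair D hD _ h.1 with h2 | h2 | h2
        · exfalso
          rw [bracket_eq_bot_iff] at h2
          exact hnc D hD hAD e (hex e he) he1 (fun d hd => (h2 d hd e (hex e he)).symm)
        · exact (eq_of_mem hS hD (RankOnePair_symm h2) hE (hex e he) he he1).symm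
        · apply le_antisymm hex
          intro c hc
          have h3 : ⁅D, ⁅A, B⁆⁆ = ⁅D, E⁆ := by rw [← h1.2.2.2 e he he1, ← h2.2.2.2 e (hex e he) he1]
          have h4 : d * c * d⁻¹ * c⁻¹ ∈ ⁅D, E⁆ := by rw [← h3]; exact bracket_mem hd hc
          obtain ⟨e', he', e4⟩ := case_surj_right h1 hd hd1 h4
          have := case_inj_right hS h2 hA (RankOnePair_symm hAD) hD hd hd1 (hex e' he') hc e4
          rwa [← this]

theorem line_partition (hS : IsRootSubgroupSet S) {A B : Subgroup G} (h : RootCommutatorCase S A B) (hA : A ∈ S)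
    (L : LineData S A B) :
    membersIn S (A ⊔ ⁅A, B⁆) = (fun b : G => conjBy A b) '' (B : Set G) ∪ {⁅A, B⁆} ∧
    IsSubgroupPartition (A ⊔ ⁅A, B⁆) (membersIn S (A ⊔ ⁅A, B⁆)) ∧ A ∈ linePartners S ⁅A, B⁆ := by
  have h1 : membersIn S (A ⊔ ⁅A, B⁆) = (fun b : G => conjBy A b) '' (B : Set G) ∪ {⁅A, B⁆} := by
    ext E
    constructor
    · rintro ⟨hE, hle⟩
      rcases L.members E hE hle with h1 | ⟨b, hb, h1⟩
      · right; exact h1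
      · left; exact ⟨b, hb, h1.symm⟩
    · rintro (⟨b, hb, rfl⟩ | h1)
      · exact ⟨hS.conj_mem A hA b, L.conj_le b hb⟩
      · rw [Set.mem_singleton_iff.1 h1]
        exact ⟨h.1, le_sup_right⟩
  have h2 : IsSubgroupPartition (A ⊔ ⁅A, B⁆) (membersIn S (A ⊔ ⁅A, B⁆)) := by
    refine ⟨fun C hC => hC.2, ?_, ?_⟩
    · intro x hx _
      rcases L.mem_or x hx with h2 | ⟨b, hb, h2⟩
      · exact ⟨_, ⟨h.1, le_sup_right⟩, h2⟩
      · exact ⟨_, ⟨hS.conj_mem A hA b, L.conj_le b hb⟩, h2⟩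
    · rintro C ⟨hC, hCle⟩ D ⟨hD, hDle⟩ hne
      rw [eq_bot_iff]
      rintro x ⟨hxC, hxD⟩
      rw [Subgroup.mem_bot]
      by_contra hx1
      apply hne
      rcases L.members C hC hCle with rfl | ⟨b, hb, rfl⟩
      · rcases L.members D hD hDle with rfl | ⟨b', hb', rfl⟩
        · rfl
        · exact absurd (L.conj_inf b' hb' x hxD hxC) hx1
      · exact (L.conj_eq b hb D hD x hxC hxD hx1).symm
  refine ⟨h1, h2, ⟨hA, L.ne, ?_⟩, by rw [sup_comm]; exact h2⟩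
  rw [bracket_eq_bot_iff]
  intro c hc a ha
  exact (L.comm a ha c hc).symm

theorem result_5029 (hS : Cfsg.IsRootSubgroupSet S)
    {A B : Subgroup G} (hA : ¬ Cfsg.IsIsolatedIn (Cfsg.FAdj S) S A) (hAS : A ∈ S) (hB : B ∈ S) (hC : ⁅A, B⁆ ∈ S) :
    Cfsg.membersIn S (A ⊔ ⁅A, B⁆) = (fun b : G => Cfsg.conjBy A b) '' (B : Set G) ∪ {⁅A, B⁆} ∧
    Cfsg.IsSubgroupPartition (A ⊔ ⁅A, B⁆) (Cfsg.membersIn S (A ⊔ ⁅A, B⁆)) ∧
    A ∈ Cfsg.linePartners S ⁅A, B⁆ ∧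
    ∀ a ∈ A, a ≠ 1 → ∃ φ : ↥B ≃* ↥⁅A, B⁆, ∀ b : ↥B, (φ b : G) = a⁻¹ * (b : G)⁻¹ * a * b := by
  obtain ⟨D, hD, hAD⟩ := not_isolated hA hAS
  have h := case_of_mem hS hAS hB hC
  have L := lineData hS h hD hAD hAS
  obtain ⟨h1, h2, h3⟩ := line_partition hS h hAS L
  refine ⟨h1, h2, h3, ?_⟩
  intro a ha ha1
  have hbr : ∀ b : G, a⁻¹ * b⁻¹ * a * b = a⁻¹ * b⁻¹ * a⁻¹⁻¹ * b⁻¹⁻¹ := by intro b; simp
  let f : ↥B →* ↥⁅A, B⁆ := MonoidHom.mk' (fun b => ⟨a⁻¹ * (b : G)⁻¹ * a * b, by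
      rw [hbr]; exact bracket_mem (A.inv_mem ha) (B.inv_mem b.2)⟩) (by
    rintro ⟨b, hb⟩ ⟨b', hb'⟩
    apply Subtype.ext
    show a⁻¹ * (b * b')⁻¹ * a * (b * b') = (a⁻¹ * b⁻¹ * a * b) * (a⁻¹ * b'⁻¹ * a * b')
    rw [hbr, hbr b, hbr b']
    have e : (b * b')⁻¹ = b⁻¹ * b'⁻¹ := by rw [comm_mem hS hB b hb b' hb']; group
    rw [e]
    exact br_mul_right h.2.1 (A.inv_mem ha) (B.inv_mem hb) (B.inv_mem hb'))
  have hf : Function.Bijective f := by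
    constructor
    · rintro ⟨b, hb⟩ ⟨b', hb'⟩ e
      have e1 : a⁻¹ * b⁻¹ * a * b = a⁻¹ * b'⁻¹ * a * b' := congrArg Subtype.val e
      rw [hbr, hbr b'] at e1
      have := case_inj_right hS h hD hAD hAS (A.inv_mem ha) (inv_ne_one.2 ha1) (B.inv_mem hb) (B.inv_mem hb') e1
      apply Subtype.ext
      exact inv_injective this
    · rintro ⟨c, hc⟩
      obtain ⟨b, hb, e⟩ := case_surj_right h (A.inv_mem ha) (inv_ne_one.2 ha1) hc
      refine ⟨⟨b⁻¹, B.inv_mem hb⟩, ?_⟩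
      apply Subtype.ext
      show a⁻¹ * (b⁻¹)⁻¹ * a * b⁻¹ = c
      rw [← e]; simp
  exact ⟨MulEquiv.ofBijective f hf, fun b => rfl⟩

end H85.RootSub2
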