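import Cfsg.Agent.Lib.H85.RootSpecial

/-!
Three root subgroups A, B, C with [A, B], [B, C] root subgroups and A, C commuting (S5030).
-/
set_option autoImplicit false

namespace H85.RootTriple

open Cfsg H85.RankOne H85.RankOneTrans H85.RootSub H85.RootSub2 H85.RootComp H85.RootLine H85.RootSpecial

variable {G : Type*} [Group G] {S : Set (Subgroup G)}

/-- P and Q commute modulo N -/
def CmMod (N P Q : Subgroup G) : Prop := ∀ p ∈ P, ∀ q ∈ Q, p * q * p⁻¹ * q⁻¹ ∈ N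

/-- P normalizes N -/
def Nz (N P : Subgroup G) : Prop := ∀ x ∈ P, ∀ n ∈ N, x * n * x⁻¹ ∈ N

variable {N P Q P₁ P₂ : Subgroup G}

theorem CmMod.symm (h : CmMod N P Q) : CmMod N Q P := by
  intro q hq p hp
  have : q * p * q⁻¹ * p⁻¹ = (p * q * p⁻¹ * q⁻¹)⁻¹ := by group
  rw [this]; exact N.inv_mem (h p hp q hq)

theorem nz_sup (h1 : Nz N P₁) (h2 : Nz N P₂) : Nz N (P₁ ⊔ P₂) := by
  intro x hx
  refine sup_induct (A := P₁) (B := P₂) (p := fun x => ∀ n ∈ N, x * n * x⁻¹ ∈ N) h1 h2 ?_ hx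
  intro x y hx hy n hn
  have : x * y * n * (x * y)⁻¹ = x * (y * n * y⁻¹) * x⁻¹ := by group
  rw [this]; exact hx _ (hy n hn)

theorem nz_mono (h : Nz N P) {P' : Subgroup G} (hle : P' ≤ P) : Nz N P' := fun x hx => h x (hle hx)

theorem nz_of_cm (h : Cm P N) : Nz N P := by
  intro x hx n hn
  have : x * n * x⁻¹ = n := by rw [h x hx n hn]; group
  rwa [this]

theorem nz_self : Nz N N := fun _ hx _ hn => N.mul_mem (N.mul_mem hx hn) (N.inv_mem hx)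

theorem nz_of_cmMod {N' : Subgroup G} (h : CmMod N' P N) (hle : N' ≤ N) : Nz N P := by
  intro x hx n hn
  have : x * n * x⁻¹ = (x * n * x⁻¹ * n⁻¹) * n := by group
  rw [this]; exact N.mul_mem (hle (h x hx n hn)) hn

theorem cmMod_of_nz (h : Nz N P) : CmMod N P N := by
  intro x hx n hn
  exact N.mul_mem (h x hx n hn) (N.inv_mem hn)

theorem cmMod_of_cm (h : Cm P Q) : CmMod N P Q := by
  intro p hp q hq
  have : p * q * p⁻¹ * q⁻¹ = 1 := by rw [h p hp q hq]; group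
  rw [this]; exact N.one_mem

theorem cmMod_bracket (h : ⁅P, Q⁆ ≤ N) : CmMod N P Q := fun _ hp _ hq => h (bracket_mem hp hq)

theorem bracket_le_of (h : CmMod N P Q) : ⁅P, Q⁆ ≤ N := by
  rw [Subgroup.commutator_le]
  exact h

theorem cmMod_sup_left (h1 : CmMod N P₁ Q) (h2 : CmMod N P₂ Q) (n1 : Nz N P₁) (n2 : Nz N P₂) : CmMod N (P₁ ⊔ P₂) Q := by
  have hn := nz_sup n1 n2
  intro x hx
  have key : x ∈ P₁ ⊔ P₂ ∧ ∀ q ∈ Q, x * q * x⁻¹ * q⁻¹ ∈ N := by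
    refine sup_induct (A := P₁) (B := P₂) (p := fun x => x ∈ P₁ ⊔ P₂ ∧ ∀ q ∈ Q, x * q * x⁻¹ * q⁻¹ ∈ N) ?_ ?_ ?_ hx
    · intro a ha; exact ⟨Subgroup.mem_sup_left ha, h1 a ha⟩
    · intro a ha; exact ⟨Subgroup.mem_sup_right ha, h2 a ha⟩
    · rintro x y ⟨hx, hx'⟩ ⟨hy, hy'⟩
      refine ⟨Subgroup.mul_mem _ hx hy, fun q hq => ?_⟩
      have : x * y * q * (x * y)⁻¹ * q⁻¹ = (x * (y * q * y⁻¹ * q⁻¹) * x⁻¹) * (x * q * x⁻¹ * q⁻¹) := by group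
      rw [this]
      exact N.mul_mem (hn x hx _ (hy' q hq)) (hx' q hq)
  exact key.2

theorem cmMod_sup_right (h1 : CmMod N Q P₁) (h2 : CmMod N Q P₂) (n1 : Nz N P₁) (n2 : Nz N P₂) : CmMod N Q (P₁ ⊔ P₂) :=
  (cmMod_sup_left h1.symm h2.symm n1 n2).symm

theorem cmMod_bracket_left {U V : Subgroup G} (h : ∀ u ∈ U, ∀ v ∈ V, ∀ q ∈ Q, (u * v * u⁻¹ * v⁻¹) * q * (u * v * u⁻¹ * v⁻¹)⁻¹ * q⁻¹ ∈ N)
    (n1 : Nz N ⁅U, V⁆) : CmMod N ⁅U, V⁆ Q := by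
  intro x hx
  refine Subgroup.closure_induction (p := fun x _ => ∀ q ∈ Q, x * q * x⁻¹ * q⁻¹ ∈ N) ?_ ?_ ?_ ?_ hx
  · rintro _ ⟨u, hu, v, hv, rfl⟩
    exact h u hu v hv
  · intro q _
    have : (1 : G) * q * 1⁻¹ * q⁻¹ = 1 := by group
    rw [this]; exact N.one_mem
  · intro x y hx hy hx' hy' q hq
    have : x * y * q * (x * y)⁻¹ * q⁻¹ = (x * (y * q * y⁻¹ * q⁻¹) * x⁻¹) * (x * q * x⁻¹ * q⁻¹) := by group
    rw [this]
    exact N.mul_mem (n1 x hx _ (hy' q hq)) (hx' q hq)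
  · intro x hx hx' q hq
    have : x⁻¹ * q * x⁻¹⁻¹ * q⁻¹ = x⁻¹ * (x * q * x⁻¹ * q⁻¹)⁻¹ * x⁻¹⁻¹ := by group
    rw [this]
    exact n1 _ (Subgroup.inv_mem _ hx) _ (N.inv_mem (hx' q hq))

theorem nz_bracket {M R : Subgroup G} (h : Nz M R) : Nz ⁅M, M⁆ R := by
  intro x hx n hn
  refine Subgroup.closure_induction (p := fun n _ => x * n * x⁻¹ ∈ ⁅M, M⁆) ?_ ?_ ?_ ?_ hn
  · rintro _ ⟨u, hu, v, hv, rfl⟩
    have : x * (u * v * u⁻¹ * v⁻¹) * x⁻¹ = (x * u * x⁻¹) * (x * v * x⁻¹) * (x * u * x⁻¹)⁻¹ * (x * v * x⁻¹)⁻¹ := by group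
    show x * (u * v * u⁻¹ * v⁻¹) * x⁻¹ ∈ _
    rw [this]
    exact bracket_mem (h x hx u hu) (h x hx v hv)
  · rw [mul_one, mul_inv_cancel]; exact Subgroup.one_mem _
  · intro u v _ _ hu hv
    have : x * (u * v) * x⁻¹ = (x * u * x⁻¹) * (x * v * x⁻¹) := by group
    rw [this]; exact Subgroup.mul_mem _ hu hv
  · intro u _ hu
    have : x * u⁻¹ * x⁻¹ = (x * u * x⁻¹)⁻¹ := by group
    rw [this]; exact Subgroup.inv_mem _ hu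

theorem conjBy_eq_of_nz {M R : Subgroup G} (h : Nz M R) : ∀ r ∈ R, conjBy M r = M := by
  intro r hr
  ext y
  rw [mem_conjBy]
  constructor
  · intro hy
    have := h r hr _ hy
    have e : r * (r⁻¹ * y * r) * r⁻¹ = y := by group
    rwa [e] at this
  · intro hy
    have := h r⁻¹ (R.inv_mem hr) _ hy
    rwa [inv_inv] at this

theorem isMulCommutative_iff {M : Subgroup G} : IsMulCommutative ↥M ↔ Cm M M := by
  constructor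
  · intro h x hx y hy
    have := h.is_comm.comm (⟨x, hx⟩ : M) ⟨y, hy⟩
    exact congrArg Subtype.val this
  · intro h
    constructor
    constructor
    rintro ⟨x, hx⟩ ⟨y, hy⟩
    exact Subtype.ext (h x hx y hy)

/-- nilpotency from a chain of subgroups -/
theorem nilpotent_of_chain {R K₁ K₂ K₃ : Subgroup G} (h1 : CmMod K₁ R R) (h2 : CmMod K₂ K₁ R) (h3 : CmMod K₃ K₂ R)
    (h4 : Cm K₃ R) : Group.IsNilpotent ↥R := by
  rw [Subgroup.nilpotent_iff_finite_descending_central_series]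
  refine ⟨4, fun n => if n = 0 then ⊤ else if n = 1 then K₁.subgroupOf R else if n = 2 then K₂.subgroupOf R else
    if n = 3 then K₃.subgroupOf R else ⊥, ⟨by simp, ?_⟩, by simp⟩
  intro x n hx g
  match n with
  | 0 => exact h1 x x.2 g g.2
  | 1 => exact h2 x hx g g.2
  | 2 => exact h3 x hx g g.2
  | 3 =>
    have := h4 x hx g g.2
    have e : x * g * x⁻¹ * g⁻¹ = 1 := by
      apply Subtype.ext
      show (x : G) * g * (x : G)⁻¹ * (g : G)⁻¹ = 1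
      rw [this]; group
    rw [commutatorElement_def, e]; exact Subgroup.one_mem _
  | (m + 4) =>
    have hx1 : x = 1 := by simpa using hx
    rw [hx1]
    have e : (1 : ↥R) * g * 1⁻¹ * g⁻¹ = 1 := by group
    rw [commutatorElement_def, e]; exact Subgroup.one_mem _

section Triple

variable {A B C : Subgroup G} {b : G}

theorem le_sup_E (hb : b ∈ B) : conjBy A b ≤ A ⊔ ⁅A, B⁆ := by
  intro x hx
  rw [mem_conjBy] at hx
  have e : x = (b⁻¹ * x * b) * ((b⁻¹ * x * b)⁻¹ * b * (b⁻¹ * x * b)⁻¹⁻¹ * b⁻¹) := by group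
  rw [e]
  exact Subgroup.mul_mem _ (Subgroup.mem_sup_left hx) (Subgroup.mem_sup_right (bracket_mem (A.inv_mem hx) hb))

/-- A ⊔ A^{b} = A ⊔ E -/
theorem sup_conj_eq (h : RootCommutatorCase S A B) (hb : b ∈ B) (hb1 : b ≠ 1) : A ⊔ conjBy A b = A ⊔ ⁅A, B⁆ := by
  apply le_antisymm (sup_le le_sup_left (le_sup_E hb))
  apply sup_le le_sup_left
  rw [← h.2.2.2 b hb hb1, Subgroup.closure_le]
  rintro _ ⟨a, ha, rfl⟩
  show a * b * a⁻¹ * b⁻¹ ∈ _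
  have e : a * b * a⁻¹ * b⁻¹ = a * (b * a⁻¹ * b⁻¹) := by group
  rw [e]
  exact Subgroup.mul_mem _ (Subgroup.mem_sup_left ha) (Subgroup.mem_sup_right (conj_mem_conjBy (A.inv_mem ha)))

/-- B normalizes A ⊔ E -/
theorem nz_AE : Nz (A ⊔ ⁅A, B⁆) B := by
  intro b hb x hx
  have h1 : b * x * b⁻¹ ∈ conjBy (A ⊔ ⁅A, B⁆) b := conj_mem_conjBy hx
  rw [conjBy_sup, bracket_conj b (Subgroup.mem_sup_right hb)] at h1
  exact (sup_le (le_sup_E hb) le_sup_right) h1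

theorem half (hS : IsRootSubgroupSet S) (hA : A ∈ S) (hC : C ∈ S) (hAB : RootCommutatorCase S A B) (hAC : Cm A C) (hb : b ∈ B) :
    Cm A (conjBy C b⁻¹) ∨ RootCommutatorCase S A (conjBy C b⁻¹) := by
  have hC₁ : conjBy C b⁻¹ ∈ S := hS.conj_mem C hC _
  rcases pair' hS hA hC₁ with h | h | h
  · exact Or.inl h
  · exfalso
    by_cases hb1 : b = 1
    · rw [hb1, inv_one, conjBy_one] at h
      exact not_cm_of_pair h hAC
    obtain ⟨a, ha, ha1⟩ := exists_ne_one (hS.ne_bot A hA)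
    have hAE : Cm A ⁅A, B⁆ := case_cm_left hAB
    -- z = b⁻¹ a b centralizes X
    have hz : ∀ x ∈ A ⊔ conjBy C b⁻¹, (b⁻¹ * a * b) * x = x * (b⁻¹ * a * b) := by
      apply commute_sup
      · intro x hx
        have e : b⁻¹ * a * b = (b⁻¹ * a * b⁻¹⁻¹ * a⁻¹) * a := by group
        have h1 : b⁻¹ * a * b⁻¹⁻¹ * a⁻¹ ∈ ⁅A, B⁆ := by
          have e1 : b⁻¹ * a * b⁻¹⁻¹ * a⁻¹ = (a * b⁻¹ * a⁻¹ * b⁻¹⁻¹)⁻¹ := by group
          rw [e1]; exact Subgroup.inv_mem _ (bracket_mem ha (B.inv_mem hb))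
        rw [e, mul_assoc, comm_mem hS hA a ha x hx, ← mul_assoc, ← hAE x hx _ h1, mul_assoc]
      · intro x hx
        rw [mem_conjBy, inv_inv] at hx
        have h1 := hAC a ha _ hx
        calc (b⁻¹ * a * b) * x = b⁻¹ * (a * (b * x * b⁻¹)) * b := by group
          _ = b⁻¹ * ((b * x * b⁻¹) * a) * b := by rw [h1]
          _ = _ := by group
    have hz1 : b⁻¹ * a * b ≠ 1 := by
      intro e; apply ha1
      calc a = b * (b⁻¹ * a * b) * b⁻¹ := by group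
        _ = 1 := by rw [e]; group
    have hmem : (b⁻¹ * a * b) * a⁻¹ ∈ ⁅A, B⁆ := by
      have e1 : (b⁻¹ * a * b) * a⁻¹ = (a * b⁻¹ * a⁻¹ * b⁻¹⁻¹)⁻¹ := by group
      rw [e1]; exact Subgroup.inv_mem _ (bracket_mem ha (B.inv_mem hb))
    have hne : (b⁻¹ * a * b) * a⁻¹ ≠ 1 := by
      intro e
      apply case_ne_comm hS hAB hC₁ h hA ha hb ha1 hb1
      have e1 : b⁻¹ * a * b = a := mul_inv_eq_one.1 e
      calc a * b = b * (b⁻¹ * a * b) := by group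
        _ = b * a := by rw [e1]
    exact zmul_notMem hS hA hC₁ h hz hz1 (A.inv_mem ha) (inv_ne_one.2 ha1) hAB.1 hmem hne
  · exact Or.inr h

theorem cm_conj_iff_F (hBC : RootCommutatorCase S B C) (hAC : Cm A C) (hb : b ∈ B) (hb1 : b ≠ 1) :
    Cm A (conjBy C b⁻¹) ↔ Cm A ⁅B, C⁆ := by
  have e0 : ⁅C, B⁆ = ⁅B, C⁆ := Subgroup.commutator_comm C B
  have h1 := sup_conj_eq (case_symm hBC) (B.inv_mem hb) (inv_ne_one.2 hb1)
  rw [e0] at h1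
  constructor
  · intro h
    have h2 : Cm A (C ⊔ conjBy C b⁻¹) := cm_sup_right hAC h
    rw [h1] at h2
    exact cm_mono h2 le_rfl le_sup_right
  · intro h
    have h2 : Cm A (C ⊔ ⁅B, C⁆) := cm_sup_right hAC h
    rw [← h1] at h2
    exact cm_mono h2 le_rfl le_sup_right

theorem three (hAC : Cm A C) : Cm A ⁅B, C⁆ ↔ Cm C ⁅B, A⁆ := by
  have key : ∀ {A C : Subgroup G}, Cm A C → Cm A ⁅B, C⁆ → Cm C ⁅B, A⁆ := by
    intro A C hAC h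
    have h1 : ⁅⁅B, C⁆, A⁆ = ⊥ := cm_iff.2 h.symm
    have h2 : ⁅⁅C, A⁆, B⁆ = ⊥ := by rw [cm_iff.2 hAC.symm]; exact Subgroup.commutator_bot_left _
    have h3 := Subgroup.commutator_commutator_eq_bot_of_rotate h1 h2
    rw [cm_iff, Subgroup.commutator_comm A B] at h3
    exact h3.symm
  exact ⟨key hAC, key hAC.symm⟩

/-- class at most two -/
theorem class_two {C₁ : Subgroup G} (hS : IsRootSubgroupSet S) (hA : A ∈ S) (hC₁ : C₁ ∈ S)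
    (h : Cm A C₁ ∨ RootCommutatorCase S A C₁) : Cm ⁅A ⊔ C₁, A ⊔ C₁⁆ (A ⊔ C₁) := by
  have h1 : CmMod ⁅A, C₁⁆ A C₁ := cmMod_bracket le_rfl
  have h2 : Cm (A ⊔ C₁) ⁅A, C₁⁆ := by
    rcases h with h | h
    · rw [cm_iff.2 h]
      intro x _ y hy
      rw [Subgroup.mem_bot.1 hy]; simp
    · exact fun x hx c hc => (h.2.1 c hc x hx).symm
  have nA : Nz ⁅A, C₁⁆ A := nz_of_cm (cm_mono h2 le_sup_left le_rfl)
  have nC : Nz ⁅A, C₁⁆ C₁ := nz_of_cm (cm_mono h2 le_sup_right le_rfl)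
  have h3 : CmMod ⁅A, C₁⁆ (A ⊔ C₁) (A ⊔ C₁) :=
    cmMod_sup_left (cmMod_sup_right (cmMod_of_cm (comm_mem hS hA)) h1 nA nC)
      (cmMod_sup_right h1.symm (cmMod_of_cm (comm_mem hS hC₁)) nA nC) nA nC
  exact cm_mono h2.symm (bracket_le_of h3) le_rfl

theorem result_5030 (hS : Cfsg.IsRootSubgroupSet S)
    {A B C : Subgroup G} (hA : A ∈ S) (hB : B ∈ S) (hC : C ∈ S) (hAB : ⁅A, B⁆ ∈ S) (hBC : ⁅B, C⁆ ∈ S)
    (hAC : C ∈ Cfsg.commutingPartners S A)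
    {b : G} (hb : b ∈ B) (hb1 : b ≠ 1) :
    ((IsMulCommutative ↥(A ⊔ Cfsg.conjBy C b⁻¹) ∧ IsMulCommutative ↥(Cfsg.conjBy A b⁻¹ ⊔ C)) ∨
      ((¬ IsMulCommutative ↥(A ⊔ Cfsg.conjBy C b⁻¹) ∧
          ⁅⁅A ⊔ Cfsg.conjBy C b⁻¹, A ⊔ Cfsg.conjBy C b⁻¹⁆, A ⊔ Cfsg.conjBy C b⁻¹⁆ = ⊥) ∧
        (¬ IsMulCommutative ↥(Cfsg.conjBy A b⁻¹ ⊔ C) ∧
          ⁅⁅Cfsg.conjBy A b⁻¹ ⊔ C, Cfsg.conjBy A b⁻¹ ⊔ C⁆, Cfsg.conjBy A b⁻¹ ⊔ C⁆ = ⊥))) ∧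
    ⁅A ⊔ Cfsg.conjBy C b⁻¹, Cfsg.conjBy A b⁻¹ ⊔ C⁆ = ⊥ ∧
    (∀ r ∈ A ⊔ B ⊔ C, Cfsg.conjBy ((A ⊔ Cfsg.conjBy C b⁻¹) ⊔ (Cfsg.conjBy A b⁻¹ ⊔ C)) r =
      (A ⊔ Cfsg.conjBy C b⁻¹) ⊔ (Cfsg.conjBy A b⁻¹ ⊔ C)) ∧
    ((A ⊔ Cfsg.conjBy C b⁻¹) ⊔ (Cfsg.conjBy A b⁻¹ ⊔ C)) ⊔ B = A ⊔ B ⊔ C ∧
    Group.IsNilpotent ↥(A ⊔ B ⊔ C) := by
  have cAC : Cm A C := cm_iff.1 hAC.2.2
  have kAB := case_of_mem hS hA hB hAB
  have kBC := case_of_mem hS hB hC hBC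
  have kCB := case_symm kBC
  have kBA := case_symm kAB
  have eCB : ⁅C, B⁆ = ⁅B, C⁆ := Subgroup.commutator_comm C B
  have eBA : ⁅B, A⁆ = ⁅A, B⁆ := Subgroup.commutator_comm B A
  have hA₁ : conjBy A b⁻¹ ∈ S := hS.conj_mem A hA _
  have hC₁ : conjBy C b⁻¹ ∈ S := hS.conj_mem C hC _
  have hX := half hS hA hC kAB cAC hb
  have hY := half hS hC hA kCB cAC.symm hb
  have hX2 := class_two hS hA hC₁ hX
  have hY2 := class_two hS hC hA₁ hY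
  rw [sup_comm C] at hY2
  -- A ⊔ A₁ = A ⊔ E etc.
  have eA := sup_conj_eq kAB (B.inv_mem hb) (inv_ne_one.2 hb1)
  have eC := sup_conj_eq kCB (B.inv_mem hb) (inv_ne_one.2 hb1)
  rw [eCB] at eC
  have cAE : Cm A ⁅A, B⁆ := case_cm_left kAB
  have cBE : Cm B ⁅A, B⁆ := case_cm_right kAB
  have cBF : Cm B ⁅B, C⁆ := case_cm_left kBC
  have cCF : Cm C ⁅B, C⁆ := case_cm_right kBC
  have cXY : Cm (A ⊔ conjBy C b⁻¹) (conjBy A b⁻¹ ⊔ C) := by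
    apply cm_sup <;> apply cm_sup_right
    · have : Cm A (A ⊔ ⁅A, B⁆) := cm_sup_right (comm_mem hS hA) cAE
      rw [← eA] at this
      exact cm_mono this le_rfl le_sup_right
    · exact cAC
    · exact cm_conj cAC.symm _
    · have : Cm (C ⊔ ⁅B, C⁆) C := cm_sup (comm_mem hS hC) cCF.symm
      rw [← eC] at this
      exact cm_mono this le_sup_right le_rfl
  -- M
  set X := A ⊔ conjBy C b⁻¹ with hXd
  set Y := conjBy A b⁻¹ ⊔ C with hYd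
  have eM : X ⊔ Y = (A ⊔ ⁅A, B⁆) ⊔ (C ⊔ ⁅B, C⁆) := by
    rw [← eA, ← eC, hXd, hYd]
    ac_rfl
  have AM : A ≤ X ⊔ Y := le_sup_left.trans le_sup_left
  have CM : C ≤ X ⊔ Y := le_sup_right.trans le_sup_right
  have EM : ⁅A, B⁆ ≤ X ⊔ Y := by rw [eM]; exact le_sup_right.trans le_sup_left
  have FM : ⁅B, C⁆ ≤ X ⊔ Y := by rw [eM]; exact le_sup_right.trans le_sup_right
  have nMB : Nz (X ⊔ Y) B := by
    intro β hβ m hm
    rw [eM] at hm ⊢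
    have h1 : β * m * β⁻¹ ∈ conjBy ((A ⊔ ⁅A, B⁆) ⊔ (C ⊔ ⁅B, C⁆)) β := conj_mem_conjBy hm
    rw [conjBy_sup] at h1
    have h2 := nz_AE (A := C) (B := B)
    rw [eCB] at h2
    rw [conjBy_eq_of_nz nz_AE β hβ, conjBy_eq_of_nz h2 β hβ] at h1
    exact h1
  have nMR : Nz (X ⊔ Y) (A ⊔ B ⊔ C) :=
    nz_sup (nz_sup (nz_mono nz_self AM) nMB) (nz_mono nz_self CM)
  refine ⟨?_, cm_iff.2 cXY, conjBy_eq_of_nz nMR, ?_, ?_⟩
  · by_cases h : Cm A (conjBy C b⁻¹)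
    · left
      have h1 : Cm C (conjBy A b⁻¹) := by
        rw [cm_conj_iff_F kBA cAC.symm hb hb1, ← three cAC, ← cm_conj_iff_F kBC cAC hb hb1]
        exact h
      refine ⟨isMulCommutative_iff.2 ?_, isMulCommutative_iff.2 ?_⟩
      · exact cm_sup (cm_sup_right (comm_mem hS hA) h) (cm_sup_right h.symm (comm_mem hS hC₁))
      · exact cm_sup (cm_sup_right (comm_mem hS hA₁) h1.symm) (cm_sup_right h1 (comm_mem hS hC))
    · right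
      refine ⟨⟨fun h1 => h ?_, cm_iff.2 hX2⟩, ⟨fun h1 => h ?_, cm_iff.2 hY2⟩⟩
      · exact cm_mono (isMulCommutative_iff.1 h1) le_sup_left le_sup_right
      · have h2 : Cm C (conjBy A b⁻¹) := cm_mono (isMulCommutative_iff.1 h1) le_sup_right le_sup_left
        rw [cm_conj_iff_F kBC cAC hb hb1, three cAC, ← cm_conj_iff_F kBA cAC.symm hb hb1]
        exact h2
  · apply le_antisymm
    · have hAR : A ≤ A ⊔ B ⊔ C := le_sup_left.trans le_sup_left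
      have hBR : B ≤ A ⊔ B ⊔ C := le_sup_right.trans le_sup_left
      have hCR : C ≤ A ⊔ B ⊔ C := le_sup_right
      exact sup_le (sup_le (sup_le hAR (conjBy_le_of_mem hCR (Subgroup.inv_mem _ (hBR hb))))
        (sup_le (conjBy_le_of_mem hAR (Subgroup.inv_mem _ (hBR hb))) hCR)) hBR
    · exact sup_le (sup_le (AM.trans le_sup_left) le_sup_right) (CM.trans le_sup_left)
  · -- nilpotency
    have cXX : Cm ⁅X, X⁆ (X ⊔ Y) := cm_sup_right hX2 (cm_mono cXY (Subgroup.commutator_le_self _) le_rfl)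
    have cYY : Cm ⁅Y, Y⁆ (X ⊔ Y) := cm_sup_right (cm_mono cXY.symm (Subgroup.commutator_le_self _) le_rfl) hY2
    have cD : Cm ⁅X ⊔ Y, X ⊔ Y⁆ (X ⊔ Y) := by
      have c0 : Cm (⁅X, X⁆ ⊔ ⁅Y, Y⁆) (X ⊔ Y) := cm_sup cXX cYY
      have nX : Nz (⁅X, X⁆ ⊔ ⁅Y, Y⁆) X := nz_of_cm (cm_mono c0.symm le_sup_left le_rfl)
      have nY : Nz (⁅X, X⁆ ⊔ ⁅Y, Y⁆) Y := nz_of_cm (cm_mono c0.symm le_sup_right le_rfl)
      have h1 : CmMod (⁅X, X⁆ ⊔ ⁅Y, Y⁆) (X ⊔ Y) (X ⊔ Y) :=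
        cmMod_sup_left (cmMod_sup_right (cmMod_bracket le_sup_left) (cmMod_of_cm cXY) nX nY)
          (cmMod_sup_right (cmMod_of_cm cXY.symm) (cmMod_bracket le_sup_right) nX nY) nX nY
      exact cm_mono c0 (bracket_le_of h1) le_rfl
    have nDR : Nz ⁅X ⊔ Y, X ⊔ Y⁆ (A ⊔ B ⊔ C) := nz_bracket nMR
    have nDA : Nz ⁅X ⊔ Y, X ⊔ Y⁆ A := nz_mono nDR (le_sup_left.trans le_sup_left)
    have nDB : Nz ⁅X ⊔ Y, X ⊔ Y⁆ B := nz_mono nDR (le_sup_right.trans le_sup_left)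
    have nDC : Nz ⁅X ⊔ Y, X ⊔ Y⁆ C := nz_mono nDR le_sup_right
    have hDM : ⁅X ⊔ Y, X ⊔ Y⁆ ≤ X ⊔ Y := Subgroup.commutator_le_self _
    -- ⁅E, F⁆ is central in R
    have hEF : ⁅⁅A, B⁆, ⁅B, C⁆⁆ ≤ ⁅X ⊔ Y, X ⊔ Y⁆ := Subgroup.commutator_mono EM FM
    have cEFM : Cm ⁅⁅A, B⁆, ⁅B, C⁆⁆ (X ⊔ Y) := cm_mono cD hEF le_rfl
    have cEFB : Cm ⁅⁅A, B⁆, ⁅B, C⁆⁆ B := (cm_bracket cBE cBF).symm
    have cEFR : Cm ⁅⁅A, B⁆, ⁅B, C⁆⁆ (A ⊔ B ⊔ C) :=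
      cm_sup_right (cm_sup_right (cm_mono cEFM le_rfl AM) cEFB) (cm_mono cEFM le_rfl CM)
    -- the four-generator description of ⁅M, M⁆
    set T := ⁅A, ⁅B, C⁆⁆ ⊔ ⁅⁅A, B⁆, C⁆ ⊔ ⁅⁅A, B⁆, ⁅B, C⁆⁆ with hT
    have hTD : T ≤ ⁅X ⊔ Y, X ⊔ Y⁆ :=
      sup_le (sup_le (Subgroup.commutator_mono AM FM) (Subgroup.commutator_mono EM CM)) hEF
    have cTM : Cm T (X ⊔ Y) := cm_mono cD hTD le_rfl
    have nT : ∀ P : Subgroup G, P ≤ X ⊔ Y → Nz T P := fun P hP => nz_of_cm (cm_mono cTM.symm hP le_rfl)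
    have nTA := nT A AM
    have nTC := nT C CM
    have nTE := nT _ EM
    have nTF := nT _ FM
    have mAF : CmMod T A ⁅B, C⁆ := cmMod_bracket (le_sup_left.trans le_sup_left)
    have mEC : CmMod T ⁅A, B⁆ C := cmMod_bracket (le_sup_right.trans le_sup_left)
    have mEF : CmMod T ⁅A, B⁆ ⁅B, C⁆ := cmMod_bracket le_sup_right
    have mA : CmMod T A (X ⊔ Y) := by
      rw [eM]
      exact cmMod_sup_right (cmMod_sup_right (cmMod_of_cm (comm_mem hS hA)) (cmMod_of_cm cAE) nTA nTE)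
        (cmMod_sup_right (cmMod_of_cm cAC) mAF nTC nTF) (nz_sup nTA nTE) (nz_sup nTC nTF)
    have mE : CmMod T ⁅A, B⁆ (X ⊔ Y) := by
      rw [eM]
      exact cmMod_sup_right (cmMod_sup_right (cmMod_of_cm cAE.symm) (cmMod_of_cm (comm_mem hS hAB)) nTA nTE)
        (cmMod_sup_right mEC mEF nTC nTF) (nz_sup nTA nTE) (nz_sup nTC nTF)
    have mC : CmMod T C (X ⊔ Y) := by
      rw [eM]
      exact cmMod_sup_right (cmMod_sup_right (cmMod_of_cm cAC.symm) mEC.symm nTA nTE)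
        (cmMod_sup_right (cmMod_of_cm (comm_mem hS hC)) (cmMod_of_cm cCF) nTC nTF) (nz_sup nTA nTE) (nz_sup nTC nTF)
    have mF : CmMod T ⁅B, C⁆ (X ⊔ Y) := by
      rw [eM]
      exact cmMod_sup_right (cmMod_sup_right mAF.symm mEF.symm nTA nTE)
        (cmMod_sup_right (cmMod_of_cm cCF.symm) (cmMod_of_cm (comm_mem hS hBC)) nTC nTF) (nz_sup nTA nTE) (nz_sup nTC nTF)
    have mM : CmMod T (X ⊔ Y) (X ⊔ Y) := by
      have : CmMod T ((A ⊔ ⁅A, B⁆) ⊔ (C ⊔ ⁅B, C⁆)) (X ⊔ Y) :=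
        cmMod_sup_left (cmMod_sup_left mA mE nTA nTE) (cmMod_sup_left mC mF nTC nTF) (nz_sup nTA nTE) (nz_sup nTC nTF)
      rwa [← eM] at this
    have hDT : ⁅X ⊔ Y, X ⊔ Y⁆ = T := le_antisymm (bracket_le_of mM) hTD
    -- ⁅T, B⁆ ≤ ⁅E, F⁆
    have nEF : ∀ P : Subgroup G, P ≤ X ⊔ Y → Nz ⁅⁅A, B⁆, ⁅B, C⁆⁆ P := fun P hP => nz_of_cm (cm_mono cEFM.symm hP le_rfl)
    have hTM : T ≤ X ⊔ Y := hTD.trans hDM
    have hbT : CmMod ⁅⁅A, B⁆, ⁅B, C⁆⁆ T B := by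
      refine cmMod_sup_left (cmMod_sup_left ?_ ?_ ?_ ?_) (cmMod_of_cm cEFB) ?_ ?_
      · apply cmMod_bracket_left
        · intro a ha f hf β hβ
          -- β [a,f] β⁻¹ = [ε a, f]
          have hε : β * a * β⁻¹ * a⁻¹ ∈ ⁅A, B⁆ := by
            rw [← eBA]; exact bracket_mem hβ ha
          have e1 : β * f = f * β := cBF β hβ f hf
          have h2 : a * f * a⁻¹ * f⁻¹ ∈ ⁅X ⊔ Y, X ⊔ Y⁆ := bracket_mem (AM ha) (FM hf)
          have h3 := cD _ h2 _ (EM hε)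
          have e2 : β * (a * f * a⁻¹ * f⁻¹) * β⁻¹ = ((β * a * β⁻¹ * a⁻¹) * f * (β * a * β⁻¹ * a⁻¹)⁻¹ * f⁻¹) * (a * f * a⁻¹ * f⁻¹) := by
            have e3 : β * (a * f * a⁻¹ * f⁻¹) * β⁻¹ = (β * a * β⁻¹) * (β * f * β⁻¹) * (β * a * β⁻¹)⁻¹ * (β * f * β⁻¹)⁻¹ := by group
            have e4 : β * f * β⁻¹ = f := by rw [e1]; group
            rw [e3, e4]
            set ε := β * a * β⁻¹ * a⁻¹ with hεd
            have e5 : β * a * β⁻¹ = ε * a := by rw [hεd]; group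
            rw [e5]
            have h4 := hEF (bracket_mem hε hf)
            have h5 := cD _ h2 _ (FM hf)
            -- (ε a) f (ε a)⁻¹ f⁻¹ = ε [a,f] f ε⁻¹ f⁻¹ = [a,f] [ε,f]
            have e6 : ε * a * f * (ε * a)⁻¹ * f⁻¹ = (ε * (a * f * a⁻¹ * f⁻¹)) * f * ε⁻¹ * f⁻¹ := by group
            have h6 := cD _ h2 _ (hDM h4)
            rw [e6, ← h3, ← h6]; group
          have e7 : (a * f * a⁻¹ * f⁻¹) * β * (a * f * a⁻¹ * f⁻¹)⁻¹ * β⁻¹ =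
              (a * f * a⁻¹ * f⁻¹) * (β * (a * f * a⁻¹ * f⁻¹) * β⁻¹)⁻¹ := by group
          rw [e7, e2]
          have e8 : ∀ u v : G, u * (v * u)⁻¹ = v⁻¹ := by intro u v; group
          rw [e8]
          exact Subgroup.inv_mem _ (bracket_mem hε hf)
        · exact nEF _ (((Subgroup.commutator_mono AM FM).trans hDM))
      · apply cmMod_bracket_left
        · intro a ha f hf β hβ
          -- a ∈ E, f ∈ C
          have hε : β * f * β⁻¹ * f⁻¹ ∈ ⁅B, C⁆ := bracket_mem hβ hf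
          have e1 : β * a = a * β := cBE β hβ a ha
          have h2 : a * f * a⁻¹ * f⁻¹ ∈ ⁅X ⊔ Y, X ⊔ Y⁆ := bracket_mem (EM ha) (CM hf)
          have h3 := cD _ h2 _ (FM hε)
          have e2 : β * (a * f * a⁻¹ * f⁻¹) * β⁻¹ = (a * (β * f * β⁻¹ * f⁻¹) * a⁻¹ * (β * f * β⁻¹ * f⁻¹)⁻¹) * (a * f * a⁻¹ * f⁻¹) := by
            have e3 : β * (a * f * a⁻¹ * f⁻¹) * β⁻¹ = (β * a * β⁻¹) * (β * f * β⁻¹) * (β * a * β⁻¹)⁻¹ * (β * f * β⁻¹)⁻¹ := by group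
            have e4 : β * a * β⁻¹ = a := by rw [e1]; group
            rw [e3, e4]
            set ε := β * f * β⁻¹ * f⁻¹ with hεd
            have e5 : β * f * β⁻¹ = ε * f := by rw [hεd]; group
            rw [e5]
            have e6 : a * (ε * f) * a⁻¹ * (ε * f)⁻¹ = (a * ε * a⁻¹) * (a * f * a⁻¹ * f⁻¹) * ε⁻¹ := by group
            have h7 : (a * f * a⁻¹ * f⁻¹) * ε⁻¹ = ε⁻¹ * (a * f * a⁻¹ * f⁻¹) := cD _ h2 _ (FM (Subgroup.inv_mem _ hε))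
            rw [e6, mul_assoc, h7]; group
          have e7 : (a * f * a⁻¹ * f⁻¹) * β * (a * f * a⁻¹ * f⁻¹)⁻¹ * β⁻¹ =
              (a * f * a⁻¹ * f⁻¹) * (β * (a * f * a⁻¹ * f⁻¹) * β⁻¹)⁻¹ := by group
          rw [e7, e2]
          have e8 : ∀ u v : G, u * (v * u)⁻¹ = v⁻¹ := by intro u v; group
          rw [e8]
          exact Subgroup.inv_mem _ (bracket_mem ha hε)
        · exact nEF _ ((Subgroup.commutator_mono EM CM).trans hDM)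
      · exact nEF _ ((Subgroup.commutator_mono AM FM).trans hDM)
      · exact nEF _ ((Subgroup.commutator_mono EM CM).trans hDM)
      · exact nEF _ (sup_le ((Subgroup.commutator_mono AM FM).trans hDM) ((Subgroup.commutator_mono EM CM).trans hDM))
      · exact nEF _ (hEF.trans hDM)
    have nEFB : Nz ⁅⁅A, B⁆, ⁅B, C⁆⁆ B := nz_of_cm cEFB.symm
    have h3 : CmMod ⁅⁅A, B⁆, ⁅B, C⁆⁆ ⁅X ⊔ Y, X ⊔ Y⁆ (A ⊔ B ⊔ C) := by
      refine cmMod_sup_right (cmMod_sup_right (cmMod_of_cm (cm_mono cD le_rfl AM)) ?_ (nEF A AM) nEFB)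
        (cmMod_of_cm (cm_mono cD le_rfl CM)) (nz_sup (nEF A AM) nEFB) (nEF C CM)
      rw [hDT]; exact hbT
    have h2 : CmMod ⁅X ⊔ Y, X ⊔ Y⁆ (⁅A, B⁆ ⊔ ⁅B, C⁆ ⊔ ⁅X ⊔ Y, X ⊔ Y⁆) (A ⊔ B ⊔ C) := by
      have nE : Nz ⁅X ⊔ Y, X ⊔ Y⁆ ⁅A, B⁆ := nz_of_cm (cm_mono cD.symm EM le_rfl)
      have nF : Nz ⁅X ⊔ Y, X ⊔ Y⁆ ⁅B, C⁆ := nz_of_cm (cm_mono cD.symm FM le_rfl)
      have nD : Nz ⁅X ⊔ Y, X ⊔ Y⁆ ⁅X ⊔ Y, X ⊔ Y⁆ := nz_self
      refine cmMod_sup_left (cmMod_sup_left ?_ ?_ nE nF) (cmMod_of_nz nDR).symm (nz_sup nE nF) nD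
      · exact cmMod_sup_right (cmMod_sup_right (cmMod_of_cm cAE.symm) (cmMod_of_cm cBE.symm) nDA nDB)
          (cmMod_bracket (Subgroup.commutator_mono EM CM)) (nz_sup nDA nDB) nDC
      · exact cmMod_sup_right (cmMod_sup_right (cmMod_bracket (Subgroup.commutator_mono FM AM)) (cmMod_of_cm cBF.symm) nDA nDB)
          (cmMod_of_cm cCF.symm) (nz_sup nDA nDB) nDC
    have nK : Nz (⁅A, B⁆ ⊔ ⁅B, C⁆ ⊔ ⁅X ⊔ Y, X ⊔ Y⁆) (A ⊔ B ⊔ C) := nz_of_cmMod h2.symm le_sup_right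
    have nKA := nz_mono nK (le_sup_left.trans le_sup_left : A ≤ A ⊔ B ⊔ C)
    have nKB := nz_mono nK (le_sup_right.trans le_sup_left : B ≤ A ⊔ B ⊔ C)
    have nKC := nz_mono nK (le_sup_right : C ≤ A ⊔ B ⊔ C)
    have hEK : ⁅A, B⁆ ≤ ⁅A, B⁆ ⊔ ⁅B, C⁆ ⊔ ⁅X ⊔ Y, X ⊔ Y⁆ := le_sup_left.trans le_sup_left
    have hFK : ⁅B, C⁆ ≤ ⁅A, B⁆ ⊔ ⁅B, C⁆ ⊔ ⁅X ⊔ Y, X ⊔ Y⁆ := le_sup_right.trans le_sup_left
    have h1 : CmMod (⁅A, B⁆ ⊔ ⁅B, C⁆ ⊔ ⁅X ⊔ Y, X ⊔ Y⁆) (A ⊔ B ⊔ C) (A ⊔ B ⊔ C) := by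
      have m1 : CmMod (⁅A, B⁆ ⊔ ⁅B, C⁆ ⊔ ⁅X ⊔ Y, X ⊔ Y⁆) A B := cmMod_bracket hEK
      have m2 : CmMod (⁅A, B⁆ ⊔ ⁅B, C⁆ ⊔ ⁅X ⊔ Y, X ⊔ Y⁆) B C := cmMod_bracket hFK
      have m3 : CmMod (⁅A, B⁆ ⊔ ⁅B, C⁆ ⊔ ⁅X ⊔ Y, X ⊔ Y⁆) A C := cmMod_of_cm cAC
      refine cmMod_sup_left (cmMod_sup_left ?_ ?_ nKA nKB) ?_ (nz_sup nKA nKB) nKC
      · exact cmMod_sup_right (cmMod_sup_right (cmMod_of_cm (comm_mem hS hA)) m1 nKA nKB) m3 (nz_sup nKA nKB) nKC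
      · exact cmMod_sup_right (cmMod_sup_right m1.symm (cmMod_of_cm (comm_mem hS hB)) nKA nKB) m2 (nz_sup nKA nKB) nKC
      · exact cmMod_sup_right (cmMod_sup_right m3.symm m2.symm nKA nKB) (cmMod_of_cm (comm_mem hS hC)) (nz_sup nKA nKB) nKC
    exact nilpotent_of_chain h1 h2 h3 cEFR

end Triple

end H85.RootTriple
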