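import Cfsg.Agent.Lib.H85.Special
import Cfsg.Prelude.Def_Transfer

/-!
Powers in special rank one groups with abelian unipotent subgroups; the unipotent subgroups are elementary abelian or
torsion-free and divisible.
-/
set_option autoImplicit false

namespace H85.SpecialPow

open Cfsg H85.RankOne H85.RankOneTrans H85.Special

variable {G : Type*} [Group G] {A B : Subgroup G}

theorem commA (hab : HasAbelianUnipotents A B) : ∀ u ∈ A, ∀ v ∈ A, u * v = v * u := by
  intro u hu v hv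
  have := hab.1.is_comm.comm (⟨u, hu⟩ : A) ⟨v, hv⟩
  exact congrArg Subtype.val this

theorem commB (hab : HasAbelianUnipotents A B) : ∀ u ∈ B, ∀ v ∈ B, u * v = v * u := by
  intro u hu v hv
  have := hab.2.is_comm.comm (⟨u, hu⟩ : B) ⟨v, hv⟩
  exact congrArg Subtype.val this

theorem conj_pow' (g x : G) (n : ℕ) : g⁻¹ * x ^ n * g = (g⁻¹ * x * g) ^ n := by
  have := conj_pow (a := g⁻¹) (b := x) (i := n)
  rw [inv_inv] at this
  exact this.symm

/-- μ_a² centralizes a -/
theorem mu_mu_left (h : IsSpecialRankOnePair A B) {a b : G} (p : Partner A B a b) :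
    (mu a b) * ((mu a b) * a * (mu a b)⁻¹) * (mu a b)⁻¹ = a := by
  have h1 := left_conj_mu h p
  have h2 := right_conj_mu h p
  -- mu a mu⁻¹ : from μ⁻¹ b⁻¹ μ = a, μ a μ⁻¹ = b⁻¹
  have h3 : mu a b * a * (mu a b)⁻¹ = b⁻¹ := by
    have : (mu a b)⁻¹ * b⁻¹ * mu a b = a := by
      calc (mu a b)⁻¹ * b⁻¹ * mu a b = ((mu a b)⁻¹ * b * mu a b)⁻¹ := by group
        _ = a := by rw [h2, inv_inv]
    calc mu a b * a * (mu a b)⁻¹ = mu a b * ((mu a b)⁻¹ * b⁻¹ * mu a b) * (mu a b)⁻¹ := by rw [this]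
      _ = b⁻¹ := by group
  rw [h3, ← h1]; group

/-- v^{μ_{v^m}} has partner v^{-m²} -/
theorem formula_one (h : IsSpecialRankOnePair A B) (hab : HasAbelianUnipotents A B) {v : G} (m : ℕ) (hm : 1 ≤ m)
    (hv : ∀ j, 1 ≤ j → j ≤ m → v ^ j ≠ 1) {w : G} (p : Partner A B (v ^ m) w) (hvA : v ∈ A) :
    Partner A B (v ^ (m * m))⁻¹ ((mu (v ^ m) w)⁻¹ * v * mu (v ^ m) w) := by
  induction m, hm using Nat.le_induction generalizing w with
  | base =>
    simp only [mul_one, pow_one] at p ⊢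
    rw [left_conj_mu h p]
    exact partner_inv h p
  | succ m hm ih =>
    have hvm : v ^ m ≠ 1 := hv m hm (by omega)
    obtain ⟨u, pu⟩ := exists_left h.1 (A.pow_mem hvA m) hvm
    have ih' := ih (fun j h1 h2 => hv j h1 (by omega)) pu
    set g := mu (v ^ m) u with hg
    -- F(1,-m)
    have hf : Partner A B (v ^ (m * m))⁻¹ (g * v * g⁻¹) := by
      have h1 := partner_fix ih' (g := g⁻¹ * g⁻¹) (by
        rw [mul_inv_rev, inv_inv, conjBy_mul, conjBy_mu_left' h pu, conjBy_mu_right' h pu]) (by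
        rw [mul_inv_rev, inv_inv, conjBy_mul, conjBy_mu_right' h pu, conjBy_mu_left' h pu])
      have e1 : (g⁻¹ * g⁻¹)⁻¹ * (v ^ (m * m))⁻¹ * (g⁻¹ * g⁻¹) = (v ^ (m * m))⁻¹ := by
        have h2 := mu_mu_left h pu
        rw [← hg] at h2
        have h3 : (g⁻¹ * g⁻¹)⁻¹ * (v ^ m) ^ m * (g⁻¹ * g⁻¹) = (v ^ m) ^ m := by
          rw [conj_pow']
          have hgen : ∀ t : G, (g⁻¹ * g⁻¹)⁻¹ * t * (g⁻¹ * g⁻¹) = g * (g * t * g⁻¹) * g⁻¹ := by
            intro t; simp only [mul_inv_rev, inv_inv, mul_assoc]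
          have : (g⁻¹ * g⁻¹)⁻¹ * v ^ m * (g⁻¹ * g⁻¹) = v ^ m := by
            rw [hgen]; exact h2
          rw [this]
        rw [← pow_mul] at h3
        calc (g⁻¹ * g⁻¹)⁻¹ * (v ^ (m * m))⁻¹ * (g⁻¹ * g⁻¹) = ((g⁻¹ * g⁻¹)⁻¹ * (v ^ (m * m)) * (g⁻¹ * g⁻¹))⁻¹ := by group
          _ = _ := by rw [h3]
      have e2 : (g⁻¹ * g⁻¹)⁻¹ * (g⁻¹ * v * g) * (g⁻¹ * g⁻¹) = g * v * g⁻¹ := by group
      rw [e1, e2] at h1
      exact h1
    -- apply the addition formula with a = v^{-m}, b = v^{m+1}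
    have pa := partner_inv h pu
    have hprod : (v ^ m)⁻¹ * v ^ (m + 1) = v := by rw [pow_succ]; group
    have hx : Partner A B (v ^ (m * m))⁻¹ ((mu (v ^ m)⁻¹ u⁻¹)⁻¹ * ((v ^ m)⁻¹ * v ^ (m + 1)) * mu (v ^ m)⁻¹ u⁻¹) := by
      rw [hprod, mu_inv', inv_inv]
      exact hf
    obtain ⟨y, py⟩ : ∃ y, Partner A B y ((mu (v ^ (m + 1)) w)⁻¹ * ((v ^ m)⁻¹ * v ^ (m + 1)) * mu (v ^ (m + 1)) w) := by
      apply exists_right h.1
      · rw [← conjBy_mu_left h p]
        have := conj_mem_conjBy (A := A) (g := (mu (v ^ (m + 1)) w)⁻¹) (x := (v ^ m)⁻¹ * v ^ (m + 1)) (by rw [hprod]; exact hvA)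
        rwa [inv_inv] at this
      · rw [hprod]
        intro e
        apply hv 1 le_rfl (by omega)
        rw [pow_one]
        calc v = (mu (v ^ (m + 1)) w) * ((mu (v ^ (m + 1)) w)⁻¹ * v * mu (v ^ (m + 1)) w) * (mu (v ^ (m + 1)) w)⁻¹ := by group
          _ = 1 := by rw [e]; group
    have hadd := add_formula h hab pa p hx py
    have hy : y = (v ^ ((m + 1) * (m + 1)))⁻¹ := by
      have : y = (v ^ (m * m))⁻¹ * (v ^ m)⁻¹ * (v ^ (m + 1))⁻¹ := by rw [hadd]; group
      rw [this, ← mul_inv_rev, ← mul_inv_rev, ← pow_add, ← pow_add]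
      congr 2
      ring
    rw [hprod, hy] at py
    exact py

theorem partner_pow_ne_one (h : IsSpecialRankOnePair A B) {v v' : G} (p : Partner A B v v') {m : ℕ} (hv : v ^ m ≠ 1) :
    v' ^ m ≠ 1 := by
  intro e
  apply hv
  have h1 := right_conj_mu h p
  have h2 : (mu v v')⁻¹ * v' ^ m * mu v v' = v⁻¹ ^ m := by rw [conj_pow', h1]
  rw [e] at h2
  have h3 : v⁻¹ ^ m = 1 := by rw [← h2]; group
  rwa [inv_pow, inv_eq_one] at h3

theorem orderOf_partner (h : IsSpecialRankOnePair A B) {v v' : G} (p : Partner A B v v') : orderOf v' = orderOf v := by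
  apply Nat.dvd_antisymm
  · apply orderOf_dvd_of_pow_eq_one
    by_contra hc
    exact partner_pow_ne_one (special_symm h) p.symm hc (pow_orderOf_eq_one v)
  · apply orderOf_dvd_of_pow_eq_one
    by_contra hc
    exact partner_pow_ne_one h p hc (pow_orderOf_eq_one v')

/-- The partner w of (v')^m satisfies w^m = v. -/
theorem div_formula (h : IsSpecialRankOnePair A B) (hab : HasAbelianUnipotents A B) {v v' w : G} (m : ℕ) (hm : 1 ≤ m)
    (hv : ∀ j, 1 ≤ j → j ≤ m → v ^ j ≠ 1) (p : Partner A B v v') (pw : Partner A B w (v' ^ m)) : w ^ m = v := by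
  obtain ⟨u, pu⟩ := exists_left h.1 (A.pow_mem p.ha m) (hv m hm le_rfl)
  have f1 := formula_one h hab m hm hv pu p.ha
  set g1 := mu v v' with hg1
  set g2 := mu (v ^ m) u with hg2
  have e1 : g2⁻¹ * v'⁻¹ * g2 = v ^ (m * m) := by
    have q1 := partner_swap (partner_inv h p) (g := g2) (conjBy_mu_left h pu) (conjBy_mu_right h pu)
    have q2 := partner_inv h f1
    rw [inv_inv] at q2
    have e : (g2⁻¹ * v * g2)⁻¹ = g2⁻¹ * v⁻¹ * g2 := by group
    rw [e] at q2
    exact unique_right h.1 q1 q2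
  have e2 : g1⁻¹ * w * g1 = u⁻¹ := by
    have q1 := partner_swap pw (g := g1) (conjBy_mu_left h p) (conjBy_mu_right h p)
    rw [conj_pow', right_conj_mu h p, inv_pow] at q1
    exact unique_left h.1 q1 (partner_inv h pu)
  have e3 : g2⁻¹ * u⁻¹ * g2 = v ^ m := by
    have := right_conj_mu h pu
    calc g2⁻¹ * u⁻¹ * g2 = (g2⁻¹ * u * g2)⁻¹ := by group
      _ = v ^ m := by rw [this, inv_inv]
  have e4 : g1⁻¹ * v * g1 = v'⁻¹ := left_conj_mu h p
  have e5 : (g1 * g2)⁻¹ * w ^ m * (g1 * g2) = (g1 * g2)⁻¹ * v * (g1 * g2) := by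
    rw [conj_pow']
    have e6 : (g1 * g2)⁻¹ * w * (g1 * g2) = v ^ m := by
      calc (g1 * g2)⁻¹ * w * (g1 * g2) = g2⁻¹ * (g1⁻¹ * w * g1) * g2 := by group
        _ = v ^ m := by rw [e2, e3]
    have e7 : (g1 * g2)⁻¹ * v * (g1 * g2) = v ^ (m * m) := by
      calc (g1 * g2)⁻¹ * v * (g1 * g2) = g2⁻¹ * (g1⁻¹ * v * g1) * g2 := by group
        _ = v ^ (m * m) := by rw [e4, e1]
    rw [e6, e7, pow_mul]
  exact mul_left_cancel (mul_right_cancel e5)

/-- existence form -/
theorem exists_root (h : IsSpecialRankOnePair A B) (hab : HasAbelianUnipotents A B) {v v' : G} (m : ℕ) (hm : 1 ≤ m)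
    (hv : ∀ j, 1 ≤ j → j ≤ m → v ^ j ≠ 1) (p : Partner A B v v') : ∃ w, Partner A B w (v' ^ m) ∧ w ^ m = v := by
  obtain ⟨w, pw⟩ := exists_right h.1 (B.pow_mem p.hb m) (partner_pow_ne_one h p (hv m hm le_rfl))
  exact ⟨w, pw, div_formula h hab m hm hv p pw⟩

theorem prime_orderOf (h : IsSpecialRankOnePair A B) (hab : HasAbelianUnipotents A B) {s : G} (hs : s ∈ A) (hs1 : s ≠ 1)
    (hf : IsOfFinOrder s) : (orderOf s).Prime := by
  rw [Nat.prime_def_lt]
  have hpos : 0 < orderOf s := hf.orderOf_pos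
  have hne1 : orderOf s ≠ 1 := fun e => hs1 (orderOf_eq_one_iff.1 e)
  refine ⟨by omega, ?_⟩
  intro k hk hkd
  have hk0 : 1 ≤ k := Nat.pos_of_dvd_of_pos hkd hpos
  obtain ⟨s', ps⟩ := exists_left h.1 hs hs1
  obtain ⟨w, pw, e⟩ := exists_root h hab k hk0 (fun j h1 h2 e => by
    have := orderOf_dvd_of_pow_eq_one e
    have := Nat.le_of_dvd (by omega) this
    omega) ps
  have h1 : orderOf w = orderOf s / k := by
    rw [← orderOf_partner h pw, orderOf_pow' s' (by omega), orderOf_partner h ps, Nat.gcd_eq_right hkd]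
  have h2 : orderOf s ∣ orderOf w := by
    rw [← e]; exact orderOf_pow_dvd k
  rw [h1] at h2
  by_contra hk1
  have h3 : orderOf s / k < orderOf s := Nat.div_lt_self hpos (by omega)
  have h4 : 0 < orderOf s / k := Nat.div_pos (Nat.le_of_dvd hpos hkd) hk0
  have := Nat.le_of_dvd h4 h2
  omega

theorem structure_unipotent (h : IsSpecialRankOnePair A B) (hab : HasAbelianUnipotents A B) :
    (∃ p : ℕ, p.Prime ∧ Cfsg.IsElementaryAbelian p A) ∨
    ((∀ a ∈ A, a ≠ 1 → ¬ IsOfFinOrder a) ∧ ∀ a ∈ A, ∀ n : ℕ, 0 < n → ∃ c ∈ A, c ^ n = a) := by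
  have hroot : ∀ c ∈ A, ¬ IsOfFinOrder c → ∀ n : ℕ, 0 < n → ∃ w ∈ A, w ^ n = c := by
    intro c hc hinf n hn
    have hc1 : c ≠ 1 := by rintro rfl; exact hinf IsOfFinOrder.one
    obtain ⟨c', pc⟩ := exists_left h.1 hc hc1
    obtain ⟨w, pw, e⟩ := exists_root h hab n hn (fun j h1 _ e => hinf (isOfFinOrder_iff_pow_eq_one.2 ⟨j, h1, e⟩)) pc
    exact ⟨w, pw.ha, e⟩
  by_cases htf : ∃ a ∈ A, a ≠ 1 ∧ IsOfFinOrder a
  · left
    obtain ⟨a, ha, ha1, haf⟩ := htf
    have hp := prime_orderOf h hab ha ha1 haf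
    refine ⟨orderOf a, hp, hab.1, ?_⟩
    intro c hc
    by_contra hcp
    have hcomm : Commute c a := commA hab c hc a ha
    have hc1 : c ≠ 1 := by rintro rfl; exact hcp (one_pow _)
    by_cases hcf : IsOfFinOrder c
    · have hq := prime_orderOf h hab hc hc1 hcf
      have hne : orderOf c ≠ orderOf a := by
        intro e; apply hcp; rw [← e]; exact pow_orderOf_eq_one c
      have hcop : (orderOf c).Coprime (orderOf a) := (Nat.coprime_primes hq hp).2 hne
      have hord := hcomm.orderOf_mul_eq_mul_orderOf_of_coprime hcop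
      have hca : c * a ≠ 1 := by
        intro e
        rw [e, orderOf_one] at hord
        have := Nat.eq_one_of_mul_eq_one_right hord.symm
        exact hq.one_lt.ne' this
      have hcaf : IsOfFinOrder (c * a) := hcomm.isOfFinOrder_mul hcf haf
      have hpr := prime_orderOf h hab (A.mul_mem hc ha) hca hcaf
      rw [hord] at hpr
      exact Nat.not_prime_mul hq.one_lt.ne' hp.one_lt.ne' hpr
    · have hcaf : ¬ IsOfFinOrder (c * a) := by
        intro hf
        apply hcf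
        have : c = (c * a) * a⁻¹ := by group
        rw [this]
        have hcomm2 : Commute (c * a) a⁻¹ := by
          have : Commute (c * a) a := by
            exact Commute.mul_left hcomm (Commute.refl a)
          exact this.inv_right
        exact hcomm2.isOfFinOrder_mul hf haf.inv
      obtain ⟨w, hw, ew⟩ := hroot c hc hcf (orderOf a) hp.pos
      obtain ⟨u, hu, eu⟩ := hroot (c * a) (A.mul_mem hc ha) hcaf (orderOf a) hp.pos
      have hcomm3 : Commute u w⁻¹ := (show Commute u w from commA hab u hu w hw).inv_right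
      have es : (u * w⁻¹) ^ orderOf a = a := by
        rw [hcomm3.mul_pow, eu, inv_pow, ew, commA hab c hc a ha]; group
      have hs1 : u * w⁻¹ ≠ 1 := by
        intro e; rw [e, one_pow] at es; exact ha1 es.symm
      have hsf : IsOfFinOrder (u * w⁻¹) := by
        rw [isOfFinOrder_iff_pow_eq_one]
        refine ⟨orderOf a * orderOf a, Nat.mul_pos hp.pos hp.pos, ?_⟩
        rw [pow_mul, es, pow_orderOf_eq_one]
      have hpr := prime_orderOf h hab (A.mul_mem hu (A.inv_mem hw)) hs1 hsf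
      have hdvd : orderOf (u * w⁻¹) ∣ orderOf a * orderOf a := by
        apply orderOf_dvd_of_pow_eq_one
        rw [pow_mul, es, pow_orderOf_eq_one]
      have hdvd2 : orderOf (u * w⁻¹) ∣ orderOf a := by
        rcases (Nat.Prime.dvd_mul hpr).1 hdvd with h1 | h1 <;> exact h1
      have : (u * w⁻¹) ^ orderOf a = 1 := orderOf_dvd_iff_pow_eq_one.1 hdvd2
      rw [es] at this
      exact ha1 this
  · right
    push Not at htf
    refine ⟨htf, ?_⟩
    intro a ha n hn
    by_cases ha1 : a = 1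
    · exact ⟨1, A.one_mem, by rw [ha1, one_pow]⟩
    · exact hroot a ha (htf a ha ha1) n hn

end H85.SpecialPow
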