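import Cfsg.Agent.Lib.H85.RootSpecial
import Cfsg.Agent.Lib.H85.SpecialPow
import Cfsg.Agent.Lib.H85.SL2

/-!
Rank one pairs are special in classes of abstract root subgroups with commuting members (S5039).
-/
set_option autoImplicit false

namespace H85.RootTwoComm

open Cfsg H85.RankOne H85.RankOneTrans H85.RootSub H85.RootSub2 H85.RootComp H85.RootLine H85.RootSpecial

variable {G : Type*} [Group G] {S : Set (Subgroup G)}

/-- Two commuting A, C both opposite to D and d ∈ D with ᵈA = ᵃD, ᵈC = ᶜD. -/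
structure Sq (A C D : Subgroup G) (a c d : G) : Prop where
  cAC : Cm A C
  pA : IsRankOnePair A D
  pC : IsRankOnePair C D
  cA : Cm A A
  cC : Cm C C
  cD : Cm D D
  ha : a ∈ A
  hc : c ∈ C
  hd : d ∈ D
  ea : conjBy A d = conjBy D a
  ec : conjBy C d = conjBy D c

namespace Sq

variable {A C D : Subgroup G} {a c d : G}

/-- t = c⁻¹ a commutes with A and C -/
theorem tA (h : Sq A C D a c d) : ∀ x ∈ A, (c⁻¹ * a) * x = x * (c⁻¹ * a) := by
  intro x hx
  rw [mul_assoc, h.cA a h.ha x hx, ← mul_assoc, ← h.cAC x hx c⁻¹ (C.inv_mem h.hc), mul_assoc]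

theorem tC (h : Sq A C D a c d) : ∀ x ∈ C, (c⁻¹ * a) * x = x * (c⁻¹ * a) := by
  intro x hx
  rw [mul_assoc, h.cAC a h.ha x hx, ← mul_assoc, h.cC c⁻¹ (C.inv_mem h.hc) x hx, mul_assoc]

theorem cmt (h : Sq A C D a c d) : Cm (conjBy D (c⁻¹ * a)) D := by
  have h1 := cm_conj h.cAC d
  rw [h.ea, h.ec] at h1
  have h2 := cm_conj h1 c⁻¹
  rwa [← conjBy_mul, conjBy_inv_conjBy] at h2

/-- s = (t d t⁻¹)⁻¹ d commutes with D -/
theorem sD (h : Sq A C D a c d) : ∀ x ∈ D, (((c⁻¹ * a) * d * (c⁻¹ * a)⁻¹)⁻¹ * d) * x = x * (((c⁻¹ * a) * d * (c⁻¹ * a)⁻¹)⁻¹ * d) := by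
  intro x hx
  have h1 := h.cmt _ ((conjBy D (c⁻¹ * a)).inv_mem (conj_mem_conjBy h.hd)) x hx
  rw [mul_assoc, h.cD d h.hd x hx, ← mul_assoc, h1, mul_assoc]

theorem sA (h : Sq A C D a c d) : conjBy A (((c⁻¹ * a) * d * (c⁻¹ * a)⁻¹)⁻¹ * d) = C := by
  rw [conjBy_mul, h.ea, ← conjBy_mul]
  have e : ((c⁻¹ * a) * d * (c⁻¹ * a)⁻¹)⁻¹ * a = (c⁻¹ * a) * (d⁻¹ * c) := by
    have := h.cAC a h.ha c h.hc
    calc ((c⁻¹ * a) * d * (c⁻¹ * a)⁻¹)⁻¹ * a = (c⁻¹ * a) * d⁻¹ * a⁻¹ * (c * a) := by group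
      _ = (c⁻¹ * a) * d⁻¹ * a⁻¹ * (a * c) := by rw [this]
      _ = _ := by group
  rw [e, conjBy_mul D (c⁻¹ * a) (d⁻¹ * c), conjBy_mul D d⁻¹ c, ← h.ec, conjBy_inv_conjBy]
  exact conjBy_of_comm h.tC

theorem sac (h : Sq A C D a c d) {s : G} (hs : s = ((c⁻¹ * a) * d * (c⁻¹ * a)⁻¹)⁻¹ * d) : s * a * s⁻¹ = c := by
  have hsA : conjBy A s = C := by rw [hs]; exact h.sA
  have hsD : ∀ x ∈ D, s * x = x * s := by rw [hs]; exact h.sD
  have hmem : s * a * s⁻¹ ∈ C := by rw [← hsA]; exact conj_mem_conjBy h.ha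
  have h1 : conjBy D (s * a * s⁻¹) = conjBy D c := by
    rw [← h.ec, conjBy_mul, conjBy_mul]
    have e1 : conjBy D s⁻¹ = D := by
      rw [conjBy_eq_iff, inv_inv]
      exact (conjBy_of_comm hsD).symm
    rw [e1, ← h.ea, ← conjBy_mul, hsD d h.hd, conjBy_mul, hsA]
  have h2 : conjBy D (c⁻¹ * (s * a * s⁻¹)) = D := by rw [conjBy_mul, h1, conjBy_inv_conjBy]
  exact (inv_mul_eq_one.1 (eq_one_of_conjBy_eq h.pC (C.mul_mem (C.inv_mem h.hc) hmem) h2)).symm

end Sq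

/-- Step 1: (A, D) is special when some C ≠ A commutes with A and is opposite to D. -/
theorem good_special (hS : IsRootSubgroupSet S) {A C D : Subgroup G} (hA : A ∈ S) (hC : C ∈ S) (hD : D ∈ S)
    (hne : A ≠ C) (hAC : Cm A C) (hAD : IsRankOnePair A D) (hCD : IsRankOnePair C D) : IsSpecialRankOnePair A D := by
  refine ⟨hAD, ?_⟩
  intro a' ha' ha'1 b hb hb1 e
  -- put d = b⁻¹, a = a'⁻¹
  have key : ∀ d ∈ D, d ≠ 1 → ∀ a ∈ A, conjBy A d = conjBy D a → d * a * d⁻¹ = a * d⁻¹ * a⁻¹ := by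
    intro d hd hd1 a ha ea
    obtain ⟨c, hc, -, ec⟩ := conj_partner hCD hd hd1
    have h : Sq A C D a c d := ⟨hAC, hAD, hCD, comm_mem hS hA, comm_mem hS hC, comm_mem hS hD, ha, hc, hd, ea, ec⟩
    have tA := h.tA
    have sD := h.sD
    have sA := h.sA
    have sac := h.sac rfl
    set t := c⁻¹ * a with ht
    set s := (t * d * t⁻¹)⁻¹ * d with hs
    -- relations
    have r1 : a⁻¹ * s * a = t⁻¹ * s := by
      have : s * a = c * s := by rw [← sac]; group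
      rw [mul_assoc, this, ht]; group
    have r2 : s * d = d * s := sD d hd
    have r3 : d⁻¹ * t * d = s⁻¹ * t := by rw [hs]; group
    have r4 : d * t * d⁻¹ = s * t := by
      have h1 : t = d * (s⁻¹ * t) * d⁻¹ := by rw [← r3]; group
      have h2 : d * (s⁻¹ * t) * d⁻¹ = s⁻¹ * (d * t * d⁻¹) := by
        have : d * s⁻¹ = s⁻¹ * d := by
          calc d * s⁻¹ = s⁻¹ * (s * d) * s⁻¹ := by group
            _ = s⁻¹ * (d * s) * s⁻¹ := by rw [r2]
            _ = _ := by group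
        calc d * (s⁻¹ * t) * d⁻¹ = (d * s⁻¹) * t * d⁻¹ := by group
          _ = _ := by rw [this]; group
      have h3 : s * t = s * (s⁻¹ * (d * t * d⁻¹)) := by rw [← h2, ← h1]
      rw [h3]; group
    have r5 : a * t * a⁻¹ = t := by rw [← tA a ha]; group
    have r6 : a * s * a⁻¹ = t * s := by
      have h1 : s = a * (t⁻¹ * s) * a⁻¹ := by rw [← r1]; group
      have h2 : a * (t⁻¹ * s) * a⁻¹ = t⁻¹ * (a * s * a⁻¹) := by
        calc a * (t⁻¹ * s) * a⁻¹ = (a * t * a⁻¹)⁻¹ * (a * s * a⁻¹) := by group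
          _ = _ := by rw [r5]
      have h3 : t * s = t * (t⁻¹ * (a * s * a⁻¹)) := by rw [← h2, ← h1]
      rw [h3]; group
    -- g = (d a d⁻¹) (a d a⁻¹) commutes with s
    have g1 : (a * d * a⁻¹) * s * (a * d * a⁻¹)⁻¹ = t⁻¹ := by
      calc (a * d * a⁻¹) * s * (a * d * a⁻¹)⁻¹ = a * (d * (a⁻¹ * s * a) * d⁻¹) * a⁻¹ := by group
        _ = a * ((d * t * d⁻¹)⁻¹ * (d * s * d⁻¹)) * a⁻¹ := by rw [r1]; group
        _ = a * ((s * t)⁻¹ * s) * a⁻¹ := by
            rw [r4]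
            have : d * s * d⁻¹ = s := by rw [← r2]; group
            rw [this]
        _ = (a * t * a⁻¹)⁻¹ := by group
        _ = t⁻¹ := by rw [r5]
    have g2 : (d * a * d⁻¹) * t⁻¹ * (d * a * d⁻¹)⁻¹ = s := by
      calc (d * a * d⁻¹) * t⁻¹ * (d * a * d⁻¹)⁻¹ = d * (a * (d⁻¹ * t * d)⁻¹ * a⁻¹) * d⁻¹ := by group
        _ = d * ((a * t * a⁻¹)⁻¹ * (a * s * a⁻¹)) * d⁻¹ := by rw [r3]; group
        _ = d * (t⁻¹ * (t * s)) * d⁻¹ := by rw [r5, r6]
        _ = d * s * d⁻¹ := by group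
        _ = s := by rw [← r2]; group
    have g3 : ((d * a * d⁻¹) * (a * d * a⁻¹)) * s * ((d * a * d⁻¹) * (a * d * a⁻¹))⁻¹ = s := by
      calc ((d * a * d⁻¹) * (a * d * a⁻¹)) * s * ((d * a * d⁻¹) * (a * d * a⁻¹))⁻¹ =
          (d * a * d⁻¹) * ((a * d * a⁻¹) * s * (a * d * a⁻¹)⁻¹) * (d * a * d⁻¹)⁻¹ := by group
        _ = s := by rw [g1, g2]
    -- x = d⁻¹ g d ∈ A
    have hx : d⁻¹ * ((d * a * d⁻¹) * (a * d * a⁻¹)) * d ∈ A := by
      have h1 : (d * a * d⁻¹) * (a * d * a⁻¹) ∈ conjBy A d :=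
        Subgroup.mul_mem _ (conj_mem_conjBy ha) (by rw [ea]; exact conj_mem_conjBy hd)
      exact mem_conjBy.1 h1
    have hxs : s * (d⁻¹ * ((d * a * d⁻¹) * (a * d * a⁻¹)) * d) * s⁻¹ = d⁻¹ * ((d * a * d⁻¹) * (a * d * a⁻¹)) * d := by
      generalize (d * a * d⁻¹) * (a * d * a⁻¹) = g at g3 hx
      have h1 : s * g = g * s := by
        calc s * g = (g * s * g⁻¹) * g := by rw [g3]
          _ = _ := by group
      have h2 : s * d⁻¹ = d⁻¹ * s := by
        calc s * d⁻¹ = d⁻¹ * (d * s) * d⁻¹ := by group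
          _ = d⁻¹ * (s * d) * d⁻¹ := by rw [r2]
          _ = _ := by group
      have h3 : s * (d⁻¹ * g * d) = (d⁻¹ * g * d) * s := by
        calc s * (d⁻¹ * g * d) = (s * d⁻¹) * g * d := by group
          _ = d⁻¹ * (s * g) * d := by rw [h2]; group
          _ = d⁻¹ * g * (s * d) := by rw [h1]; group
          _ = _ := by rw [r2]; group
      rw [h3]; group
    have hxC : d⁻¹ * ((d * a * d⁻¹) * (a * d * a⁻¹)) * d ∈ C := by
      rw [← sA, ← hxs]
      exact conj_mem_conjBy hx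
    have hx1 : d⁻¹ * ((d * a * d⁻¹) * (a * d * a⁻¹)) * d = 1 := by
      by_contra hc1
      exact hne (eq_of_mem hS hD hAD hC hx hxC hc1)
    have hg1 : (d * a * d⁻¹) * (a * d * a⁻¹) = 1 := by
      have : (d * a * d⁻¹) * (a * d * a⁻¹) = d * (d⁻¹ * ((d * a * d⁻¹) * (a * d * a⁻¹)) * d) * d⁻¹ := by group
      rw [this, hx1]; group
    rw [eq_inv_of_mul_eq_one_left hg1]; group
  have h1 := key b⁻¹ (D.inv_mem hb) (inv_ne_one.2 hb1) a'⁻¹ (A.inv_mem ha') e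
  rw [inv_inv, inv_inv] at h1
  calc b⁻¹ * a' * b = (b⁻¹ * a'⁻¹ * b)⁻¹ := by group
    _ = (a'⁻¹ * b * a')⁻¹ := by rw [h1]
    _ = _ := by group

/-- Step 3, first part. -/
theorem exists_r (hS : IsRootSubgroupSet S) {A C D : Subgroup G} (hA : A ∈ S) (hC : C ∈ S) (hD : D ∈ S)
    (hne : A ≠ C) (hAC : Cm A C) (hAD : IsRankOnePair A D) (hCD : IsRankOnePair C D) {u a : G} (hu : u ∈ A)
    (ha : a ∈ A) (ha1 : a ≠ 1) (hau : a ≠ u) :
    ∃ r : G, (∀ x ∈ A ⊔ D, r * x = x * r) ∧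
      ∀ B : Subgroup G, (∀ P ∈ S, P ≠ A → Cm P A → Cm P B) → ∀ x ∈ A ⊔ B, r * x * r⁻¹ = u * x * u⁻¹ := by
  obtain ⟨d, hd, hd1, e⟩ := conj_partner' hAD ha ha1
  obtain ⟨c, hc, hc1, ec⟩ := conj_partner hCD hd hd1
  have h : Sq A C D a c d := ⟨hAC, hAD, hCD, comm_mem hS hA, comm_mem hS hC, comm_mem hS hD, ha, hc, hd, e, ec⟩
  set t := c⁻¹ * a with ht
  have htA : ∀ x ∈ A, t * x = x * t := h.tA
  have hcmt : Cm (conjBy D t) D := h.cmt
  have hES : conjBy D t ∈ S := hS.conj_mem D hD t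
  have hEA : IsRankOnePair (conjBy D t) A := by
    have := isRankOnePair_conj (RankOnePair_symm hAD) t
    rwa [conjBy_of_comm (A := A) htA] at this
  set a' := a * u⁻¹ with ha'
  have ha'A : a' ∈ A := A.mul_mem ha (A.inv_mem hu)
  have ha'1 : a' ≠ 1 := by
    intro e; exact hau (mul_inv_eq_one.1 e)
  obtain ⟨d', hd', hd'1, ed'⟩ := conj_partner (RankOnePair_symm hAD) ha'A ha'1
  have ee' : conjBy (conjBy D t) a' = conjBy A (t * d' * t⁻¹) := by
    have e1 : conjBy A t⁻¹ = A := by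
      rw [conjBy_eq_iff, inv_inv]; exact (conjBy_of_comm htA).symm
    rw [← conjBy_mul, ← htA a' ha'A, conjBy_mul D t a', ed', conjBy_mul A (t * d') t⁻¹, e1, conjBy_mul A t d']
  have h2 : Sq D (conjBy D t) A d' (t * d' * t⁻¹) a' :=
    ⟨hcmt.symm, RankOnePair_symm hAD, hEA, comm_mem hS hD, comm_mem hS hES, comm_mem hS hA, hd', conj_mem_conjBy hd', ha'A,
      ed', ee'⟩
  have cmt2 := h2.cmt
  have sD2 := h2.sD
  have sA2 := h2.sA
  set s' := (t * d' * t⁻¹)⁻¹ * d' with hs'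
  set t'' := (s' * a' * s'⁻¹)⁻¹ * a' with ht''
  -- C' = A^{s'}
  have hC'S : conjBy A s' ∈ S := hS.conj_mem A hA s'
  have hC'ne : conjBy A s' ≠ A := by
    intro e1
    -- then D^{d'..}
    have h3 : conjBy A d' = conjBy A (t * d') := by
      have h4 : conjBy A ((t * d' * t⁻¹)⁻¹ * d') = A := e1
      rw [conjBy_mul, conjBy_eq_iff, inv_inv, conjBy_mul] at h4
      have e2 : conjBy A t⁻¹ = A := by
        rw [conjBy_eq_iff, inv_inv]; exact (conjBy_of_comm htA).symm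
      rw [e2] at h4
      exact h4
    -- A^{d'} = D^{a'} so D^{a'} = D^{t a'}
    rw [conjBy_mul A t d', ← ed', ← conjBy_mul, htA a' ha'A, conjBy_mul D a' t, conjBy_inj] at h3
    -- D = D^t: then c⁻¹ a fixes D
    have h5 : conjBy D c = conjBy D a := by
      have h6 : conjBy D (c⁻¹ * a) = D := h3.symm
      rw [conjBy_mul, conjBy_eq_iff, inv_inv] at h6
      exact h6.symm
    rw [← ec, ← e] at h5
    exact hne (conjBy_inj.1 h5).symm
  set r := t''⁻¹ * t with hr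
  have hrA : ∀ x ∈ A, r * x = x * r := by
    intro x hx
    have h3 := sD2 x hx
    have h4 : t''⁻¹ * x = x * t''⁻¹ := by
      calc t''⁻¹ * x = t''⁻¹ * (x * t'') * t''⁻¹ := by group
        _ = t''⁻¹ * (t'' * x) * t''⁻¹ := by rw [h3]
        _ = _ := by group
    rw [hr, mul_assoc, htA x hx, ← mul_assoc, h4, mul_assoc]
  have hrD : conjBy D r = D := by
    rw [hr, conjBy_mul, ← sA2, conjBy_inv_conjBy]
  have hrDc : ∀ x ∈ D, r * x = x * r := by
    intro x hx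
    by_cases hx1 : x = 1
    · rw [hx1]; simp
    obtain ⟨ax, hax, hax1, eax⟩ := conj_partner hAD hx hx1
    have hmem : r * x * r⁻¹ ∈ D := by
      have h3 : r * x * r⁻¹ ∈ conjBy D r := conj_mem_conjBy hx
      rwa [hrD] at h3
    have h3 : conjBy A (r * x * r⁻¹) = conjBy A x := by
      have e2 : conjBy A r⁻¹ = A := by
        rw [conjBy_eq_iff, inv_inv]; exact (conjBy_of_comm hrA).symm
      rw [conjBy_mul, conjBy_mul, e2, eax, ← conjBy_mul, hrA ax hax, conjBy_mul, hrD]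
    have h4 : conjBy A (x⁻¹ * (r * x * r⁻¹)) = A := by rw [conjBy_mul, h3, conjBy_inv_conjBy]
    have h5 := eq_one_of_conjBy_eq' hAD (D.mul_mem (D.inv_mem hx) hmem) h4
    have h6 : x = r * x * r⁻¹ := inv_mul_eq_one.1 h5
    calc r * x = (r * x * r⁻¹) * r := by group
      _ = x * r := by rw [← h6]
  refine ⟨r, commute_sup hrA hrDc, ?_⟩
  intro B hbad
  have hcB : Cm C B := hbad C hC hne.symm hAC.symm
  have hc'B : Cm (conjBy A s') B := hbad _ hC'S hC'ne cmt2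
  have hcX : Cm C (A ⊔ B) := cm_sup_right hAC.symm hcB
  have hc'X : Cm (conjBy A s') (A ⊔ B) := cm_sup_right cmt2 hc'B
  intro x hx
  have hax : a * x * a⁻¹ ∈ A ⊔ B :=
    Subgroup.mul_mem _ (Subgroup.mul_mem _ (Subgroup.mem_sup_left ha) hx) (Subgroup.inv_mem _ (Subgroup.mem_sup_left ha))
  have h3 : t * x * t⁻¹ = a * x * a⁻¹ := by
    have h4 := hcX c⁻¹ (C.inv_mem hc) _ hax
    calc t * x * t⁻¹ = (c⁻¹ * (a * x * a⁻¹)) * c := by rw [ht]; group
      _ = ((a * x * a⁻¹) * c⁻¹) * c := by rw [h4]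
      _ = _ := by group
  have h4 : t''⁻¹ * (a * x * a⁻¹) * t'' = a'⁻¹ * (a * x * a⁻¹) * a' := by
    have h5 := hc'X (s' * a' * s'⁻¹) (conj_mem_conjBy ha'A) _ hax
    calc t''⁻¹ * (a * x * a⁻¹) * t'' = a'⁻¹ * ((s' * a' * s'⁻¹) * (a * x * a⁻¹)) * (s' * a' * s'⁻¹)⁻¹ * a' := by
          rw [ht'']; group
      _ = a'⁻¹ * ((a * x * a⁻¹) * (s' * a' * s'⁻¹)) * (s' * a' * s'⁻¹)⁻¹ * a' := by rw [h5]
      _ = _ := by group
  have h5 : a'⁻¹ * a = u := by
    rw [ha', mul_inv_rev, inv_inv, comm_mem hS hA u hu a⁻¹ (A.inv_mem ha)]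
    rw [comm_mem hS hA a⁻¹ (A.inv_mem ha) u hu]; group
  calc r * x * r⁻¹ = t''⁻¹ * (t * x * t⁻¹) * t'' := by rw [hr]; group
    _ = t''⁻¹ * (a * x * a⁻¹) * t'' := by rw [h3]
    _ = a'⁻¹ * (a * x * a⁻¹) * a' := h4
    _ = (a'⁻¹ * a) * x * (a'⁻¹ * a)⁻¹ := by group
    _ = _ := by rw [h5]

/-- Step 3: a bad pair is impossible if some element of ⟨A, D⟩ normalizes but does not centralize A. -/
theorem no_bad (hS : IsRootSubgroupSet S) {A B C D : Subgroup G} (hA : A ∈ S) (hC : C ∈ S) (hD : D ∈ S)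
    (hne : A ≠ C) (hAC : Cm A C) (hAD : IsRankOnePair A D) (hCD : IsRankOnePair C D) (hAB : IsRankOnePair A B)
    (hbad : ∀ P ∈ S, P ≠ A → Cm P A → Cm P B) {u h : G} (hu : u ∈ A) (hh : h ∈ A ⊔ D)
    (hhA : conjBy A h = A) (hhu : h * u * h⁻¹ ≠ u) : False := by
  have hmem : h * u * h⁻¹ ∈ A := by
    have : h * u * h⁻¹ ∈ conjBy A h := conj_mem_conjBy hu
    rwa [hhA] at this
  have hu1 : u ≠ 1 := by rintro rfl; apply hhu; group
  have h1 : h * u * h⁻¹ ≠ 1 := by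
    intro e; apply hu1
    calc u = h⁻¹ * (h * u * h⁻¹) * h := by group
      _ = 1 := by rw [e]; group
  obtain ⟨r, hr1, hr2⟩ := exists_r hS hA hC hD hne hAC hAD hCD hu hmem h1 hhu
  have hb1 := hr2 B hbad
  have hhA' : conjBy A h⁻¹ = A := by rw [conjBy_eq_iff, inv_inv, hhA]
  have hb2 := hr2 (conjBy B h) (by
    intro P hP hPA hcm
    have h3 := hbad (conjBy P h⁻¹) (hS.conj_mem P hP _) (by
      intro e; apply hPA
      rw [← hhA'] at e; exact conjBy_inj.1 e) (by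
      have := cm_conj hcm h⁻¹
      rwa [hhA'] at this)
    have h4 := cm_conj h3 h
    rwa [← conjBy_mul, mul_inv_cancel, conjBy_one] at h4)
  have hrh := hr1 h hh
  have hpair : IsRankOnePair A (conjBy B h) := by
    have := isRankOnePair_conj hAB h
    rwa [hhA] at this
  have hw : u⁻¹ * (h * u * h⁻¹) = 1 := by
    apply eq_one_of_central hpair (A.mul_mem (A.inv_mem hu) hmem)
    apply commute_sup
    · intro x hx
      exact comm_mem hS hA _ (A.mul_mem (A.inv_mem hu) hmem) x hx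
    · intro y hy
      have e1 := hb2 y (Subgroup.mem_sup_right hy)
      rw [mem_conjBy] at hy
      have e2 := hb1 _ (Subgroup.mem_sup_right hy)
      have e3 : r * y * r⁻¹ = (h * u * h⁻¹) * y * (h * u * h⁻¹)⁻¹ := by
        calc r * y * r⁻¹ = (r * h) * (h⁻¹ * y * h) * (r * h)⁻¹ := by group
          _ = h * (r * (h⁻¹ * y * h) * r⁻¹) * h⁻¹ := by rw [hrh]; group
          _ = h * (u * (h⁻¹ * y * h) * u⁻¹) * h⁻¹ := by rw [e2]
          _ = _ := by group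
      rw [e1] at e3
      calc u⁻¹ * (h * u * h⁻¹) * y = u⁻¹ * ((h * u * h⁻¹) * y * (h * u * h⁻¹)⁻¹) * (h * u * h⁻¹) := by group
        _ = u⁻¹ * (u * y * u⁻¹) * (h * u * h⁻¹) := by rw [e3]
        _ = _ := by group
  exact hhu (inv_mul_eq_one.1 hw).symm

/-- A diagonal element mapping v to v⁴. -/
theorem exists_diag {A B : Subgroup G} (h : IsSpecialRankOnePair A B) (hab : HasAbelianUnipotents A B) {v : G}
    (hv : v ∈ A) (hv1 : v ≠ 1) (hv2 : v ^ 2 ≠ 1) : ∃ g ∈ A ⊔ B, conjBy A g = A ∧ g * v * g⁻¹ = v ^ 4 := by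
  obtain ⟨v', p⟩ := Special.exists_left h.1 hv hv1
  obtain ⟨u, pu⟩ := Special.exists_left h.1 (A.pow_mem hv 2) hv2
  have f1 := SpecialPow.formula_one h hab 2 (by norm_num) (fun j h1 h2 => by
    interval_cases j
    · rwa [pow_one]
    · exact hv2) pu hv
  set g1 := Special.mu v v' with hg1
  set g2 := Special.mu (v ^ 2) u with hg2
  have e1 : g2⁻¹ * v'⁻¹ * g2 = v ^ (2 * 2) := by
    have q1 := Special.partner_swap (Special.partner_inv h p) (g := g2) (Special.conjBy_mu_left h pu) (Special.conjBy_mu_right h pu)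
    have q2 := Special.partner_inv h f1
    rw [inv_inv] at q2
    have e : (g2⁻¹ * v * g2)⁻¹ = g2⁻¹ * v⁻¹ * g2 := by group
    rw [e] at q2
    exact Special.unique_right h.1 q1 q2
  have e4 : g1⁻¹ * v * g1 = v'⁻¹ := Special.left_conj_mu h p
  have hm1 : g1 ∈ A ⊔ B := by
    rw [hg1]; unfold Special.mu
    exact Subgroup.mul_mem _ (Subgroup.mul_mem _ (Subgroup.inv_mem _ (Subgroup.mem_sup_left p.ha)) (Subgroup.mem_sup_right p.hb))
      (Subgroup.inv_mem _ (Subgroup.mem_sup_left p.ha))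
  have hm2 : g2 ∈ A ⊔ B := by
    rw [hg2]; unfold Special.mu
    exact Subgroup.mul_mem _ (Subgroup.mul_mem _ (Subgroup.inv_mem _ (Subgroup.mem_sup_left pu.ha)) (Subgroup.mem_sup_right pu.hb))
      (Subgroup.inv_mem _ (Subgroup.mem_sup_left pu.ha))
  refine ⟨g2⁻¹ * g1⁻¹, Subgroup.mul_mem _ (Subgroup.inv_mem _ hm2) (Subgroup.inv_mem _ hm1), ?_, ?_⟩
  · rw [conjBy_mul, hg1, hg2, Special.conjBy_mu_left h p, Special.conjBy_mu_right h pu]
  · calc g2⁻¹ * g1⁻¹ * v * (g2⁻¹ * g1⁻¹)⁻¹ = g2⁻¹ * (g1⁻¹ * v * g1) * g2 := by group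
      _ = v ^ 4 := by rw [e4, e1]

theorem exists_diag_field {k : Type*} [Field k] (hk : 3 < ENat.card k) : ∃ l : k, l ≠ 0 ∧ l ^ 2 ≠ 1 := by
  by_contra hc
  push Not at hc
  classical
  have hsub : (Set.univ : Set k) ⊆ ((({0, 1, -1} : Finset k)) : Set k) := by
    intro l _
    by_cases hl : l = 0
    · simp [hl]
    · have := hc l hl
      rw [pow_two, mul_self_eq_one_iff] at this
      simp [this]
  have h1 := Set.encard_le_encard hsub
  rw [Set.encard_coe_eq_coe_finsetCard, Set.encard_univ] at h1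
  have h2 : (({0, 1, -1} : Finset k)).card ≤ 3 := Finset.card_le_three
  have h3 : ((({0, 1, -1} : Finset k)).card : ℕ∞) ≤ 3 := by exact_mod_cast h2
  exact absurd (h1.trans h3) (not_le.2 hk)

theorem exists_diag_psl {A D A₀ D₀ : Subgroup G} (hAD : IsRankOnePair A D) (hA₀ : A₀ ≤ A) (hD₀ : D₀ ≤ D) {k : Type*}
    [Field k] (hk : 3 < ENat.card k) (h : IsPSL2PairOver k A₀ D₀) :
    ∃ u ∈ A, ∃ g ∈ A ⊔ D, conjBy A g = A ∧ g * u * g⁻¹ ≠ u := by
  obtain ⟨φ, h1, h2, h3, h4⟩ := h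
  obtain ⟨l, hl, hl2⟩ := exists_diag_field hk
  let δ : Matrix.SpecialLinearGroup (Fin 2) k := ⟨!![l, 0; 0, l⁻¹], by simp [Matrix.det_fin_two, hl]⟩
  have hrel : δ * SL2.up 1 * δ⁻¹ = SL2.up (l ^ 2) := by
    rw [mul_inv_eq_iff_eq_mul]
    apply Subtype.ext
    rw [Matrix.SpecialLinearGroup.coe_mul, Matrix.SpecialLinearGroup.coe_mul]
    ext i j
    fin_cases i <;> fin_cases j <;> simp [δ, Matrix.mul_apply, Fin.sum_univ_two, pow_two, hl]
  have hker : ∀ x : k, φ (SL2.up x) = 1 → x = 0 := by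
    intro x hx
    have h5 : SL2.up x ∈ Subgroup.center (Matrix.SpecialLinearGroup (Fin 2) k) := h2 hx
    rw [Subgroup.mem_center_iff] at h5
    have h6 := h5 (SL2.lo 1)
    have h7 := congrArg (fun g : Matrix.SpecialLinearGroup (Fin 2) k => (g : Matrix (Fin 2) (Fin 2) k) 0 0) h6
    simp [Matrix.mul_apply, Fin.sum_univ_two] at h7
    exact h7
  have hmemA : ∀ x : k, φ (SL2.up x) ∈ A₀ := by
    intro x; rw [← h3]; exact ⟨_, SL2.up_mem x, rfl⟩
  have hrange : φ.range ≤ A ⊔ D := by rw [h1]; exact sup_le_sup hA₀ hD₀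
  have hδ : φ δ ∈ A ⊔ D := hrange ⟨δ, rfl⟩
  have hc : φ δ * φ (SL2.up 1) * (φ δ)⁻¹ = φ (SL2.up (l ^ 2)) := by
    rw [← map_inv, ← map_mul, ← map_mul, hrel]
  refine ⟨φ (SL2.up 1), hA₀ (hmemA 1), φ δ, hδ, ?_, ?_⟩
  · have h5 : φ (SL2.up (l ^ 2)) ≠ 1 := by
      intro e
      exact hl ((pow_eq_zero_iff (two_ne_zero)).1 (hker _ e))
    apply eq_of_mem_inf hAD (unip_conj_mem left_mem hδ) left_mem h5 _ (hA₀ (hmemA _))
    rw [← hc]; exact conj_mem_conjBy (hA₀ (hmemA 1))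
  · rw [hc]
    intro e
    have h5 : φ (SL2.up (l ^ 2 - 1)) = 1 := by
      have : SL2.up (l ^ 2 - 1) = SL2.up (l ^ 2) * (SL2.up 1)⁻¹ := by
        rw [SL2.up_inv, ← SL2.up_add, sub_eq_add_neg]
      rw [this, map_mul, map_inv, e]; group
    exact hl2 (sub_eq_zero.1 (hker _ h5))

/-- Step 2: a good partner. -/
theorem exists_good (hS : IsRootSubgroupSet S) (hdeg : IsDegenerateRootSet S) (hc : IsConnectedFamily (FAdj S) S)
    {A C : Subgroup G} (hA : A ∈ S) (hC : C ∈ S) (hne : C ≠ A) (hcm : Cm C A) :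
    ∃ D ∈ S, ∃ C' ∈ S, C' ≠ A ∧ Cm C' A ∧ IsRankOnePair A D ∧ IsRankOnePair C' D := by
  by_contra hno
  push Not at hno
  have two : ∀ {A B : Subgroup G}, A ∈ S → B ∈ S → Cm A B ∨ IsRankOnePair A B := by
    intro A B hA hB
    rcases pair' hS hA hB with h | h | h
    · exact Or.inl h
    · exact Or.inr h
    · exact absurd h (hdeg A hA B hB)
  have key : ∀ X, Relation.ReflTransGen (FAdj S) A X → X = A ∨ IsRankOnePair A X := by
    intro X hX
    induction hX with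
    | refl => exact Or.inl rfl
    | tail h1 h2 ih =>
      rename_i Y Z
      obtain ⟨hY, hZ, hp⟩ := h2
      rcases ih with rfl | ih
      · exact Or.inr hp
      · rcases two hA hZ with h3 | h3
        · left
          by_contra hZA
          exact hno Y hY Z hZ hZA h3.symm ih (RankOnePair_symm hp)
        · exact Or.inr h3
  rcases key C (hc A hA C hC) with h1 | h1
  · exact hne h1
  · exact not_cm_of_pair h1 hcm.symm

universe u in
theorem result_5039 {G : Type u} [Group G] {S : Set (Subgroup G)} (hS : Cfsg.IsRootSubgroupClass S)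
    (hcomm : ∃ A ∈ S, ∃ C ∈ S, A ≠ C ∧ ⁅A, C⁆ = ⊥)
    (hH : Cfsg.IsDegenerateRootSet S → (∀ A ∈ S, ∀ a ∈ A, 0 < orderOf a ∧ orderOf a ≤ 3) →
      ∀ A ∈ S, ∀ B ∈ Cfsg.rankOnePartners S A, ∃ A₀ B₀ : Subgroup G, A₀ ≤ A ∧ B₀ ≤ B ∧
        ∃ (k : Type u) (_ : Field k), 3 < ENat.card k ∧ Cfsg.IsPSL2PairOver k A₀ B₀)
    {A B : Subgroup G} (hA : A ∈ S) (hB : B ∈ Cfsg.rankOnePartners S A) : Cfsg.IsSpecialRankOnePair A B := by
  by_cases hdeg : IsDegenerateRootSet S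
  · have hF : ∀ A ∈ S, ¬ IsIsolatedIn (FAdj S) S A :=
      class_nonisolated hS.1 hS.2 ⟨A, hA, not_isolated_of hA hB.1 hB.2⟩
    have hcon : IsConnectedFamily (FAdj S) S := connected_of_class hS.1 hS.2 ⟨A, hA, hF A hA⟩
    have two : ∀ {A B : Subgroup G}, A ∈ S → B ∈ S → Cm A B ∨ IsRankOnePair A B := by
      intro A B hA hB
      rcases pair' hS.1 hA hB with h | h | h
      · exact Or.inl h
      · exact Or.inr h
      · exact absurd h (hdeg A hA B hB)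
    have hCA : ∃ C ∈ S, C ≠ A ∧ Cm C A := by
      obtain ⟨A₁, hA₁, C₁, hC₁, hne, hcm⟩ := hcomm
      obtain ⟨g, rfl⟩ := hS.2.2 A₁ hA₁ A hA
      exact ⟨conjBy C₁ g, hS.1.conj_mem C₁ hC₁ g, fun e => hne (conjBy_inj.1 e).symm, cm_conj (cm_iff.1 hcm).symm g⟩
    obtain ⟨C, hC, hCne, hCcm⟩ := hCA
    by_cases hgood : ∃ C ∈ S, C ≠ A ∧ Cm C A ∧ IsRankOnePair C B
    · obtain ⟨C, hC, hne, hcm, hCB⟩ := hgood
      exact good_special hS.1 hA hC hB.1 hne.symm hcm.symm hB.2 hCB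
    · exfalso
      push Not at hgood
      have hbad : ∀ P ∈ S, P ≠ A → Cm P A → Cm P B := by
        intro P hP hPA hcm
        rcases two hP hB.1 with h | h
        · exact h
        · exact absurd h (hgood P hP hPA hcm)
      obtain ⟨D, hD, C', hC', hC'ne, hC'cm, hAD, hC'D⟩ := exists_good hS.1 hdeg hcon hA hC hCne hCcm
      have hsp := good_special hS.1 hA hC' hD hC'ne.symm hC'cm.symm hAD hC'D
      have hdiag : ∃ u ∈ A, ∃ g ∈ A ⊔ D, conjBy A g = A ∧ g * u * g⁻¹ ≠ u := by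
        by_cases hord : ∀ A ∈ S, ∀ a ∈ A, 0 < orderOf a ∧ orderOf a ≤ 3
        · obtain ⟨A₀, D₀, hA₀, hD₀, k, hk, hcard, hpsl⟩ := hH hdeg hord A hA D ⟨hD, hAD⟩
          exact exists_diag_psl hAD hA₀ hD₀ hcard hpsl
        · push Not at hord
          obtain ⟨A₁, hA₁, v₁, hv₁, hlarge⟩ := hord
          obtain ⟨g, rfl⟩ := hS.2.2 A₁ hA₁ A hA
          have hv : g * v₁ * g⁻¹ ∈ conjBy A₁ g := conj_mem_conjBy hv₁
          have hpow : ∀ n : ℕ, 0 < n → n ≤ 3 → (g * v₁ * g⁻¹) ^ n ≠ 1 := by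
            intro n hn hn3 e
            rw [conj_pow] at e
            have e1 : v₁ ^ n = 1 := by
              calc v₁ ^ n = g⁻¹ * (g * v₁ ^ n * g⁻¹) * g := by group
                _ = 1 := by rw [e]; group
            have h1 := orderOf_dvd_of_pow_eq_one e1
            have h2 := Nat.le_of_dvd hn h1
            have h3 := Nat.pos_of_dvd_of_pos h1 hn
            have := hlarge h3
            omega
          have hab : HasAbelianUnipotents (conjBy A₁ g) D :=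
            ⟨hS.1.commutative _ hA, hS.1.commutative _ hD⟩
          obtain ⟨h, hh, hhA, e⟩ := exists_diag hsp hab hv (by simpa using hpow 1 (by norm_num) (by norm_num))
            (hpow 2 (by norm_num) (by norm_num))
          refine ⟨_, hv, h, hh, hhA, ?_⟩
          rw [e]
          intro e2
          apply hpow 3 (by norm_num) (by norm_num)
          have : (g * v₁ * g⁻¹) ^ 4 = (g * v₁ * g⁻¹) ^ 3 * (g * v₁ * g⁻¹) := pow_succ _ 3
          rw [this] at e2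
          exact mul_eq_right.1 e2
      obtain ⟨u, hu, g, hg, hgA, hgu⟩ := hdiag
      exact no_bad hS.1 hA hC' hD hC'ne.symm hC'cm.symm hAD hC'D hB.2 hbad hu hg hgA hgu
  · have hnd : IsNondegenerateRootSet S := by
      refine ⟨hcomm, ⟨A, hA, B, hB.1, hB.2⟩, ?_⟩
      unfold IsDegenerateRootSet at hdeg
      push Not at hdeg
      obtain ⟨A, hA, B, hB, h⟩ := hdeg
      exact ⟨A, hA, B, hB, h⟩
    exact (result_5034 hS hnd hA hB).2

end H85.RootTwoComm
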