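import Cfsg.Agent.Lib.H85.SLRoot

/-!
The transvections of SL_n over a finite field of characteristic two form a class of root involutions (S5058).
-/
set_option autoImplicit false

namespace H85.SLInv

open Cfsg H85.RankOne H85.RankOneTrans H85.RootSub H85.RootSub2 H85.RootComp H85.RootLine H85.RootSpecial H85.SLRoot
open Matrix

variable {m : Type*} [Fintype m] [DecidableEq m] {k : Type*} [Field k]

/-- the set of transvections -/
def DS (m : Type*) [Fintype m] [DecidableEq m] (k : Type*) [Field k] : Set (Matrix.SpecialLinearGroup m k) :=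
  {t | ∃ (v φ : m → k) (h : φ ⬝ᵥ v = 0), v ≠ 0 ∧ φ ≠ 0 ∧ t = tv v φ h 1}

omit [DecidableEq m] in
theorem smul_dot {v φ : m → k} (h : φ ⬝ᵥ v = 0) (c : k) : φ ⬝ᵥ (c • v) = 0 := by
  rw [dotProduct_smul, h, smul_zero]

theorem tv_smul (v φ : m → k) (h : φ ⬝ᵥ v = 0) (c : k) : tv v φ h c = tv (c • v) φ (smul_dot h c) 1 := by
  apply Subtype.ext
  rw [tv_coe, tv_coe, one_smul, smul_vecMulVec]

theorem mem_DS {v φ : m → k} (h : φ ⬝ᵥ v = 0) (hv : v ≠ 0) (hφ : φ ≠ 0) {c : k} (hc : c ≠ 0) : tv v φ h c ∈ DS m k :=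
  ⟨c • v, φ, smul_dot h c, smul_ne_zero hc hv, hφ, tv_smul v φ h c⟩

theorem conj_DS {t : Matrix.SpecialLinearGroup m k} (ht : t ∈ DS m k) (g : Matrix.SpecialLinearGroup m k) :
    g * t * g⁻¹ ∈ DS m k := by
  obtain ⟨v, φ, h, hv, hφ, rfl⟩ := ht
  exact ⟨_, _, conj_dot h g, mulVec_ne hv g, vecMul_ne hφ _, conj_tv h g 1⟩

theorem closure_DS [Nontrivial m] : Subgroup.closure (DS m k) = ⊤ := by
  rw [eq_top_iff, ← (isRoot (m := m) (k := k)).generates]
  apply iSup₂_le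
  rintro _ ⟨v, φ, h, hv, hφ, rfl⟩
  rintro _ ⟨c, rfl⟩
  by_cases hc : c = 0
  · rw [hc, tv_zero]; exact one_mem _
  · exact Subgroup.subset_closure (mem_DS h hv hφ hc)

section Char2

variable [CharP k 2]

theorem sq_tv (v φ : m → k) (h : φ ⬝ᵥ v = 0) (c : k) : tv v φ h c * tv v φ h c = 1 := by
  rw [← tv_add, CharTwo.add_self_eq_zero, tv_zero]

theorem inv_tv (v φ : m → k) (h : φ ⬝ᵥ v = 0) (c : k) : (tv v φ h c)⁻¹ = tv v φ h c := by
  rw [tv_inv, CharTwo.neg_eq]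

theorem orderOf_tv {v φ : m → k} {h : φ ⬝ᵥ v = 0} (hv : v ≠ 0) (hφ : φ ≠ 0) {c : k} (hc : c ≠ 0) : orderOf (tv v φ h c) = 2 := by
  have : Fact (Nat.Prime 2) := ⟨Nat.prime_two⟩
  rw [orderOf_eq_prime_iff]
  refine ⟨?_, fun e => hc ((tv_eq_one hv hφ).1 e)⟩
  rw [pow_two, sq_tv]

section Pairs

variable {v φ w ψ : m → k} {h : φ ⬝ᵥ v = 0} {h' : ψ ⬝ᵥ w = 0}

theorem four_of (hv : v ≠ 0) (hψ : ψ ≠ 0) (h1 : φ ⬝ᵥ w ≠ 0) (h2 : ψ ⬝ᵥ v = 0) :
    orderOf (tv v φ h 1 * tv w ψ h' 1) = 4 ∧ (tv v φ h 1 * tv w ψ h' 1) ^ 2 ∈ DS m k := by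
  have e : (tv v φ h 1 * tv w ψ h' 1) ^ 2 = tv v ψ h2 (φ ⬝ᵥ w) := by
    have := comm_formula (h := h) (h' := h') h2 1 1
    rw [inv_tv, inv_tv, one_mul, one_mul] at this
    rw [← this, pow_two]; group
  have : Fact (Nat.Prime 2) := ⟨Nat.prime_two⟩
  refine ⟨?_, by rw [e]; exact mem_DS h2 hv hψ h1⟩
  have := orderOf_eq_prime_pow (x := tv v φ h 1 * tv w ψ h' 1) (p := 2) (n := 1) ?_ ?_
  · rw [this]; norm_num
  · rw [pow_one, e]
    exact fun e' => h1 ((tv_eq_one hv hψ).1 e')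
  · have : 2 ^ (1 + 1) = 2 * 2 := by norm_num
    rw [this, pow_mul, e, pow_two, sq_tv]

theorem odd_of [Fintype k] (h1 : φ ⬝ᵥ w ≠ 0) (h2 : ψ ⬝ᵥ v ≠ 0) (hv : v ≠ 0) (hw : w ≠ 0) :
    Odd (orderOf (tv v φ h 1 * tv w ψ h' 1)) := by
  by_contra hodd
  rw [Nat.not_odd_iff_even] at hodd
  obtain ⟨n, hn⟩ := hodd
  have hpos : 0 < orderOf (tv v φ h 1 * tv w ψ h' 1) := orderOf_pos _
  set a := tv v φ h 1 with ha
  set b := tv w ψ h' 1 with hb
  have haa : a * a = 1 := sq_tv _ _ _ _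
  have hbb : b * b = 1 := sq_tv _ _ _ _
  set z := (a * b) ^ n with hz
  have hz1 : z ≠ 1 := by
    intro e
    have := orderOf_dvd_of_pow_eq_one e
    have := Nat.le_of_dvd (by omega) this
    omega
  have hzz : z * z = 1 := by
    rw [hz, ← pow_add, ← hn, pow_orderOf_eq_one]
  have hzinv : z⁻¹ = z := inv_eq_of_mul_eq_one_left hzz
  have haz : a * z = z * a := by
    have e1 : a * z * a⁻¹ = z⁻¹ := by
      rw [hz, ← inv_pow, ← conj_pow]
      congr 1
      rw [_root_.mul_inv_rev, inv_eq_of_mul_eq_one_left haa, inv_eq_of_mul_eq_one_left hbb]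
      calc a * (a * b) * a = (a * a) * b * a := by group
        _ = b * a := by rw [haa, one_mul]
    rw [hzinv] at e1
    rw [mul_inv_eq_iff_eq_mul] at e1
    exact e1
  have hbz : b * z = z * b := by
    have e1 : b * z * b⁻¹ = z⁻¹ := by
      rw [hz, ← inv_pow, ← conj_pow]
      congr 1
      rw [_root_.mul_inv_rev, inv_eq_of_mul_eq_one_left haa, inv_eq_of_mul_eq_one_left hbb]
      calc b * (a * b) * b = b * a * (b * b) := by group
        _ = b * a := by rw [hbb, mul_one]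
    rw [hzinv] at e1
    rw [mul_inv_eq_iff_eq_mul] at e1
    exact e1
  -- eigenvector
  have key : ∀ {v φ : m → k} (h : φ ⬝ᵥ v = 0) (w : m → k), φ ⬝ᵥ w ≠ 0 → v ≠ 0 → tv v φ h 1 * z = z * tv v φ h 1 →
      z.1 *ᵥ v = v := by
    intro v φ h w hα hv0 hcomm
    have e1 := congrArg (fun g : Matrix.SpecialLinearGroup m k => (g : Matrix m m k) *ᵥ w) hcomm
    simp only [Matrix.SpecialLinearGroup.coe_mul, tv_coe, one_smul, add_mul, mul_add, one_mul, mul_one, add_mulVec] at e1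
    rw [add_left_cancel_iff, vecMulVec_mul, mul_vecMulVec] at e1
    have e2 : ∀ x y u : m → k, vecMulVec x y *ᵥ u = (y ⬝ᵥ u) • x := by
      intro x y u
      ext i
      simp only [mulVec, dotProduct, vecMulVec_apply, Pi.smul_apply, smul_eq_mul, Finset.sum_mul]
      apply Finset.sum_congr rfl
      intro j _
      ring
    rw [e2, e2] at e1
    -- (φ z ⬝ w) • v = (φ ⬝ w) • z v
    have e3 : z.1 *ᵥ v = ((φ ⬝ᵥ w)⁻¹ * ((φ ᵥ* z.1) ⬝ᵥ w)) • v := by
      rw [mul_smul, e1, smul_smul, inv_mul_cancel₀ hα, one_smul]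
    set l := (φ ⬝ᵥ w)⁻¹ * ((φ ᵥ* z.1) ⬝ᵥ w) with hl
    have e4 : (l * l) • v = v := by
      have : (z * z).1 *ᵥ v = v := by
        rw [hzz, Matrix.SpecialLinearGroup.coe_one, one_mulVec]
      rw [Matrix.SpecialLinearGroup.coe_mul, ← mulVec_mulVec, e3, mulVec_smul, e3, smul_smul] at this
      exact this
    have e5 : l * l = 1 := by
      have : (l * l - 1) • v = 0 := by rw [sub_smul, e4, one_smul, sub_self]
      rcases smul_eq_zero.1 this with h0 | h0
      · exact sub_eq_zero.1 h0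
      · exact absurd h0 hv0
    have e6 : l = 1 := by
      have : (l - 1) * (l - 1) = 0 := by
        have h2 : (2 : k) = 0 := CharTwo.two_eq_zero
        linear_combination e5 + (1 - l) * h2
      have := mul_self_eq_zero.1 this
      exact sub_eq_zero.1 this
    rw [e3, e6, one_smul]
  have hzv : z.1 *ᵥ v = v := key h w h1 hv haz
  have hzw : z.1 *ᵥ w = w := key h' v h2 hw hbz
  have hfix : ∀ u : m → k, φ ⬝ᵥ u = 0 → ψ ⬝ᵥ u = 0 → z.1 *ᵥ u = u := by
    intro u hu1 hu2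
    have e2 : ∀ x y u : m → k, vecMulVec x y *ᵥ u = (y ⬝ᵥ u) • x := by
      intro x y u
      ext i
      simp only [mulVec, dotProduct, vecMulVec_apply, Pi.smul_apply, smul_eq_mul, Finset.sum_mul]
      apply Finset.sum_congr rfl
      intro j _
      ring
    have h1 : a.1 *ᵥ u = u := by
      rw [ha, tv_coe, one_smul, add_mulVec, one_mulVec, e2, hu1, zero_smul, add_zero]
    have h2 : b.1 *ᵥ u = u := by
      rw [hb, tv_coe, one_smul, add_mulVec, one_mulVec, e2, hu2, zero_smul, add_zero]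
    have h3 : (a * b).1 *ᵥ u = u := by
      rw [Matrix.SpecialLinearGroup.coe_mul, ← mulVec_mulVec, h2, h1]
    have : ∀ i : ℕ, ((a * b) ^ i).1 *ᵥ u = u := by
      intro i
      induction i with
      | zero => rw [pow_zero, Matrix.SpecialLinearGroup.coe_one, one_mulVec]
      | succ i ih => rw [pow_succ, Matrix.SpecialLinearGroup.coe_mul, ← mulVec_mulVec, h3, ih]
    exact this n
  apply hz1
  have hall : ∀ x : m → k, z.1 *ᵥ x = x := by
    intro x
    have e := hfix (x - ((φ ⬝ᵥ x) / (φ ⬝ᵥ w)) • w - ((ψ ⬝ᵥ x) / (ψ ⬝ᵥ v)) • v) ?_ ?_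
    · rw [mulVec_sub, mulVec_sub, mulVec_smul, mulVec_smul, hzv, hzw] at e
      simpa using e
    · rw [dotProduct_sub, dotProduct_sub, dotProduct_smul, dotProduct_smul, h, smul_zero, sub_zero, smul_eq_mul,
        div_mul_cancel₀ _ h1, sub_self]
    · rw [dotProduct_sub, dotProduct_sub, dotProduct_smul, dotProduct_smul, h', smul_zero, sub_zero, smul_eq_mul,
        div_mul_cancel₀ _ h2, sub_self]
  apply Subtype.ext
  rw [Matrix.SpecialLinearGroup.coe_one]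
  ext i j
  have := congrFun (hall (Pi.single j 1)) i
  rw [mulVec_single_one] at this
  rw [Matrix.one_apply]
  simpa [Pi.single_apply] using this

theorem three_of (h12 : (φ ⬝ᵥ w) * (ψ ⬝ᵥ v) = 1) : (tv v φ h 1 * tv w ψ h' 1) ^ 3 = 1 := by
  have key : tv v φ h 1 * tv w ψ h' 1 * tv v φ h 1 = tv w ψ h' 1 * tv v φ h 1 * tv w ψ h' 1 := by
    apply Subtype.ext
    simp only [Matrix.SpecialLinearGroup.coe_mul, tv_coe, one_smul]
    have e1 : vecMulVec v φ * vecMulVec v φ = 0 := by rw [vv, h, zero_smul]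
    have e2 : vecMulVec w ψ * vecMulVec w ψ = 0 := by rw [vv, h', zero_smul]
    have e3 : vecMulVec v φ * vecMulVec w ψ * vecMulVec v φ = vecMulVec v φ := by
      rw [vv, Matrix.smul_mul, vv, smul_smul, h12, one_smul]
    have e4 : vecMulVec w ψ * vecMulVec v φ * vecMulVec w ψ = vecMulVec w ψ := by
      rw [vv, Matrix.smul_mul, vv, smul_smul, mul_comm, h12, one_smul]
    generalize vecMulVec v φ = N at *
    generalize vecMulVec w ψ = M at *
    have c1 : N + N = 0 := by ext i j; exact CharTwo.add_self_eq_zero _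
    have c2 : M + M = 0 := by ext i j; exact CharTwo.add_self_eq_zero _
    have e5 : (1 + N) * (1 + M) * (1 + N) = 1 + (N + N) + M + N * M + M * N + N * N + N * M * N := by noncomm_ring
    have e6 : (1 + M) * (1 + N) * (1 + M) = 1 + (M + M) + N + M * N + N * M + M * M + M * N * M := by noncomm_ring
    rw [e5, e6, e1, e2, e3, e4, c1, c2]; abel
  have haa : tv v φ h 1 * tv v φ h 1 = 1 := sq_tv _ _ _ _
  have hbb : tv w ψ h' 1 * tv w ψ h' 1 = 1 := sq_tv _ _ _ _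
  generalize tv v φ h 1 = a at *
  generalize tv w ψ h' 1 = b at *
  calc (a * b) ^ 3 = (a * b * a) * (b * a * b) := by rw [pow_succ, pow_two]; group
    _ = (a * b * a) * (a * b * a) := by rw [key]
    _ = a * b * (a * a) * b * a := by group
    _ = 1 := by rw [haa, mul_one, mul_assoc a, hbb, mul_one, haa]

end Pairs

theorem isRootInv [Nontrivial m] [Fintype k] : IsRootInvolutionSet (DS m k) := by
  refine ⟨?_, closure_DS, fun d hd g => conj_DS hd g, ?_⟩
  · rintro _ ⟨v, φ, h, hv, hφ, rfl⟩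
    exact orderOf_tv hv hφ one_ne_zero
  · rintro _ ⟨v, φ, h, hv, hφ, rfl⟩ _ ⟨w, ψ, h', hw, hψ, rfl⟩
    by_cases h1 : φ ⬝ᵥ w = 0
    · by_cases h2 : ψ ⬝ᵥ v = 0
      · left
        exact cm_of h1 h2 _ (tv_mem _ _ _ _) _ (tv_mem _ _ _ _)
      · right; right
        obtain ⟨e1, e2⟩ := four_of (h := h') (h' := h) hw hφ h2 h1
        have e3 : tv v φ h 1 * tv w ψ h' 1 = (tv w ψ h' 1 * tv v φ h 1)⁻¹ := by
          rw [_root_.mul_inv_rev, inv_tv, inv_tv]
        rw [e3, orderOf_inv, inv_pow]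
        refine ⟨e1, ?_⟩
        obtain ⟨x, y, hx, hx0, hy0, e⟩ := e2
        rw [e, inv_tv]
        exact ⟨x, y, hx, hx0, hy0, rfl⟩
    · by_cases h2 : ψ ⬝ᵥ v = 0
      · right; right
        exact four_of hv hψ h1 h2
      · right; left
        exact odd_of h1 h2 hv hw

theorem conj_of_odd' {G : Type*} [Group G] {a b : G} (ha : a * a = 1) (hb : b * b = 1) (h : Odd (orderOf (a * b))) :
    ∃ g : G, b = g * a * g⁻¹ := by
  obtain ⟨n, hn⟩ := h
  have h1 : (a * b) ^ n * (a * b) ^ n * (a * b) = 1 := by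
    rw [← pow_add, ← pow_succ, ← two_mul, ← hn, pow_orderOf_eq_one]
  have ha' : a⁻¹ = a := inv_eq_of_mul_eq_one_left ha
  have hb' : b⁻¹ = b := inv_eq_of_mul_eq_one_left hb
  have h2 : a * (a * b) ^ n * a⁻¹ = ((a * b) ^ n)⁻¹ := by
    rw [← inv_pow, ← conj_pow]
    congr 1
    rw [_root_.mul_inv_rev, ha', hb']
    calc a * (a * b) * a = (a * a) * b * a := by group
      _ = b * a := by rw [ha, one_mul]
  refine ⟨(a * b) ^ n, ?_⟩
  have h3 : (a * b) ^ n * a = a * ((a * b) ^ n)⁻¹ := by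
    have : a * (a * (a * b) ^ n * a⁻¹) = a * ((a * b) ^ n)⁻¹ := by rw [h2]
    rw [← this, ← mul_assoc, ← mul_assoc, ha, one_mul, ha']
  rw [h3]
  generalize (a * b) ^ n = x at *
  have h4 : x⁻¹ * x⁻¹ = a * b := by
    rw [← _root_.mul_inv_rev]
    exact inv_eq_of_mul_eq_one_right h1
  rw [mul_assoc, h4, ← mul_assoc, ha, one_mul]

theorem isClassInv [Nontrivial m] [Fintype k] : IsRootInvolutionClass (DS m k) := by
  refine ⟨isRootInv, ?_, ?_⟩
  · obtain ⟨i, j, hij⟩ := exists_pair_ne m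
    exact ⟨tv (Pi.single i 1 : m → k) (Pi.single j 1) (dot_single hij) 1, ⟨_, _, _, single_ne i, single_ne j, rfl⟩⟩
  · rintro _ ⟨v, φ, h, hv, hφ, rfl⟩ _ ⟨w, ψ, h', hw, hψ, rfl⟩
    obtain ⟨u, hu1, hu2⟩ := exists_both hφ hψ
    -- functionals vanishing on u
    have ex : ∀ {v φ : m → k}, φ ⬝ᵥ v = 0 → v ≠ 0 → φ ⬝ᵥ u ≠ 0 → ∃ χ : m → k, χ ⬝ᵥ u = 0 ∧ χ ⬝ᵥ v ≠ 0 := by
      intro v φ h hv hu
      obtain ⟨i, hi⟩ := Function.ne_iff.1 hv
      refine ⟨Pi.single i 1 - (u i / (φ ⬝ᵥ u)) • φ, ?_, ?_⟩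
      · rw [sub_dotProduct, single_dotProduct, one_mul, smul_dotProduct, smul_eq_mul]
        field_simp; ring
      · rw [sub_dotProduct, single_dotProduct, one_mul, smul_dotProduct, h, smul_zero, sub_zero]
        exact hi
    obtain ⟨χ₁, a1, a2⟩ := ex h hv hu1
    obtain ⟨χ₂, b1, b2⟩ := ex h' hw hu2
    have hχ : ∃ χ : m → k, χ ⬝ᵥ u = 0 ∧ χ ⬝ᵥ v ≠ 0 ∧ χ ⬝ᵥ w ≠ 0 := by
      by_cases c1 : χ₁ ⬝ᵥ w = 0
      · by_cases c2 : χ₂ ⬝ᵥ v = 0
        · refine ⟨χ₁ + χ₂, ?_, ?_, ?_⟩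
          · rw [add_dotProduct, a1, b1, add_zero]
          · rw [add_dotProduct, c2, add_zero]; exact a2
          · rw [add_dotProduct, c1, zero_add]; exact b2
        · exact ⟨χ₂, b1, c2, b2⟩
      · exact ⟨χ₁, a1, a2, c1⟩
    obtain ⟨χ, d1, d2, d3⟩ := hχ
    have hu0 : u ≠ 0 := by rintro rfl; exact hu1 (dotProduct_zero _)
    obtain ⟨g₁, e₁⟩ := conj_of_odd' (sq_tv v φ h 1) (sq_tv u χ d1 1) (odd_of hu1 d2 hv hu0)
    obtain ⟨g₂, e₂⟩ := conj_of_odd' (sq_tv u χ d1 1) (sq_tv w ψ h' 1) (odd_of d3 hu2 hu0 hw)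
    refine ⟨g₂ * g₁, ?_⟩
    rw [e₂, e₁]; group

theorem three_four [Nontrivial m] [Fintype k] (hk : Fintype.card k = 2) : IsThreeFourPlusTranspositionSet (DS m k) := by
  have hk2 : ∀ x : k, x ≠ 0 → x = 1 := by
    classical
    intro x hx
    by_contra hx1
    have : ({0, 1, x} : Finset k).card ≤ Fintype.card k := Finset.card_le_univ _
    rw [hk, Finset.card_insert_of_notMem (by simp [hx.symm]), Finset.card_insert_of_notMem (by simpa using Ne.symm hx1),
      Finset.card_singleton] at this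
    omega
  refine ⟨isRootInv, ?_⟩
  rintro _ ⟨v, φ, h, hv, hφ, rfl⟩ _ ⟨w, ψ, h', hw, hψ, rfl⟩ hodd
  by_cases h1 : φ ⬝ᵥ w = 0
  · by_cases h2 : ψ ⬝ᵥ v = 0
    · left
      have hc := cm_of (h := h) (h' := h') h1 h2 _ (tv_mem _ _ _ 1) _ (tv_mem _ _ _ 1)
      have h3 : (tv v φ h 1 * tv w ψ h' 1) ^ 2 = 1 := by
        rw [pow_two, mul_assoc, ← mul_assoc (tv w ψ h' 1), ← hc, mul_assoc (tv v φ h 1) (tv w ψ h' 1) (tv w ψ h' 1), sq_tv, mul_one,
          sq_tv]
      have h4 := orderOf_dvd_of_pow_eq_one h3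
      rcases (Nat.dvd_prime Nat.prime_two).1 h4 with h5 | h5
      · exact h5
      · rw [h5] at hodd; exact absurd hodd (by decide)
    · exfalso
      obtain ⟨e1, e2⟩ := four_of (h := h') (h' := h) hw hφ h2 h1
      have e3 : tv v φ h 1 * tv w ψ h' 1 = (tv w ψ h' 1 * tv v φ h 1)⁻¹ := by
        rw [_root_.mul_inv_rev, inv_tv, inv_tv]
      rw [e3, orderOf_inv, e1] at hodd
      exact absurd hodd (by decide)
  · by_cases h2 : ψ ⬝ᵥ v = 0
    · exfalso
      rw [(four_of hv hψ h1 h2).1] at hodd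
      exact absurd hodd (by decide)
    · have h3 := three_of (h := h) (h' := h') (by rw [hk2 _ h1, hk2 _ h2, one_mul])
      exact (Nat.dvd_prime Nat.prime_three).1 (orderOf_dvd_of_pow_eq_one h3)

end Char2

theorem set_eq_DS {i j : m} (hij : i ≠ j) :
    {t : Matrix.SpecialLinearGroup m k | ∃ c : k, c ≠ 0 ∧
        ∃ g : Matrix.SpecialLinearGroup m k, ((g⁻¹ * t * g : Matrix.SpecialLinearGroup m k) : Matrix m m k) =
          Matrix.transvection i j c} = DS m k := by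
  have : Nontrivial m := ⟨i, j, hij⟩
  ext t
  constructor
  · rintro ⟨c, hc, g, e⟩
    have e1 : g⁻¹ * t * g = tv (Pi.single i 1 : m → k) (Pi.single j 1) (dot_single hij) c := by
      apply Subtype.ext
      rw [tv_coe, ← single_eq]; exact e
    have e2 : t = g * tv (Pi.single i 1 : m → k) (Pi.single j 1) (dot_single hij) c * g⁻¹ := by
      rw [← e1]; group
    rw [e2]
    exact conj_DS (mem_DS _ (single_ne i) (single_ne j) hc) g
  · rintro ⟨v, φ, h, hv, hφ, rfl⟩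
    have h0 : T (Pi.single i 1 : m → k) (Pi.single j 1) (dot_single hij) ∈ TS m k := ⟨_, _, _, single_ne i, single_ne j, rfl⟩
    obtain ⟨g, hg⟩ := isClass.2 _ h0 (T v φ h) ⟨v, φ, h, hv, hφ, rfl⟩
    have h1 : tv v φ h 1 ∈ conjBy (T (Pi.single i 1 : m → k) (Pi.single j 1) (dot_single hij)) g := by
      rw [← hg]; exact tv_mem _ _ _ _
    obtain ⟨_, ⟨c, rfl⟩, hx⟩ := h1
    have hx' : tv v φ h 1 = g * tv (Pi.single i 1 : m → k) (Pi.single j 1) (dot_single hij) c * g⁻¹ := hx.symm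
    refine ⟨c, ?_, g, ?_⟩
    · rintro rfl
      rw [tv_zero, mul_one, mul_inv_cancel] at hx'
      exact one_ne_zero ((tv_eq_one hv hφ).1 hx')
    · rw [hx']
      have : g⁻¹ * (g * tv (Pi.single i 1 : m → k) (Pi.single j 1) (dot_single hij) c * g⁻¹) * g =
        tv (Pi.single i 1 : m → k) (Pi.single j 1) (dot_single hij) c := by group
      rw [this, tv_coe, ← single_eq]; rfl

end H85.SLInv
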