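import Cfsg.Agent.Lib.H85.RootSpecial
import Cfsg.Agent.Lib.H85.SL2
import Cfsg.Agent.Lib.H45.SLnGen

/-!
The transvection subgroups of SL_n form a class of abstract root subgroups (S5043).
-/
set_option autoImplicit false

namespace H85.SLRoot

open Cfsg H85.RankOne H85.RankOneTrans H85.RootSub H85.RootSub2 H85.RootComp H85.RootLine H85.RootSpecial
open Matrix

variable {m : Type*} [Fintype m] [DecidableEq m] {k : Type*} [Field k]

omit [DecidableEq m] in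
theorem vv (v φ w ψ : m → k) : vecMulVec v φ * vecMulVec w ψ = (φ ⬝ᵥ w) • vecMulVec v ψ := by
  rw [vecMulVec_mul_vecMulVec, vecMulVec_smul]

/-- the transvection 1 + c v φ -/
def tv (v φ : m → k) (h : φ ⬝ᵥ v = 0) (c : k) : Matrix.SpecialLinearGroup m k :=
  ⟨1 + c • vecMulVec v φ, by
    rw [← smul_vecMulVec, vecMulVec_eq Unit, det_one_add_replicateCol_mul_replicateRow, dotProduct_smul, h]; simp⟩

theorem tv_coe (v φ : m → k) (h : φ ⬝ᵥ v = 0) (c : k) : (tv v φ h c : Matrix m m k) = 1 + c • vecMulVec v φ := rfl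

theorem tv_add (v φ : m → k) (h : φ ⬝ᵥ v = 0) (c d : k) : tv v φ h (c + d) = tv v φ h c * tv v φ h d := by
  apply Subtype.ext
  rw [Matrix.SpecialLinearGroup.coe_mul, tv_coe, tv_coe, tv_coe]
  have h1 : (c • vecMulVec v φ) * (d • vecMulVec v φ) = 0 := by
    rw [smul_mul_smul_comm, vv, h, zero_smul, smul_zero]
  rw [add_mul, mul_add, mul_add, h1, add_smul]
  simp only [mul_one, one_mul]; abel

theorem tv_zero (v φ : m → k) (h : φ ⬝ᵥ v = 0) : tv v φ h 0 = 1 := by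
  apply Subtype.ext
  rw [tv_coe]; simp

theorem tv_inv (v φ : m → k) (h : φ ⬝ᵥ v = 0) (c : k) : (tv v φ h c)⁻¹ = tv v φ h (-c) := by
  rw [inv_eq_iff_mul_eq_one, ← tv_add, add_neg_cancel, tv_zero]

/-- the transvection group -/
def T (v φ : m → k) (h : φ ⬝ᵥ v = 0) : Subgroup (Matrix.SpecialLinearGroup m k) where
  carrier := {g | ∃ c, g = tv v φ h c}
  one_mem' := ⟨0, (tv_zero v φ h).symm⟩
  mul_mem' := by
    rintro _ _ ⟨c, rfl⟩ ⟨d, rfl⟩
    exact ⟨c + d, (tv_add v φ h c d).symm⟩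
  inv_mem' := by
    rintro _ ⟨c, rfl⟩
    exact ⟨-c, tv_inv v φ h c⟩

theorem mem_T {v φ : m → k} {h : φ ⬝ᵥ v = 0} {g : Matrix.SpecialLinearGroup m k} : g ∈ T v φ h ↔ ∃ c, g = tv v φ h c := Iff.rfl

theorem tv_mem (v φ : m → k) (h : φ ⬝ᵥ v = 0) (c : k) : tv v φ h c ∈ T v φ h := ⟨c, rfl⟩

theorem tv_eq_one {v φ : m → k} {h : φ ⬝ᵥ v = 0} (hv : v ≠ 0) (hφ : φ ≠ 0) {c : k} : tv v φ h c = 1 ↔ c = 0 := by
  constructor
  · intro e
    have e1 := congrArg Subtype.val e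
    rw [tv_coe, Matrix.SpecialLinearGroup.coe_one, add_eq_left, smul_eq_zero] at e1
    rcases e1 with e1 | e1
    · exact e1
    · exact absurd e1 (vecMulVec_ne_zero hv hφ)
  · rintro rfl; exact tv_zero v φ h

theorem T_ne_bot {v φ : m → k} {h : φ ⬝ᵥ v = 0} (hv : v ≠ 0) (hφ : φ ≠ 0) : T v φ h ≠ ⊥ := by
  intro e
  have h1 : tv v φ h 1 ∈ (⊥ : Subgroup _) := by rw [← e]; exact tv_mem _ _ _ _
  rw [Subgroup.mem_bot, tv_eq_one hv hφ] at h1
  exact one_ne_zero h1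

theorem T_comm {v φ : m → k} {h : φ ⬝ᵥ v = 0} : Cm (T v φ h) (T v φ h) := by
  rintro _ ⟨c, rfl⟩ _ ⟨d, rfl⟩
  rw [← tv_add, ← tv_add, add_comm]

/-- the conjugate of a transvection group -/
theorem conj_dot {v φ : m → k} (h : φ ⬝ᵥ v = 0) (g : Matrix.SpecialLinearGroup m k) :
    (φ ᵥ* (g⁻¹ : Matrix.SpecialLinearGroup m k).1) ⬝ᵥ (g.1 *ᵥ v) = 0 := by
  rw [dotProduct_mulVec, vecMul_vecMul, ← Matrix.SpecialLinearGroup.coe_mul, inv_mul_cancel,
    Matrix.SpecialLinearGroup.coe_one, vecMul_one, h]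

theorem conj_tv {v φ : m → k} (h : φ ⬝ᵥ v = 0) (g : Matrix.SpecialLinearGroup m k) (c : k) :
    g * tv v φ h c * g⁻¹ = tv (g.1 *ᵥ v) (φ ᵥ* (g⁻¹ : Matrix.SpecialLinearGroup m k).1) (conj_dot h g) c := by
  apply Subtype.ext
  rw [Matrix.SpecialLinearGroup.coe_mul, Matrix.SpecialLinearGroup.coe_mul, tv_coe, tv_coe, mul_add, add_mul, mul_one,
    ← Matrix.SpecialLinearGroup.coe_mul, mul_inv_cancel, Matrix.SpecialLinearGroup.coe_one, Matrix.mul_smul, Matrix.smul_mul,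
    mul_vecMulVec, vecMulVec_mul]

theorem conj_T {v φ : m → k} (h : φ ⬝ᵥ v = 0) (g : Matrix.SpecialLinearGroup m k) :
    conjBy (T v φ h) g = T (g.1 *ᵥ v) (φ ᵥ* (g⁻¹ : Matrix.SpecialLinearGroup m k).1) (conj_dot h g) := by
  ext x
  constructor
  · rintro ⟨y, ⟨c, rfl⟩, rfl⟩
    exact ⟨c, conj_tv h g c⟩
  · rintro ⟨c, rfl⟩
    rw [← conj_tv h]
    exact conj_mem_conjBy (tv_mem _ _ _ _)

/-- the set of all transvection groups -/
def TS (m : Type*) [Fintype m] [DecidableEq m] (k : Type*) [Field k] : Set (Subgroup (Matrix.SpecialLinearGroup m k)) :=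
  {A | ∃ (v φ : m → k) (h : φ ⬝ᵥ v = 0), v ≠ 0 ∧ φ ≠ 0 ∧ A = T v φ h}

theorem mulVec_ne {v : m → k} (hv : v ≠ 0) (g : Matrix.SpecialLinearGroup m k) : g.1 *ᵥ v ≠ 0 := by
  intro e
  apply hv
  have : v = (g⁻¹ : Matrix.SpecialLinearGroup m k).1 *ᵥ (g.1 *ᵥ v) := by
    rw [mulVec_mulVec, ← Matrix.SpecialLinearGroup.coe_mul, inv_mul_cancel, Matrix.SpecialLinearGroup.coe_one, one_mulVec]
  rw [this, e, mulVec_zero]

theorem vecMul_ne {φ : m → k} (hφ : φ ≠ 0) (g : Matrix.SpecialLinearGroup m k) : φ ᵥ* g.1 ≠ 0 := by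
  intro e
  apply hφ
  have : φ = (φ ᵥ* g.1) ᵥ* (g⁻¹ : Matrix.SpecialLinearGroup m k).1 := by
    rw [vecMul_vecMul, ← Matrix.SpecialLinearGroup.coe_mul, mul_inv_cancel, Matrix.SpecialLinearGroup.coe_one, vecMul_one]
  rw [this, e, zero_vecMul]

/-! ### pairs -/

section Pairs

variable {v φ w ψ : m → k} {h : φ ⬝ᵥ v = 0} {h' : ψ ⬝ᵥ w = 0}

theorem cm_of (h1 : φ ⬝ᵥ w = 0) (h2 : ψ ⬝ᵥ v = 0) : Cm (T v φ h) (T w ψ h') := by
  rintro _ ⟨c, rfl⟩ _ ⟨d, rfl⟩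
  apply Subtype.ext
  rw [Matrix.SpecialLinearGroup.coe_mul, Matrix.SpecialLinearGroup.coe_mul, tv_coe, tv_coe]
  have e1 : (c • vecMulVec v φ) * (d • vecMulVec w ψ) = 0 := by
    rw [smul_mul_smul_comm, vv, h1, zero_smul, smul_zero]
  have e2 : (d • vecMulVec w ψ) * (c • vecMulVec v φ) = 0 := by
    rw [smul_mul_smul_comm, vv, h2, zero_smul, smul_zero]
  rw [add_mul, mul_add, mul_add, e1, add_mul, mul_add, mul_add, e2]
  simp only [mul_one, one_mul]; abel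

theorem comm_formula (h2 : ψ ⬝ᵥ v = 0) (c d : k) :
    tv v φ h c * tv w ψ h' d * (tv v φ h c)⁻¹ * (tv w ψ h' d)⁻¹ = tv v ψ h2 (c * d * (φ ⬝ᵥ w)) := by
  rw [mul_inv_eq_iff_eq_mul, mul_inv_eq_iff_eq_mul]
  apply Subtype.ext
  rw [Matrix.SpecialLinearGroup.coe_mul, Matrix.SpecialLinearGroup.coe_mul, Matrix.SpecialLinearGroup.coe_mul, tv_coe, tv_coe,
    tv_coe]
  have e1 : (c • vecMulVec v φ) * (d • vecMulVec w ψ) = (c * d * (φ ⬝ᵥ w)) • vecMulVec v ψ := by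
    rw [smul_mul_smul_comm, vv, smul_smul]
  have e2 : (d • vecMulVec w ψ) * (c • vecMulVec v φ) = 0 := by
    rw [smul_mul_smul_comm, vv, h2, zero_smul, smul_zero]
  have e3 : ((c * d * (φ ⬝ᵥ w)) • vecMulVec v ψ) * (d • vecMulVec w ψ) = 0 := by
    rw [smul_mul_smul_comm, vv, h', zero_smul, smul_zero]
  have e4 : ((c * d * (φ ⬝ᵥ w)) • vecMulVec v ψ) * (c • vecMulVec v φ) = 0 := by
    rw [smul_mul_smul_comm, vv, h2, zero_smul, smul_zero]
  generalize (c * d * (φ ⬝ᵥ w)) • vecMulVec v ψ = L at *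
  generalize c • vecMulVec v φ = N at *
  generalize d • vecMulVec w ψ = M at *
  have e5 : (1 + L) * (1 + M) * (1 + N) = 1 + M + N + M * N + L + L * N + L * M + L * M * N := by noncomm_ring
  have e6 : (1 + N) * (1 + M) = 1 + N + M + N * M := by noncomm_ring
  rw [e5, e6, e1, e2, e3, e4, zero_mul]; abel

theorem case_of (hv : v ≠ 0) (hφ : φ ≠ 0) (hw : w ≠ 0) (hψ : ψ ≠ 0) (h1 : φ ⬝ᵥ w ≠ 0) (h2 : ψ ⬝ᵥ v = 0) :
    ⁅T v φ h, T w ψ h'⁆ = T v ψ h2 ∧ RootCommutatorCase (TS m k) (T v φ h) (T w ψ h') := by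
  have e : ⁅T v φ h, T w ψ h'⁆ = T v ψ h2 := by
    apply le_antisymm
    · rw [Subgroup.commutator_le]
      rintro _ ⟨c, rfl⟩ _ ⟨d, rfl⟩
      exact ⟨_, comm_formula h2 c d⟩
    · rintro _ ⟨c, rfl⟩
      have : tv v ψ h2 c = tv v φ h (c / (φ ⬝ᵥ w)) * tv w ψ h' 1 * (tv v φ h (c / (φ ⬝ᵥ w)))⁻¹ * (tv w ψ h' 1)⁻¹ := by
        rw [comm_formula h2]
        congr 1
        field_simp
      rw [this]
      exact bracket_mem (tv_mem _ _ _ _) (tv_mem _ _ _ _)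
  refine ⟨e, ?_, ?_, ?_, ?_⟩
  · rw [e]; exact ⟨v, ψ, h2, hv, hψ, rfl⟩
  · rw [e]
    exact (cm_sup_right (cm_of h2 h) (cm_of h' h2))
  · rintro _ ⟨c, rfl⟩ hc
    rw [e]
    have hc0 : c ≠ 0 := fun h0 => hc ((tv_eq_one hv hφ).2 h0)
    apply le_antisymm
    · rw [Subgroup.closure_le]
      rintro _ ⟨_, ⟨d, rfl⟩, rfl⟩
      exact ⟨_, comm_formula h2 c d⟩
    · rintro _ ⟨x, rfl⟩
      apply Subgroup.subset_closure
      refine ⟨tv w ψ h' (x / (c * (φ ⬝ᵥ w))), tv_mem _ _ _ _, ?_⟩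
      show _ * _ * _ * _ = _
      rw [comm_formula h2]
      congr 1
      field_simp
  · rintro _ ⟨d, rfl⟩ hd
    rw [e]
    have hd0 : d ≠ 0 := fun h0 => hd ((tv_eq_one hw hψ).2 h0)
    apply le_antisymm
    · rw [Subgroup.closure_le]
      rintro _ ⟨_, ⟨c, rfl⟩, rfl⟩
      exact ⟨_, comm_formula h2 c d⟩
    · rintro _ ⟨x, rfl⟩
      apply Subgroup.subset_closure
      refine ⟨tv v φ h (x / (d * (φ ⬝ᵥ w))), tv_mem _ _ _ _, ?_⟩
      show _ * _ * _ * _ = _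
      rw [comm_formula h2]
      congr 1
      field_simp

end Pairs

/-! ### the embedding of SL₂ -/

/-- the homomorphism M ↦ 1 + P (M - 1) Q -/
def rho (P : Matrix m (Fin 2) k) (Q : Matrix (Fin 2) m k) (hQP : Q * P = 1) :
    Matrix.SpecialLinearGroup (Fin 2) k →* Matrix.SpecialLinearGroup m k where
  toFun g := ⟨1 + P * ((g : Matrix (Fin 2) (Fin 2) k) - 1) * Q, by
    rw [det_one_add_mul_comm, ← Matrix.mul_assoc, hQP, Matrix.one_mul]
    have : 1 + ((g : Matrix (Fin 2) (Fin 2) k) - 1) = g := by abel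
    rw [this]; exact g.2⟩
  map_one' := by
    apply Subtype.ext
    simp
  map_mul' g h := by
    apply Subtype.ext
    change 1 + P * (((g : Matrix (Fin 2) (Fin 2) k) * (h : Matrix (Fin 2) (Fin 2) k)) - 1) * Q =
      (1 + P * ((g : Matrix (Fin 2) (Fin 2) k) - 1) * Q) * (1 + P * ((h : Matrix (Fin 2) (Fin 2) k) - 1) * Q)
    have e : P * ((g : Matrix (Fin 2) (Fin 2) k) - 1) * Q * (P * ((h : Matrix (Fin 2) (Fin 2) k) - 1) * Q) =
        P * (((g : Matrix (Fin 2) (Fin 2) k) - 1) * ((h : Matrix (Fin 2) (Fin 2) k) - 1)) * Q := by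
      calc P * ((g : Matrix (Fin 2) (Fin 2) k) - 1) * Q * (P * ((h : Matrix (Fin 2) (Fin 2) k) - 1) * Q) =
          P * ((g : Matrix (Fin 2) (Fin 2) k) - 1) * (Q * P) * ((h : Matrix (Fin 2) (Fin 2) k) - 1) * Q := by
            simp only [Matrix.mul_assoc]
        _ = _ := by rw [hQP]; simp only [Matrix.mul_assoc, Matrix.one_mul]
    have e2 : ((g : Matrix (Fin 2) (Fin 2) k) * (h : Matrix (Fin 2) (Fin 2) k)) - 1 =
      ((g : Matrix (Fin 2) (Fin 2) k) - 1) * ((h : Matrix (Fin 2) (Fin 2) k) - 1) + ((g : Matrix (Fin 2) (Fin 2) k) - 1) +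
        ((h : Matrix (Fin 2) (Fin 2) k) - 1) := by noncomm_ring
    rw [e2]
    generalize (g : Matrix (Fin 2) (Fin 2) k) - 1 = g' at *
    generalize (h : Matrix (Fin 2) (Fin 2) k) - 1 = h' at *
    rw [add_mul, mul_add, mul_add, e, one_mul, one_mul, mul_one, Matrix.mul_add, Matrix.mul_add, Matrix.add_mul, Matrix.add_mul]
    abel

theorem rho_coe (P : Matrix m (Fin 2) k) (Q : Matrix (Fin 2) m k) (hQP : Q * P = 1) (g : Matrix.SpecialLinearGroup (Fin 2) k) :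
    (rho P Q hQP g : Matrix m m k) = 1 + P * ((g : Matrix (Fin 2) (Fin 2) k) - 1) * Q := rfl

theorem rho_injective (P : Matrix m (Fin 2) k) (Q : Matrix (Fin 2) m k) (hQP : Q * P = 1) : Function.Injective (rho P Q hQP) := by
  have key : ∀ g : Matrix.SpecialLinearGroup (Fin 2) k, Q * (rho P Q hQP g : Matrix m m k) * P = g := by
    intro g
    rw [rho_coe, Matrix.mul_add, Matrix.add_mul, Matrix.mul_one, hQP]
    have : Q * (P * ((g : Matrix (Fin 2) (Fin 2) k) - 1) * Q) * P = (Q * P) * ((g : Matrix (Fin 2) (Fin 2) k) - 1) * (Q * P) := by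
      simp only [Matrix.mul_assoc]
    rw [this, hQP, Matrix.one_mul, Matrix.mul_one]; abel
  intro g h e
  apply Subtype.ext
  rw [← key g, ← key h, e]

theorem isRankOnePair_map {H G : Type*} [Group H] [Group G] {A B : Subgroup H} (h : IsRankOnePair A B) (f : H →* G)
    (hf : Function.Injective f) : IsRankOnePair (A.map f) (B.map f) := by
  have hnil : ∀ {C : Subgroup H}, Group.IsNilpotent C → Group.IsNilpotent (C.map f) := by
    intro C hC
    have := hC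
    exact Group.nilpotent_of_surjective (f.subgroupMap C) (f.subgroupMap_surjective C)
  have hcond : ∀ {A B : Subgroup H}, IsRankOnePair A B → RankOneCondition (A.map f) (B.map f) := by
    rintro A B h _ ⟨a, ha, rfl⟩ ha1
    have ha1' : a ≠ 1 := by rintro rfl; exact ha1 (map_one f)
    obtain ⟨b, hb, hb1, e⟩ := h.cond_left a ha ha1'
    refine ⟨f b, ⟨b, hb, rfl⟩, ?_, ?_⟩
    · intro hfb
      exact hb1 (hf (by rw [hfb, map_one]))
    · rw [← map_inv, ← map_inv, ← map_conjBy, ← map_conjBy, e]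
  exact ⟨fun e => h.ne (Subgroup.map_injective hf e), hnil h.nilpotent_left, hnil h.nilpotent_right, hcond h,
    hcond (RankOnePair_symm h)⟩

theorem psl_of {v φ w ψ : m → k} {h : φ ⬝ᵥ v = 0} {h' : ψ ⬝ᵥ w = 0} (h1 : φ ⬝ᵥ w ≠ 0) (h2 : ψ ⬝ᵥ v ≠ 0) :
    IsPSL2PairOver k (T v φ h) (T w ψ h') ∧ IsRankOnePair (T v φ h) (T w ψ h') := by
  let P : Matrix m (Fin 2) k := Matrix.of fun i => ![v i, w i]
  let Q : Matrix (Fin 2) m k := Matrix.of ![(ψ ⬝ᵥ v)⁻¹ • ψ, (φ ⬝ᵥ w)⁻¹ • φ]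
  have hQP : Q * P = 1 := by
    ext i j
    have hg : ∀ (a : k) (χ u : m → k), ∑ x, a * (χ x * u x) = a * (χ ⬝ᵥ u) := by
      intro a χ u; rw [dotProduct, Finset.mul_sum]
    fin_cases i <;> fin_cases j
    · simp [Matrix.mul_apply, P, Q, mul_assoc, hg, h2]
    · simp [Matrix.mul_apply, P, Q, mul_assoc, hg, h']
    · simp [Matrix.mul_apply, P, Q, mul_assoc, hg, h]
    · simp [Matrix.mul_apply, P, Q, mul_assoc, hg, h1]
  have hup : ∀ t : k, rho P Q hQP (SL2.up t) = tv v φ h (t * (φ ⬝ᵥ w)⁻¹) := by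
    intro t
    apply Subtype.ext
    rw [rho_coe, tv_coe]
    congr 1
    ext i j
    simp [Matrix.mul_apply, P, Q, Fin.sum_univ_two, vecMulVec_apply]
    ring
  have hlo : ∀ t : k, rho P Q hQP (SL2.lo t) = tv w ψ h' (t * (ψ ⬝ᵥ v)⁻¹) := by
    intro t
    apply Subtype.ext
    rw [rho_coe, tv_coe]
    congr 1
    ext i j
    simp [Matrix.mul_apply, P, Q, Fin.sum_univ_two, vecMulVec_apply]
    ring
  have hU : (upperUnipotentSL2 k).map (rho P Q hQP) = T v φ h := by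
    ext x
    constructor
    · rintro ⟨y, hy, rfl⟩
      obtain ⟨t, rfl⟩ := SL2.mem_upper.1 hy
      exact ⟨_, hup t⟩
    · rintro ⟨c, rfl⟩
      refine ⟨SL2.up (c * (φ ⬝ᵥ w)), SL2.up_mem _, ?_⟩
      rw [hup]; congr 1; field_simp
  have hL : (lowerUnipotentSL2 k).map (rho P Q hQP) = T w ψ h' := by
    ext x
    constructor
    · rintro ⟨y, hy, rfl⟩
      obtain ⟨t, rfl⟩ := SL2.mem_lower.1 hy
      exact ⟨_, hlo t⟩
    · rintro ⟨c, rfl⟩
      refine ⟨SL2.lo (c * (ψ ⬝ᵥ v)), SL2.lo_mem _, ?_⟩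
      rw [hlo]; congr 1; field_simp
  constructor
  · refine ⟨rho P Q hQP, ?_, ?_, hU, hL⟩
    · rw [MonoidHom.range_eq_map, ← SL2.sup_eq_top, Subgroup.map_sup, hU, hL, sup_comm]
    · rw [(MonoidHom.ker_eq_bot_iff _).2 (rho_injective P Q hQP)]; exact bot_le
  · rw [← hU, ← hL]
    exact isRankOnePair_map (RankOnePair_symm SL2.isRankOnePair) _ (rho_injective P Q hQP)

/-! ### the root subgroup set -/

omit [Fintype m] in
theorem single_eq (i j : m) (c : k) : Matrix.single i j c = c • vecMulVec (Pi.single i 1) (Pi.single j 1) := by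
  rw [← single_eq_single_vecMulVec_single, Matrix.smul_single, smul_eq_mul, mul_one]

theorem dot_single {i j : m} (hij : i ≠ j) : (Pi.single j 1 : m → k) ⬝ᵥ (Pi.single i 1) = 0 := by
  rw [single_dotProduct, one_mul, Pi.single_eq_of_ne hij.symm]

omit [Fintype m] in
theorem single_ne (i : m) : (Pi.single i 1 : m → k) ≠ 0 := by
  intro e
  have := congrFun e i
  simp at this

theorem pair_TS {v φ w ψ : m → k} {h : φ ⬝ᵥ v = 0} {h' : ψ ⬝ᵥ w = 0} (hv : v ≠ 0) (hφ : φ ≠ 0) (hw : w ≠ 0) (hψ : ψ ≠ 0) :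
    ⁅T v φ h, T w ψ h'⁆ = ⊥ ∨ IsRankOnePair (T v φ h) (T w ψ h') ∨ RootCommutatorCase (TS m k) (T v φ h) (T w ψ h') := by
  by_cases h1 : φ ⬝ᵥ w = 0
  · by_cases h2 : ψ ⬝ᵥ v = 0
    · left; exact cm_iff.2 (cm_of h1 h2)
    · right; right
      exact case_symm (case_of hw hψ hv hφ h2 h1).2
  · by_cases h2 : ψ ⬝ᵥ v = 0
    · right; right
      exact (case_of hv hφ hw hψ h1 h2).2
    · right; left
      exact (psl_of h1 h2).2

theorem isRoot [Nontrivial m] : IsRootSubgroupSet (TS m k) := by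
  refine ⟨?_, ?_, ?_, ?_, ?_⟩
  · rintro _ ⟨v, φ, h, hv, hφ, rfl⟩
    constructor
    constructor
    rintro ⟨x, hx⟩ ⟨y, hy⟩
    exact Subtype.ext (T_comm x hx y hy)
  · rintro _ ⟨v, φ, h, hv, hφ, rfl⟩
    exact T_ne_bot hv hφ
  · apply H45.SLnGen.eq_top_of_transvection_mem
    intro i j hij c
    have h1 : T (Pi.single i 1 : m → k) (Pi.single j 1) (dot_single hij) ∈ TS m k := ⟨_, _, _, single_ne i, single_ne j, rfl⟩
    apply le_iSup_mem h1
    refine ⟨c, Subtype.ext ?_⟩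
    rw [tv_coe, ← single_eq]; rfl
  · rintro _ ⟨v, φ, h, hv, hφ, rfl⟩ g
    exact ⟨_, _, conj_dot h g, mulVec_ne hv g, vecMul_ne hφ _, conj_T h g⟩
  · rintro _ ⟨v, φ, h, hv, hφ, rfl⟩ _ ⟨w, ψ, h', hw, hψ, rfl⟩
    exact pair_TS hv hφ hw hψ

theorem isKRoot [Nontrivial m] : IsKRootSubgroupSet k (TS m k) := by
  refine ⟨isRoot, ?_⟩
  rintro _ ⟨v, φ, h, hv, hφ, rfl⟩ _ ⟨w, ψ, h', hw, hψ, rfl⟩ hp
  by_cases h1 : φ ⬝ᵥ w = 0
  · by_cases h2 : ψ ⬝ᵥ v = 0
    · exact absurd (cm_of h1 h2) (not_cm_of_pair hp)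
    · exact absurd hp (not_pair_of_case (case_symm (case_of hw hψ hv hφ h2 h1).2))
  · by_cases h2 : ψ ⬝ᵥ v = 0
    · exact absurd hp (not_pair_of_case (case_of hv hφ hw hψ h1 h2).2)
    · exact (psl_of h1 h2).1

theorem exists_both {φ ψ : m → k} (hφ : φ ≠ 0) (hψ : ψ ≠ 0) : ∃ u : m → k, φ ⬝ᵥ u ≠ 0 ∧ ψ ⬝ᵥ u ≠ 0 := by
  have ex : ∀ {φ : m → k}, φ ≠ 0 → ∃ u : m → k, φ ⬝ᵥ u ≠ 0 := by
    intro φ hφ
    obtain ⟨i, hi⟩ := Function.ne_iff.1 hφ
    exact ⟨Pi.single i 1, by rw [dotProduct_single, mul_one]; exact hi⟩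
  obtain ⟨u₁, h1⟩ := ex hφ
  obtain ⟨u₂, h2⟩ := ex hψ
  by_cases h3 : ψ ⬝ᵥ u₁ = 0
  · by_cases h4 : φ ⬝ᵥ u₂ = 0
    · refine ⟨u₁ + u₂, ?_, ?_⟩
      · rw [dotProduct_add, h4, add_zero]; exact h1
      · rw [dotProduct_add, h3, zero_add]; exact h2
    · exact ⟨u₂, h4, h2⟩
  · exact ⟨u₁, h1, h3⟩

theorem connected : IsConnectedFamily (FAdj (TS m k)) (TS m k) := by
  rintro _ ⟨v, φ, h, hv, hφ, rfl⟩ _ ⟨w, ψ, h', hw, hψ, rfl⟩
  obtain ⟨u, hu1, hu2⟩ := exists_both hφ hψ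
  -- functionals vanishing on u
  have ex : ∀ {v φ : m → k}, φ ⬝ᵥ v = 0 → v ≠ 0 → φ ⬝ᵥ u ≠ 0 → ∃ χ : m → k, χ ⬝ᵥ u = 0 ∧ χ ⬝ᵥ v ≠ 0 := by
    intro v φ h hv hu
    obtain ⟨i, hi⟩ := Function.ne_iff.1 hv
    refine ⟨Pi.single i 1 - (u i / (φ ⬝ᵥ u)) • φ, ?_, ?_⟩
    · rw [sub_dotProduct, single_dotProduct, one_mul, smul_dotProduct, smul_eq_mul]
      field_simp; ring
    · rw [sub_dotProduct, single_dotProduct, one_mul, smul_dotProduct, h, smul_zero, sub_zero]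
      exact hi
  obtain ⟨χ₁, a1, a2⟩ := ex h hv hu1
  obtain ⟨χ₂, b1, b2⟩ := ex h' hw hu2
  have hχ : ∃ χ : m → k, χ ⬝ᵥ u = 0 ∧ χ ⬝ᵥ v ≠ 0 ∧ χ ⬝ᵥ w ≠ 0 := by
    by_cases c1 : χ₁ ⬝ᵥ w = 0
    · by_cases c2 : χ₂ ⬝ᵥ v = 0
      · refine ⟨χ₁ + χ₂, ?_, ?_, ?_⟩
        · rw [add_dotProduct, a1, b1, add_zero]
        · rw [add_dotProduct, c2, add_zero]; exact a2
        · rw [add_dotProduct, c1, zero_add]; exact b2
      · exact ⟨χ₂, b1, c2, b2⟩
    · exact ⟨χ₁, a1, a2, c1⟩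
  obtain ⟨χ, d1, d2, d3⟩ := hχ
  have hu0 : u ≠ 0 := by rintro rfl; exact hu1 (dotProduct_zero _)
  have hχ0 : χ ≠ 0 := by rintro rfl; exact d2 (zero_dotProduct _)
  have hmid : T u χ d1 ∈ TS m k := ⟨u, χ, d1, hu0, hχ0, rfl⟩
  exact (Relation.ReflTransGen.single ⟨⟨v, φ, h, hv, hφ, rfl⟩, hmid, (psl_of hu1 d2).2⟩).tail
    ⟨hmid, ⟨w, ψ, h', hw, hψ, rfl⟩, (psl_of d3 hu2).2⟩

theorem closure_eq {i j : m} (hij : i ≠ j) :
    Subgroup.closure {t : Matrix.SpecialLinearGroup m k | ∃ c : k, (t : Matrix m m k) = Matrix.transvection i j c} =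
      T (Pi.single i 1) (Pi.single j 1) (dot_single hij) := by
  have e : {t : Matrix.SpecialLinearGroup m k | ∃ c : k, (t : Matrix m m k) = Matrix.transvection i j c} =
      ((T (Pi.single i 1) (Pi.single j 1) (dot_single hij) : Subgroup (Matrix.SpecialLinearGroup m k)) :
        Set (Matrix.SpecialLinearGroup m k)) := by
    ext t
    constructor
    · rintro ⟨c, hc⟩
      refine ⟨c, Subtype.ext ?_⟩
      rw [hc, tv_coe, ← single_eq]; rfl
    · rintro ⟨c, rfl⟩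
      refine ⟨c, ?_⟩
      rw [tv_coe, ← single_eq]; rfl
  rw [e, Subgroup.closure_eq]

theorem set_eq {i j : m} (hij : i ≠ j) :
    {A : Subgroup (Matrix.SpecialLinearGroup m k) | ∃ g : Matrix.SpecialLinearGroup m k,
      A = conjBy (Subgroup.closure {t : Matrix.SpecialLinearGroup m k |
        ∃ c : k, (t : Matrix m m k) = Matrix.transvection i j c}) g} = TS m k := by
  have : Nontrivial m := ⟨i, j, hij⟩
  rw [closure_eq hij]
  have h0 : T (Pi.single i 1 : m → k) (Pi.single j 1) (dot_single hij) ∈ TS m k := ⟨_, _, _, single_ne i, single_ne j, rfl⟩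
  ext A
  constructor
  · rintro ⟨g, rfl⟩
    exact isRoot.conj_mem _ h0 g
  · intro hA
    exact conj_of_reach (connected _ h0 A hA)

theorem isClass [Nontrivial m] : IsConjClassOfSubgroups (TS m k) := by
  obtain ⟨i, j, hij⟩ := exists_pair_ne m
  exact ⟨⟨T (Pi.single i 1 : m → k) (Pi.single j 1) (dot_single hij), ⟨_, _, _, single_ne i, single_ne j, rfl⟩⟩,
    fun A hA B hB => conj_of_reach (connected A hA B hB)⟩

theorem nondeg {i j l : m} (hij : i ≠ j) (hjl : j ≠ l) (hil : i ≠ l) : IsNondegenerateRootSet (TS m k) := by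
  have mem : ∀ {i j : m} (hij : i ≠ j), T (Pi.single i 1 : m → k) (Pi.single j 1) (dot_single hij) ∈ TS m k :=
    fun hij => ⟨_, _, _, single_ne _, single_ne _, rfl⟩
  have hne : ∀ i : m, (Pi.single i 1 : m → k) ⬝ᵥ Pi.single i 1 ≠ 0 := by
    intro i
    rw [single_dotProduct, one_mul, Pi.single_eq_same]; exact one_ne_zero
  refine ⟨⟨_, mem hij, _, mem hil, ?_, ?_⟩, ⟨_, mem hij, _, mem hij.symm, ?_⟩, ⟨_, mem hij, _, mem hjl, ?_⟩⟩
  · intro e
    have h1 : tv (Pi.single i 1 : m → k) (Pi.single j 1) (dot_single hij) 1 ∈ T (Pi.single i 1 : m → k) (Pi.single l 1) (dot_single hil) := by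
      rw [← e]; exact tv_mem _ _ _ _
    obtain ⟨c, hc⟩ := h1
    have h2 := congrArg (fun g : Matrix.SpecialLinearGroup m k => (g : Matrix m m k) i j) hc
    simp [tv_coe, vecMulVec_apply, hij, hjl] at h2
  · exact cm_iff.2 (cm_of (dot_single hij) (dot_single hil))
  · exact (psl_of (hne j) (hne i)).2
  · exact (case_of (single_ne _) (single_ne _) (single_ne _) (single_ne _) (hne j) (dot_single hil)).2

theorem result_5043 (k : Type*) [Field k] (n : ℕ) :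
    Cfsg.IsRootSubgroupClass {A : Subgroup (Matrix.SpecialLinearGroup (Fin (n + 3)) k) |
        ∃ g : Matrix.SpecialLinearGroup (Fin (n + 3)) k,
          A = Cfsg.conjBy (Subgroup.closure {t : Matrix.SpecialLinearGroup (Fin (n + 3)) k |
            ∃ c : k, (t : Matrix (Fin (n + 3)) (Fin (n + 3)) k) = Matrix.transvection 0 1 c}) g} ∧
    Cfsg.IsNondegenerateRootSet {A : Subgroup (Matrix.SpecialLinearGroup (Fin (n + 3)) k) |
        ∃ g : Matrix.SpecialLinearGroup (Fin (n + 3)) k,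
          A = Cfsg.conjBy (Subgroup.closure {t : Matrix.SpecialLinearGroup (Fin (n + 3)) k |
            ∃ c : k, (t : Matrix (Fin (n + 3)) (Fin (n + 3)) k) = Matrix.transvection 0 1 c}) g} ∧
    Cfsg.IsKRootSubgroupSet k {A : Subgroup (Matrix.SpecialLinearGroup (Fin (n + 3)) k) |
        ∃ g : Matrix.SpecialLinearGroup (Fin (n + 3)) k,
          A = Cfsg.conjBy (Subgroup.closure {t : Matrix.SpecialLinearGroup (Fin (n + 3)) k |
            ∃ c : k, (t : Matrix (Fin (n + 3)) (Fin (n + 3)) k) = Matrix.transvection 0 1 c}) g} ∧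
    Cfsg.IsConnectedFamily (Cfsg.FAdj {A : Subgroup (Matrix.SpecialLinearGroup (Fin (n + 3)) k) |
        ∃ g : Matrix.SpecialLinearGroup (Fin (n + 3)) k,
          A = Cfsg.conjBy (Subgroup.closure {t : Matrix.SpecialLinearGroup (Fin (n + 3)) k |
            ∃ c : k, (t : Matrix (Fin (n + 3)) (Fin (n + 3)) k) = Matrix.transvection 0 1 c}) g})
      {A : Subgroup (Matrix.SpecialLinearGroup (Fin (n + 3)) k) |
        ∃ g : Matrix.SpecialLinearGroup (Fin (n + 3)) k,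
          A = Cfsg.conjBy (Subgroup.closure {t : Matrix.SpecialLinearGroup (Fin (n + 3)) k |
            ∃ c : k, (t : Matrix (Fin (n + 3)) (Fin (n + 3)) k) = Matrix.transvection 0 1 c}) g} := by
  have h01 : (0 : Fin (n + 3)) ≠ 1 := by
    intro h; simpa using congrArg Fin.val h
  have h12 : (1 : Fin (n + 3)) ≠ 2 := by
    intro h
    have := congrArg Fin.val h
    simp at this
    rw [Nat.mod_eq_of_lt (by omega)] at this
    omega
  have h02 : (0 : Fin (n + 3)) ≠ 2 := by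
    intro h
    have := congrArg Fin.val h
    simp at this
    rw [Nat.mod_eq_of_lt (by omega)] at this
    omega
  rw [set_eq h01]
  exact ⟨⟨isRoot, isClass⟩, nondeg h01 h12 h02, isKRoot, connected⟩

end H85.SLRoot
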