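import Cfsg.Agent.Lib.H85.RootPull
import Cfsg.Agent.Lib.H16.Herm
import Cfsg.Agent.Lib.H16.Symp
import Cfsg.Agent.Lib.H7.SmallField

/-!
The unitary transvection groups form a degenerate class of root subgroups over the small field (S5071).
-/
set_option autoImplicit false

namespace H85.SURootA

open Cfsg H85.RankOne H85.RankOneTrans H85.RootSub H85.RootSub2 H85.RootComp H85.RootLine H85.RootSpecial H85.SLRoot H85.RootPull
open Matrix H16.Herm

variable {n q : ℕ} {F : Type*} [Field F] [Fintype F]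

/-- the functional h(·,p) -/
def fn (q : ℕ) {n : ℕ} {F : Type*} [Field F] (p : Fin n → F) : Fin n → F := fun j => p j ^ q

omit [Fintype F] in
theorem fn_dot (p x : Fin n → F) : fn q p ⬝ᵥ x = hermForm n F q x p := by
  rw [dotProduct_comm]; rfl

omit [Fintype F] in
theorem fn_self {p : Fin n → F} (hp : hermForm n F q p p = 0) : fn q p ⬝ᵥ p = 0 := by rw [fn_dot, hp]

omit [Fintype F] in
theorem coe_tv (p : Fin n → F) (hp : hermForm n F q p p = 0) (c : F) :
    (SLRoot.tv p (fn q p) (fn_self hp) c : Matrix (Fin n) (Fin n) F) = unitaryTransvection n q p c := rfl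

theorem tv_apply (p : Fin n → F) (hp : hermForm n F q p p = 0) (c : F) (x : Fin n → F) :
    (SLRoot.tv p (fn q p) (fn_self hp) c : Matrix (Fin n) (Fin n) F) *ᵥ x = x + (c * hermForm n F q x p) • p := by
  rw [coe_tv p hp, unitaryTransvection_mulVec]

/-- the unitary transvection group -/
def UG {p : Fin n → F} (hp : hermForm n F q p p = 0) : Subgroup ↥(SU n F q) :=
  (T p (fn q p) (fn_self hp)).subgroupOf (SU n F q)

theorem exists_form (hF : Fintype.card F = q ^ 2) {p : Fin n → F} (hp : p ≠ 0) : ∃ u, hermForm n F q u p ≠ 0 := by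
  by_contra h
  push Not at h
  exact hp (eq_zero_of_forall_left hF h)

theorem tv_mem_iff (hF : Fintype.card F = q ^ 2) {p : Fin n → F} (hp0 : p ≠ 0) (hp : hermForm n F q p p = 0) (c : F) :
    SLRoot.tv p (fn q p) (fn_self hp) c ∈ SU n F q ↔ c ^ q + c = 0 := by
  constructor
  · intro h
    obtain ⟨u, hu⟩ := exists_form hF hp0
    have h1 : hermForm n F q (unitaryTransvection n q p c *ᵥ u) (unitaryTransvection n q p c *ᵥ u) = hermForm n F q u u := h u u
    rw [hermForm_transvection hF p c hp, add_eq_left] at h1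
    rcases mul_eq_zero.1 h1 with h2 | h2
    · exact h2
    · exfalso
      rcases mul_eq_zero.1 h2 with h3 | h3
      · exact hu h3
      · apply hu
        rw [← hermForm_swap hF, h3, zero_pow_q hF]
  · intro h x y
    show hermForm n F q (unitaryTransvection n q p c *ᵥ x) (unitaryTransvection n q p c *ᵥ y) = hermForm n F q x y
    rw [hermForm_transvection hF p c hp, h, zero_mul, add_zero]

omit [Fintype F] in
theorem UG_comm {p : Fin n → F} (hp : hermForm n F q p p = 0) : Cm (UG hp) (UG hp) := by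
  intro x hx y hy
  exact Subtype.ext (T_comm _ hx _ hy)

theorem exists_eps (hF : Fintype.card F = q ^ 2) : ∃ ε : F, ε ≠ 0 ∧ ε ^ q + ε = 0 := by
  obtain ⟨y, hy⟩ := H7.SmallField.exists_not_fixed hF
  refine ⟨y ^ q - y, sub_ne_zero.2 hy, ?_⟩
  rw [sub_pow_q hF, pow_q_pow_q hF]; ring

theorem fn_ne (hF : Fintype.card F = q ^ 2) {p : Fin n → F} (hp0 : p ≠ 0) : fn q p ≠ 0 := by
  intro e
  obtain ⟨u, hu⟩ := exists_form hF hp0
  apply hu
  rw [← fn_dot, e, zero_dotProduct]

theorem UG_ne_bot (hF : Fintype.card F = q ^ 2) {p : Fin n → F} (hp0 : p ≠ 0) (hp : hermForm n F q p p = 0) : UG hp ≠ ⊥ := by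
  intro e
  obtain ⟨ε, h1, h2⟩ := exists_eps hF
  have hm := (tv_mem_iff hF hp0 hp ε).2 h2
  have h3 : (⟨_, hm⟩ : ↥(SU n F q)) ∈ (⊥ : Subgroup ↥(SU n F q)) := by
    rw [← e]; exact tv_mem _ _ _ _
  rw [Subgroup.mem_bot] at h3
  have h4 := congrArg Subtype.val h3
  exact h1 ((tv_eq_one (h := fn_self hp) hp0 (fn_ne hF hp0)).1 h4)

theorem cm_UG (hF : Fintype.card F = q ^ 2) {p r : Fin n → F} (hp : hermForm n F q p p = 0) (hr : hermForm n F q r r = 0)
    (h : hermForm n F q p r = 0) : Cm (UG hp) (UG hr) := by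
  intro x hx y hy
  apply Subtype.ext
  refine cm_of (h := fn_self hp) (h' := fn_self hr) ?_ ?_ _ hx _ hy
  · rw [fn_dot, ← hermForm_swap hF, h, zero_pow_q hF]
  · rw [fn_dot, h]

/-- coercion to matrices -/
def coeM (n : ℕ) (F : Type*) [Field F] (q : ℕ) : ↥(SU n F q) →* Matrix (Fin n) (Fin n) F where
  toFun g := ((g : Matrix.SpecialLinearGroup (Fin n) F) : Matrix (Fin n) (Fin n) F)
  map_one' := rfl
  map_mul' _ _ := rfl

omit [Fintype F] in
theorem coeM_injective : Function.Injective (coeM n F q) := fun _ _ e => Subtype.ext (Subtype.ext e)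

theorem pair_UG (hF : Fintype.card F = q ^ 2) {L : Type*} [Field L] (ι : L →+* F) (hι : ∀ x : F, x ^ q = x ↔ ∃ y, ι y = x)
    {p r : Fin n → F} (hp0 : p ≠ 0) (hp : hermForm n F q p p = 0) (hr0 : r ≠ 0) (hr : hermForm n F q r r = 0)
    (h : hermForm n F q p r ≠ 0) : IsPSL2PairOver L (UG hp) (UG hr) ∧ IsRankOnePair (UG hp) (UG hr) := by
  obtain ⟨ε, h1, h2⟩ := exists_eps hF
  have h2' : ε ^ q = - ε := eq_neg_of_add_eq_zero_left h2
  have h' : hermForm n F q r p ≠ 0 := by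
    intro e; apply h; rw [← hermForm_swap hF, e, zero_pow_q hF]
  obtain ⟨l, hl⟩ := (hι (ε * ε * (fn q p ⬝ᵥ r) * (fn q r ⬝ᵥ p))).1 (by
    rw [fn_dot, fn_dot, mul_pow, mul_pow, mul_pow, hermForm_swap hF, hermForm_swap hF, h2']
    ring)
  have key1 : ∀ (p : Fin n → F) (hp0 : p ≠ 0) (hp : hermForm n F q p p = 0) (t : L), ∃ a ∈ UG hp,
      coeM n F q a = 1 + (ε * ι t) • vecMulVec p (fn q p) := by
    intro p hp0 hp t
    have hm : SLRoot.tv p (fn q p) (fn_self hp) (ε * ι t) ∈ SU n F q := by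
      rw [tv_mem_iff hF hp0 hp, mul_pow, h2', (hι (ι t)).2 ⟨t, rfl⟩]; ring
    exact ⟨⟨_, hm⟩, tv_mem _ _ _ _, rfl⟩
  have key2 : ∀ (p : Fin n → F) (hp0 : p ≠ 0) (hp : hermForm n F q p p = 0), ∀ a ∈ UG hp, ∃ t : L,
      coeM n F q a = 1 + (ε * ι t) • vecMulVec p (fn q p) := by
    rintro p hp0 hp ⟨a, ha⟩ ⟨c, hc⟩
    have hc' : a = SLRoot.tv p (fn q p) (fn_self hp) c := hc
    subst hc'
    rw [tv_mem_iff hF hp0 hp] at ha
    have hc2 : c ^ q = - c := eq_neg_of_add_eq_zero_left ha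
    obtain ⟨t, ht⟩ := (hι (c / ε)).1 (by rw [div_pow, hc2, h2', neg_div_neg_eq])
    refine ⟨t, ?_⟩
    rw [ht, mul_div_cancel₀ _ h1]; rfl
  refine trans_pair ι (v := p) (φ := fn q p) (w := r) (ψ := fn q r) (fn_self hp) (fn_self hr) ?_ ?_ h1 hl (coeM n F q) coeM_injective
    (key1 p hp0 hp) (key2 p hp0 hp) (key1 r hr0 hr) (key2 r hr0 hr)
  · rw [fn_dot]; exact h'
  · rw [fn_dot]; exact h

/-- the set of unitary transvection groups -/
def UGS (n : ℕ) (F : Type*) [Field F] (q : ℕ) : Set (Subgroup ↥(SU n F q)) :=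
  {A | ∃ (p : Fin n → F) (hp : hermForm n F q p p = 0), p ≠ 0 ∧ A = UG hp}

theorem apply_of_mem {p : Fin n → F} (hp : hermForm n F q p p = 0) {g : ↥(SU n F q)} (hg : g ∈ UG hp) :
    ∃ c : F, ∀ x, (g : Matrix.SpecialLinearGroup (Fin n) F).1 *ᵥ x = x + (c * hermForm n F q x p) • p := by
  obtain ⟨c, hc⟩ := hg
  refine ⟨c, fun x => ?_⟩
  have hc' : (g : Matrix.SpecialLinearGroup (Fin n) F) = SLRoot.tv p (fn q p) (fn_self hp) c := hc
  rw [hc']
  exact tv_apply p hp c x

theorem mem_of_apply {p : Fin n → F} (hp : hermForm n F q p p = 0) {g : ↥(SU n F q)}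
    {c : F} (h : ∀ x, (g : Matrix.SpecialLinearGroup (Fin n) F).1 *ᵥ x = x + (c * hermForm n F q x p) • p) : g ∈ UG hp := by
  refine ⟨c, ?_⟩
  apply Subtype.ext
  apply H16.Symp.mulVec_ext
  intro x
  exact (h x).trans (tv_apply p hp c x).symm

omit [Fintype F] in
theorem form_pres (g : ↥(SU n F q)) (u v : Fin n → F) :
    hermForm n F q ((g : Matrix.SpecialLinearGroup (Fin n) F).1 *ᵥ u) ((g : Matrix.SpecialLinearGroup (Fin n) F).1 *ᵥ v) =
      hermForm n F q u v := g.2 u v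

theorem conj_UG {p : Fin n → F} (hp : hermForm n F q p p = 0) (g : ↥(SU n F q)) :
    conjBy (UG hp) g = UG (n := n) (q := q) (p := (g : Matrix.SpecialLinearGroup (Fin n) F).1 *ᵥ p)
      (by rw [form_pres, hp]) := by
  have hpp : hermForm n F q ((g : Matrix.SpecialLinearGroup (Fin n) F).1 *ᵥ p) ((g : Matrix.SpecialLinearGroup (Fin n) F).1 *ᵥ p) = 0 := by
    rw [form_pres, hp]
  have hinv : ∀ x : Fin n → F, (g : Matrix.SpecialLinearGroup (Fin n) F).1 *ᵥ ((g⁻¹ : ↥(SU n F q)) : Matrix.SpecialLinearGroup (Fin n) F).1 *ᵥ x = x := by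
    intro x
    rw [mulVec_mulVec]
    have : (g : Matrix.SpecialLinearGroup (Fin n) F) * ((g⁻¹ : ↥(SU n F q)) : Matrix.SpecialLinearGroup (Fin n) F) = 1 := by
      rw [← Subgroup.coe_mul, mul_inv_cancel]; rfl
    have := congrArg Subtype.val this
    rw [Matrix.SpecialLinearGroup.coe_mul, Matrix.SpecialLinearGroup.coe_one] at this
    rw [this, one_mulVec]
  have hinv' : ∀ x : Fin n → F, ((g⁻¹ : ↥(SU n F q)) : Matrix.SpecialLinearGroup (Fin n) F).1 *ᵥ (g : Matrix.SpecialLinearGroup (Fin n) F).1 *ᵥ x = x := by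
    intro x
    rw [mulVec_mulVec]
    have : ((g⁻¹ : ↥(SU n F q)) : Matrix.SpecialLinearGroup (Fin n) F) * (g : Matrix.SpecialLinearGroup (Fin n) F) = 1 := by
      rw [← Subgroup.coe_mul, inv_mul_cancel]; rfl
    have := congrArg Subtype.val this
    rw [Matrix.SpecialLinearGroup.coe_mul, Matrix.SpecialLinearGroup.coe_one] at this
    rw [this, one_mulVec]
  have hmul : ∀ (a b : ↥(SU n F q)) (x : Fin n → F), ((a * b : ↥(SU n F q)) : Matrix.SpecialLinearGroup (Fin n) F).1 *ᵥ x =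
      (a : Matrix.SpecialLinearGroup (Fin n) F).1 *ᵥ ((b : Matrix.SpecialLinearGroup (Fin n) F).1 *ᵥ x) := by
    intro a b x
    rw [mulVec_mulVec]; rfl
  have hadj : ∀ x y : Fin n → F, hermForm n F q (((g⁻¹ : ↥(SU n F q)) : Matrix.SpecialLinearGroup (Fin n) F).1 *ᵥ x) y =
      hermForm n F q x ((g : Matrix.SpecialLinearGroup (Fin n) F).1 *ᵥ y) := by
    intro x y
    rw [← form_pres g, hinv]
  ext x
  rw [mem_conjBy]
  constructor
  · intro hx
    obtain ⟨c, hc⟩ := apply_of_mem hp hx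
    apply mem_of_apply (c := c)
    intro y
    have h1 := hc (((g⁻¹ : ↥(SU n F q)) : Matrix.SpecialLinearGroup (Fin n) F).1 *ᵥ y)
    rw [hmul, hmul, hinv, hadj] at h1
    have h2 := congrArg (fun z => (g : Matrix.SpecialLinearGroup (Fin n) F).1 *ᵥ z) h1
    rw [hinv, mulVec_add, mulVec_smul, hinv] at h2
    exact h2
  · intro hx
    obtain ⟨c, hc⟩ := apply_of_mem hpp hx
    apply mem_of_apply (c := c)
    intro y
    rw [hmul, hmul, hc, form_pres, mulVec_add, mulVec_smul, hinv', hinv']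

omit [Fintype F] in
theorem sl_mulVec_ne (g : ↥(SU n F q)) {p : Fin n → F} (hp : p ≠ 0) : (g : Matrix.SpecialLinearGroup (Fin n) F).1 *ᵥ p ≠ 0 :=
  mulVec_ne hp _

theorem exists_L (hF : Fintype.card F = q ^ 2) : ∃ (L : Type) (_ : Field L) (_ : Fintype L) (ι : L →+* F), Fintype.card L = q ∧
    ∀ x : F, x ^ q = x ↔ ∃ y, ι y = x := by
  obtain ⟨p, r, hp, hchar, hr, hq⟩ := exists_q_eq hF
  have : Fact p.Prime := ⟨hp⟩
  let _ : Fintype (GaloisField p r) := Fintype.ofFinite _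
  have hcard : Fintype.card (GaloisField p r) = q := by
    rw [← Nat.card_eq_fintype_card, GaloisField.card p r hr.ne', hq]
  obtain ⟨σ, hσ⟩ := H7.SmallField.exists_embedding (F := GaloisField p r) (K := F) (q := q) hcard hF
  exact ⟨GaloisField p r, inferInstance, inferInstance, σ, hcard, hσ⟩

theorem isRoot_UGS (hF : Fintype.card F = q ^ 2) : IsRootSubgroupSet (rest (UGS n F q)) := by
  apply isRoot_rest
  · rintro _ ⟨p, hp, hp0, rfl⟩
    constructor
    constructor
    rintro ⟨x, hx⟩ ⟨y, hy⟩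
    exact Subtype.ext (UG_comm hp x hx y hy)
  · rintro _ ⟨p, hp, hp0, rfl⟩
    exact UG_ne_bot hF hp0 hp
  · rintro _ ⟨p, hp, hp0, rfl⟩ g
    exact ⟨_, _, sl_mulVec_ne g hp0, conj_UG hp g⟩
  · rintro _ ⟨p, hp, hp0, rfl⟩ _ ⟨r, hr, hr0, rfl⟩
    by_cases h : hermForm n F q p r = 0
    · left; exact cm_iff.2 (cm_UG hF hp hr h)
    · right; left
      obtain ⟨L, _, _, σ, _, hσ⟩ := exists_L hF
      exact (pair_UG hF σ hσ hp0 hp hr0 hr h).2

theorem pairs_UGS (hF : Fintype.card F = q ^ 2) {L : Type*} [Field L] (ι : L →+* F) (hι : ∀ x : F, x ^ q = x ↔ ∃ y, ι y = x) :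
    ∀ A ∈ UGS n F q, ∀ B ∈ UGS n F q, ⁅A, B⁆ = ⊥ ∨ (IsPSL2PairOver L A B ∧ IsRankOnePair A B) := by
  rintro _ ⟨p, hp, hp0, rfl⟩ _ ⟨r, hr, hr0, rfl⟩
  by_cases h : hermForm n F q p r = 0
  · left; exact cm_iff.2 (cm_UG hF hp hr h)
  · right; exact pair_UG hF ι hι hp0 hp hr0 hr h

theorem exists_iso (hF : Fintype.card F = q ^ 2) {p r : Fin n → F} (hp0 : p ≠ 0) (hp : hermForm n F q p p = 0) (hr0 : r ≠ 0)
    (hr : hermForm n F q r r = 0) : ∃ u : Fin n → F, u ≠ 0 ∧ hermForm n F q u u = 0 ∧ hermForm n F q p u ≠ 0 ∧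
      hermForm n F q u r ≠ 0 := by
  have hz : ∀ {x y : Fin n → F}, hermForm n F q x y ≠ 0 → hermForm n F q y x ≠ 0 := by
    intro x y hxy e; apply hxy; rw [← hermForm_swap hF, e, zero_pow_q hF]
  -- general: given u₀ with h(u₀,p) ≠ 0, make it isotropic by adding a multiple of p
  have key : ∀ u₀ : Fin n → F, hermForm n F q u₀ p ≠ 0 → ∃ a : F, hermForm n F q (u₀ + a • p) (u₀ + a • p) = 0 := by
    intro u₀ h0
    have hN : (- hermForm n F q u₀ u₀) ^ q = - hermForm n F q u₀ u₀ := by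
      rw [neg_pow_q hF, hermForm_swap hF]
    obtain ⟨x, hx⟩ := H7.QuadExt.exists_trace_eq hF hN
    refine ⟨x / hermForm n F q p u₀, ?_⟩
    have h0' := hz h0
    rw [hermForm_add_left, hermForm_add_right hF, hermForm_add_right hF, hermForm_smul_left, hermForm_smul_left,
      hermForm_smul_right, hermForm_smul_right, hp, div_mul_cancel₀ _ h0', div_pow, hermForm_swap hF, div_mul_cancel₀ _ h0,
      mul_zero, mul_zero, add_zero]
    linear_combination hx
  by_cases h : hermForm n F q p r = 0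
  · obtain ⟨u₀, h1, h2⟩ := exists_both (fn_ne hF hp0) (fn_ne hF hr0)
    rw [fn_dot] at h1 h2
    obtain ⟨a, ha⟩ := key u₀ h1
    have h3 : hermForm n F q (u₀ + a • p) p ≠ 0 := by
      rw [hermForm_add_left, hermForm_smul_left, hp, mul_zero, add_zero]; exact h1
    refine ⟨u₀ + a • p, ?_, ha, hz h3, ?_⟩
    · intro e
      rw [e, hermForm_zero_left] at h3
      exact h3 rfl
    · rw [hermForm_add_left, hermForm_smul_left, h, mul_zero, add_zero]; exact h2
  · -- use u = p + a r with a such that isotropic: p + a r, h(p, p + a r) = a^q h(p,r), h(p + a r, r) = h(p,r)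
    obtain ⟨x, hx0, hx⟩ := exists_eps hF
    have h' := hz h
    have ha : (x / hermForm n F q r p) ≠ 0 := div_ne_zero hx0 h'
    have h4 : hermForm n F q (p + (x / hermForm n F q r p) • r) r ≠ 0 := by
      rw [hermForm_add_left, hermForm_smul_left, hr, mul_zero, add_zero]; exact h
    refine ⟨p + (x / hermForm n F q r p) • r, ?_, ?_, ?_, h4⟩
    · intro e
      rw [e, hermForm_zero_left] at h4
      exact h4 rfl
    · rw [hermForm_add_left, hermForm_add_right hF, hermForm_add_right hF, hermForm_smul_left, hermForm_smul_left,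
        hermForm_smul_right, hermForm_smul_right, hp, hr, div_mul_cancel₀ _ h', div_pow, hermForm_swap hF, div_mul_cancel₀ _ h,
        mul_zero, mul_zero, add_zero]
      linear_combination hx
    · rw [hermForm_add_right hF, hermForm_smul_right, hp, zero_add]
      exact mul_ne_zero (pow_ne_zero _ ha) h

theorem connected_UGS (hF : Fintype.card F = q ^ 2) : IsConnectedFamily (FAdj (UGS n F q)) (UGS n F q) := by
  rintro _ ⟨p, hp, hp0, rfl⟩ _ ⟨r, hr, hr0, rfl⟩
  obtain ⟨u, hu0, hu, h1, h2⟩ := exists_iso hF hp0 hp hr0 hr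
  obtain ⟨L, _, _, σ, _, hσ⟩ := exists_L hF
  exact (Relation.ReflTransGen.single ⟨⟨p, hp, hp0, rfl⟩, ⟨u, hu, hu0, rfl⟩, (pair_UG hF σ hσ hp0 hp hu0 hu h1).2⟩).tail
    ⟨⟨u, hu, hu0, rfl⟩, ⟨r, hr, hr0, rfl⟩, (pair_UG hF σ hσ hu0 hu hr0 hr h2).2⟩

theorem nonempty_UGS (hF : Fintype.card F = q ^ 2) : (UGS (n + 2) F q).Nonempty := by
  obtain ⟨a, ha⟩ := H7.QuadExt.exists_norm_eq hF (c := (-1 : F)) (by rw [neg_pow_q hF, one_pow])
  have hp : hermForm (n + 2) F q (Pi.single 0 1 + a • Pi.single 1 1) (Pi.single 0 1 + a • Pi.single 1 1) = 0 := by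
    have h01 : (0 : Fin (n + 2)) ≠ 1 := by
      intro h; simpa using congrArg Fin.val h
    rw [hermForm_add_left, hermForm_smul_left, hermForm_single_left, hermForm_single_left]
    simp only [Pi.add_apply, Pi.smul_apply, smul_eq_mul, Pi.single_eq_same, Pi.single_eq_of_ne h01, Pi.single_eq_of_ne h01.symm]
    rw [mul_zero, add_zero, one_pow, mul_one, zero_add, ← pow_succ', ha]; ring
  refine ⟨_, _, hp, ?_, rfl⟩
  intro e
  have h01 : (0 : Fin (n + 2)) ≠ 1 := by
    intro h; simpa using congrArg Fin.val h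
  have := congrFun e 0
  simp [h01] at this

theorem set_eq' (hF : Fintype.card F = q ^ 2) :
    {A : Subgroup ↥(Cfsg.SU n F q) | ∃ p : Fin n → F, p ≠ 0 ∧ Cfsg.hermForm n F q p p = 0 ∧
          A = Subgroup.closure {g : ↥(Cfsg.SU n F q) |
            (∀ v : Fin n → F, ∃ c : F, ((g : Matrix.SpecialLinearGroup (Fin n) F) : Matrix (Fin n) (Fin n) F) *ᵥ v = v + c • p) ∧
            ∀ v : Fin n → F, Cfsg.hermForm n F q v p = 0 →
              ((g : Matrix.SpecialLinearGroup (Fin n) F) : Matrix (Fin n) (Fin n) F) *ᵥ v = v}} = UGS n F q := by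
  have key : ∀ (p : Fin n → F) (_ : p ≠ 0) (hp : hermForm n F q p p = 0), Subgroup.closure {g : ↥(Cfsg.SU n F q) |
            (∀ v : Fin n → F, ∃ c : F, ((g : Matrix.SpecialLinearGroup (Fin n) F) : Matrix (Fin n) (Fin n) F) *ᵥ v = v + c • p) ∧
            ∀ v : Fin n → F, Cfsg.hermForm n F q v p = 0 →
              ((g : Matrix.SpecialLinearGroup (Fin n) F) : Matrix (Fin n) (Fin n) F) *ᵥ v = v} = UG hp := by
    intro p hp0 hp
    have : {g : ↥(Cfsg.SU n F q) |
            (∀ v : Fin n → F, ∃ c : F, ((g : Matrix.SpecialLinearGroup (Fin n) F) : Matrix (Fin n) (Fin n) F) *ᵥ v = v + c • p) ∧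
            ∀ v : Fin n → F, Cfsg.hermForm n F q v p = 0 →
              ((g : Matrix.SpecialLinearGroup (Fin n) F) : Matrix (Fin n) (Fin n) F) *ᵥ v = v} = (UG hp : Set ↥(Cfsg.SU n F q)) := by
      ext g
      constructor
      · rintro ⟨h1, h2⟩
        obtain ⟨u, hu⟩ := exists_form hF hp0
        obtain ⟨c, hc⟩ := h1 u
        apply mem_of_apply hp (c := c / hermForm n F q u p)
        intro x
        have h3 := h2 (x - (hermForm n F q x p / hermForm n F q u p) • u) (by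
          rw [hermForm_sub_left, hermForm_smul_left, div_mul_cancel₀ _ hu, sub_self])
        rw [mulVec_sub, mulVec_smul, hc, smul_add, smul_smul] at h3
        have h4 : c / hermForm n F q u p * hermForm n F q x p = hermForm n F q x p / hermForm n F q u p * c := by
          field_simp
        rw [h4]
        have h5 := eq_add_of_sub_eq h3
        rw [h5]; abel
      · intro hg
        obtain ⟨c, hc⟩ := apply_of_mem hp hg
        refine ⟨fun v => ⟨_, hc v⟩, fun v hv => ?_⟩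
        rw [hc, hv, mul_zero, zero_smul, add_zero]
    rw [this, Subgroup.closure_eq]
  ext A
  constructor
  · rintro ⟨p, hp0, hp, rfl⟩
    exact ⟨p, hp, hp0, key p hp0 hp⟩
  · rintro ⟨p, hp, hp0, rfl⟩
    exact ⟨p, hp0, hp, (key p hp0 hp).symm⟩

theorem final (hF : Fintype.card F = q ^ 2) (S : Set (Subgroup ↥(SU (n + 2) F q))) (hS : S = UGS (n + 2) F q) :
    IsRootSubgroupClass ((fun A : Subgroup ↥(Cfsg.SU (n + 2) F q) => A.subgroupOf (⨆ B ∈ S, B)) '' S) ∧
    IsDegenerateRootSet ((fun A : Subgroup ↥(Cfsg.SU (n + 2) F q) => A.subgroupOf (⨆ B ∈ S, B)) '' S) ∧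
    (∃ (L : Type) (_ : Field L) (_ : Fintype L), Fintype.card L = q ∧
      IsKRootSubgroupSet L ((fun A : Subgroup ↥(Cfsg.SU (n + 2) F q) => A.subgroupOf (⨆ B ∈ S, B)) '' S)) ∧
    IsConnectedFamily (FAdj ((fun A : Subgroup ↥(Cfsg.SU (n + 2) F q) => A.subgroupOf (⨆ B ∈ S, B)) '' S))
      ((fun A : Subgroup ↥(Cfsg.SU (n + 2) F q) => A.subgroupOf (⨆ B ∈ S, B)) '' S) := by
  subst hS
  have hR : IsRootSubgroupSet (rest (UGS (n + 2) F q)) := isRoot_UGS hF
  have hC : IsConnectedFamily (FAdj (rest (UGS (n + 2) F q))) (rest (UGS (n + 2) F q)) := connected_rest (connected_UGS hF)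
  obtain ⟨L, _, _, σ, hcard, hσ⟩ := exists_L hF
  have hP := pairs_UGS (n := n + 2) hF σ hσ
  refine ⟨⟨hR, class_of_connected ?_ hC⟩, ?_, ⟨L, inferInstance, inferInstance, hcard, ?_⟩, hC⟩
  · obtain ⟨A, hA⟩ := nonempty_UGS (n := n) hF
    exact ⟨_, A, hA, rfl⟩
  · apply degenerate_rest
    · rintro _ ⟨p, hp, hp0, rfl⟩
      exact UG_ne_bot hF hp0 hp
    · intro A hA B hB
      rcases hP A hA B hB with h | h
      · left; exact h
      · right; exact h.2
  · apply isKRoot_rest hR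
    intro A hA B hB hAB
    rcases hP A hA B hB with h | h
    · exact absurd (cm_iff.1 h) (not_cm_of_pair hAB)
    · exact h.1

end H85.SURootA
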