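import Cfsg.Agent.Lib.H85.SURootA
import Cfsg.Agent.Lib.H85.SLInv
import Cfsg.Agent.Lib.H6.SUGenC
import Cfsg.Agent.Lib.H48.SLConj
import Cfsg.Prelude.Def_SporadicB

/-!
Unitary transvections over the field with four elements form a class of 3-transpositions (S1631).
-/
set_option autoImplicit false
set_option maxHeartbeats 400000

namespace H85.SUThree

open Cfsg Matrix H85.SLRoot H85.SLInv H85.SURootA H16.Herm

variable {n : ℕ} {F : Type} [Field F] [Fintype F]

theorem charP_two (hF : Fintype.card F = 2 ^ 2) : CharP F 2 := by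
  obtain ⟨p, r, hp, hc, hr, hq⟩ := exists_q_eq hF
  have : p = 2 := by
    have h1 : p ∣ 2 := by rw [hq]; exact dvd_pow_self p hr.ne'
    rcases (Nat.dvd_prime Nat.prime_two).1 h1 with h | h
    · exact absurd h hp.one_lt.ne'
    · exact h
  subst this; exact hc

/-- the set of unitary transvections -/
def US (n : ℕ) (F : Type) [Field F] : Set ↥(SU n F 2) :=
  {g | ∃ (p : Fin n → F) (hp : hermForm n F 2 p p = 0), p ≠ 0 ∧ (g : Matrix.SpecialLinearGroup (Fin n) F) = SLRoot.tv p (fn 2 p) (fn_self hp) 1}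

theorem exists_mem (hF : Fintype.card F = 2 ^ 2) {p : Fin n → F} (hp : hermForm n F 2 p p = 0) (hp0 : p ≠ 0) :
    ∃ g : ↥(SU n F 2), g ∈ US n F ∧ (g : Matrix.SpecialLinearGroup (Fin n) F) = SLRoot.tv p (fn 2 p) (fn_self hp) 1 := by
  have := charP_two hF
  have hm := (tv_mem_iff hF hp0 hp 1).2 (by rw [one_pow]; exact CharTwo.add_self_eq_zero 1)
  exact ⟨⟨_, hm⟩, ⟨p, hp, hp0, rfl⟩, rfl⟩

theorem c_eq_one (hF : Fintype.card F = 2 ^ 2) {c : F} (hc : c ≠ 0) (h : c ^ 2 + c = 0) : c = 1 := by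
  have := charP_two hF
  have h1 : c * (c + 1) = 0 := by rw [← h]; ring
  have h2 := (mul_eq_zero.1 h1).resolve_left hc
  rw [← CharTwo.sub_eq_add] at h2
  exact sub_eq_zero.1 h2

theorem norm_one (hF : Fintype.card F = 2 ^ 2) {c : F} (hc : c ≠ 0) : c * c ^ 2 = 1 := by
  have := FiniteField.pow_card_sub_one_eq_one c hc
  rw [hF] at this
  rw [← this]; norm_num; ring

theorem sq_one (hF : Fintype.card F = 2 ^ 2) {g : ↥(SU n F 2)} (hg : g ∈ US n F) : g * g = 1 := by
  have := charP_two hF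
  obtain ⟨p, hp, hp0, e⟩ := hg
  apply Subtype.ext
  rw [Subgroup.coe_mul, e, sq_tv]; rfl

theorem ne_one (hF : Fintype.card F = 2 ^ 2) {g : ↥(SU n F 2)} (hg : g ∈ US n F) : g ≠ 1 := by
  obtain ⟨p, hp, hp0, e⟩ := hg
  rintro rfl
  have : SLRoot.tv p (fn 2 p) (fn_self hp) 1 = 1 := e.symm
  exact one_ne_zero ((tv_eq_one (h := fn_self hp) hp0 (fn_ne hF hp0)).1 this)

theorem three (hF : Fintype.card F = 2 ^ 2) {p r : Fin n → F} (hp : hermForm n F 2 p p = 0) (hr : hermForm n F 2 r r = 0)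
    (h : hermForm n F 2 p r ≠ 0) : (SLRoot.tv p (fn 2 p) (fn_self hp) 1 * SLRoot.tv r (fn 2 r) (fn_self hr) 1) ^ 3 = 1 := by
  have := charP_two hF
  apply three_of
  rw [fn_dot, fn_dot, ← hermForm_swap hF p r, mul_comm]
  exact norm_one hF h

theorem conj_of_ne (hF : Fintype.card F = 2 ^ 2) {g g' : ↥(SU n F 2)} {p r : Fin n → F} (hp : hermForm n F 2 p p = 0)
    (hr : hermForm n F 2 r r = 0) (hp0 : p ≠ 0) (hr0 : r ≠ 0)
    (h : hermForm n F 2 p r ≠ 0) (e : (g : Matrix.SpecialLinearGroup (Fin n) F) = SLRoot.tv p (fn 2 p) (fn_self hp) 1)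
    (e' : (g' : Matrix.SpecialLinearGroup (Fin n) F) = SLRoot.tv r (fn 2 r) (fn_self hr) 1) : IsConj g g' := by
  have h3 : (g * g') ^ 3 = 1 := by
    apply Subtype.ext
    rw [Subgroup.coe_pow, Subgroup.coe_mul, e, e', three hF hp hr h]; rfl
  have hodd : Odd (orderOf (g * g')) := by
    have h4 := orderOf_dvd_of_pow_eq_one h3
    rcases (Nat.dvd_prime Nat.prime_three).1 h4 with h5 | h5 <;> rw [h5] <;> decide
  obtain ⟨x, hx⟩ := conj_of_odd' (sq_one hF ⟨p, hp, hp0, e⟩) (sq_one hF ⟨r, hr, hr0, e'⟩) hodd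
  rw [isConj_iff]
  exact ⟨x, hx.symm⟩

theorem conj_mem (hF : Fintype.card F = 2 ^ 2) {g : ↥(SU n F 2)} (hg : g ∈ US n F) (x : ↥(SU n F 2)) : x * g * x⁻¹ ∈ US n F := by
  obtain ⟨p, hp, hp0, e⟩ := hg
  have hm : g ∈ UG hp := ⟨1, e⟩
  have h1 : x * g * x⁻¹ ∈ conjBy (UG hp) x := RankOne.conj_mem_conjBy hm
  rw [conj_UG hp x] at h1
  obtain ⟨c, hc⟩ := h1
  have hc' : ((x * g * x⁻¹ : ↥(SU n F 2)) : Matrix.SpecialLinearGroup (Fin n) F) =
    SLRoot.tv ((x : Matrix.SpecialLinearGroup (Fin n) F).1 *ᵥ p) (fn 2 ((x : Matrix.SpecialLinearGroup (Fin n) F).1 *ᵥ p))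
      (fn_self (by rw [form_pres, hp])) c := hc
  have hp0' := sl_mulVec_ne x hp0
  have hmem : SLRoot.tv ((x : Matrix.SpecialLinearGroup (Fin n) F).1 *ᵥ p) (fn 2 ((x : Matrix.SpecialLinearGroup (Fin n) F).1 *ᵥ p))
      (fn_self (by rw [form_pres, hp])) c ∈ SU n F 2 := by rw [← hc']; exact (x * g * x⁻¹).2
  rw [tv_mem_iff hF hp0' (by rw [form_pres, hp])] at hmem
  have hc0 : c ≠ 0 := by
    rintro rfl
    rw [tv_zero] at hc'
    have h2 : x * g * x⁻¹ = 1 := Subtype.ext hc'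
    have h3 : g = 1 := by
      calc g = x⁻¹ * (x * g * x⁻¹) * x := by group
        _ = 1 := by rw [h2]; group
    exact ne_one hF ⟨p, hp, hp0, e⟩ h3
  have := c_eq_one hF hc0 hmem
  subst this
  exact ⟨_, (by rw [form_pres, hp]), hp0', hc'⟩

theorem rank_iff (hF : Fintype.card F = 2 ^ 2) (g : ↥(SU n F 2)) :
    (((g : Matrix.SpecialLinearGroup (Fin n) F) : Matrix (Fin n) (Fin n) F) - 1).rank = 1 ↔ g ∈ US n F := by
  constructor
  · intro h
    obtain ⟨v, φ, e, hv, hφ⟩ := H48.SLConj.exists_vecMulVec_of_rank_one h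
    have hg : (g : Matrix.SpecialLinearGroup (Fin n) F).1 = 1 + vecMulVec v φ := by
      rw [← e]; show _ = 1 + ((g : Matrix.SpecialLinearGroup (Fin n) F).1 - 1); abel
    have happ : ∀ x, (g : Matrix.SpecialLinearGroup (Fin n) F).1 *ᵥ x = x + (φ ⬝ᵥ x) • v := by
      intro x
      rw [hg, add_mulVec, one_mulVec]
      congr 1
      ext i
      simp only [mulVec, dotProduct, vecMulVec_apply, Pi.smul_apply, smul_eq_mul, Finset.sum_mul]
      apply Finset.sum_congr rfl
      intro j _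
      ring
    have hdet := (g : Matrix.SpecialLinearGroup (Fin n) F).2
    rw [hg, H48.SLConj.det_one_add_vecMulVec, add_eq_left] at hdet
    obtain ⟨x₀, hx₀⟩ : ∃ x₀, φ ⬝ᵥ x₀ = 1 := by
      obtain ⟨i, hi⟩ := Function.ne_iff.1 hφ
      exact ⟨Pi.single i (φ i)⁻¹, by rw [dotProduct_single]; exact mul_inv_cancel₀ hi⟩
    have h1 : ∀ y, φ ⬝ᵥ y = 0 → hermForm n F 2 v y = 0 := by
      intro y hy
      have := form_pres g x₀ y
      rw [happ, happ, hy, zero_smul, add_zero, hx₀, one_smul, hermForm_add_left, add_eq_left] at this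
      exact this
    have h1' : ∀ y, φ ⬝ᵥ y = 0 → hermForm n F 2 y v = 0 := by
      intro y hy
      rw [← hermForm_swap hF, h1 y hy, zero_pow_q hF]
    have h2 : ∀ x, hermForm n F 2 x v = (hermForm n F 2 x₀ v) * (φ ⬝ᵥ x) := by
      intro x
      have := h1' (x - (φ ⬝ᵥ x) • x₀) (by rw [dotProduct_sub, dotProduct_smul, hx₀, smul_eq_mul, mul_one, sub_self])
      rw [hermForm_sub_left, hermForm_smul_left] at this
      linear_combination this
    have h3 : hermForm n F 2 x₀ v ≠ 0 := by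
      intro h0
      apply hv
      apply eq_zero_of_forall_left hF
      intro x
      rw [h2, h0, zero_mul]
    have hvv : hermForm n F 2 v v = 0 := by rw [h2, hdet, mul_zero]
    have hgt : (g : Matrix.SpecialLinearGroup (Fin n) F) = SLRoot.tv v (fn 2 v) (fn_self hvv) (hermForm n F 2 x₀ v)⁻¹ := by
      apply Subtype.ext
      apply H16.Symp.mulVec_ext
      intro x
      refine (happ x).trans ?_
      refine Eq.trans ?_ (tv_apply v hvv _ x).symm
      rw [h2 x, inv_mul_cancel_left₀ h3]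
    have hmem : SLRoot.tv v (fn 2 v) (fn_self hvv) (hermForm n F 2 x₀ v)⁻¹ ∈ SU n F 2 := by rw [← hgt]; exact g.2
    rw [tv_mem_iff hF hv hvv] at hmem
    have := c_eq_one hF (inv_ne_zero h3) hmem
    rw [this] at hgt
    exact ⟨v, hvv, hv, hgt⟩
  · intro hg
    obtain ⟨p, hp, hp0, e⟩ := hg
    have h1 : ((g : Matrix.SpecialLinearGroup (Fin n) F) : Matrix (Fin n) (Fin n) F) - 1 = vecMulVec p (fn 2 p) := by
      rw [e, tv_coe, one_smul]; abel
    have h3 : (((g : Matrix.SpecialLinearGroup (Fin n) F) : Matrix (Fin n) (Fin n) F) - 1).rank ≤ 1 := by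
      rw [h1]; exact Matrix.rank_vecMulVec_le _ _
    have h4 : (((g : Matrix.SpecialLinearGroup (Fin n) F) : Matrix (Fin n) (Fin n) F) - 1).rank ≠ 0 := by
      intro h0
      unfold Matrix.rank at h0
      rw [Submodule.finrank_eq_zero, LinearMap.range_eq_bot] at h0
      apply vecMulVec_ne_zero hp0 (fn_ne hF hp0)
      rw [← h1]
      ext i j
      have := congrFun (LinearMap.congr_fun h0 (Pi.single j 1)) i
      rw [Matrix.mulVecLin_apply, mulVec_single_one] at this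
      exact this
    omega

theorem main (hF : Fintype.card F = 2 ^ 2) (n : ℕ) (hn : 4 ≤ n) :
    IsThreeTranspositionClass {g : ↥(SU n F 2) |
      (((g : Matrix.SpecialLinearGroup (Fin n) F) : Matrix (Fin n) (Fin n) F) - 1).rank = 1} := by
  have hset : {g : ↥(SU n F 2) | (((g : Matrix.SpecialLinearGroup (Fin n) F) : Matrix (Fin n) (Fin n) F) - 1).rank = 1} = US n F := by
    ext g; exact rank_iff hF g
  rw [hset]
  obtain ⟨m, rfl⟩ : ∃ m, n = m + 2 := ⟨n - 2, by omega⟩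
  have := charP_two hF
  obtain ⟨_, ⟨p₀, hp₀, hp₀0, -⟩⟩ := nonempty_UGS (n := m) hF
  obtain ⟨d, hd, ed⟩ := exists_mem hF hp₀ hp₀0
  refine ⟨⟨?_, ?_⟩, ⟨d, hd, ?_⟩, ?_⟩
  · intro g hg
    have : Fact (Nat.Prime 2) := ⟨Nat.prime_two⟩
    rw [orderOf_eq_prime_iff]
    exact ⟨by rw [pow_two, sq_one hF hg], ne_one hF hg⟩
  · rintro g ⟨p, hp, hp0, e⟩ g' ⟨r, hr, hr0, e'⟩
    by_cases h : hermForm (m + 2) F 2 p r = 0
    · left
      have hc := cm_UG hF hp hr h g ⟨1, e⟩ g' ⟨1, e'⟩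
      have h1 := sq_one hF ⟨p, hp, hp0, e⟩
      have h2 := sq_one hF ⟨r, hr, hr0, e'⟩
      rw [pow_two, mul_assoc, ← mul_assoc g', ← hc, mul_assoc g, h2, mul_one, h1]
    · right
      apply Subtype.ext
      rw [Subgroup.coe_pow, Subgroup.coe_mul, e, e', three hF hp hr h]; rfl
  · ext g
    change _ ↔ IsConj _ _
    constructor
    · rintro ⟨r, hr, hr0, e⟩
      obtain ⟨u, hu0, hu, h1, h2⟩ := exists_iso hF hp₀0 hp₀ hr0 hr
      obtain ⟨x, hx, ex⟩ := exists_mem hF hu hu0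
      exact (conj_of_ne hF hp₀ hu hp₀0 hu0 h1 ed ex).trans (conj_of_ne hF hu hr hu0 hr0 h2 ex e)
    · intro h
      rw [isConj_iff] at h
      obtain ⟨c, hc⟩ := h
      rw [← hc]
      exact conj_mem hF hd c
  · rw [eq_top_iff, ← H6.SUGenC.closure_eq_top hF (m + 2) (by omega) (by omega), Subgroup.closure_le]
    rintro g ⟨v, c, hv, e⟩
    by_cases hv0 : v = 0
    · have : g = 1 := by
        apply Subtype.ext
        apply Subtype.ext
        rw [e, hv0]
        simp [unitaryTransvection]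
      rw [this]; exact one_mem _
    · by_cases hc0 : c = 0
      · have : g = 1 := by
          apply Subtype.ext
          apply Subtype.ext
          rw [e, hc0]
          simp [unitaryTransvection]
        rw [this]; exact one_mem _
      · have hg : (g : Matrix.SpecialLinearGroup (Fin (m + 2)) F) = SLRoot.tv v (fn 2 v) (fn_self hv) c := by
          apply Subtype.ext
          rw [e]; rfl
        have hmem : SLRoot.tv v (fn 2 v) (fn_self hv) c ∈ SU (m + 2) F 2 := by rw [← hg]; exact g.2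
        rw [tv_mem_iff hF hv0 hv] at hmem
        have := c_eq_one hF hc0 hmem
        rw [this] at hg
        exact Subgroup.subset_closure ⟨v, hv, hv0, hg⟩

end H85.SUThree
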