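import Cfsg.Agent.Lib.H85.RootPull

/-!
Siegel transvection groups of the plus type quadratic form (S5072), part 1: algebra of the Siegel transvections.
-/
set_option autoImplicit false
set_option maxHeartbeats 400000

namespace H85.SiegelRoot

open Cfsg H85.RankOne H85.RankOneTrans H85.RootSub H85.RootSub2 H85.RootComp H85.RootLine H85.RootSpecial H85.SLRoot H85.RootPull
open Matrix

variable {N : ℕ} {F : Type*} [Field F]

/-- the swapped vector, giving the polar form as a dot product -/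
def bv (u : Fin N ⊕ Fin N → F) : Fin N ⊕ Fin N → F := Sum.elim (fun i => u (.inr i)) (fun i => u (.inl i))

/-- the polar form -/
def B (u v : Fin N ⊕ Fin N → F) : F := bv u ⬝ᵥ v

theorem B_eq (u v : Fin N ⊕ Fin N → F) : B u v = ∑ i, (u (.inr i) * v (.inl i) + u (.inl i) * v (.inr i)) := by
  unfold B bv dotProduct
  rw [Fintype.sum_sum_type, ← Finset.sum_add_distrib]
  rfl

theorem B_symm (u v : Fin N ⊕ Fin N → F) : B u v = B v u := by
  rw [B_eq, B_eq]
  apply Finset.sum_congr rfl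
  intros; ring

theorem B_add_right (u v w : Fin N ⊕ Fin N → F) : B u (v + w) = B u v + B u w := dotProduct_add _ _ _
theorem B_smul_right (c : F) (u v : Fin N ⊕ Fin N → F) : B u (c • v) = c * B u v := by
  unfold B; rw [dotProduct_smul, smul_eq_mul]
theorem B_sub_right (u v w : Fin N ⊕ Fin N → F) : B u (v - w) = B u v - B u w := dotProduct_sub _ _ _
theorem B_neg_right (u v : Fin N ⊕ Fin N → F) : B u (-v) = - B u v := dotProduct_neg _ _
theorem B_zero_right (u : Fin N ⊕ Fin N → F) : B u 0 = 0 := dotProduct_zero _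
theorem B_add_left (u v w : Fin N ⊕ Fin N → F) : B (u + v) w = B u w + B v w := by
  rw [B_symm, B_add_right, B_symm w, B_symm w]
theorem B_smul_left (c : F) (u v : Fin N ⊕ Fin N → F) : B (c • u) v = c * B u v := by
  rw [B_symm, B_smul_right, B_symm v]
theorem B_sub_left (u v w : Fin N ⊕ Fin N → F) : B (u - v) w = B u w - B v w := by
  rw [B_symm, B_sub_right, B_symm w, B_symm w]
theorem B_neg_left (u v : Fin N ⊕ Fin N → F) : B (-u) v = - B u v := by
  rw [B_symm, B_neg_right, B_symm v]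
theorem B_zero_left (u : Fin N ⊕ Fin N → F) : B 0 u = 0 := by rw [B_symm, B_zero_right]

theorem Q_add (u v : Fin N ⊕ Fin N → F) : quadFormPlus N F (u + v) = quadFormPlus N F u + quadFormPlus N F v + B u v := by
  rw [B_eq]
  unfold quadFormPlus
  rw [← Finset.sum_add_distrib, ← Finset.sum_add_distrib]
  apply Finset.sum_congr rfl
  intro i _
  simp only [Pi.add_apply]; ring

theorem Q_smul (c : F) (u : Fin N ⊕ Fin N → F) : quadFormPlus N F (c • u) = c * c * quadFormPlus N F u := by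
  unfold quadFormPlus
  rw [Finset.mul_sum]
  apply Finset.sum_congr rfl
  intro i _
  simp only [Pi.smul_apply, smul_eq_mul]; ring

theorem Q_zero : quadFormPlus N F (0 : Fin N ⊕ Fin N → F) = 0 := by
  unfold quadFormPlus; simp

theorem B_self (u : Fin N ⊕ Fin N → F) : B u u = 2 * quadFormPlus N F u := by
  rw [B_eq]
  unfold quadFormPlus
  rw [Finset.mul_sum]
  apply Finset.sum_congr rfl
  intro i _
  ring

theorem Q_sub (u v : Fin N ⊕ Fin N → F) : quadFormPlus N F (u - v) = quadFormPlus N F u + quadFormPlus N F v - B u v := by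
  have : u - v = u + (-1 : F) • v := by rw [neg_smul, one_smul, sub_eq_add_neg]
  rw [this, Q_add, Q_smul, B_smul_right]; ring

theorem nondeg {u : Fin N ⊕ Fin N → F} (h : ∀ v, B u v = 0) : u = 0 := by
  have hb : ∀ i, bv u i = 0 := by
    intro i
    have := h (Pi.single i 1)
    unfold B at this
    rwa [dotProduct_single, mul_one] at this
  ext (i | i)
  · exact hb (.inr i)
  · exact hb (.inl i)

theorem bv_add (u v : Fin N ⊕ Fin N → F) : bv (u + v) = bv u + bv v := by
  ext (i | i) <;> rfl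
theorem bv_smul (c : F) (u : Fin N ⊕ Fin N → F) : bv (c • u) = c • bv u := by
  ext (i | i) <;> rfl
theorem bv_neg (u : Fin N ⊕ Fin N → F) : bv (-u) = -bv u := by
  ext (i | i) <;> rfl

/-- a singular pair -/
structure Sing (p r : Fin N ⊕ Fin N → F) : Prop where
  q1 : quadFormPlus N F p = 0
  q2 : quadFormPlus N F r = 0
  b : B p r = 0

theorem Sing.symm {p r : Fin N ⊕ Fin N → F} (h : Sing p r) : Sing r p := ⟨h.q2, h.q1, by rw [B_symm, h.b]⟩

theorem Sing.b1 {p r : Fin N ⊕ Fin N → F} (h : Sing p r) : B p p = 0 := by rw [B_self, h.q1, mul_zero]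
theorem Sing.b2 {p r : Fin N ⊕ Fin N → F} (h : Sing p r) : B r r = 0 := by rw [B_self, h.q2, mul_zero]
theorem Sing.b' {p r : Fin N ⊕ Fin N → F} (h : Sing p r) : B r p = 0 := by rw [B_symm, h.b]

theorem Sing.comb {p r : Fin N ⊕ Fin N → F} (h : Sing p r) (a b c d : F) : Sing (a • p + b • r) (c • p + d • r) := by
  refine ⟨?_, ?_, ?_⟩
  · rw [Q_add, Q_smul, Q_smul, h.q1, h.q2, B_smul_left, B_smul_right, h.b]; ring
  · rw [Q_add, Q_smul, Q_smul, h.q1, h.q2, B_smul_left, B_smul_right, h.b]; ring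
  · simp only [B_add_left, B_add_right, B_smul_left, B_smul_right, h.b, h.b', h.b1, h.b2]; ring

/-- the nilpotent part of the Siegel transvections -/
def Nm (p r : Fin N ⊕ Fin N → F) : Matrix (Fin N ⊕ Fin N) (Fin N ⊕ Fin N) F := vecMulVec p (bv r) - vecMulVec r (bv p)

theorem vmv_mulVec (x y u : Fin N ⊕ Fin N → F) : vecMulVec x y *ᵥ u = (y ⬝ᵥ u) • x := by
  ext i
  simp only [mulVec, dotProduct, vecMulVec_apply, Pi.smul_apply, smul_eq_mul, Finset.sum_mul]
  apply Finset.sum_congr rfl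
  intro j _
  ring

theorem Nm_mulVec (p r x : Fin N ⊕ Fin N → F) : Nm p r *ᵥ x = (B r x) • p - (B p x) • r := by
  unfold Nm
  rw [sub_mulVec, vmv_mulVec, vmv_mulVec]; rfl

theorem Nm_mul (p r p' r' : Fin N ⊕ Fin N → F) : Nm p r * Nm p' r' =
    (B r p') • vecMulVec p (bv r') - (B r r') • vecMulVec p (bv p') - (B p p') • vecMulVec r (bv r') +
      (B p r') • vecMulVec r (bv p') := by
  unfold Nm
  rw [sub_mul, mul_sub, mul_sub, vv, vv, vv, vv]
  unfold B
  abel

theorem Nm_comb (p r : Fin N ⊕ Fin N → F) (a b c d : F) : Nm (a • p + b • r) (c • p + d • r) = (a * d - b * c) • Nm p r := by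
  ext i j
  simp only [Nm, bv_add, bv_smul, Matrix.sub_apply, vecMulVec_apply, Pi.add_apply, Pi.smul_apply, smul_eq_mul, Matrix.smul_apply]
  ring

theorem Nm_swap (p r : Fin N ⊕ Fin N → F) : Nm r p = - Nm p r := by
  unfold Nm; abel

theorem Nm_sq {p r : Fin N ⊕ Fin N → F} (h : Sing p r) : Nm p r * Nm p r = 0 := by
  rw [Nm_mul, h.b, h.b1, h.b2, h.b']; simp

theorem sgM_mul {p r : Fin N ⊕ Fin N → F} (h : Sing p r) (c d : F) : (1 + c • Nm p r) * (1 + d • Nm p r) = 1 + (c + d) • Nm p r := by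
  rw [mul_add, add_mul, add_mul, one_mul, one_mul, mul_one, smul_mul_smul_comm, Nm_sq h, smul_zero, add_zero, add_smul, add_assoc]

theorem sgM_Q {p r : Fin N ⊕ Fin N → F} (h : Sing p r) (c : F) (x : Fin N ⊕ Fin N → F) :
    quadFormPlus N F ((1 + c • Nm p r) *ᵥ x) = quadFormPlus N F x := by
  rw [add_mulVec, one_mulVec, smul_mulVec, Nm_mulVec, Q_add, Q_smul, Q_sub, Q_smul, Q_smul, h.q1, h.q2]
  simp only [B_smul_right, B_smul_left, B_sub_right, h.b]
  rw [B_symm x p, B_symm x r]; ring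

/-- the Siegel transvection -/
def sg {p r : Fin N ⊕ Fin N → F} (h : Sing p r) (c : F) : ↥(isometryGroup F (quadFormPlus N F)) :=
  ⟨⟨1 + c • Nm p r, 1 + (-c) • Nm p r, by rw [sgM_mul h]; simp, by rw [sgM_mul h]; simp⟩, fun x _ => sgM_Q h c x⟩

/-- coercion to matrices -/
def coeM (N : ℕ) (F : Type*) [Field F] : ↥(isometryGroup F (quadFormPlus N F)) →* Matrix (Fin N ⊕ Fin N) (Fin N ⊕ Fin N) F where
  toFun g := ((g : Matrix.GeneralLinearGroup (Fin N ⊕ Fin N) F) : Matrix (Fin N ⊕ Fin N) (Fin N ⊕ Fin N) F)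
  map_one' := rfl
  map_mul' _ _ := rfl

theorem coeM_injective : Function.Injective (coeM N F) := fun _ _ e => Subtype.ext (Units.ext e)

theorem coe_sg {p r : Fin N ⊕ Fin N → F} (h : Sing p r) (c : F) : coeM N F (sg h c) = 1 + c • Nm p r := rfl

theorem sg_add {p r : Fin N ⊕ Fin N → F} (h : Sing p r) (c d : F) : sg h (c + d) = sg h c * sg h d := by
  apply coeM_injective
  rw [map_mul, coe_sg, coe_sg, coe_sg, sgM_mul h]

theorem sg_zero {p r : Fin N ⊕ Fin N → F} (h : Sing p r) : sg h 0 = 1 := by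
  apply coeM_injective
  rw [coe_sg, zero_smul, add_zero, map_one]

theorem sg_inv {p r : Fin N ⊕ Fin N → F} (h : Sing p r) (c : F) : (sg h c)⁻¹ = sg h (-c) := by
  rw [inv_eq_iff_mul_eq_one, ← sg_add, add_neg_cancel, sg_zero]

/-- the Siegel transvection group -/
def TL {p r : Fin N ⊕ Fin N → F} (h : Sing p r) : Subgroup ↥(isometryGroup F (quadFormPlus N F)) where
  carrier := {g | ∃ c, g = sg h c}
  one_mem' := ⟨0, (sg_zero h).symm⟩
  mul_mem' := by
    rintro _ _ ⟨c, rfl⟩ ⟨d, rfl⟩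
    exact ⟨c + d, (sg_add h c d).symm⟩
  inv_mem' := by
    rintro _ ⟨c, rfl⟩
    exact ⟨-c, sg_inv h c⟩

theorem sg_mem {p r : Fin N ⊕ Fin N → F} (h : Sing p r) (c : F) : sg h c ∈ TL h := ⟨c, rfl⟩

theorem TL_comm {p r : Fin N ⊕ Fin N → F} (h : Sing p r) : Cm (TL h) (TL h) := by
  rintro _ ⟨c, rfl⟩ _ ⟨d, rfl⟩
  rw [← sg_add, ← sg_add, add_comm]

theorem TL_eq_of {p r p' r' : Fin N ⊕ Fin N → F} (h : Sing p r) (h' : Sing p' r') {a : F} (ha : a ≠ 0)
    (e : Nm p' r' = a • Nm p r) : TL h' = TL h := by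
  ext x
  constructor
  · rintro ⟨c, rfl⟩
    refine ⟨c * a, coeM_injective ?_⟩
    rw [coe_sg, coe_sg, e, smul_smul]
  · rintro ⟨c, rfl⟩
    refine ⟨c / a, coeM_injective ?_⟩
    rw [coe_sg, coe_sg, e, smul_smul, div_mul_cancel₀ _ ha]

theorem TL_comb {p r : Fin N ⊕ Fin N → F} (h : Sing p r) {a b c d : F} (hD : a * d - b * c ≠ 0) :
    TL (h.comb a b c d) = TL h := TL_eq_of h _ hD (Nm_comb p r a b c d)

theorem TL_swap {p r : Fin N ⊕ Fin N → F} (h : Sing p r) : TL h.symm = TL h :=
  TL_eq_of h h.symm (a := -1) (by simp) (by rw [Nm_swap, neg_smul, one_smul])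

/-- linear independence of two vectors -/
def Lin (p r : Fin N ⊕ Fin N → F) : Prop := ∀ s t : F, s • p + t • r = 0 → s = 0 ∧ t = 0

theorem Lin.symm {p r : Fin N ⊕ Fin N → F} (h : Lin p r) : Lin r p := fun s t e => by
  have := h t s (by rw [add_comm]; exact e)
  exact ⟨this.2, this.1⟩

theorem Lin.ne_left {p r : Fin N ⊕ Fin N → F} (h : Lin p r) : p ≠ 0 := by
  rintro rfl
  have := (h 1 0 (by simp)).1
  exact one_ne_zero this

theorem Lin.ne_right {p r : Fin N ⊕ Fin N → F} (h : Lin p r) : r ≠ 0 := h.symm.ne_left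

/-- dual vectors -/
theorem exists_dual {p r : Fin N ⊕ Fin N → F} (h : Lin p r) : ∃ x, B p x = 1 ∧ B r x = 0 := by
  have hr : ∃ u, B r u ≠ 0 := by
    by_contra hc; push Not at hc; exact h.ne_right (nondeg hc)
  obtain ⟨u, hu⟩ := hr
  by_contra hc
  push Not at hc
  have h1 : ∀ x, B r x = 0 → B p x = 0 := by
    intro x hx
    by_contra h0
    exact hc ((B p x)⁻¹ • x) (by rw [B_smul_right, inv_mul_cancel₀ h0]) (by rw [B_smul_right, hx, mul_zero])
  have h2 : (1 : F) • p + (-(B p u / B r u)) • r = 0 := by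
    apply nondeg
    intro v
    have := h1 (v - (B r v / B r u) • u) (by rw [B_sub_right, B_smul_right, div_mul_cancel₀ _ hu, sub_self])
    rw [B_sub_right, B_smul_right] at this
    rw [B_add_left, B_smul_left, B_smul_left]
    rw [one_mul]
    have e : B p v = B r v / B r u * B p u := sub_eq_zero.1 this
    rw [e]; ring
  exact one_ne_zero (h _ _ h2).1

theorem TL_ne_bot {p r : Fin N ⊕ Fin N → F} (hl : Lin p r) (h : Sing p r) : TL h ≠ ⊥ := by
  intro e
  obtain ⟨x, h1, h2⟩ := exists_dual hl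
  have h3 : sg h 1 ∈ (⊥ : Subgroup ↥(isometryGroup F (quadFormPlus N F))) := by rw [← e]; exact sg_mem _ _
  rw [Subgroup.mem_bot] at h3
  have h4 := congrArg (coeM N F) h3
  rw [coe_sg, map_one, one_smul, add_eq_left] at h4
  have h5 : Nm p r *ᵥ x = 0 := by rw [h4, zero_mulVec]
  rw [Nm_mulVec, h1, h2, zero_smul, zero_sub, one_smul, neg_eq_zero] at h5
  exact hl.ne_right h5

theorem sg_ne_one {p r : Fin N ⊕ Fin N → F} (hl : Lin p r) (h : Sing p r) {c : F} : sg h c = 1 ↔ c = 0 := by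
  constructor
  · intro e
    by_contra hc
    apply TL_ne_bot hl h
    rw [eq_bot_iff]
    rintro _ ⟨d, rfl⟩
    rw [Subgroup.mem_bot]
    have h1 := congrArg (coeM N F) e
    rw [coe_sg, map_one, add_eq_left, smul_eq_zero] at h1
    rcases h1 with h1 | h1
    · exact absurd h1 hc
    · apply coeM_injective
      rw [coe_sg, h1, smul_zero, add_zero, map_one]
  · rintro rfl; exact sg_zero h

/-! ### conjugation -/

theorem form_pres (g : ↥(isometryGroup F (quadFormPlus N F))) (u v : Fin N ⊕ Fin N → F) : B (coeM N F g *ᵥ u) (coeM N F g *ᵥ v) = B u v := by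
  have hq : ∀ x, quadFormPlus N F (coeM N F g *ᵥ x) = quadFormPlus N F x := fun x => g.2 x x
  have h1 := hq (u + v)
  rw [mulVec_add, Q_add, Q_add, hq, hq] at h1
  exact add_left_cancel h1

theorem sing_map {p r : Fin N ⊕ Fin N → F} (h : Sing p r) (g : ↥(isometryGroup F (quadFormPlus N F))) :
    Sing (coeM N F g *ᵥ p) (coeM N F g *ᵥ r) := by
  have hq : ∀ x, quadFormPlus N F (coeM N F g *ᵥ x) = quadFormPlus N F x := fun x => g.2 x x
  exact ⟨by rw [hq, h.q1], by rw [hq, h.q2], by rw [form_pres, h.b]⟩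

theorem inv_apply (g : ↥(isometryGroup F (quadFormPlus N F))) (x : Fin N ⊕ Fin N → F) : coeM N F g⁻¹ *ᵥ (coeM N F g *ᵥ x) = x := by
  rw [mulVec_mulVec, ← map_mul, inv_mul_cancel, map_one, one_mulVec]

theorem lin_map {p r : Fin N ⊕ Fin N → F} (h : Lin p r) (g : ↥(isometryGroup F (quadFormPlus N F))) :
    Lin (coeM N F g *ᵥ p) (coeM N F g *ᵥ r) := by
  intro s t e
  apply h
  have := congrArg (fun z => coeM N F g⁻¹ *ᵥ z) e
  rw [mulVec_add, mulVec_smul, mulVec_smul, inv_apply, inv_apply, mulVec_zero] at this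
  exact this

theorem mext {A C : Matrix (Fin N ⊕ Fin N) (Fin N ⊕ Fin N) F} (h : ∀ x, A *ᵥ x = C *ᵥ x) : A = C := by
  ext i j
  have := congrFun (h (Pi.single j 1)) i
  simpa using this

theorem conj_sg {p r : Fin N ⊕ Fin N → F} (h : Sing p r) (g : ↥(isometryGroup F (quadFormPlus N F))) (c : F) :
    g * sg h c * g⁻¹ = sg (sing_map h g) c := by
  rw [mul_inv_eq_iff_eq_mul]
  apply coeM_injective
  rw [map_mul, map_mul, coe_sg, coe_sg]
  apply mext
  intro x
  rw [← mulVec_mulVec, ← mulVec_mulVec, add_mulVec, add_mulVec, one_mulVec, one_mulVec, smul_mulVec, smul_mulVec, Nm_mulVec,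
    Nm_mulVec, form_pres, form_pres, mulVec_add, mulVec_smul, mulVec_sub, mulVec_smul, mulVec_smul]

theorem conj_TL {p r : Fin N ⊕ Fin N → F} (h : Sing p r) (g : ↥(isometryGroup F (quadFormPlus N F))) :
    conjBy (TL h) g = TL (sing_map h g) := by
  ext x
  constructor
  · rintro ⟨y, ⟨c, rfl⟩, rfl⟩
    exact ⟨c, conj_sg h g c⟩
  · rintro ⟨c, rfl⟩
    rw [← conj_sg h]
    exact conj_mem_conjBy (sg_mem _ _)

/-! ### pairs -/

section Pairs

variable {p r p' r' : Fin N ⊕ Fin N → F}

/-- the block diagonal embedding -/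
def dbl (F : Type*) [Field F] : Matrix.SpecialLinearGroup (Fin 2) F →* Matrix (Fin 2 ⊕ Fin 2) (Fin 2 ⊕ Fin 2) F where
  toFun g := Matrix.fromBlocks (g : Matrix (Fin 2) (Fin 2) F) 0 0 (g : Matrix (Fin 2) (Fin 2) F)
  map_one' := by rw [Matrix.SpecialLinearGroup.coe_one, Matrix.fromBlocks_one]
  map_mul' g h := by rw [Matrix.SpecialLinearGroup.coe_mul, Matrix.fromBlocks_multiply]; simp

theorem dbl_injective : Function.Injective (dbl F) := by
  intro g h e
  have h1 : Matrix.fromBlocks (g : Matrix (Fin 2) (Fin 2) F) 0 0 (g : Matrix (Fin 2) (Fin 2) F) =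
    Matrix.fromBlocks (h : Matrix (Fin 2) (Fin 2) F) 0 0 (h : Matrix (Fin 2) (Fin 2) F) := e
  exact Subtype.ext (Matrix.fromBlocks_inj.1 h1).1

theorem opp_one (h : Sing p r) (h' : Sing p' r') (h1 : B p p' = 1) (h2 : B p r' = 0) (h3 : B r p' = 0) (h4 : B r r' = 1) :
    IsPSL2PairOver F (TL h) (TL h') ∧ IsRankOnePair (TL h) (TL h') := by
  let P1 : Matrix (Fin N ⊕ Fin N) (Fin 2) F := Matrix.of fun i => ![p i, r' i]
  let P2 : Matrix (Fin N ⊕ Fin N) (Fin 2) F := Matrix.of fun i => ![-r i, p' i]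
  let Q1 : Matrix (Fin 2) (Fin N ⊕ Fin N) F := Matrix.of ![bv p', bv r]
  let Q2 : Matrix (Fin 2) (Fin N ⊕ Fin N) F := Matrix.of ![-bv r', bv p]
  let P : Matrix (Fin N ⊕ Fin N) (Fin 2 ⊕ Fin 2) F := Matrix.fromCols P1 P2
  let Q : Matrix (Fin 2 ⊕ Fin 2) (Fin N ⊕ Fin N) F := Matrix.fromRows Q1 Q2
  have hd : ∀ u v : Fin N ⊕ Fin N → F, ∑ x, bv u x * v x = B u v := fun _ _ => rfl
  have hQP : Q * P = 1 := by
    show Matrix.fromRows Q1 Q2 * Matrix.fromCols P1 P2 = 1
    rw [Matrix.fromRows_mul_fromCols, ← Matrix.fromBlocks_one]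
    congr 1
    · ext i j
      fin_cases i <;> fin_cases j <;>
        simp only [Matrix.mul_apply, P1, Q1] <;> simp [hd]
      · rw [B_symm, h1]
      · rw [h'.b]
      · rw [h.b']
      · rw [h4]
    · ext i j
      fin_cases i <;> fin_cases j <;>
        simp only [Matrix.mul_apply, P2, Q1] <;> simp [hd]
      · rw [B_symm, h3]
      · rw [h'.b1]
      · rw [h.b2]
      · rw [h3]
    · ext i j
      fin_cases i <;> fin_cases j <;>
        simp only [Matrix.mul_apply, P1, Q2] <;> simp [hd]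
      · rw [B_symm, h2]
      · rw [h'.b2]
      · rw [h.b1]
      · rw [h2]
    · ext i j
      fin_cases i <;> fin_cases j <;>
        simp only [Matrix.mul_apply, P2, Q2] <;> simp [hd]
      · rw [B_symm, h4]
      · rw [h'.b']
      · rw [h.b]
      · rw [h1]
  have hform : ∀ g : Matrix.SpecialLinearGroup (Fin 2) F, (emb P Q hQP).comp (dbl F) g =
      1 + (P1 * ((g : Matrix (Fin 2) (Fin 2) F) - 1) * Q1 + P2 * ((g : Matrix (Fin 2) (Fin 2) F) - 1) * Q2) := by
    intro g
    rw [MonoidHom.comp_apply, emb_apply]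
    congr 1
    show Matrix.fromCols P1 P2 * (Matrix.fromBlocks (g : Matrix (Fin 2) (Fin 2) F) 0 0 (g : Matrix (Fin 2) (Fin 2) F) - 1) *
      Matrix.fromRows Q1 Q2 = _
    rw [← Matrix.fromBlocks_one, sub_eq_add_neg, Matrix.fromBlocks_neg, Matrix.fromBlocks_add, neg_zero, add_zero,
      Matrix.fromCols_mul_fromBlocks, Matrix.mul_zero, Matrix.mul_zero, add_zero, zero_add, Matrix.fromCols_mul_fromRows,
      ← sub_eq_add_neg]
  have hup : ∀ t : F, (emb P Q hQP).comp (dbl F) (SL2.up t) = 1 + t • Nm p r := by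
    intro t
    rw [hform]
    congr 1
    ext i j
    simp [Matrix.mul_apply, P1, Q1, P2, Q2, Nm, Fin.sum_univ_two, vecMulVec_apply]
    ring
  have hlo : ∀ t : F, (emb P Q hQP).comp (dbl F) (SL2.lo t) = 1 + (-t) • Nm p' r' := by
    intro t
    rw [hform]
    congr 1
    ext i j
    simp [Matrix.mul_apply, P1, Q1, P2, Q2, Nm, Fin.sum_univ_two, vecMulVec_apply]
    ring
  apply core ((emb P Q hQP).comp (dbl F)) ((emb_injective P Q hQP).comp dbl_injective) (coeM N F) coeM_injective
  · intro t; exact ⟨sg h t, sg_mem _ _, by rw [hup, coe_sg]⟩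
  · rintro _ ⟨t, rfl⟩; exact ⟨t, by rw [hup, coe_sg]⟩
  · intro t; exact ⟨sg h' (-t), sg_mem _ _, by rw [hlo, coe_sg]⟩
  · rintro _ ⟨t, rfl⟩; exact ⟨-t, by rw [hlo, coe_sg, neg_neg]⟩

theorem opp (h : Sing p r) (h' : Sing p' r') (hD : B p p' * B r r' - B p r' * B r p' ≠ 0) :
    IsPSL2PairOver F (TL h) (TL h') ∧ IsRankOnePair (TL h) (TL h') := by
  set D := B p p' * B r r' - B p r' * B r p' with hDdef
  have e : TL (h'.comb (B r r' / D) (-(B r p' / D)) (-(B p r' / D)) (B p p' / D)) = TL h' := by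
    apply TL_comb
    have : B r r' / D * (B p p' / D) - -(B r p' / D) * -(B p r' / D) = (B p p' * B r r' - B p r' * B r p') / (D * D) := by
      field_simp
    rw [this, ← hDdef]
    exact div_ne_zero hD (mul_ne_zero hD hD)
  rw [← e]
  apply opp_one
  · rw [B_add_right, B_smul_right, B_smul_right]
    have : B r r' / D * B p p' + -(B r p' / D) * B p r' = (B p p' * B r r' - B p r' * B r p') / D := by
      field_simp; ring
    rw [this, ← hDdef, div_self hD]
  · rw [B_add_right, B_smul_right, B_smul_right]; ring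
  · rw [B_add_right, B_smul_right, B_smul_right]; ring
  · rw [B_add_right, B_smul_right, B_smul_right]
    have : -(B p r' / D) * B r p' + B p p' / D * B r r' = (B p p' * B r r' - B p r' * B r p') / D := by
      field_simp; ring
    rw [this, ← hDdef, div_self hD]

theorem cm_of_mat (h : Sing p r) (h' : Sing p' r') (e : Nm p r * Nm p' r' = Nm p' r' * Nm p r) : Cm (TL h) (TL h') := by
  rintro _ ⟨c, rfl⟩ _ ⟨d, rfl⟩
  apply coeM_injective
  rw [map_mul, map_mul, coe_sg, coe_sg]
  simp only [mul_add, add_mul, one_mul, mul_one, smul_mul_assoc, mul_smul_comm]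
  rw [e]
  module

theorem cm_zero (h : Sing p r) (h' : Sing p' r') (h1 : B p p' = 0) (h2 : B p r' = 0) (h3 : B r p' = 0) (h4 : B r r' = 0) :
    Cm (TL h) (TL h') := by
  apply cm_of_mat
  rw [Nm_mul, Nm_mul, h1, h2, h3, h4, B_symm r' p, B_symm r' r, B_symm p' p, B_symm p' r, h1, h2, h3, h4]
  simp

/-- the matrix identity of the commutator case -/
theorem Nm_comm (h1 : B p p' = 0) (h2 : B p r' = 0) (h3 : B r p' = 0) :
    Nm p r * Nm p' r' = Nm p' r' * Nm p r + (B r r') • Nm p' p := by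
  rw [Nm_mul, Nm_mul, h1, h2, h3, B_symm r' p, B_symm r' r, B_symm p' p, B_symm p' r, h1, h2, h3]
  unfold Nm
  simp only [zero_smul, sub_zero, zero_sub, add_zero, smul_sub]
  abel

theorem comm_sg (h : Sing p r) (h' : Sing p' r') (h1 : B p p' = 0) (h2 : B p r' = 0) (h3 : B r p' = 0) (hs : Sing p' p) (c d : F) :
    sg h c * sg h' d * (sg h c)⁻¹ * (sg h' d)⁻¹ = sg hs (c * d * B r r') := by
  rw [mul_inv_eq_iff_eq_mul, mul_inv_eq_iff_eq_mul]
  apply coeM_injective
  rw [map_mul, map_mul, map_mul, coe_sg, coe_sg, coe_sg]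
  have e1 : Nm p' p * Nm p' r' = 0 := by
    rw [Nm_mul, h1, h2, h'.b1, h'.b]; simp
  have e2 : Nm p' p * Nm p r = 0 := by
    rw [Nm_mul, hs.b, h.b1, h.b, B_symm p' r, h3]; simp
  have e := Nm_comm h1 h2 h3 (r' := r')
  generalize Nm p r = X at *
  generalize Nm p' r' = Y at *
  generalize Nm p' p = Z at *
  have e3 : (1 + (c * d * B r r') • Z) * (1 + d • Y) * (1 + c • X) =
      1 + d • Y + c • X + (c * d) • (Y * X) + (c * d * B r r') • Z + (c * d * B r r' * d) • (Z * Y) +
        (c * d * B r r' * c) • (Z * X) + (c * d * B r r' * d * c) • (Z * Y * X) := by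
    simp only [mul_add, add_mul, one_mul, mul_one, smul_mul_assoc, mul_smul_comm]
    module
  rw [e3, e1, e2, zero_mul, smul_zero, smul_zero, smul_zero, add_zero, add_zero, add_zero]
  have e4 : (1 + c • X) * (1 + d • Y) = 1 + d • Y + c • X + (c * d) • (X * Y) := by
    simp only [mul_add, add_mul, one_mul, mul_one, smul_mul_assoc, mul_smul_comm]
    module
  rw [e4, e, smul_add, smul_smul]
  abel

end Pairs

/-- the set of Siegel transvection groups -/
def LS (N : ℕ) (F : Type*) [Field F] : Set (Subgroup ↥(isometryGroup F (quadFormPlus N F))) :=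
  {A | ∃ (p r : Fin N ⊕ Fin N → F) (h : Sing p r), Lin p r ∧ A = TL h}

section Pairs2

variable {p r p' r' : Fin N ⊕ Fin N → F}

theorem case_of (h : Sing p r) (h' : Sing p' r') (hl : Lin p r) (hl' : Lin p' r') (h1 : B p p' = 0) (h2 : B p r' = 0)
    (h3 : B r p' = 0) (h4 : B r r' ≠ 0) (hll : Lin p' p) : RootCommutatorCase (LS N F) (TL h) (TL h') := by
  have hs : Sing p' p := ⟨h'.q1, h.q1, by rw [B_symm, h1]⟩
  have e : ⁅TL h, TL h'⁆ = TL hs := by
    apply le_antisymm
    · rw [Subgroup.commutator_le]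
      rintro _ ⟨c, rfl⟩ _ ⟨d, rfl⟩
      exact ⟨_, comm_sg h h' h1 h2 h3 hs c d⟩
    · rintro _ ⟨c, rfl⟩
      have : sg hs c = sg h (c / B r r') * sg h' 1 * (sg h (c / B r r'))⁻¹ * (sg h' 1)⁻¹ := by
        rw [comm_sg h h' h1 h2 h3 hs]
        congr 1
        field_simp
      rw [this]
      exact bracket_mem (sg_mem _ _) (sg_mem _ _)
  refine ⟨?_, ?_, ?_, ?_⟩
  · rw [e]; exact ⟨p', p, hs, hll, rfl⟩
  · rw [e]
    apply cm_sup_right
    · apply cm_zero
      · rw [B_symm, h1]
      · rw [B_symm, h3]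
      · exact h.b1
      · exact h.b
    · apply cm_zero
      · exact h'.b1
      · exact h'.b
      · exact h1
      · exact h2
  · rintro _ ⟨c, rfl⟩ hc
    rw [e]
    have hc0 : c ≠ 0 := fun h0 => hc ((sg_ne_one hl h).2 h0)
    apply le_antisymm
    · rw [Subgroup.closure_le]
      rintro _ ⟨_, ⟨d, rfl⟩, rfl⟩
      exact ⟨_, comm_sg h h' h1 h2 h3 hs c d⟩
    · rintro _ ⟨x, rfl⟩
      apply Subgroup.subset_closure
      refine ⟨sg h' (x / (c * B r r')), sg_mem _ _, ?_⟩
      show _ * _ * _ * _ = _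
      rw [comm_sg h h' h1 h2 h3 hs]
      congr 1
      field_simp
  · rintro _ ⟨d, rfl⟩ hd
    rw [e]
    have hd0 : d ≠ 0 := fun h0 => hd ((sg_ne_one hl' h').2 h0)
    apply le_antisymm
    · rw [Subgroup.closure_le]
      rintro _ ⟨_, ⟨c, rfl⟩, rfl⟩
      exact ⟨_, comm_sg h h' h1 h2 h3 hs c d⟩
    · rintro _ ⟨x, rfl⟩
      apply Subgroup.subset_closure
      refine ⟨sg h (x / (d * B r r')), sg_mem _ _, ?_⟩
      show _ * _ * _ * _ = _
      rw [comm_sg h h' h1 h2 h3 hs]
      congr 1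
      field_simp

/-- the case of a pairing of rank one in normal form -/
theorem rank_one_nf (h : Sing p r) (h' : Sing p' r') (hl : Lin p r) (hl' : Lin p' r') (h1 : B p p' = 0) (h2 : B p r' = 0)
    (h3 : B r p' = 0) (h4 : B r r' ≠ 0) : ⁅TL h, TL h'⁆ = ⊥ ∨ RootCommutatorCase (LS N F) (TL h) (TL h') := by
  by_cases hll : Lin p' p
  · right; exact case_of h h' hl hl' h1 h2 h3 h4 hll
  · left
    apply cm_iff.2
    apply cm_of_mat
    rw [Nm_comm h1 h2 h3]
    have : Nm p' p = 0 := by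
      unfold Lin at hll
      push Not at hll
      obtain ⟨s, t, e, hst⟩ := hll
      by_cases hs : s = 0
      · have ht := hst hs
        rw [hs, zero_smul, zero_add, smul_eq_zero] at e
        rcases e with e | e
        · exact absurd e ht
        · exact absurd e hl.ne_left
      · have hp : p' = (-(t / s)) • p := by
          have : s • p' = (-t) • p := by rw [neg_smul]; exact eq_neg_of_add_eq_zero_left e
          calc p' = (s⁻¹ * s) • p' := by rw [inv_mul_cancel₀ hs, one_smul]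
            _ = s⁻¹ • (s • p') := by rw [mul_smul]
            _ = _ := by rw [this, smul_smul]; congr 1; field_simp
        rw [hp]
        ext i j
        simp only [Nm, bv_smul, Matrix.sub_apply, vecMulVec_apply, Pi.smul_apply, smul_eq_mul, Matrix.zero_apply]
        ring
    rw [this, smul_zero, add_zero]

theorem Lin.comb (hl : Lin p r) {a b c d : F} (hD : a * d - b * c ≠ 0) : Lin (a • p + b • r) (c • p + d • r) := by
  intro s t e
  have e' : (s * a + t * c) • p + (s * b + t * d) • r = 0 := by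
    rw [← e, smul_add, smul_add, smul_smul, smul_smul, smul_smul, smul_smul, add_smul, add_smul]; abel
  obtain ⟨e1, e2⟩ := hl _ _ e'
  constructor
  · have : (a * d - b * c) * s = 0 := by linear_combination d * e1 - c * e2
    exact (mul_eq_zero.1 this).resolve_left hD
  · have : (a * d - b * c) * t = 0 := by linear_combination a * e2 - b * e1
    exact (mul_eq_zero.1 this).resolve_left hD

theorem rank_one (h : Sing p r) (h' : Sing p' r') (hl : Lin p r) (hl' : Lin p' r')
    (hD : B p p' * B r r' - B p r' * B r p' = 0) (h4 : B r r' ≠ 0) :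
    ⁅TL h, TL h'⁆ = ⊥ ∨ RootCommutatorCase (LS N F) (TL h) (TL h') := by
  have e1 : TL (h.comb 1 (-(B p r' / B r r')) 0 1) = TL h := TL_comb h (by simp)
  have e2 : TL (h'.comb 1 (-(B r p' / B r r')) 0 1) = TL h' := TL_comb h' (by simp)
  rw [← e1, ← e2]
  apply rank_one_nf
  · exact hl.comb (by simp)
  · exact hl'.comb (by simp)
  · simp only [B_add_left, B_add_right, B_smul_left, B_smul_right]
    field_simp
    linear_combination hD
  · simp only [B_add_left, B_add_right, B_smul_left, B_smul_right]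
    field_simp
    ring
  · simp only [B_add_left, B_add_right, B_smul_left, B_smul_right]
    field_simp
    ring
  · simp only [B_add_left, B_add_right, B_smul_left, B_smul_right]
    simpa using h4

theorem pairs (h : Sing p r) (h' : Sing p' r') (hl : Lin p r) (hl' : Lin p' r') :
    ⁅TL h, TL h'⁆ = ⊥ ∨ (IsPSL2PairOver F (TL h) (TL h') ∧ IsRankOnePair (TL h) (TL h')) ∨
      RootCommutatorCase (LS N F) (TL h) (TL h') := by
  have hor : (⁅TL h, TL h'⁆ = ⊥ ∨ RootCommutatorCase (LS N F) (TL h) (TL h')) →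
    ⁅TL h, TL h'⁆ = ⊥ ∨ (IsPSL2PairOver F (TL h) (TL h') ∧ IsRankOnePair (TL h) (TL h')) ∨
      RootCommutatorCase (LS N F) (TL h) (TL h') := by
    rintro (h | h)
    · left; exact h
    · right; right; exact h
  by_cases hD : B p p' * B r r' - B p r' * B r p' = 0
  · by_cases h4 : B r r' = 0
    · by_cases h3 : B r p' = 0
      · by_cases h2 : B p r' = 0
        · by_cases h1 : B p p' = 0
          · left; exact cm_iff.2 (cm_zero h h' h1 h2 h3 h4)
          · have := rank_one h.symm h'.symm hl.symm hl'.symm (by linear_combination hD) h1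
            rw [TL_swap h, TL_swap h'] at this
            exact hor this
        · have := rank_one h.symm h' hl.symm hl' (by linear_combination -hD) h2
          rw [TL_swap h] at this
          exact hor this
      · have := rank_one h h'.symm hl hl'.symm (by linear_combination -hD) h3
        rw [TL_swap h'] at this
        exact hor this
    · exact hor (rank_one h h' hl hl' hD h4)
  · right; left; exact opp h h' hD

end Pairs2

end H85.SiegelRoot
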