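import Cfsg.Agent.Lib.H85.SiegelRoot

/-!
Siegel transvection groups of the plus type quadratic form (S5072), part 2: connectivity.
-/
set_option autoImplicit false
set_option maxHeartbeats 400000

namespace H85.SiegelRoot

open Cfsg H85.RankOne H85.RankOneTrans H85.RootSub H85.RootSub2 H85.RootComp H85.RootLine H85.RootSpecial H85.SLRoot H85.RootPull
open Matrix

variable {N : ℕ} {F : Type*} [Field F]

/-- a singular vector orthogonal to a singular line but not on it -/
theorem exists_third (hN : 3 ≤ N) {p r : Fin N ⊕ Fin N → F} :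
    ∃ s : Fin N ⊕ Fin N → F, quadFormPlus N F s = 0 ∧ B p s = 0 ∧ B r s = 0 ∧ ∀ x y : F, s ≠ x • p + y • r := by
  by_contra hcon
  push Not at hcon
  let M : Matrix (Fin N) (Fin 2) F := Matrix.of fun i => ![p (.inr i), r (.inr i)]
  let h : (Fin 2 → F) →ₗ[F] (Fin N → F) := (Matrix.of fun (i : Fin N) => ![p (.inl i), r (.inl i)]).mulVecLin
  have hM : ∀ (c : Fin 2 → F) (i : Fin N), (M *ᵥ c) i = p (.inr i) * c 0 + r (.inr i) * c 1 := by
    intro c i
    simp [M, mulVec, dotProduct, Fin.sum_univ_two]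
  have hh : ∀ (c : Fin 2 → F) (i : Fin N), (h c) i = p (.inl i) * c 0 + r (.inl i) * c 1 := by
    intro c i
    simp [h, mulVec, dotProduct, Fin.sum_univ_two]
  have hMt : ∀ (a : Fin N → F), Mᵀ *ᵥ a = ![∑ i, p (.inr i) * a i, ∑ i, r (.inr i) * a i] := by
    intro a
    ext j
    fin_cases j <;> simp [M, mulVec, dotProduct]
  have hle : LinearMap.ker Mᵀ.mulVecLin ≤ (LinearMap.ker M.mulVecLin).map h := by
    intro a ha
    rw [LinearMap.mem_ker, Matrix.mulVecLin_apply, hMt] at ha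
    have h0 := congrFun ha 0
    have h1 := congrFun ha 1
    simp only [Matrix.cons_val_zero, Matrix.cons_val_one, Pi.zero_apply] at h0 h1
    obtain ⟨x, y, e⟩ := hcon (Sum.elim a 0) (by unfold quadFormPlus; simp) (by
      rw [B_eq]; simpa using h0) (by rw [B_eq]; simpa using h1)
    refine ⟨![x, y], ?_, ?_⟩
    · show ![x, y] ∈ LinearMap.ker M.mulVecLin
      rw [LinearMap.mem_ker, Matrix.mulVecLin_apply]
      ext i
      rw [hM]
      have := congrFun e (.inr i)
      simp only [Sum.elim_inr, Pi.zero_apply, Pi.add_apply, Pi.smul_apply, smul_eq_mul] at this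
      simp only [Matrix.cons_val_zero, Matrix.cons_val_one, Pi.zero_apply]
      linear_combination -this
    · ext i
      rw [hh]
      have := congrFun e (.inl i)
      simp only [Sum.elim_inl, Pi.add_apply, Pi.smul_apply, smul_eq_mul] at this
      simp only [Matrix.cons_val_zero, Matrix.cons_val_one]
      rw [this]; ring
  have h1 := Submodule.finrank_mono hle
  have h2 := Submodule.finrank_map_le h (LinearMap.ker M.mulVecLin)
  have h3 := LinearMap.finrank_range_add_finrank_ker M.mulVecLin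
  have h4 := LinearMap.finrank_range_add_finrank_ker Mᵀ.mulVecLin
  have h5 : Mᵀ.rank = M.rank := Matrix.rank_transpose M
  unfold Matrix.rank at h5
  rw [Module.finrank_fin_fun] at h3 h4
  omega

theorem exists_hyp {p : Fin N ⊕ Fin N → F} (hp : p ≠ 0) (hq : quadFormPlus N F p = 0) :
    ∃ p', quadFormPlus N F p' = 0 ∧ B p p' = 1 := by
  have : ∃ u, B p u ≠ 0 := by
    by_contra hc; push Not at hc; exact hp (nondeg hc)
  obtain ⟨u, hu⟩ := this
  have hx : B p ((B p u)⁻¹ • u) = 1 := by rw [B_smul_right, inv_mul_cancel₀ hu]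
  generalize (B p u)⁻¹ • u = x at hx
  refine ⟨x - quadFormPlus N F x • p, ?_, ?_⟩
  · rw [Q_sub, Q_smul, hq, B_smul_right, B_symm, hx]; ring
  · rw [B_sub_right, B_smul_right, hx, B_self, hq]; ring

theorem bv_ne {p : Fin N ⊕ Fin N → F} (hp : p ≠ 0) : bv p ≠ 0 := by
  intro e
  apply hp
  apply nondeg
  intro v
  unfold B
  rw [e, zero_dotProduct]

theorem stepA {p r r₂ : Fin N ⊕ Fin N → F} (h : Sing p r) (h₂ : Sing p r₂) (hl : Lin p r) (hl₂ : Lin p r₂) (hb : B r r₂ = 0) :
    Relation.ReflTransGen (FAdj (LS N F)) (TL h) (TL h₂) := by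
  obtain ⟨p', hp', hpp'⟩ := exists_hyp hl.ne_left h.q1
  have hne : ∀ {r : Fin N ⊕ Fin N → F}, Lin p r → r - B r p' • p ≠ 0 := by
    intro r hl e
    have := (hl (-(B r p')) 1 (by rw [← e]; module)).2
    exact one_ne_zero this
  have hp'0 : B p' p' = 0 := by rw [B_self, hp', mul_zero]
  have hp0 : B p p = 0 := h.b1
  have hr0 : B r p = 0 := h.b'
  have hr20 : B r₂ p = 0 := h₂.b'
  have hp'p : B p' p = 1 := by rw [B_symm, hpp']
  obtain ⟨u₀, hu1, hu2⟩ := exists_both (bv_ne (hne hl)) (bv_ne (hne hl₂))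
  have hu1' : B (r - B r p' • p) u₀ ≠ 0 := hu1
  have hu2' : B (r₂ - B r₂ p' • p) u₀ ≠ 0 := hu2
  clear hu1 hu2
  set u := u₀ - B p u₀ • p' - B p' u₀ • p with hu
  have hpu : B p u = 0 := by
    rw [hu, B_sub_right, B_sub_right, B_smul_right, B_smul_right, hpp', hp0]; ring
  have hp'u : B p' u = 0 := by
    rw [hu, B_sub_right, B_sub_right, B_smul_right, B_smul_right, hp'0, hp'p]; ring
  have hru : B r u = B (r - B r p' • p) u₀ := by
    rw [hu, B_sub_right, B_sub_right, B_smul_right, B_smul_right, B_sub_left, B_smul_left, hr0]; ring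
  have hru2 : B r₂ u = B (r₂ - B r₂ p' • p) u₀ := by
    rw [hu, B_sub_right, B_sub_right, B_smul_right, B_smul_right, B_sub_left, B_smul_left, hr20]; ring
  rw [← hru] at hu1'
  rw [← hru2] at hu2'
  set rt := r - B r p' • p with hrt
  have hrtu : B rt u = B r u := by rw [hrt, B_sub_left, B_smul_left, hpu]; ring
  set w := u - (quadFormPlus N F u / B r u) • rt with hw
  have hQrt : quadFormPlus N F rt = 0 := by
    rw [hrt, Q_sub, Q_smul, h.q1, h.q2, B_smul_right, hr0]; ring
  have hprt : B p rt = 0 := by rw [hrt, B_sub_right, B_smul_right, h.b, hp0]; ring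
  have hp'rt : B p' rt = 0 := by rw [hrt, B_sub_right, B_smul_right, hp'p, B_symm p' r]; ring
  have hrrt : B r rt = 0 := by rw [hrt, B_sub_right, B_smul_right, hr0, h.b2]; ring
  have hr2rt : B r₂ rt = 0 := by rw [hrt, B_sub_right, B_smul_right, hr20, B_symm r₂ r, hb]; ring
  have hQw : quadFormPlus N F w = 0 := by
    rw [hw, Q_sub, Q_smul, hQrt, B_smul_right, B_symm u rt, hrtu]; field_simp; ring
  have hpw : B p w = 0 := by rw [hw, B_sub_right, B_smul_right, hpu, hprt]; ring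
  have hp'w : B p' w = 0 := by rw [hw, B_sub_right, B_smul_right, hp'u, hp'rt]; ring
  have hrw : B r w = B r u := by rw [hw, B_sub_right, B_smul_right, hrrt]; ring
  have hr2w : B r₂ w = B r₂ u := by rw [hw, B_sub_right, B_smul_right, hr2rt]; ring
  have hs : Sing p' w := ⟨hp', hQw, hp'w⟩
  have hlw : Lin p' w := by
    intro s t e
    have e1 := congrArg (fun z => B p z) e
    simp only [B_add_right, B_smul_right, hpp', hpw, B_zero_right, mul_zero, add_zero, mul_one] at e1
    have e2 := congrArg (fun z => B r z) e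
    simp only [B_add_right, B_smul_right, hrw, B_zero_right, e1, zero_mul, zero_add] at e2
    exact ⟨e1, (mul_eq_zero.1 e2).resolve_right hu1'⟩
  have hmid : TL hs ∈ LS N F := ⟨_, _, hs, hlw, rfl⟩
  refine (Relation.ReflTransGen.single ⟨⟨_, _, h, hl, rfl⟩, hmid, (opp h hs ?_).2⟩).tail
    ⟨hmid, ⟨_, _, h₂, hl₂, rfl⟩, RankOnePair_symm (opp h₂ hs ?_).2⟩
  · rw [hpp', hpw, hr2w, one_mul, zero_mul, sub_zero]; exact hu2'
  · rw [hpp', hpw, hrw, one_mul, zero_mul, sub_zero]; exact hu1'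

theorem stepAB (hN : 3 ≤ N) {p r r₂ : Fin N ⊕ Fin N → F} (h : Sing p r) (h₂ : Sing p r₂) (hl : Lin p r) (hl₂ : Lin p r₂) :
    Relation.ReflTransGen (FAdj (LS N F)) (TL h) (TL h₂) := by
  by_cases hb : B r r₂ = 0
  · exact stepA h h₂ hl hl₂ hb
  · obtain ⟨s, hs, hps, hrs, hns⟩ := exists_third hN (p := p) (r := r)
    have hr2r : B r₂ r ≠ 0 := by rw [B_symm]; exact hb
    set w := s - (B r₂ s / B r₂ r) • r with hw
    have hpw : B p w = 0 := by rw [hw, B_sub_right, B_smul_right, hps, h.b]; ring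
    have hrw : B r w = 0 := by rw [hw, B_sub_right, B_smul_right, hrs, h.b2]; ring
    have hr2w : B r₂ w = 0 := by rw [hw, B_sub_right, B_smul_right, div_mul_cancel₀ _ hr2r, sub_self]
    have hQw : quadFormPlus N F w = 0 := by
      rw [hw, Q_sub, Q_smul, hs, h.q2, B_smul_right, B_symm s r, hrs]; ring
    have hsw : Sing p w := ⟨h.q1, hQw, hpw⟩
    have hlw : Lin p w := by
      intro a b e
      have hb0 : b = 0 := by
        by_contra hb0
        apply hns (-(a / b)) (B r₂ s / B r₂ r)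
        have e1 : b • s = (-a) • p + (b * (B r₂ s / B r₂ r)) • r := by
          have : b • s = (a • p + b • w) + ((-a) • p + (b * (B r₂ s / B r₂ r)) • r) := by rw [hw]; module
          rw [this, e, zero_add]
        calc s = b⁻¹ • (b • s) := by rw [smul_smul, inv_mul_cancel₀ hb0, one_smul]
          _ = _ := by rw [e1, smul_add, smul_smul, smul_smul]; congr 2 <;> field_simp
      subst hb0
      rw [zero_smul, add_zero, smul_eq_zero] at e
      exact ⟨e.resolve_right hl.ne_left, rfl⟩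
    exact (stepA h hsw hl hlw hrw).trans (stepA hsw h₂ hlw hl₂ (by rw [B_symm, hr2w]))

theorem stepC1 (hN : 3 ≤ N) {p r p₂ r₂ : Fin N ⊕ Fin N → F} (h : Sing p r) (h₂ : Sing p₂ r₂) (hl : Lin p r) (hl₂ : Lin p₂ r₂)
    (hb : B p p₂ = 0) : Relation.ReflTransGen (FAdj (LS N F)) (TL h) (TL h₂) := by
  by_cases hll : Lin p p₂
  · have hs : Sing p p₂ := ⟨h.q1, h₂.q1, hb⟩
    have h1 := stepAB hN h hs hl hll
    have h2 := stepAB hN hs.symm h₂ hll.symm hl₂
    rw [TL_swap hs] at h2
    exact h1.trans h2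
  · unfold Lin at hll
    push Not at hll
    obtain ⟨s, t, e, hst⟩ := hll
    have ht : t ≠ 0 := by
      by_cases hs : s = 0
      · exact hst hs
      · intro ht
        rw [ht, zero_smul, add_zero, smul_eq_zero] at e
        exact e.elim hs hl.ne_left
    have hp₂ : p₂ = (-(s / t)) • p := by
      have : t • p₂ = (-s) • p := by rw [neg_smul]; exact eq_neg_of_add_eq_zero_right e
      calc p₂ = (t⁻¹ * t) • p₂ := by rw [inv_mul_cancel₀ ht, one_smul]
        _ = t⁻¹ • (t • p₂) := by rw [mul_smul]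
        _ = _ := by rw [this, smul_smul]; congr 1; field_simp
    have ha : -(s / t) ≠ 0 := by
      intro h0
      apply hl₂.ne_left
      rw [hp₂, h0, zero_smul]
    generalize -(s / t) = a at hp₂ ha
    subst hp₂
    have hs₂ : Sing p r₂ := ⟨h.q1, h₂.q2, by
      have := h₂.b
      rw [B_smul_left] at this
      exact (mul_eq_zero.1 this).resolve_left ha⟩
    have hls₂ : Lin p r₂ := by
      intro x y e'
      have := hl₂ (x / a) y (by rw [smul_smul, div_mul_cancel₀ _ ha]; exact e')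
      exact ⟨(div_eq_zero_iff.1 this.1).resolve_right ha, this.2⟩
    have e2 : TL h₂ = TL hs₂ := TL_eq_of hs₂ h₂ ha (by
      have := Nm_comb p r₂ a 0 0 1
      simpa using this)
    rw [e2]
    exact stepAB hN h hs₂ hl hls₂

theorem connected (hN : 3 ≤ N) : IsConnectedFamily (FAdj (LS N F)) (LS N F) := by
  rintro _ ⟨p, r, h, hl, rfl⟩ _ ⟨p₂, r₂, h₂, hl₂, rfl⟩
  by_cases hb : B p p₂ = 0
  · exact stepC1 hN h h₂ hl hl₂ hb
  · have hD : (-(B p r₂ / B p p₂)) * 0 - 1 * 1 ≠ (0 : F) := by simp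
    have e : TL (h₂.comb (-(B p r₂ / B p p₂)) 1 1 0) = TL h₂ := TL_comb h₂ hD
    rw [← e]
    apply stepC1 hN h _ hl (hl₂.comb hD)
    rw [B_add_right, B_smul_right, B_smul_right]
    field_simp
    ring

theorem fix_iff {p r : Fin N ⊕ Fin N → F} (h : Sing p r) (hl : Lin p r) {σ : ↥(isometryGroup F (quadFormPlus N F))} :
    (∀ v, B v p = 0 → B v r = 0 → coeM N F σ *ᵥ v = v) ↔ σ ∈ TL h := by
  constructor
  · intro hσ
    obtain ⟨x₁, h11, h12⟩ := exists_dual hl
    obtain ⟨x₂, h22, h21⟩ := exists_dual hl.symm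
    -- decomposition
    have hfix : ∀ x, coeM N F σ *ᵥ (x - B p x • x₁ - B r x • x₂) = x - B p x • x₁ - B r x • x₂ := by
      intro x
      apply hσ
      · rw [B_symm, B_sub_right, B_sub_right, B_smul_right, B_smul_right, h11, h21]; ring
      · rw [B_symm, B_sub_right, B_sub_right, B_smul_right, B_smul_right, h12, h22]; ring
    have hz : ∀ x, coeM N F σ *ᵥ x - x = B (coeM N F σ *ᵥ x - x) x₁ • p + B (coeM N F σ *ᵥ x - x) x₂ • r := by
      intro x
      rw [← sub_eq_zero]
      apply nondeg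
      intro v
      have hv : B (coeM N F σ *ᵥ x - x) (v - B p v • x₁ - B r v • x₂) = 0 := by
        rw [B_sub_left]
        nth_rewrite 1 [← hfix v]
        rw [form_pres, sub_self]
      generalize coeM N F σ *ᵥ x - x = z at hv
      rw [B_sub_right, B_sub_right, B_smul_right, B_smul_right] at hv
      rw [B_sub_left, B_add_left, B_smul_left, B_smul_left]
      linear_combination hv
    have hQ : ∀ x, quadFormPlus N F (coeM N F σ *ᵥ x) = quadFormPlus N F x := fun x => σ.2 x x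
    have hx : ∀ x (a b : F), coeM N F σ *ᵥ x - x = a • p + b • r → a * B p x + b * B r x = 0 := by
      intro x a b e
      have e1 : coeM N F σ *ᵥ x = x + (a • p + b • r) := by rw [← e]; abel
      have e2 := hQ x
      rw [e1, Q_add, Q_add, Q_smul, Q_smul, h.q1, h.q2, B_smul_left, B_smul_right, h.b, B_add_right, B_smul_right, B_smul_right,
        B_symm x p, B_symm x r] at e2
      linear_combination e2
    obtain ⟨a₁, b₁, e₁⟩ : ∃ a b : F, coeM N F σ *ᵥ x₁ - x₁ = a • p + b • r := ⟨_, _, hz x₁⟩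
    obtain ⟨a₂, b₂, e₂⟩ : ∃ a b : F, coeM N F σ *ᵥ x₂ - x₂ = a • p + b • r := ⟨_, _, hz x₂⟩
    have f1 := hx x₁ a₁ b₁ e₁
    have f2 := hx x₂ a₂ b₂ e₂
    have f3 := hx (x₁ + x₂) (a₁ + a₂) (b₁ + b₂) (by
      have : coeM N F σ *ᵥ (x₁ + x₂) - (x₁ + x₂) = (coeM N F σ *ᵥ x₁ - x₁) + (coeM N F σ *ᵥ x₂ - x₂) := by
        rw [mulVec_add]; abel
      rw [this, e₁, e₂]; module)
    rw [B_add_right, B_add_right] at f3
    rw [h11, h12] at f1
    rw [h21, h22] at f2
    rw [h11, h12, h21, h22] at f3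
    have a10 : a₁ = 0 := by linear_combination f1
    have b20 : b₂ = 0 := by linear_combination f2
    have b1 : b₁ = - a₂ := by linear_combination f3 - a10 - b20
    refine ⟨a₂, coeM_injective ?_⟩
    rw [coe_sg]
    apply mext
    intro x
    have e3 := hfix x
    rw [mulVec_sub, mulVec_sub, mulVec_smul, mulVec_smul] at e3
    have e4 : coeM N F σ *ᵥ x₁ = x₁ - a₂ • r := by
      rw [sub_eq_iff_eq_add.1 e₁, a10, b1]; module
    have e5 : coeM N F σ *ᵥ x₂ = x₂ + a₂ • p := by
      rw [sub_eq_iff_eq_add.1 e₂, b20]; module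
    rw [e4, e5] at e3
    rw [add_mulVec, one_mulVec, smul_mulVec, Nm_mulVec]
    have e6 : coeM N F σ *ᵥ x = (coeM N F σ *ᵥ x - B p x • (x₁ - a₂ • r) - B r x • (x₂ + a₂ • p)) + B p x • (x₁ - a₂ • r) +
      B r x • (x₂ + a₂ • p) := by abel
    rw [e6, e3]; module
  · rintro ⟨c, rfl⟩ v h1 h2
    rw [coe_sg, add_mulVec, one_mulVec, smul_mulVec, Nm_mulVec, B_symm r v, B_symm p v, h1, h2]
    simp

theorem set_eq' :
    {A : Subgroup ↥(Cfsg.isometryGroup F (Cfsg.quadFormPlus N F)) | ∃ p r : Fin N ⊕ Fin N → F, LinearIndependent F ![p, r] ∧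
          Cfsg.quadFormPlus N F p = 0 ∧ Cfsg.quadFormPlus N F r = 0 ∧
          Cfsg.quadFormPlus N F (p + r) = 0 ∧
          A = Subgroup.closure {σ : ↥(Cfsg.isometryGroup F (Cfsg.quadFormPlus N F)) | ∀ v : Fin N ⊕ Fin N → F,
            Cfsg.quadFormPlus N F (v + p) - Cfsg.quadFormPlus N F v - Cfsg.quadFormPlus N F p = 0 →
            Cfsg.quadFormPlus N F (v + r) - Cfsg.quadFormPlus N F v - Cfsg.quadFormPlus N F r = 0 →
              ((σ : Matrix.GeneralLinearGroup (Fin N ⊕ Fin N) F) : Matrix (Fin N ⊕ Fin N) (Fin N ⊕ Fin N) F) *ᵥ v = v}} = LS N F := by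
  have hpol : ∀ u v : Fin N ⊕ Fin N → F, quadFormPlus N F (v + u) - quadFormPlus N F v - quadFormPlus N F u = B v u := by
    intro u v; rw [Q_add]; ring
  have key : ∀ (p r : Fin N ⊕ Fin N → F) (h : Sing p r) (_ : Lin p r), Subgroup.closure {σ : ↥(Cfsg.isometryGroup F (Cfsg.quadFormPlus N F)) | ∀ v : Fin N ⊕ Fin N → F,
            Cfsg.quadFormPlus N F (v + p) - Cfsg.quadFormPlus N F v - Cfsg.quadFormPlus N F p = 0 →
            Cfsg.quadFormPlus N F (v + r) - Cfsg.quadFormPlus N F v - Cfsg.quadFormPlus N F r = 0 →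
              ((σ : Matrix.GeneralLinearGroup (Fin N ⊕ Fin N) F) : Matrix (Fin N ⊕ Fin N) (Fin N ⊕ Fin N) F) *ᵥ v = v} = TL h := by
    intro p r h hl
    have : {σ : ↥(Cfsg.isometryGroup F (Cfsg.quadFormPlus N F)) | ∀ v : Fin N ⊕ Fin N → F,
            Cfsg.quadFormPlus N F (v + p) - Cfsg.quadFormPlus N F v - Cfsg.quadFormPlus N F p = 0 →
            Cfsg.quadFormPlus N F (v + r) - Cfsg.quadFormPlus N F v - Cfsg.quadFormPlus N F r = 0 →
              ((σ : Matrix.GeneralLinearGroup (Fin N ⊕ Fin N) F) : Matrix (Fin N ⊕ Fin N) (Fin N ⊕ Fin N) F) *ᵥ v = v} =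
        (TL h : Set ↥(Cfsg.isometryGroup F (Cfsg.quadFormPlus N F))) := by
      ext σ
      rw [SetLike.mem_coe, ← fix_iff h hl]
      simp only [Set.mem_ofPred_eq, hpol]
      rfl
    rw [this, Subgroup.closure_eq]
  ext A
  constructor
  · rintro ⟨p, r, hl, h1, h2, h3, rfl⟩
    have hs : Sing p r := ⟨h1, h2, by rw [← hpol, h3, h1, h2]; ring⟩
    have hl' : Lin p r := LinearIndependent.pair_iff.1 hl
    exact ⟨p, r, hs, hl', key p r hs hl'⟩
  · rintro ⟨p, r, hs, hl, rfl⟩
    exact ⟨p, r, LinearIndependent.pair_iff.2 hl, hs.q1, hs.q2, by rw [Q_add, hs.q1, hs.q2, hs.b]; ring, (key p r hs hl).symm⟩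

theorem final (hN : 3 ≤ N) (S : Set (Subgroup ↥(Cfsg.isometryGroup F (Cfsg.quadFormPlus N F)))) (hS : S = LS N F) :
    IsKRootSubgroupSet F ((fun A : Subgroup ↥(Cfsg.isometryGroup F (Cfsg.quadFormPlus N F)) => A.subgroupOf (⨆ B ∈ S, B)) '' S) ∧
    IsConnectedFamily (FAdj S) S := by
  subst hS
  have hR : IsRootSubgroupSet (rest (LS N F)) := by
    apply isRoot_rest
    · rintro _ ⟨p, r, h, hl, rfl⟩
      constructor
      constructor
      rintro ⟨x, hx⟩ ⟨y, hy⟩
      exact Subtype.ext (TL_comm h x hx y hy)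
    · rintro _ ⟨p, r, h, hl, rfl⟩
      exact TL_ne_bot hl h
    · rintro _ ⟨p, r, h, hl, rfl⟩ g
      exact ⟨_, _, sing_map h g, lin_map hl g, conj_TL h g⟩
    · rintro _ ⟨p, r, h, hl, rfl⟩ _ ⟨p', r', h', hl', rfl⟩
      rcases pairs h h' hl hl' with h | h | h
      · left; exact h
      · right; left; exact h.2
      · right; right; exact h
  refine ⟨isKRoot_rest hR ?_, connected hN⟩
  rintro _ ⟨p, r, h, hl, rfl⟩ _ ⟨p', r', h', hl', rfl⟩ hp
  rcases pairs h h' hl hl' with h | h | h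
  · exact absurd (cm_iff.1 h) (not_cm_of_pair hp)
  · exact h.1
  · exact absurd hp (not_pair_of_case h)

end H85.SiegelRoot
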