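import Cfsg.Agent.Lib.H85.RootPull
import Cfsg.Agent.Lib.H16.SympTransv

/-!
The symplectic transvection groups form a degenerate class of F-root subgroups (S5070).
-/
set_option autoImplicit false

namespace H85.SpRootA

open Cfsg H85.RankOne H85.RankOneTrans H85.RootSub H85.RootSub2 H85.RootComp H85.RootLine H85.RootSpecial H85.SLRoot H85.RootPull
open Matrix H16.Symp H16.SympTransv

variable {m : ℕ} {F : Type*} [Field F]

theorem tv_add (p : Fin m ⊕ Fin m → F) (c d : F) : H16.SympTransv.tv p (c + d) = H16.SympTransv.tv p c * H16.SympTransv.tv p d :=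
  Subtype.ext (sympTransvection_mul p c d).symm

theorem tv_zero (p : Fin m ⊕ Fin m → F) : H16.SympTransv.tv p (0 : F) = 1 := by
  apply Subtype.ext
  show sympTransvection m p 0 = 1
  simp [sympTransvection]

/-- the symplectic transvection group -/
def TT (p : Fin m ⊕ Fin m → F) : Subgroup (symplecticGroup (Fin m) F) where
  carrier := {g | ∃ c, g = H16.SympTransv.tv p c}
  one_mem' := ⟨0, (tv_zero p).symm⟩
  mul_mem' := by
    rintro _ _ ⟨c, rfl⟩ ⟨d, rfl⟩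
    exact ⟨c + d, (tv_add p c d).symm⟩
  inv_mem' := by
    rintro _ ⟨c, rfl⟩
    refine ⟨-c, ?_⟩
    rw [inv_eq_iff_mul_eq_one, ← tv_add, add_neg_cancel, tv_zero]

theorem mem_TT (p : Fin m ⊕ Fin m → F) (c : F) : H16.SympTransv.tv p c ∈ TT p := ⟨c, rfl⟩

theorem exists_form {p : Fin m ⊕ Fin m → F} (hp : p ≠ 0) : ∃ u, sympForm m F u p ≠ 0 := by
  by_contra h
  push Not at h
  exact hp (eq_zero_of_forall_sympForm_left h)

theorem tv_eq_one {p : Fin m ⊕ Fin m → F} (hp : p ≠ 0) {c : F} : H16.SympTransv.tv p c = 1 ↔ c = 0 := by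
  constructor
  · intro e
    obtain ⟨u, hu⟩ := exists_form hp
    have h1 : ((H16.SympTransv.tv p c : symplecticGroup (Fin m) F) : Matrix (Fin m ⊕ Fin m) (Fin m ⊕ Fin m) F) *ᵥ u = u := by
      rw [e]; exact one_mulVec_coe u
    rw [coe_tv, sympTransvection_mulVec, add_eq_left, smul_eq_zero] at h1
    rcases h1 with h1 | h1
    · rcases mul_eq_zero.1 h1 with h2 | h2
      · exact h2
      · exact absurd h2 hu
    · exact absurd h1 hp
  · rintro rfl; exact tv_zero p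

theorem TT_ne_bot {p : Fin m ⊕ Fin m → F} (hp : p ≠ 0) : TT p ≠ ⊥ := by
  intro e
  have h1 : H16.SympTransv.tv p 1 ∈ (⊥ : Subgroup (symplecticGroup (Fin m) F)) := by rw [← e]; exact mem_TT _ _
  rw [Subgroup.mem_bot, tv_eq_one hp] at h1
  exact one_ne_zero h1

theorem TT_comm (p : Fin m ⊕ Fin m → F) : Cm (TT p) (TT p) := by
  rintro _ ⟨c, rfl⟩ _ ⟨d, rfl⟩
  rw [← tv_add, ← tv_add, add_comm]

theorem conj_TT (p : Fin m ⊕ Fin m → F) (g : symplecticGroup (Fin m) F) : conjBy (TT p) g = TT (g.1 *ᵥ p) := by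
  have key : ∀ c : F, g * H16.SympTransv.tv p c * g⁻¹ = H16.SympTransv.tv (g.1 *ᵥ p) c := by
    intro c
    rw [mul_inv_eq_iff_eq_mul]
    exact Subtype.ext (mul_sympTransvection g.1 g.2 p c)
  ext x
  constructor
  · rintro ⟨y, ⟨c, rfl⟩, rfl⟩
    exact ⟨c, key c⟩
  · rintro ⟨c, rfl⟩
    rw [← key]
    exact conj_mem_conjBy (mem_TT _ _)

/-- the set of the symplectic transvection groups -/
def TTS (m : ℕ) (F : Type*) [Field F] : Set (Subgroup (symplecticGroup (Fin m) F)) := {A | ∃ p : Fin m ⊕ Fin m → F, p ≠ 0 ∧ A = TT p}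

theorem coe_eq (p : Fin m ⊕ Fin m → F) (c : F) :
    ((H16.SympTransv.tv p c : symplecticGroup (Fin m) F) : Matrix (Fin m ⊕ Fin m) (Fin m ⊕ Fin m) F) =
      1 + (1 * (RingHom.id F) c) • vecMulVec p (Matrix.J (Fin m) F *ᵥ p) := by
  rw [one_mul]; rfl

theorem pair_TT {p r : Fin m ⊕ Fin m → F} (h : sympForm m F p r ≠ 0) : IsPSL2PairOver F (TT p) (TT r) ∧ IsRankOnePair (TT p) (TT r) := by
  have hs : ∀ x y : Fin m ⊕ Fin m → F, (Matrix.J (Fin m) F *ᵥ x) ⬝ᵥ y = sympForm m F y x := by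
    intro x y; rw [dotProduct_comm]; rfl
  have h' : sympForm m F r p ≠ 0 := by rw [sympForm_swap, neg_ne_zero]; exact h
  refine trans_pair (RingHom.id F) (v := p) (φ := Matrix.J (Fin m) F *ᵥ p) (w := r) (ψ := Matrix.J (Fin m) F *ᵥ r) ?_ ?_ ?_ ?_
    (ε := 1) one_ne_zero (l := sympForm m F r p * sympForm m F p r) ?_ (symplecticGroup (Fin m) F).subtype
    Subtype.val_injective ?_ ?_ ?_ ?_
  · rw [hs, sympForm_self]
  · rw [hs, sympForm_self]
  · rw [hs]; exact h'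
  · rw [hs]; exact h
  · rw [hs, hs, RingHom.id_apply, one_mul, one_mul]
  · intro t; exact ⟨_, mem_TT p t, coe_eq p t⟩
  · rintro _ ⟨t, rfl⟩; exact ⟨t, coe_eq p t⟩
  · intro t; exact ⟨_, mem_TT r t, coe_eq r t⟩
  · rintro _ ⟨t, rfl⟩; exact ⟨t, coe_eq r t⟩

theorem cm_TT {p r : Fin m ⊕ Fin m → F} (h : sympForm m F p r = 0) : Cm (TT p) (TT r) := by
  rintro _ ⟨c, rfl⟩ _ ⟨d, rfl⟩
  apply Subtype.ext
  apply mulVec_ext
  intro x
  have h' : sympForm m F r p = 0 := by rw [sympForm_swap, h, neg_zero]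
  rw [mulVec_mul_coe, mulVec_mul_coe]
  simp only [coe_tv, sympTransvection_mulVec, sympForm_add_left, sympForm_smul_left, h, h', mul_zero, add_zero]
  abel

theorem pair_TTS : ∀ A ∈ TTS m F, ∀ B ∈ TTS m F, ⁅A, B⁆ = ⊥ ∨ (IsPSL2PairOver F A B ∧ IsRankOnePair A B) := by
  rintro _ ⟨p, hp, rfl⟩ _ ⟨r, hr, rfl⟩
  by_cases h : sympForm m F p r = 0
  · left; exact cm_iff.2 (cm_TT h)
  · right; exact pair_TT h

theorem connected_TTS : IsConnectedFamily (FAdj (TTS m F)) (TTS m F) := by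
  rintro _ ⟨p, hp, rfl⟩ _ ⟨r, hr, rfl⟩
  have hs : ∀ x y : Fin m ⊕ Fin m → F, (Matrix.J (Fin m) F *ᵥ x) ⬝ᵥ y = sympForm m F y x := by
    intro x y; rw [dotProduct_comm]; rfl
  have hne : ∀ {x : Fin m ⊕ Fin m → F}, x ≠ 0 → Matrix.J (Fin m) F *ᵥ x ≠ 0 := by
    intro x hx e
    obtain ⟨u, hu⟩ := exists_form hx
    apply hu
    rw [← hs, e, zero_dotProduct]
  obtain ⟨u, h1, h2⟩ := exists_both (hne hp) (hne hr)
  rw [hs] at h1 h2
  have hu : u ≠ 0 := by
    rintro rfl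
    rw [sympForm_zero_left] at h1
    exact h1 rfl
  have h1' : sympForm m F p u ≠ 0 := by rw [sympForm_swap, neg_ne_zero]; exact h1
  exact (Relation.ReflTransGen.single ⟨⟨p, hp, rfl⟩, ⟨u, hu, rfl⟩, (pair_TT h1').2⟩).tail
    ⟨⟨u, hu, rfl⟩, ⟨r, hr, rfl⟩, (pair_TT h2).2⟩

theorem isRoot_TTS : IsRootSubgroupSet (TTS m F) := by
  refine ⟨?_, ?_, ?_, ?_, ?_⟩
  · rintro _ ⟨p, hp, rfl⟩
    constructor
    constructor
    rintro ⟨x, hx⟩ ⟨y, hy⟩
    exact Subtype.ext (TT_comm p x hx y hy)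
  · rintro _ ⟨p, hp, rfl⟩
    exact TT_ne_bot hp
  · rw [eq_top_iff, ← tvGroup_eq_top, tvGroup, Subgroup.closure_le]
    rintro _ ⟨w, -, c, rfl⟩
    by_cases hw : w = 0
    · have : H16.SympTransv.tv w c = 1 := by
        apply Subtype.ext
        show sympTransvection m w c = 1
        rw [hw]
        simp [sympTransvection]
      rw [this]; exact one_mem _
    · exact (le_iSup₂_of_le (f := fun (A : Subgroup (symplecticGroup (Fin m) F)) (_ : A ∈ TTS m F) => A) (TT w) ⟨w, hw, rfl⟩ le_rfl)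
        (mem_TT w c)
  · rintro _ ⟨p, hp, rfl⟩ g
    refine ⟨g.1 *ᵥ p, ?_, conj_TT p g⟩
    intro e
    apply hp
    have h1 := inv_mulVec_coe g e
    rw [← h1, mulVec_zero]
  · intro A hA B hB
    rcases pair_TTS A hA B hB with h | h
    · left; exact h
    · right; left; exact h.2

theorem result_5070' [Nonempty (Fin m)] : IsRootSubgroupClass (TTS m F) ∧ IsDegenerateRootSet (TTS m F) ∧ IsKRootSubgroupSet F (TTS m F) ∧
    IsConnectedFamily (FAdj (TTS m F)) (TTS m F) := by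
  refine ⟨⟨isRoot_TTS, class_of_connected ?_ connected_TTS⟩, ?_, ⟨isRoot_TTS, ?_⟩, connected_TTS⟩
  · obtain ⟨i⟩ := ‹Nonempty (Fin m)›
    exact ⟨_, Pi.single (Sum.inl i) 1, single_ne _, rfl⟩
  · apply degenerate_of isRoot_TTS.ne_bot
    intro A hA B hB
    rcases pair_TTS A hA B hB with h | h
    · left; exact h
    · right; exact h.2
  · intro A hA B hB hAB
    rcases pair_TTS A hA B hB with h | h
    · exact absurd (cm_iff.1 h) (not_cm_of_pair hAB)
    · exact h.1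

theorem set_eq' :
    {A : Subgroup ↥(Matrix.symplecticGroup (Fin m) F) | ∃ p : Fin m ⊕ Fin m → F, p ≠ 0 ∧
        A = Subgroup.closure {g : ↥(Matrix.symplecticGroup (Fin m) F) | ∃ c : F, ∀ v : Fin m ⊕ Fin m → F,
          (g : Matrix (Fin m ⊕ Fin m) (Fin m ⊕ Fin m) F) *ᵥ v =
            v + (c * (v ⬝ᵥ (Matrix.J (Fin m) F *ᵥ p))) • p}} = TTS m F := by
  have key : ∀ p : Fin m ⊕ Fin m → F, Subgroup.closure {g : ↥(Matrix.symplecticGroup (Fin m) F) | ∃ c : F, ∀ v : Fin m ⊕ Fin m → F,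
          (g : Matrix (Fin m ⊕ Fin m) (Fin m ⊕ Fin m) F) *ᵥ v =
            v + (c * (v ⬝ᵥ (Matrix.J (Fin m) F *ᵥ p))) • p} = TT p := by
    intro p
    have : {g : ↥(Matrix.symplecticGroup (Fin m) F) | ∃ c : F, ∀ v : Fin m ⊕ Fin m → F,
          (g : Matrix (Fin m ⊕ Fin m) (Fin m ⊕ Fin m) F) *ᵥ v =
            v + (c * (v ⬝ᵥ (Matrix.J (Fin m) F *ᵥ p))) • p} = (TT p : Set ↥(Matrix.symplecticGroup (Fin m) F)) := by
      ext g
      constructor
      · rintro ⟨c, hc⟩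
        refine ⟨c, Subtype.ext (mulVec_ext fun x => ?_)⟩
        rw [hc x, coe_tv, sympTransvection_mulVec]; rfl
      · rintro ⟨c, rfl⟩
        refine ⟨c, fun v => ?_⟩
        rw [coe_tv, sympTransvection_mulVec]; rfl
    rw [this, Subgroup.closure_eq]
  ext A
  constructor
  · rintro ⟨p, hp, rfl⟩
    exact ⟨p, hp, key p⟩
  · rintro ⟨p, hp, rfl⟩
    exact ⟨p, hp, (key p).symm⟩

end H85.SpRootA
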