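import Cfsg.Agent.Lib.H85.RankOneNormal

/-!
Special rank one groups with abelian unipotent subgroups: the partner map and the μ-elements.
Conjugation is written x^g = g⁻¹ x g here.
-/
set_option autoImplicit false

namespace H85.Special

open Cfsg H85.RankOne H85.RankOneTrans

variable {G : Type*} [Group G] {A B : Subgroup G}

/-- `b` is the partner of `a`. -/
structure Partner (A B : Subgroup G) (a b : G) : Prop where
  ha : a ∈ A
  ha1 : a ≠ 1
  hb : b ∈ B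
  hb1 : b ≠ 1
  conj : conjBy A b⁻¹ = conjBy B a⁻¹

theorem Partner.symm {a b : G} (p : Partner A B a b) : Partner B A b a :=
  ⟨p.hb, p.hb1, p.ha, p.ha1, p.conj.symm⟩

theorem exists_left (h : IsRankOnePair A B) {a : G} (ha : a ∈ A) (ha1 : a ≠ 1) : ∃ b, Partner A B a b := by
  obtain ⟨b, hb, hb1, e⟩ := exists_partner h ha ha1
  exact ⟨b, ha, ha1, hb, hb1, e⟩

theorem exists_right (h : IsRankOnePair A B) {b : G} (hb : b ∈ B) (hb1 : b ≠ 1) : ∃ a, Partner A B a b := by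
  obtain ⟨a, ha, ha1, e⟩ := exists_partner' h hb hb1
  exact ⟨a, ha, ha1, hb, hb1, e⟩

theorem unique_left (h : IsRankOnePair A B) {a b b' : G} (p : Partner A B a b) (p' : Partner A B a b') : b = b' :=
  inv_injective (partner_unique h (B.inv_mem p.hb) (B.inv_mem p'.hb) (p.conj.trans p'.conj.symm))

theorem unique_right (h : IsRankOnePair A B) {a a' b : G} (p : Partner A B a b) (p' : Partner A B a' b) : a = a' :=
  unique_left (RankOnePair_symm h) p.symm p'.symm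

theorem special_symm (h : IsSpecialRankOnePair A B) : IsSpecialRankOnePair B A := by
  refine ⟨RankOnePair_symm h.1, ?_⟩
  intro b hb hb1 a ha ha1 e
  have := h.2 a ha ha1 b hb hb1 e.symm
  have h2 := congrArg (fun x => x⁻¹) this
  simp only [mul_inv_rev, inv_inv] at h2
  rw [mul_assoc, mul_assoc, h2]

theorem rel (h : IsSpecialRankOnePair A B) {a b : G} (p : Partner A B a b) : b⁻¹ * a * b = a⁻¹ * b⁻¹ * a :=
  h.2 a p.ha p.ha1 b p.hb p.hb1 p.conj

/-- the element μ_a = a⁻¹ b a⁻¹ for b the partner of a -/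
def mu (a b : G) : G := a⁻¹ * b * a⁻¹

theorem mu_inv (a b : G) : (mu a b)⁻¹ = a * b⁻¹ * a := by unfold mu; group

theorem mu_inv' (a b : G) : mu a⁻¹ b⁻¹ = (mu a b)⁻¹ := by unfold mu; group

theorem mu_eq (h : IsSpecialRankOnePair A B) {a b : G} (p : Partner A B a b) : mu a b = b * a⁻¹ * b := by
  have h1 := rel h p
  unfold mu
  -- b⁻¹ a b = a⁻¹ b⁻¹ a
  have h2 : a * b⁻¹ * a = b⁻¹ * a * b⁻¹ := by
    have h3 : a * (b⁻¹ * a * b) * b⁻¹ = a * (a⁻¹ * b⁻¹ * a) * b⁻¹ := by rw [h1]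
    calc a * b⁻¹ * a = a * (b⁻¹ * a * b) * b⁻¹ := by group
      _ = a * (a⁻¹ * b⁻¹ * a) * b⁻¹ := h3
      _ = b⁻¹ * a * b⁻¹ := by group
  have h4 := congrArg (fun x => x⁻¹) h2
  simp only [mul_inv_rev, inv_inv] at h4
  rw [mul_assoc, h4, mul_assoc]

theorem left_conj_mu (h : IsSpecialRankOnePair A B) {a b : G} (p : Partner A B a b) : (mu a b)⁻¹ * a * mu a b = b⁻¹ := by
  have h1 := rel h p
  rw [mu_inv]; unfold mu
  calc a * b⁻¹ * a * a * (a⁻¹ * b * a⁻¹) = a * (b⁻¹ * a * b) * a⁻¹ := by group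
    _ = b⁻¹ := by rw [h1]; group

theorem right_conj_mu (h : IsSpecialRankOnePair A B) {a b : G} (p : Partner A B a b) : (mu a b)⁻¹ * b * mu a b = a⁻¹ := by
  have h1 := left_conj_mu (special_symm h) p.symm
  have h2 : mu b a = (mu a b)⁻¹ := by
    rw [mu_eq (special_symm h) p.symm, mu_inv]
  rw [h2, inv_inv] at h1
  -- mu a b * b * (mu a b)⁻¹ = a⁻¹
  have h3 := left_conj_mu h p
  have h4 : (mu a b)⁻¹ * b * mu a b = ((mu a b)⁻¹ * b⁻¹ * mu a b)⁻¹ := by group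
  rw [h4, mu_eq h p]
  have h5 := rel (special_symm h) p.symm
  -- a⁻¹ b a = b⁻¹ a⁻¹ b
  calc ((b * a⁻¹ * b)⁻¹ * b⁻¹ * (b * a⁻¹ * b))⁻¹ = b⁻¹ * a * (b) * (a⁻¹ * b) := by group
    _ = (b⁻¹ * a * b) * a⁻¹ * b := by group
    _ = a⁻¹ := by rw [rel h p]; group

theorem conjBy_mu_left (h : IsSpecialRankOnePair A B) {a b : G} (p : Partner A B a b) : conjBy A (mu a b)⁻¹ = B := by
  -- B^{...}: the image of B meets A nontrivially
  have hmem : mu a b ∈ A ⊔ B := by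
    unfold mu
    exact Subgroup.mul_mem _ (Subgroup.mul_mem _ (Subgroup.inv_mem _ (Subgroup.mem_sup_left p.ha)) (Subgroup.mem_sup_right p.hb))
      (Subgroup.inv_mem _ (Subgroup.mem_sup_left p.ha))
  apply eq_of_mem_inf h.1 (unip_conj_mem left_mem (Subgroup.inv_mem _ hmem)) (right_mem h.1) (x := b⁻¹)
    (inv_ne_one.2 p.hb1) _ (B.inv_mem p.hb)
  rw [← left_conj_mu h p]
  have := conj_mem_conjBy (g := (mu a b)⁻¹) p.ha
  rwa [inv_inv] at this

theorem conjBy_mu_right (h : IsSpecialRankOnePair A B) {a b : G} (p : Partner A B a b) : conjBy B (mu a b)⁻¹ = A := by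
  have hmem : mu a b ∈ A ⊔ B := by
    unfold mu
    exact Subgroup.mul_mem _ (Subgroup.mul_mem _ (Subgroup.inv_mem _ (Subgroup.mem_sup_left p.ha)) (Subgroup.mem_sup_right p.hb))
      (Subgroup.inv_mem _ (Subgroup.mem_sup_left p.ha))
  apply eq_of_mem_inf h.1 (unip_conj_mem (right_mem h.1) (Subgroup.inv_mem _ hmem)) left_mem (x := a⁻¹)
    (inv_ne_one.2 p.ha1) _ (A.inv_mem p.ha)
  rw [← right_conj_mu h p]
  have := conj_mem_conjBy (g := (mu a b)⁻¹) p.hb
  rwa [inv_inv] at this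

theorem conjBy_mu_left' (h : IsSpecialRankOnePair A B) {a b : G} (p : Partner A B a b) : conjBy A (mu a b) = B := by
  have := conjBy_mu_right h p
  rw [conjBy_eq_iff, inv_inv] at this
  exact this.symm

theorem conjBy_mu_right' (h : IsSpecialRankOnePair A B) {a b : G} (p : Partner A B a b) : conjBy B (mu a b) = A := by
  have := conjBy_mu_left h p
  rw [conjBy_eq_iff, inv_inv] at this
  exact this.symm

theorem partner_inv (h : IsSpecialRankOnePair A B) {a b : G} (p : Partner A B a b) : Partner A B a⁻¹ b⁻¹ := by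
  refine ⟨A.inv_mem p.ha, inv_ne_one.2 p.ha1, B.inv_mem p.hb, inv_ne_one.2 p.hb1, ?_⟩
  rw [inv_inv, inv_inv]
  -- B^{mu} = A, i.e. conjBy B (mu)⁻¹ = A with mu⁻¹ = a b⁻¹ a
  have h1 := conjBy_mu_right' h p
  rw [mu, mul_assoc, conjBy_mul, conjBy_mul] at h1
  -- conjBy A (mu) = B : a⁻¹ b a⁻¹
  have h2 := conjBy_mu_left' h p
  rw [mu, mul_assoc, conjBy_mul, conjBy_mul, conjBy_self (A.inv_mem p.ha)] at h2
  rw [conjBy_eq_iff, inv_inv] at h2
  exact h2

/-- conjugation by an element swapping A and B -/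
theorem partner_swap {a b g : G} (p : Partner A B a b) (h1 : conjBy A g⁻¹ = B) (h2 : conjBy B g⁻¹ = A) :
    Partner A B (g⁻¹ * b * g) (g⁻¹ * a * g) := by
  have nt : ∀ x : G, x ≠ 1 → g⁻¹ * x * g ≠ 1 := by
    intro x hx e
    apply hx
    calc x = g * (g⁻¹ * x * g) * g⁻¹ := by group
      _ = 1 := by rw [e]; group
  refine ⟨?_, nt _ p.hb1, ?_, nt _ p.ha1, ?_⟩
  · rw [← h2]
    have := conj_mem_conjBy (g := g⁻¹) p.hb
    rwa [inv_inv] at this
  · rw [← h1]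
    have := conj_mem_conjBy (g := g⁻¹) p.ha
    rwa [inv_inv] at this
  · have e1 : conjBy A (g⁻¹ * a * g)⁻¹ = conjBy (conjBy B a⁻¹) g⁻¹ := by
      rw [← h2, ← conjBy_mul, ← conjBy_mul]
      have : (g⁻¹ * a * g)⁻¹ * g⁻¹ = g⁻¹ * a⁻¹ := by group
      rw [this]
    have e2 : conjBy B (g⁻¹ * b * g)⁻¹ = conjBy (conjBy A b⁻¹) g⁻¹ := by
      rw [← h1, ← conjBy_mul, ← conjBy_mul]
      have : (g⁻¹ * b * g)⁻¹ * g⁻¹ = g⁻¹ * b⁻¹ := by group
      rw [this]
    rw [e1, e2, p.conj]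

/-- conjugation by an element fixing A and B -/
theorem partner_fix {a b g : G} (p : Partner A B a b) (h1 : conjBy A g⁻¹ = A) (h2 : conjBy B g⁻¹ = B) :
    Partner A B (g⁻¹ * a * g) (g⁻¹ * b * g) := by
  have nt : ∀ x : G, x ≠ 1 → g⁻¹ * x * g ≠ 1 := by
    intro x hx e
    apply hx
    calc x = g * (g⁻¹ * x * g) * g⁻¹ := by group
      _ = 1 := by rw [e]; group
  refine ⟨?_, nt _ p.ha1, ?_, nt _ p.hb1, ?_⟩
  · rw [← h1]
    have := conj_mem_conjBy (g := g⁻¹) p.ha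
    rwa [inv_inv] at this
  · rw [← h2]
    have := conj_mem_conjBy (g := g⁻¹) p.hb
    rwa [inv_inv] at this
  · have e1 : conjBy B (g⁻¹ * a * g)⁻¹ = conjBy (conjBy B a⁻¹) g⁻¹ := by
      conv_lhs => rw [← h2]
      rw [← conjBy_mul, ← conjBy_mul]
      have : (g⁻¹ * a * g)⁻¹ * g⁻¹ = g⁻¹ * a⁻¹ := by group
      rw [this]
    have e2 : conjBy A (g⁻¹ * b * g)⁻¹ = conjBy (conjBy A b⁻¹) g⁻¹ := by
      conv_lhs => rw [← h1]
      rw [← conjBy_mul, ← conjBy_mul]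
      have : (g⁻¹ * b * g)⁻¹ * g⁻¹ = g⁻¹ * b⁻¹ := by group
      rw [this]
    rw [e1, e2, p.conj]

/-- The addition formula: for partners (a, a'), (b, b') with a b ≠ 1 and x, y the partners of (ab)^{μ_a}, (ab)^{μ_b}:
x a = y b. -/
theorem add_formula (h : IsSpecialRankOnePair A B) (hab : HasAbelianUnipotents A B) {a a' b b' x y : G}
    (pa : Partner A B a a') (pb : Partner A B b b') (px : Partner A B x ((mu a a')⁻¹ * (a * b) * mu a a'))
    (py : Partner A B y ((mu b b')⁻¹ * (a * b) * mu b b')) : x * a = y * b := by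
  have commA : ∀ u ∈ A, ∀ v ∈ A, u * v = v * u := by
    intro u hu v hv
    have := hab.1.is_comm.comm (⟨u, hu⟩ : A) ⟨v, hv⟩
    exact congrArg Subtype.val this
  have commB : ∀ u ∈ B, ∀ v ∈ B, u * v = v * u := by
    intro u hu v hv
    have := hab.2.is_comm.comm (⟨u, hu⟩ : B) ⟨v, hv⟩
    exact congrArg Subtype.val this
  -- B^{x a} = A^{b' a'}
  have key : ∀ {a a' b b' x : G}, Partner A B a a' → Partner A B b b' →
      Partner A B x ((mu a a')⁻¹ * (a * b) * mu a a') → conjBy B (x * a)⁻¹ = conjBy A (b' * a')⁻¹ := by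
    intro a a' b b' x pa pb px
    have e0 : conjBy A (b' * a')⁻¹ = conjBy B (a'⁻¹ * b⁻¹) := by
      rw [mul_inv_rev, conjBy_mul, pb.conj, ← conjBy_mul]
    rw [e0, mul_inv_rev, conjBy_mul, ← px.conj, ← conjBy_mul]
    -- conjBy A (a⁻¹ * (μ⁻¹ (ab) μ)⁻¹) = conjBy B (a'⁻¹ * b⁻¹)
    have e1 : a⁻¹ * ((mu a a')⁻¹ * (a * b) * mu a a')⁻¹ = (a⁻¹ * (mu a a')⁻¹ * (a * b)⁻¹) * mu a a' := by group
    rw [e1, conjBy_mul, conjBy_mu_left' h pa]
    have e2 : a⁻¹ * (mu a a')⁻¹ * (a * b)⁻¹ = a'⁻¹ * b⁻¹ := by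
      rw [commA a pa.ha b pb.ha, mu_inv]; group
    rw [e2]
  have h1 := key pa pb px
  have h2 := key pb pa (by rw [commA b pb.ha a pa.ha]; exact py)
  rw [commB a' pa.hb b' pb.hb, ← h1] at h2
  exact (inv_injective (partner_unique' h.1 (A.inv_mem (A.mul_mem py.ha pb.ha)) (A.inv_mem (A.mul_mem px.ha pa.ha)) h2)).symm

end H85.Special
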