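import Cfsg.Agent.Lib.H85.Steinberg2
import Cfsg.Agent.Lib.H85.SpecialPow

/-!
In a special rank one group with elementary abelian unipotent subgroups, ⟨a, b(a)⟩ is SL₂(p) or PSL₂(p).
-/
set_option autoImplicit false

namespace H85.SpecialPSL

open Cfsg H85.RankOne H85.RankOneTrans H85.Special H85.SpecialPow H85.SL2

theorem center_sl2 {k : Type*} [Field k] {K : Subgroup (Matrix.SpecialLinearGroup (Fin 2) k)}
    (hK : K ≤ Subgroup.center (Matrix.SpecialLinearGroup (Fin 2) k)) :
    K = ⊥ ∨ K = Subgroup.center (Matrix.SpecialLinearGroup (Fin 2) k) := by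
  by_cases h : K = ⊥
  · exact Or.inl h
  right
  apply le_antisymm hK
  obtain ⟨g, hg, hg1⟩ := exists_ne_one h
  have key : ∀ x ∈ Subgroup.center (Matrix.SpecialLinearGroup (Fin 2) k), x = 1 ∨ x = -1 := by
    intro x hx
    obtain ⟨r, hr, e⟩ := Matrix.SpecialLinearGroup.mem_center_iff.1 hx
    rw [Fintype.card_fin] at hr
    have : r = 1 ∨ r = -1 := by
      have h2 : (r - 1) * (r + 1) = 0 := by linear_combination hr
      rcases mul_eq_zero.1 h2 with h3 | h3
      · left; linear_combination h3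
      · right; linear_combination h3
    rcases this with rfl | rfl
    · left
      apply Subtype.ext
      rw [← e]; simp
    · right
      apply Subtype.ext
      rw [← e]
      ext i j; fin_cases i <;> fin_cases j <;> simp [Matrix.scalar_apply]
  intro x hx
  rcases key x hx with rfl | rfl
  · exact K.one_mem
  · rcases key g (hK hg) with h1 | h1
    · exact absurd h1 hg1
    · rwa [← h1]

theorem range_equiv {k : Type*} [Field k] {G : Type*} [Group G] (φ : Matrix.SpecialLinearGroup (Fin 2) k →* G)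
    (hK : φ.ker ≤ Subgroup.center (Matrix.SpecialLinearGroup (Fin 2) k)) :
    Nonempty (φ.range ≃* Matrix.SpecialLinearGroup (Fin 2) k) ∨
    Nonempty (φ.range ≃* Matrix.ProjectiveSpecialLinearGroup (Fin 2) k) := by
  rcases center_sl2 hK with h | h
  · left
    exact ⟨(MonoidHom.ofInjective ((MonoidHom.ker_eq_bot_iff φ).1 h)).symm⟩
  · right
    exact ⟨((QuotientGroup.quotientMulEquivOfEq h.symm).trans (QuotientGroup.quotientKerEquivRange φ)).symm⟩

variable {G : Type*} [Group G] {A B : Subgroup G}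

/-- one-parameter subgroup of an element of order dividing p -/
def par (p : ℕ) (a : G) (t : ZMod p) : G := a ^ t.val

theorem par_natCast {p : ℕ} {a : G} (ha : a ^ p = 1) (m : ℕ) : par p a (m : ZMod p) = a ^ m := by
  unfold par
  rw [ZMod.val_natCast, ← pow_eq_pow_mod m ha]

theorem par_add {p : ℕ} [NeZero p] {a : G} (ha : a ^ p = 1) (s t : ZMod p) : par p a (s + t) = par p a s * par p a t := by
  unfold par
  rw [ZMod.val_add, ← pow_eq_pow_mod _ ha, pow_add]

theorem par_pow {p : ℕ} [NeZero p] {a : G} (ha : a ^ p = 1) (t : ZMod p) (m : ℕ) : par p a t ^ m = par p a (t * m) := by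
  have h1 : par p a (t * m) = par p a ((t.val * m : ℕ) : ZMod p) := by
    congr 1; push_cast; rw [ZMod.natCast_zmod_val]
  rw [h1, par_natCast ha, par, pow_mul]

theorem par_one {p : ℕ} [Fact p.Prime] (a : G) : par p a 1 = a := by
  unfold par; rw [ZMod.val_one, pow_one]

theorem par_zero {p : ℕ} [Fact p.Prime] (a : G) : par p a 0 = 1 := by
  unfold par; rw [ZMod.val_zero, pow_zero]

theorem par_neg {p : ℕ} [Fact p.Prime] {a : G} (ha : a ^ p = 1) (t : ZMod p) : par p a (-t) = (par p a t)⁻¹ := by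
  rw [eq_inv_iff_mul_eq_one, ← par_add ha, neg_add_cancel, par_zero]

theorem partner_par (h : IsSpecialRankOnePair A B) (hab : HasAbelianUnipotents A B) {p : ℕ} [hp : Fact p.Prime]
    (hA : ∀ a ∈ A, a ^ p = 1) {a b : G} (pab : Partner A B a b) {t : ZMod p} (ht : t ≠ 0) :
    Partner A B (par p a t) (par p b t⁻¹) := by
  have hap : a ^ p = 1 := hA a pab.ha
  have horda : orderOf a = p := orderOf_eq_prime hap pab.ha1
  have ht' : t⁻¹ ≠ 0 := inv_ne_zero ht
  have hv1 : 1 ≤ (t⁻¹).val := by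
    rw [Nat.one_le_iff_ne_zero]; intro e; exact ht' ((ZMod.val_eq_zero _).1 e)
  obtain ⟨w, pw, e⟩ := exists_root h hab (t⁻¹).val hv1 (fun j h1 h2 e => by
    have h3 := orderOf_dvd_of_pow_eq_one e
    rw [horda] at h3
    have h4 := Nat.le_of_dvd (by omega) h3
    have h5 := ZMod.val_lt t⁻¹
    omega) pab
  have hwp : w ^ p = 1 := hA w pw.ha
  have hw : par p a t = w := by
    unfold par
    rw [← e, ← pow_mul]
    have h1 : w ^ ((t⁻¹).val * t.val) = par p w (((t⁻¹).val * t.val : ℕ) : ZMod p) := (par_natCast hwp _).symm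
    rw [h1]
    have h2 : (((t⁻¹).val * t.val : ℕ) : ZMod p) = 1 := by
      push_cast; rw [ZMod.natCast_zmod_val, ZMod.natCast_zmod_val]; exact inv_mul_cancel₀ ht
    rw [h2, par_one]
  rw [hw]; exact pw

theorem rel_par (h : IsSpecialRankOnePair A B) (hab : HasAbelianUnipotents A B) {p : ℕ} [hp : Fact p.Prime]
    (hA : ∀ a ∈ A, a ^ p = 1) {a b : G} (pab : Partner A B a b) : Steinberg2.Rel (par p a) (par p b) := by
  have hap : a ^ p = 1 := hA a pab.ha
  have hbp : b ^ p = 1 := by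
    have h1 := orderOf_partner h pab
    rw [orderOf_eq_prime hap pab.ha1] at h1
    rw [← h1]; exact pow_orderOf_eq_one b
  refine ⟨par_add hap, par_add hbp, ?_⟩
  intro t ht x
  have h1 := rel h (partner_par h hab hA pab ht)
  have h2 : (par p b t⁻¹)⁻¹ * (par p a t) ^ x.val * par p b t⁻¹ = (par p a t)⁻¹ * ((par p b t⁻¹)⁻¹) ^ x.val * par p a t := by
    rw [conj_pow', h1, conj_pow']
  rw [par_pow hap, ZMod.natCast_zmod_val, inv_pow, par_pow hbp, ZMod.natCast_zmod_val] at h2
  rw [par_neg hbp (t⁻¹ * x)]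
  exact h2

theorem psl_of_partner (h : IsSpecialRankOnePair A B) (hab : HasAbelianUnipotents A B) {p : ℕ} [hp : Fact p.Prime]
    (hA : ∀ a ∈ A, a ^ p = 1) {a b : G} (pab : Partner A B a b) :
    ∃ φ : Matrix.SpecialLinearGroup (Fin 2) (ZMod p) →* G, (∀ t, φ (lo t) = par p a t) ∧ (∀ t, φ (up t) = par p b t) ∧
      φ.range = Subgroup.closure {a, b} ∧ φ.ker ≤ Subgroup.center _ := by
  obtain ⟨φ, h1, h2⟩ := Steinberg2.exists_hom (rel_par h hab hA pab)
  refine ⟨φ, h1, h2, ?_, ?_⟩
  · rw [MonoidHom.range_eq_map, ← Steinberg2.lo_up_generate, MonoidHom.map_closure]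
    apply le_antisymm
    · rw [Subgroup.closure_le]
      rintro _ ⟨g, ⟨t, rfl⟩ | ⟨t, rfl⟩, rfl⟩
      · rw [h1]; exact Subgroup.pow_mem _ (Subgroup.subset_closure (by simp)) _
      · rw [h2]; exact Subgroup.pow_mem _ (Subgroup.subset_closure (by simp)) _
    · rw [Subgroup.closure_le]
      rintro x (rfl | rfl)
      · exact Subgroup.subset_closure ⟨lo 1, Or.inl ⟨1, rfl⟩, by rw [h1, par_one]⟩
      · exact Subgroup.subset_closure ⟨up 1, Or.inr ⟨1, rfl⟩, by rw [h2, par_one]⟩
  · rcases RankOneNormal.dichotomy (SL2.result_5016 (ZMod p)).1 φ.ker with h3 | h3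
    · exfalso
      have h4 : φ (up 1) ∈ A := by
        have h5 : up (1 : ZMod p) ∈ φ.ker ⊔ lowerUnipotentSL2 (ZMod p) := by rw [h3]; trivial
        obtain ⟨k, hk, l, hl, e⟩ := Subgroup.mem_sup_of_normal_left.1 h5
        obtain ⟨t, rfl⟩ := mem_lower.1 hl
        rw [← e, map_mul, (MonoidHom.mem_ker).1 hk, one_mul, h1]
        exact A.pow_mem pab.ha _
      rw [h2, par_one] at h4
      have := inf_eq_bot h.1
      apply pab.hb1
      rw [← Subgroup.mem_bot, ← this]
      exact ⟨h4, pab.hb⟩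
    · exact h3

theorem result_5022 {X : Type*} [Group X] {A B : Subgroup X}
    (hs : Cfsg.IsSpecialRankOnePair A B) (hab : Cfsg.HasAbelianUnipotents A B)
    {p : ℕ} [Fact p.Prime] (hA : Cfsg.IsElementaryAbelian p A)
    {a b : X} (ha : a ∈ A) (ha1 : a ≠ 1) (hb : b ∈ B) (hb1 : b ≠ 1) (hab' : Cfsg.conjBy A b⁻¹ = Cfsg.conjBy B a⁻¹) :
    Nonempty (↥(Subgroup.closure ({a, b} : Set X)) ≃* Matrix.SpecialLinearGroup (Fin 2) (ZMod p)) ∨
    Nonempty (↥(Subgroup.closure ({a, b} : Set X)) ≃* Matrix.ProjectiveSpecialLinearGroup (Fin 2) (ZMod p)) := by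
  obtain ⟨φ, -, -, h3, h4⟩ := psl_of_partner hs hab hA.2 ⟨ha, ha1, hb, hb1, hab'⟩
  rw [← h3]
  exact range_equiv φ h4

end H85.SpecialPSL
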