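import Cfsg.Agent.Lib.H85.SuzA
import Cfsg.Agent.Lib.H91.LargePair2
import Cfsg.Agent.S0290

set_option autoImplicit false
set_option maxHeartbeats 400000

/-! Groups with an extraspecial subgroup of order 128 and quotient of order 25920: frames. -/

namespace H85.Suz

open QuadraticMap Matrix H48.QuadStd H85.OrthThree H86.OutExtra H91.MonsterForm Cfsg H91.LargePair

/-! ### vectors -/

def mk (a b c d e f : ZMod 2) : V6 := Sum.elim (Sum.elim ![a, c] ![b, d]) ![e, f]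

theorem mk_eta (v : V6) : ∃ a b c d e f, v = mk a b c d e f := by
  refine ⟨v (.inl (.inl 0)), v (.inl (.inr 0)), v (.inl (.inl 1)), v (.inl (.inr 1)), v (.inr 0), v (.inr 1), ?_⟩
  funext i
  rcases i with (i | i) | i <;> fin_cases i <;> rfl

theorem mk_add (a b c d e f a' b' c' d' e' f' : ZMod 2) :
    mk a b c d e f + mk a' b' c' d' e' f' = mk (a + a') (b + b') (c + c') (d + d') (e + e') (f + f') := by
  funext i
  rcases i with (i | i) | i <;> fin_cases i <;> rfl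

theorem mk_inj {a b c d e f a' b' c' d' e' f' : ZMod 2} :
    mk a b c d e f = mk a' b' c' d' e' f' ↔ a = a' ∧ b = b' ∧ c = c' ∧ d = d' ∧ e = e' ∧ f = f' := by
  constructor
  · intro h
    exact ⟨congrFun h (.inl (.inl 0)), congrFun h (.inl (.inr 0)), congrFun h (.inl (.inl 1)),
      congrFun h (.inl (.inr 1)), congrFun h (.inr 0), congrFun h (.inr 1)⟩
  · rintro ⟨rfl, rfl, rfl, rfl, rfl, rfl⟩; rfl

theorem mk_zero : mk 0 0 0 0 0 0 = 0 := by
  funext i
  rcases i with (i | i) | i <;> fin_cases i <;> rfl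

theorem q_mk (a b c d e f : ZMod 2) : q6 (mk a b c d e f) = a * b + c * d + (e ^ 2 + e * f + f ^ 2) := by
  rw [q6, qMinus_apply, Fin.sum_univ_two]
  simp only [mk, Sum.elim_inl, Sum.elim_inr, cons_val_zero, cons_val_one]
  ring

theorem b_mk (a b c d e f a' b' c' d' e' f' : ZMod 2) :
    polar q6 (mk a b c d e f) (mk a' b' c' d' e' f') = a * b' + b * a' + c * d' + d * c' + e * f' + f * e' := by
  rw [polar, mk_add, q_mk, q_mk, q_mk]
  have h : (2 : ZMod 2) = 0 := rfl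
  linear_combination (-(e * e') - f * f') * (0 : ZMod 2) + (e * e' + f * f') * h

def ve : V6 := mk 1 0 0 0 0 0
def vf : V6 := mk 0 1 0 0 0 0
def cA : Fin 5 → ZMod 2 := ![1, 0, 1, 1, 1]
def cB : Fin 5 → ZMod 2 := ![0, 1, 1, 1, 1]
def cC : Fin 5 → ZMod 2 := ![0, 0, 1, 0, 1]
def cD : Fin 5 → ZMod 2 := ![0, 0, 0, 1, 1]
def vv (i : Fin 5) : V6 := mk 0 0 (cA i) (cB i) (cC i) (cD i)

theorem cls_dec : ∀ c d e f : ZMod 2, (c = 0 ∧ d = 0 ∧ e = 0 ∧ f = 0) ∨
    (∃ i : Fin 5, c = cA i ∧ d = cB i ∧ e = cC i ∧ f = cD i) ∨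
    ∃ i j : Fin 5, i ≠ j ∧ c = cA i + cA j ∧ d = cB i + cB j ∧ e = cC i + cC j ∧ f = cD i + cD j := by decide

theorem q_ve : q6 ve = 0 := by rw [ve, q_mk]; decide
theorem q_vf : q6 vf = 0 := by rw [vf, q_mk]; decide
theorem ve_ne : ve ≠ 0 := by rw [ve, ← mk_zero, Ne, mk_inj]; decide
theorem b_ef : polar q6 ve vf = 1 := by rw [ve, vf, b_mk]; decide
theorem q_vv (i : Fin 5) : q6 (vv i) = 0 := by rw [vv, q_mk]; revert i; decide
theorem b_ev (i : Fin 5) : polar q6 ve (vv i) = 0 := by rw [ve, vv, b_mk]; revert i; decide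
theorem b_fv (i : Fin 5) : polar q6 vf (vv i) = 0 := by rw [vf, vv, b_mk]; revert i; decide
theorem b_vv (i j : Fin 5) : polar q6 (vv i) (vv j) = if i = j then 0 else 1 := by
  rw [vv, vv, b_mk]; revert i j; decide
theorem sum_vv : vv 0 + (vv 1 + (vv 2 + vv 3)) = vv 4 := by
  simp only [vv, mk_add, mk_inj]; decide

theorem cls_v (v : V6) (h : polar q6 v ve = 0) : ∃ α : ZMod 2, v = α • ve ∨ (∃ i, v = α • ve + vv i) ∨
    ∃ i j, i ≠ j ∧ v = α • ve + (vv i + vv j) := by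
  obtain ⟨a, b, c, d, e, f, rfl⟩ := mk_eta v
  rw [ve, b_mk] at h
  have hb : b = 0 := by revert h; revert a b c d e f; decide
  subst hb
  have hs : ∀ α : ZMod 2, α • ve = mk α 0 0 0 0 0 := by
    intro α
    funext i
    rcases i with (i | i) | i <;> fin_cases i <;> simp [ve, mk]
  refine ⟨a, ?_⟩
  rw [hs]
  simp only [vv, mk_add, mk_inj, zero_add, add_zero, true_and]
  exact cls_dec c d e f

/-! ### isometries -/

theorem add_self6 (v : V6) : v + v = 0 := add_self' v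

theorem q_pair {i j : Fin 5} (h : i ≠ j) : q6 (vv i + vv j) ≠ 0 := by
  have := b_vv i j
  rw [if_neg h, polar, q_vv, q_vv, sub_zero, sub_zero] at this
  rw [this]; exact one_ne_zero

noncomputable def rr (i j : Fin 5) (h : i ≠ j) : O6 := H17.OrthDet.refl q6 (vv i + vv j) (q_pair h)

theorem rr_app (i j : Fin 5) (h : i ≠ j) (x : V6) :
    M (rr i j h) *ᵥ x = x + (polar q6 (vv i + vv j) x) • (vv i + vv j) := refl_app _ _ _

theorem rr_e (i j : Fin 5) (h : i ≠ j) : M (rr i j h) *ᵥ ve = ve := by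
  rw [rr_app, polar_comm, polar_add_right, b_ev, b_ev, add_zero, zero_smul, add_zero]

theorem rr_f (i j : Fin 5) (h : i ≠ j) : M (rr i j h) *ᵥ vf = vf := by
  rw [rr_app, polar_comm, polar_add_right, b_fv, b_fv, add_zero, zero_smul, add_zero]

theorem rr_v (i j : Fin 5) (h : i ≠ j) (k : Fin 5) : M (rr i j h) *ᵥ vv k = vv (Equiv.swap i j k) := by
  rw [rr_app, polar_comm, polar_add_right, b_vv, b_vv]
  by_cases hi : k = i
  · subst hi
    rw [if_pos rfl, if_neg h, zero_add, one_smul, Equiv.swap_apply_left, ← add_assoc, add_self6, zero_add]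
  · by_cases hj : k = j
    · subst hj
      rw [if_neg hi, if_pos rfl, add_zero, one_smul, Equiv.swap_apply_right, add_comm (vv i), ← add_assoc, add_self6,
        zero_add]
    · rw [if_neg hi, if_neg hj, Equiv.swap_apply_of_ne_of_ne hi hj]
      have : (1 : ZMod 2) + 1 = 0 := rfl
      rw [this, zero_smul, add_zero]

theorem rr_not (i j : Fin 5) (h : i ≠ j) : rr i j h ∉ Omega (ZMod 2) ⇑q6 :=
  H48.OInv.refl_not_mem (H48.QuadSplit.nd_iff.mpr nd6) _ (q_pair h)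

/-- every permutation of the frame is induced by an isometry; the even ones by elements of `Omega` -/
theorem exists_perm (σ : Equiv.Perm (Fin 5)) : ∃ T : O6, M T *ᵥ ve = ve ∧ M T *ᵥ vf = vf ∧
    (∀ k, M T *ᵥ vv k = vv (σ k)) ∧ (T ∈ Omega (ZMod 2) ⇑q6 ↔ Equiv.Perm.sign σ = 1) := by
  induction σ using Equiv.Perm.swap_induction_on with
  | one => exact ⟨1, by rw [M_one, one_mulVec], by rw [M_one, one_mulVec], fun k => by rw [M_one, one_mulVec]; rfl,
      by simp [one_mem]⟩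
  | swap_mul σ x y hxy ih =>
    obtain ⟨T, h1, h2, h3, h4⟩ := ih
    refine ⟨rr x y hxy * T, ?_, ?_, fun k => ?_, ?_⟩
    · rw [OrthThree.mul_apply', h1, rr_e]
    · rw [OrthThree.mul_apply', h2, rr_f]
    · rw [OrthThree.mul_apply', h3, rr_v]; rfl
    · rw [Subgroup.mul_mem_iff_of_index_two index6, h4, Equiv.Perm.sign_mul, Equiv.Perm.sign_swap hxy]
      have h5 := rr_not x y hxy
      rcases Int.units_eq_one_or (Equiv.Perm.sign σ) with h6 | h6
      · rw [h6]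
        constructor
        · intro h7; exact absurd (h7.2 rfl) h5
        · intro h7; exact absurd h7 (by decide)
      · rw [h6]
        constructor
        · intro _; decide
        · intro _
          constructor
          · intro h8; exact absurd h8 h5
          · intro h8; exact absurd h8 (by decide)

/-- transitivity of `Omega` on singular vectors -/
theorem exists_move (v : V6) (hv : v ≠ 0) (hq : q6 v = 0) : ∃ T ∈ Omega (ZMod 2) ⇑q6, M T *ᵥ ve = v := by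
  obtain ⟨g, hg1, -, hg2⟩ := H48.QuadWitt.witt_step nd6 ⊥ ve v (by rw [Submodule.mem_bot]; exact ve_ne)
    (by rw [Submodule.mem_bot]; exact hv) (by rw [q_ve, hq]) (by
      intro w hw
      rw [(Submodule.mem_bot _).1 hw, polar_zero_right, polar_zero_right])
  obtain ⟨T, hT⟩ := H48.OInv.exists_of_equiv (Q := q6) g hg1
  have hTe : M T *ᵥ ve = v := (hT ve).trans hg2
  by_cases hTO : T ∈ Omega (ZMod 2) ⇑q6
  · exact ⟨T, hTO, hTe⟩
  · refine ⟨T * rr 0 1 (by decide), ?_, ?_⟩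
    · rw [Subgroup.mul_mem_iff_of_index_two index6]
      have := rr_not 0 1 (by decide)
      tauto
    · rw [OrthThree.mul_apply', rr_e, hTe]

/-! ### coordinates in `G` -/

variable {G : Type*} [Group G]

structure Cd (Q : Subgroup G) (z : G) (P : G → V6) : Prop where
  pk : Pack Q z
  mul : ∀ x ∈ Q, ∀ y ∈ Q, P (x * y) = P x + P y
  surj : ∀ v, ∃ x ∈ Q, P x = v
  ker : ∀ x ∈ Q, P x = 0 ↔ x = 1 ∨ x = z
  sq : ∀ x ∈ Q, x * x = 1 ↔ q6 (P x) = 0
  real : ∀ T ∈ Omega (ZMod 2) ⇑q6, ∃ h, h * z = z * h ∧ ∀ x ∈ Q, P (h * x * h⁻¹) = M T *ᵥ P x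

/-- elements of `⟨z, s⟩` -/
def VV (z s x : G) : Prop := x = 1 ∨ x = z ∨ x = s ∨ x = z * s

structure Fr (Q : Subgroup G) (z s p : G) (y : Fin 5 → G) : Prop where
  pk : Pack Q z
  sQ : s ∈ Q
  ss : s * s = 1
  s1 : s ≠ 1
  sz : s ≠ z
  pQ : p ∈ Q
  pp : p * p = 1
  ps : p * s = z * (s * p)
  yQ : ∀ i, y i ∈ Q
  yy : ∀ i, y i * y i = 1
  anti : ∀ i j, i ≠ j → y i * y j = z * (y j * y i)
  prod : y 0 * (y 1 * (y 2 * (y 3 * y 4))) = 1
  ys : ∀ i, y i * s = s * y i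
  py : ∀ i, p * y i = y i * p
  cls : ∀ a ∈ Q, a * s = s * a → ∃ v, VV z s v ∧ (a = v ∨ (∃ i, a = v * y i) ∨ ∃ i j, i ≠ j ∧ a = v * (y i * y j))
  real : ∀ σ : Equiv.Perm (Fin 5), Equiv.Perm.sign σ = 1 → ∃ c, c * z = z * c ∧ c * s = s * c ∧
    ∀ i, c * y i * c⁻¹ = y (σ i) ∨ c * y i * c⁻¹ = z * y (σ i)
  trans : ∀ x ∈ Q, x * x = 1 → x ≠ 1 → x ≠ z → ∃ h, h * z = z * h ∧ h * s * h⁻¹ = x

section
variable {Q : Subgroup G} {z : G} {P : G → V6} (C : Cd Q z P)
include C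

theorem Cd.one : P 1 = 0 := (C.ker 1 Q.one_mem).2 (Or.inl rfl)
theorem Cd.zz' : P z = 0 := (C.ker z C.pk.zQ).2 (Or.inr rfl)

theorem Cd.inv {x : G} (hx : x ∈ Q) : P x⁻¹ = P x := by
  have h := C.mul x hx x⁻¹ (Q.inv_mem hx)
  rw [mul_inv_cancel, C.one] at h
  have h2 : P x + P x⁻¹ = P x + P x := by rw [← h, add_self6]
  exact add_left_cancel h2

theorem Cd.eq_iff {x y : G} (hx : x ∈ Q) (hy : y ∈ Q) : P x = P y ↔ x = y ∨ x = z * y := by
  constructor
  · intro h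
    have h1 : P (x * y⁻¹) = 0 := by rw [C.mul x hx _ (Q.inv_mem hy), C.inv hy, h, add_self6]
    rcases (C.ker _ (Q.mul_mem hx (Q.inv_mem hy))).1 h1 with h2 | h2
    · left; rw [mul_inv_eq_one] at h2; exact h2
    · right; rw [mul_inv_eq_iff_eq_mul] at h2; exact h2
  · rintro (rfl | rfl)
    · rfl
    · rw [C.mul _ C.pk.zQ _ hy, C.zz', zero_add]

theorem Cd.comm {x y : G} (hx : x ∈ Q) (hy : y ∈ Q) : x * y = y * x ↔ polar q6 (P x) (P y) = 0 := by
  have hz1 : z ≠ 1 := C.pk.z1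
  have hzz := C.pk.zz
  have hzx := C.pk.zc x hx
  have hzy := C.pk.zc y hy
  have key : x * y * (x * y) = 1 ↔ q6 (P x + P y) = 0 := by rw [← C.mul x hx y hy]; exact C.sq _ (Q.mul_mem hx hy)
  have kx := C.sq x hx
  have ky := C.sq y hy
  have e1 : x * y = y * x → x * y * (x * y) = (x * x) * (y * y) := by
    intro h
    calc x * y * (x * y) = x * (y * x) * y := by group
      _ = x * (x * y) * y := by rw [h]
      _ = _ := by group
  have e2 : x * y = z * (y * x) → x * y * (x * y) = z * ((x * x) * (y * y)) := by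
    intro h
    have h' : y * x = z * (x * y) := by rw [h, ← mul_assoc z z, hzz, one_mul]
    calc x * y * (x * y) = x * (y * x) * y := by group
      _ = x * z * (x * y) * y := by rw [h']; group
      _ = z * x * (x * y) * y := by rw [hzx]
      _ = _ := by group
  have hcm : x * y = y * x ∨ x * y = z * (y * x) := by
    rcases C.pk.comm x hx y hy with h | h
    · left; rw [mul_inv_eq_one, mul_inv_eq_iff_eq_mul] at h; exact h
    · right; rw [mul_inv_eq_iff_eq_mul, mul_inv_eq_iff_eq_mul] at h; rw [h]; group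
  have hne : ¬ (x * y = y * x ∧ x * y = z * (y * x)) := by
    rintro ⟨h1, h2⟩
    rw [h1] at h2
    exact hz1 (right_eq_mul.1 h2)
  have z2 : ∀ a : ZMod 2, a ≠ 0 → a = 1 := by decide
  rw [polar]
  have hz1' : (1 : G) ≠ z := fun h => hz1 h.symm
  rcases C.pk.sq x hx with h1 | h1 <;> rcases C.pk.sq y hy with h2 | h2
  · rw [kx.1 h1, ky.1 h2, sub_zero, sub_zero, ← key]
    constructor
    · intro h; rw [e1 h, h1, h2, one_mul]
    · intro h
      rcases hcm with h3 | h3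
      · exact h3
      · rw [e2 h3, h1, h2, one_mul, mul_one] at h; exact absurd h hz1
  · have hy1 : q6 (P y) = 1 := z2 _ fun h => hz1 (by rw [← h2]; exact ky.2 h)
    rw [kx.1 h1, hy1, sub_zero]
    have : q6 (P x + P y) - 1 = 0 ↔ ¬ (q6 (P x + P y) = 0) := by
      generalize q6 (P x + P y) = a; revert a; decide
    rw [this, ← key]
    constructor
    · intro h; rw [e1 h, h1, h2, one_mul]; exact hz1
    · intro h
      rcases hcm with h3 | h3
      · exact h3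
      · rw [e2 h3, h1, h2, one_mul, hzz] at h; exact absurd rfl h
  · have hx1 : q6 (P x) = 1 := z2 _ fun h => hz1 (by rw [← h1]; exact kx.2 h)
    rw [ky.1 h2, hx1, sub_zero]
    have : q6 (P x + P y) - 1 = 0 ↔ ¬ (q6 (P x + P y) = 0) := by
      generalize q6 (P x + P y) = a; revert a; decide
    rw [this, ← key]
    constructor
    · intro h; rw [e1 h, h1, h2, mul_one]; exact hz1
    · intro h
      rcases hcm with h3 | h3
      · exact h3
      · rw [e2 h3, h1, h2, mul_one, hzz] at h; exact absurd rfl h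
  · have hx1 : q6 (P x) = 1 := z2 _ fun h => hz1 (by rw [← h1]; exact kx.2 h)
    have hy1 : q6 (P y) = 1 := z2 _ fun h => hz1 (by rw [← h2]; exact ky.2 h)
    rw [hx1, hy1]
    have : q6 (P x + P y) - 1 - 1 = 0 ↔ (q6 (P x + P y) = 0) := by
      generalize q6 (P x + P y) = a; revert a; decide
    rw [this, ← key]
    constructor
    · intro h; rw [e1 h, h1, h2, hzz]
    · intro h
      rcases hcm with h3 | h3
      · exact h3
      · rw [e2 h3, h1, h2, hzz, mul_one] at h; exact absurd h hz1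

theorem Cd.anti {x y : G} (hx : x ∈ Q) (hy : y ∈ Q) (h : polar q6 (P x) (P y) ≠ 0) : x * y = z * (y * x) := by
  have h0 : ¬ x * y = y * x := fun h1 => h ((C.comm hx hy).1 h1)
  rcases C.pk.comm x hx y hy with h | h
  · rw [mul_inv_eq_one, mul_inv_eq_iff_eq_mul] at h; exact absurd h h0
  · rw [mul_inv_eq_iff_eq_mul, mul_inv_eq_iff_eq_mul] at h; rw [h]; group

/-- moving the coordinates -/
theorem Cd.move {s : G} (hs : s ∈ Q) (hss : s * s = 1) (hs1 : s ≠ 1) (hsz : s ≠ z) :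
    ∃ P' : G → V6, Cd Q z P' ∧ P' s = ve := by
  have h0 : P s ≠ 0 := fun h => by
    rcases (C.ker s hs).1 h with h1 | h1
    · exact hs1 h1
    · exact hsz h1
  obtain ⟨T, hT, hTe⟩ := exists_move (P s) h0 ((C.sq s hs).1 hss)
  have hinv : ∀ x : V6, M T⁻¹ *ᵥ (M T *ᵥ x) = x := fun x => by rw [← OrthThree.mul_apply', inv_mul_cancel, M_one, one_mulVec]
  refine ⟨fun x => M T⁻¹ *ᵥ P x, ⟨C.pk, fun x hx y hy => ?_, fun v => ?_, fun x hx => ?_, fun x hx => ?_,
    fun U hU => ?_⟩, ?_⟩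
  · rw [C.mul x hx y hy, mulVec_add]
  · obtain ⟨x, hx, hv⟩ := C.surj (M T *ᵥ v)
    exact ⟨x, hx, by rw [hv, hinv]⟩
  · rw [← C.ker x hx]
    constructor
    · intro h
      have : M T *ᵥ (M T⁻¹ *ᵥ P x) = 0 := by rw [h, mulVec_zero]
      rwa [← OrthThree.mul_apply', mul_inv_cancel, M_one, one_mulVec] at this
    · intro h; rw [h, mulVec_zero]
  · rw [C.sq x hx, presQ]
  · have hc : T * U * T⁻¹ ∈ Omega (ZMod 2) ⇑q6 := (inferInstance : (Omega (ZMod 2) ⇑q6).Normal).conj_mem U hU T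
    obtain ⟨h, h1, h2⟩ := C.real _ hc
    refine ⟨h, h1, fun x hx => ?_⟩
    rw [h2 x hx, ← OrthThree.mul_apply', ← OrthThree.mul_apply']
    congr 2
    group
  · show M T⁻¹ *ᵥ P s = ve
    rw [← hTe, hinv]

/-- frames -/
theorem Cd.exists_frame {s : G} (hs : s ∈ Q) (hPs : P s = ve) : ∃ (p : G) (y : Fin 5 → G), Fr Q z s p y := by
  have hz1 := C.pk.z1
  have hzz := C.pk.zz
  have hinj := fun {x y : G} (hx : x ∈ Q) (hy : y ∈ Q) => C.eq_iff hx hy
  obtain ⟨p, hp, hPp⟩ := C.surj vf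
  choose w hwQ hwP using fun i : Fin 5 => C.surj (vv i)
  let y : Fin 5 → G := ![w 0, w 1, w 2, w 3, (w 0 * (w 1 * (w 2 * w 3)))⁻¹]
  have h4Q : w 0 * (w 1 * (w 2 * w 3)) ∈ Q := Q.mul_mem (hwQ 0) (Q.mul_mem (hwQ 1) (Q.mul_mem (hwQ 2) (hwQ 3)))
  have hyQ : ∀ i, y i ∈ Q := by
    intro i
    fin_cases i
    · exact hwQ 0
    · exact hwQ 1
    · exact hwQ 2
    · exact hwQ 3
    · exact Q.inv_mem h4Q
  have hyP : ∀ i, P (y i) = vv i := by
    intro i
    fin_cases i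
    · exact hwP 0
    · exact hwP 1
    · exact hwP 2
    · exact hwP 3
    · show P (w 0 * (w 1 * (w 2 * w 3)))⁻¹ = vv 4
      rw [C.inv h4Q, C.mul _ (hwQ 0) _ (Q.mul_mem (hwQ 1) (Q.mul_mem (hwQ 2) (hwQ 3))),
        C.mul _ (hwQ 1) _ (Q.mul_mem (hwQ 2) (hwQ 3)), C.mul _ (hwQ 2) _ (hwQ 3), hwP, hwP, hwP, hwP, sum_vv]
  have hss : s * s = 1 := (C.sq s hs).2 (by rw [hPs, q_ve])
  have hyi : ∀ i, y i * y i = 1 := fun i => (C.sq _ (hyQ i)).2 (by rw [hyP, q_vv])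
  have hs1 : s ≠ 1 := fun h => ve_ne (by rw [← hPs, h, C.one])
  have hsz : s ≠ z := fun h => ve_ne (by rw [← hPs, h, C.zz'])
  have hps : p * s = z * (s * p) := C.anti hp hs (by rw [hPp, hPs, polar_comm, b_ef]; exact one_ne_zero)
  have hys : ∀ i, y i * s = s * y i := fun i => (C.comm (hyQ i) hs).2 (by rw [hyP, hPs, polar_comm, b_ev])
  have hsmul : ∀ α : ZMod 2, ∃ v, (v = 1 ∨ v = s) ∧ v ∈ Q ∧ P v = α • ve := by
    intro α
    have : α = 0 ∨ α = 1 := by revert α; decide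
    rcases this with rfl | rfl
    · exact ⟨1, Or.inl rfl, Q.one_mem, by rw [C.one, zero_smul]⟩
    · exact ⟨s, Or.inr rfl, hs, by rw [hPs, one_smul]⟩
  have hVV : ∀ v, (v = 1 ∨ v = s) → VV z s v ∧ VV z s (z * v) := by
    rintro v (rfl | rfl)
    · exact ⟨Or.inl rfl, Or.inr (Or.inl (mul_one _))⟩
    · exact ⟨Or.inr (Or.inr (Or.inl rfl)), Or.inr (Or.inr (Or.inr rfl))⟩
  refine ⟨p, y, ⟨C.pk, hs, hss, hs1, hsz, hp, (C.sq p hp).2 (by rw [hPp, q_vf]), hps, hyQ, hyi, fun i j hij => ?_, ?_,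
    hys, fun i => ?_, fun a ha has => ?_, fun σ hσ => ?_, fun x hx hxx hx1 hxz => ?_⟩⟩
  · exact C.anti (hyQ i) (hyQ j) (by rw [hyP, hyP, b_vv, if_neg hij]; exact one_ne_zero)
  · show w 0 * (w 1 * (w 2 * (w 3 * (w 0 * (w 1 * (w 2 * w 3)))⁻¹))) = 1
    group
  · exact (C.comm hp (hyQ i)).2 (by rw [hPp, hyP, b_fv])
  · have h1 : polar q6 (P a) ve = 0 := by rw [← hPs]; exact (C.comm ha hs).1 has
    obtain ⟨α, h2⟩ := cls_v _ h1
    obtain ⟨v, hv, hvQ, hvP⟩ := hsmul α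
    obtain ⟨hV1, hV2⟩ := hVV v hv
    rcases h2 with h2 | ⟨i, h2⟩ | ⟨i, j, hij, h2⟩
    · rw [← hvP, hinj ha hvQ] at h2
      rcases h2 with h2 | h2
      · exact ⟨v, hV1, Or.inl h2⟩
      · exact ⟨z * v, hV2, Or.inl h2⟩
    · rw [← hvP, ← hyP, ← C.mul _ hvQ _ (hyQ i), hinj ha (Q.mul_mem hvQ (hyQ i))] at h2
      rcases h2 with h2 | h2
      · exact ⟨v, hV1, Or.inr (Or.inl ⟨i, h2⟩)⟩
      · exact ⟨z * v, hV2, Or.inr (Or.inl ⟨i, by rw [h2, mul_assoc]⟩)⟩
    · rw [← hvP, ← hyP, ← hyP, ← C.mul _ (hyQ i) _ (hyQ j), ← C.mul _ hvQ _ (Q.mul_mem (hyQ i) (hyQ j)),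
        hinj ha (Q.mul_mem hvQ (Q.mul_mem (hyQ i) (hyQ j)))] at h2
      rcases h2 with h2 | h2
      · exact ⟨v, hV1, Or.inr (Or.inr ⟨i, j, hij, h2⟩)⟩
      · exact ⟨z * v, hV2, Or.inr (Or.inr ⟨i, j, hij, by rw [h2, mul_assoc]⟩)⟩
  · obtain ⟨T, hT1, hT2, hT3, hT4⟩ := exists_perm σ
    obtain ⟨h, hz, hh⟩ := C.real T (hT4.2 hσ)
    have hN : ∀ c, c * z = z * c → ∀ x ∈ Q, c * x * c⁻¹ ∈ Q := fun c hc x hx => C.pk.N c hc x hx
    have hpz : p * z = z * p := C.pk.zc p hp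
    have hpi : ∀ x ∈ Q, p * x * p⁻¹ ∈ Q ∧ P (p * x * p⁻¹) = P x := fun x hx =>
      ⟨Q.mul_mem (Q.mul_mem hp hx) (Q.inv_mem hp), by
        rw [C.mul _ (Q.mul_mem hp hx) _ (Q.inv_mem hp), C.mul _ hp _ hx, C.inv hp, add_comm (P p), add_assoc, add_self6,
          add_zero]⟩
    have hfin : ∀ c, c * z = z * c → (∀ x ∈ Q, P (c * x * c⁻¹) = M T *ᵥ P x) → ∀ i,
        c * y i * c⁻¹ = y (σ i) ∨ c * y i * c⁻¹ = z * y (σ i) := by
      intro c hc hcx i
      rw [← hinj (hN c hc _ (hyQ i)) (hyQ _), hcx _ (hyQ i), hyP, hyP, hT3]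
    have hs' : P (h * s * h⁻¹) = P s := by rw [hh s hs, hPs, hT1]
    rw [hinj (hN h hz s hs) hs] at hs'
    rcases hs' with hs' | hs'
    · exact ⟨h, hz, mul_inv_eq_iff_eq_mul.1 hs', hfin h hz hh⟩
    · refine ⟨p * h, ?_, ?_, hfin (p * h) ?_ ?_⟩
      · rw [mul_assoc, hz, ← mul_assoc, hpz, mul_assoc]
      · have h5 : h * s = z * s * h := mul_inv_eq_iff_eq_mul.1 hs'
        calc p * h * s = p * (h * s) := by group
          _ = (p * z) * (s * h) := by rw [h5]; group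
          _ = z * (p * s) * h := by rw [hpz]; group
          _ = (z * z) * (s * p) * h := by rw [hps]; group
          _ = s * (p * h) := by rw [hzz]; group
      · rw [mul_assoc, hz, ← mul_assoc, hpz, mul_assoc]
      · intro x hx
        have e : p * h * x * (p * h)⁻¹ = p * (h * x * h⁻¹) * p⁻¹ := by group
        rw [e, (hpi _ (hN h hz x hx)).2, hh x hx]
  · have h0 : P x ≠ 0 := fun h => by
      rcases (C.ker x hx).1 h with h1 | h1
      · exact hx1 h1
      · exact hxz h1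
    obtain ⟨T, hT, hTe⟩ := exists_move (P x) h0 ((C.sq x hx).1 hxx)
    obtain ⟨h, hz, hh⟩ := C.real T hT
    have h1 : P (h * s * h⁻¹) = P x := by rw [hh s hs, hPs, hTe]
    rw [hinj (C.pk.N h hz s hs) hx] at h1
    rcases h1 with h1 | h1
    · exact ⟨h, hz, h1⟩
    · refine ⟨h * p, ?_, ?_⟩
      · rw [mul_assoc, C.pk.zc p hp, ← mul_assoc, hz, mul_assoc]
      · have e : h * p * s * (h * p)⁻¹ = z * (h * s * h⁻¹) := by
          calc h * p * s * (h * p)⁻¹ = h * (p * s) * p⁻¹ * h⁻¹ := by group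
            _ = (h * z) * s * h⁻¹ := by rw [hps]; group
            _ = z * (h * s * h⁻¹) := by rw [hz]; group
        rw [e, h1, ← mul_assoc, hzz, one_mul]

end

end H85.Suz
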