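import Cfsg.Agent.Lib.H85.SuzB
import Cfsg.Agent.Lib.H91.Setting

set_option autoImplicit false
set_option maxHeartbeats 400000

/-! Groups of Suzuki sporadic type: the basic data. -/

namespace H85.Suz

open QuadraticMap Matrix H48.QuadStd H85.OrthThree H86.OutExtra H91.MonsterForm Cfsg H91.LargePair

variable {G : Type*} [Group G]

theorem card_centralizer [Finite G] {Q1 : Subgroup G} {s z : G} (P1 : Pack Q1 s) (hz : z ∈ Q1) (hz1 : z ≠ 1)
    (hzs : z ≠ s) : 2 * Nat.card (Q1 ⊓ Subgroup.centralizer ({z} : Set G) : Subgroup G) = Nat.card Q1 := by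
  have h1 := H91.LargePair2.relIndex_centralizer_singleton Q1 z
  have h2 : {y : G | ∃ n ∈ Q1, y = n * z * n⁻¹} = {z, s * z} := by
    ext y
    constructor
    · rintro ⟨n, hn, rfl⟩
      rcases P1.comm n hn z hz with h | h
      · left
        rw [mul_inv_eq_one] at h; exact h
      · right
        rw [Set.mem_singleton_iff]
        rw [mul_inv_eq_iff_eq_mul] at h
        rw [h]
    · rintro (rfl | h)
      · exact ⟨1, Q1.one_mem, by group⟩
      · rw [Set.mem_singleton_iff] at h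
        obtain ⟨t, ht, hts⟩ := P1.exists_shift hz hz1 hzs
        exact ⟨t, ht, by rw [h, hts]⟩
  have h3 : z ≠ s * z := by
    intro h
    exact P1.z1 (mul_eq_right.1 h.symm)
  rw [h2, Set.ncard_pair h3] at h1
  have h4 := ((Subgroup.centralizer ({z} : Set G)).subgroupOf Q1).card_mul_index
  have h5 : ((Subgroup.centralizer ({z} : Set G)).subgroupOf Q1).index = 2 := h1
  have h6 : Nat.card ((Subgroup.centralizer ({z} : Set G)).subgroupOf Q1) =
      Nat.card (Q1 ⊓ Subgroup.centralizer ({z} : Set G) : Subgroup G) := by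
    apply Nat.card_congr
    exact
      { toFun := fun x => ⟨x.1.1, x.1.2, x.2⟩
        invFun := fun x => ⟨⟨x.1, x.2.1⟩, x.2.2⟩
        left_inv := fun x => rfl
        right_inv := fun x => rfl }
  rw [h5, h6] at h4
  omega

/-- orbit-stabiliser for conjugation -/
theorem card_inf_centralizer [Finite G] (N : Subgroup G) (x : G) :
    Nat.card (N ⊓ Subgroup.centralizer ({x} : Set G) : Subgroup G) * Set.ncard {y : G | ∃ n ∈ N, y = n * x * n⁻¹} =
      Nat.card N := by
  have h1 := H91.LargePair2.relIndex_centralizer_singleton N x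
  have h4 := ((Subgroup.centralizer ({x} : Set G)).subgroupOf N).card_mul_index
  have h6 : Nat.card ((Subgroup.centralizer ({x} : Set G)).subgroupOf N) =
      Nat.card (N ⊓ Subgroup.centralizer ({x} : Set G) : Subgroup G) := by
    apply Nat.card_congr
    exact
      { toFun := fun x => ⟨x.1.1, x.1.2, x.2⟩
        invFun := fun x => ⟨⟨x.1, x.2.1⟩, x.2.2⟩
        left_inv := fun x => rfl
        right_inv := fun x => rfl }
  rw [h6] at h4
  rw [← h1]
  exact h4

theorem card_zero6 : Nat.card {v : V6 // q6 v = 0} = 28 := by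
  have h := Cfsg.Agent.S0290.result (F := ZMod 2) (q := 2) (ZMod.card 2) 3 (by norm_num) 1 1 aniso
  have e : Nat.card {v : V6 // q6 v = 0} =
      Nat.card {v : (Fin (3 - 1) ⊕ Fin (3 - 1)) ⊕ Fin 2 → ZMod 2 // Cfsg.quadFormMinus (3 - 1) (ZMod 2) 1 1 v = 0} := by
    rw [← coe_qMinus]
  rw [e, h]
  norm_num

/-- the number of involutions of `Q` -/
theorem Cd.count [Finite G] {Q : Subgroup G} {z : G} {P : G → V6} (C : Cd Q z P) :
    Set.ncard {x : G | x ∈ Q ∧ x * x = 1 ∧ x ≠ 1 ∧ x ≠ z} = 54 := by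
  classical
  have h56 : Set.ncard {x : G | x ∈ Q ∧ x * x = 1} = 56 := by
    choose g hgQ hgP using C.surj
    have hz := C.pk.zQ
    let f : {v : V6 // q6 v = 0} × Bool → {x : G // x ∈ Q ∧ x * x = 1} := fun vb =>
      if vb.2 then ⟨z * g vb.1, Q.mul_mem hz (hgQ _), (C.sq _ (Q.mul_mem hz (hgQ _))).2 (by
        rw [C.mul _ hz _ (hgQ _), C.zz', zero_add, hgP]; exact vb.1.2)⟩
      else ⟨g vb.1, hgQ _, (C.sq _ (hgQ _)).2 (by rw [hgP]; exact vb.1.2)⟩
    have hfP : ∀ vb, P (f vb) = vb.1 := by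
      rintro ⟨v, b⟩
      cases b
      · exact hgP _
      · show P (z * g v) = v
        rw [C.mul _ hz _ (hgQ _), C.zz', zero_add, hgP]
    have hbij : Function.Bijective f := by
      constructor
      · rintro ⟨v, b⟩ ⟨v', b'⟩ h
        have h1 : (v : V6) = v' := by
          have := hfP ⟨v, b⟩
          rw [h, hfP] at this
          exact this.symm
        have h2 : v = v' := Subtype.ext h1
        subst h2
        have hne : z * g v ≠ g v := fun h => C.pk.z1 (mul_eq_right.1 h)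
        cases b <;> cases b'
        · rfl
        · exact absurd (congrArg Subtype.val h).symm hne
        · exact absurd (congrArg Subtype.val h) hne
        · rfl
      · rintro ⟨x, hx, hxx⟩
        have hq := (C.sq x hx).1 hxx
        have h1 : P x = P (g (P x)) := (hgP _).symm
        rw [C.eq_iff hx (hgQ _)] at h1
        rcases h1 with h1 | h1
        · exact ⟨⟨⟨P x, hq⟩, false⟩, Subtype.ext h1.symm⟩
        · exact ⟨⟨⟨P x, hq⟩, true⟩, Subtype.ext h1.symm⟩
    have h3 := Nat.card_eq_of_bijective f hbij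
    rw [Nat.card_prod, card_zero6, Nat.card_eq_fintype_card, Fintype.card_bool] at h3
    exact h3.symm
  have hsplit : {x : G | x ∈ Q ∧ x * x = 1} = {x : G | x ∈ Q ∧ x * x = 1 ∧ x ≠ 1 ∧ x ≠ z} ∪ {1, z} := by
    ext x
    simp only [Set.mem_setOf_eq, Set.mem_union, Set.mem_insert_iff, Set.mem_singleton_iff]
    constructor
    · rintro ⟨h1, h2⟩
      by_cases h3 : x = 1
      · right; left; exact h3
      · by_cases h4 : x = z
        · right; right; exact h4
        · left; exact ⟨h1, h2, h3, h4⟩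
    · rintro (⟨h1, h2, -, -⟩ | rfl | rfl)
      · exact ⟨h1, h2⟩
      · exact ⟨Q.one_mem, one_mul 1⟩
      · exact ⟨C.pk.zQ, C.pk.zz⟩
  rw [hsplit, Set.ncard_union_eq (by
    rw [Set.disjoint_left]
    rintro x ⟨-, -, h1, h2⟩ (rfl | h3)
    · exact h1 rfl
    · exact h2 h3) (Set.toFinite _) (Set.toFinite _), Set.ncard_pair C.pk.z1.symm] at h56
  omega

structure Su (Q R : Subgroup G) (z s p k : G) (y : Fin 5 → G) : Prop extends Fr Q z s p y where
  PR : Pack R s
  inR : ∀ c, (∀ q ∈ R, c * q * c⁻¹ = q ∨ c * q * c⁻¹ = s * q) → c ∈ R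
  inQ : ∀ c, (∀ q ∈ Q, c * q * c⁻¹ = q ∨ c * q * c⁻¹ = z * q) → c ∈ Q
  zR : z ∈ R
  hk : k * z * k⁻¹ = s
  hR : ∀ x, x ∈ R ↔ k⁻¹ * x * k ∈ Q
  cQ : Nat.card Q = 128
  cR : Nat.card R = 128
  cC : Nat.card (Subgroup.centralizer ({z} : Set G)) = 3317760
  cCV : Nat.card (Subgroup.centralizer ({z} : Set G) ⊓ Subgroup.centralizer ({s} : Set G) : Subgroup G) = 61440

/-- the coordinates in `G` -/
theorem exists_Cd [Finite G] {z : G} {Q : Subgroup (Subgroup.centralizer ({z} : Set G))} [Q.Normal]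
    (pk : Pack (Q.map (Subgroup.centralizer ({z} : Set G)).subtype) z)
    (hE : IsExtraspecial 2 Q) (hcard : Nat.card Q = 128) (hidx : Q.index = 25920) :
    ∃ P : G → V6, Cd (Q.map (Subgroup.centralizer ({z} : Set G)).subtype) z P := by
  classical
  obtain ⟨π, ζ, hqd, hrange⟩ := exists_minus Q hE hcard hidx (by
    intro c hc
    have h1 := pk.C (c : G) (by
      rintro _ ⟨q, hq, rfl⟩
      exact congrArg Subtype.val (hc q hq).symm)
    rcases h1 with h1 | h1
    · have : c = 1 := Subtype.ext h1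
      rw [this]; exact Q.one_mem
    · obtain ⟨w, hw, hwz⟩ := pk.zQ
      have : c = w := Subtype.ext (h1.trans hwz.symm)
      rw [this]; exact hw)
  -- `ζ` is `z`
  have hζ : ((ζ : Subgroup.centralizer ({z} : Set G)) : G) = z := by
    have h1 := pk.cen ((ζ : Subgroup.centralizer ({z} : Set G)) : G) ⟨ζ, ζ.2, rfl⟩ (by
      rintro _ ⟨q, hq, rfl⟩
      have := hqd.xs.comm ⟨q, hq⟩
      exact congrArg (fun t : Q => ((t : Subgroup.centralizer ({z} : Set G)) : G)) this)
    rcases h1 with h1 | h1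
    · exfalso
      exact hqd.xs.ne (Subtype.ext (Subtype.ext h1))
    · exact h1
  let P : G → V6 := fun x => if h : ∃ hk : x ∈ Subgroup.centralizer ({z} : Set G),
    (⟨x, hk⟩ : Subgroup.centralizer ({z} : Set G)) ∈ Q then π ⟨⟨x, h.choose⟩, h.choose_spec⟩ else 0
  have hP : ∀ q : Q, P ((q : Subgroup.centralizer ({z} : Set G)) : G) = π q := by
    intro q
    have h : ∃ hk : ((q : Subgroup.centralizer ({z} : Set G)) : G) ∈ Subgroup.centralizer ({z} : Set G),
      (⟨_, hk⟩ : Subgroup.centralizer ({z} : Set G)) ∈ Q := ⟨(q : Subgroup.centralizer ({z} : Set G)).2, q.2⟩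
    show (if h : _ then _ else _) = _
    rw [dif_pos h]
  refine ⟨P, ⟨pk, ?_, ?_, ?_, ?_, ?_⟩⟩
  · rintro _ ⟨x, hx, rfl⟩ _ ⟨y, hy, rfl⟩
    have := hP (⟨x, hx⟩ * ⟨y, hy⟩)
    rw [hqd.mul, ← hP, ← hP] at this
    exact this
  · intro v
    obtain ⟨x, hx⟩ := hqd.surj v
    exact ⟨_, ⟨x, x.2, rfl⟩, by rw [← hx]; exact hP x⟩
  · rintro _ ⟨x, hx, rfl⟩
    have h1 : P (x : G) = π ⟨x, hx⟩ := hP ⟨x, hx⟩
    show P (x : G) = 0 ↔ (x : G) = 1 ∨ (x : G) = z
    rw [h1, hqd.ker]
    constructor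
    · rintro (h | h)
      · left; exact congrArg (fun t : Q => ((t : Subgroup.centralizer ({z} : Set G)) : G)) h
      · right
        exact (congrArg (fun t : Q => ((t : Subgroup.centralizer ({z} : Set G)) : G)) h).trans hζ
    · rintro (h | h)
      · left; exact Subtype.ext (Subtype.ext h)
      · right; exact Subtype.ext (Subtype.ext (h.trans hζ.symm))
  · rintro _ ⟨x, hx, rfl⟩
    have h1 : P (x : G) = π ⟨x, hx⟩ := hP ⟨x, hx⟩
    show (x : G) * x = 1 ↔ q6 (P (x : G)) = 0
    rw [h1, ← hqd.sq]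
    constructor
    · intro h; exact Subtype.ext (Subtype.ext h)
    · intro h; exact congrArg (fun t : Q => ((t : Subgroup.centralizer ({z} : Set G)) : G)) h
  · intro T hT
    rw [← hrange] at hT
    obtain ⟨h, rfl⟩ := hT
    refine ⟨h, Subgroup.mem_centralizer_singleton_iff.1 h.2, ?_⟩
    rintro _ ⟨x, hx, rfl⟩
    have h1 : P (x : G) = π ⟨x, hx⟩ := hP ⟨x, hx⟩
    have h2 := Psi_spec Q hqd h ⟨x, hx⟩
    show P ((h : G) * x * (h : G)⁻¹) = _ *ᵥ P (x : G)
    rw [h1]
    have h3 : P ((h : G) * x * (h : G)⁻¹) = π (MulAut.conjNormal h ⟨x, hx⟩) := by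
      rw [← hP]
      rw [MulAut.conjNormal_apply]
      rfl
    rw [h3]
    exact h2.symm

/-- automorphisms of `Q` trivial modulo the centre -/
theorem inn_of [Finite G] {z : G} {Q : Subgroup (Subgroup.centralizer ({z} : Set G))} [hn : Q.Normal]
    (hQ : Cfsg.IsExtraspecial 2 Q) (pk : Pack (Q.map (Subgroup.centralizer ({z} : Set G)).subtype) z) :
    ∀ c, (∀ q ∈ Q.map (Subgroup.centralizer ({z} : Set G)).subtype, c * q * c⁻¹ = q ∨ c * q * c⁻¹ = z * q) →
      c ∈ Q.map (Subgroup.centralizer ({z} : Set G)).subtype := by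
  intro c hc
  have hcz : c * z = z * c := by
    rcases hc z pk.zQ with h | h
    · exact mul_inv_eq_iff_eq_mul.1 h
    · exfalso
      rw [pk.zz] at h
      exact pk.z1 (conj_eq_one_iff.1 h)
  let c' : Subgroup.centralizer ({z} : Set G) := ⟨c, Subgroup.mem_centralizer_singleton_iff.2 hcz⟩
  have hcen : ∀ w : Q, ((w : Subgroup.centralizer ({z} : Set G)) : G) = 1 ∨
      ((w : Subgroup.centralizer ({z} : Set G)) : G) = z → w ∈ Subgroup.center Q := by
    intro w hw
    rw [Subgroup.mem_center_iff]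
    intro q
    apply Subtype.ext
    apply Subtype.ext
    show ((q : Subgroup.centralizer ({z} : Set G)) : G) * ((w : Subgroup.centralizer ({z} : Set G)) : G) =
      ((w : Subgroup.centralizer ({z} : Set G)) : G) * ((q : Subgroup.centralizer ({z} : Set G)) : G)
    rcases hw with hw | hw
    · rw [hw, mul_one, one_mul]
    · have h1 := pk.zc _ ⟨q, q.2, rfl⟩
      have h2 : ((q : Subgroup.centralizer ({z} : Set G)) : G) * z = z * ((q : Subgroup.centralizer ({z} : Set G)) : G) := h1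
      exact (congrArg (fun t => ((q : Subgroup.centralizer ({z} : Set G)) : G) * t) hw).trans
        (h2.trans (congrArg (fun t => t * ((q : Subgroup.centralizer ({z} : Set G)) : G)) hw).symm)
  obtain ⟨g, hg⟩ := H91.ExtraDual.inner_of_trivial_mod_center hQ (MulAut.conjNormal c' : MulAut Q).toMonoidHom (by
    intro x
    apply hcen
    show c * ((x : Subgroup.centralizer ({z} : Set G)) : G) * c⁻¹ *
      ((x : Subgroup.centralizer ({z} : Set G)) : G)⁻¹ = 1 ∨ c * ((x : Subgroup.centralizer ({z} : Set G)) : G) * c⁻¹ *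
      ((x : Subgroup.centralizer ({z} : Set G)) : G)⁻¹ = z
    rcases hc _ ⟨x, x.2, rfl⟩ with h | h
    · left; rw [mul_inv_eq_one]; exact h
    · right; rw [mul_inv_eq_iff_eq_mul]; exact h)
  have hgG : ((g : Subgroup.centralizer ({z} : Set G)) : G) ∈ Q.map (Subgroup.centralizer ({z} : Set G)).subtype :=
    ⟨g, g.2, rfl⟩
  have h1 := pk.C (((g : Subgroup.centralizer ({z} : Set G)) : G)⁻¹ * c) (by
    rintro _ ⟨q, hq, rfl⟩
    have h2 := congrArg (fun t : Q => ((t : Subgroup.centralizer ({z} : Set G)) : G)) (hg ⟨q, hq⟩)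
    have h3 : c * (q : G) * c⁻¹ = ((g : Subgroup.centralizer ({z} : Set G)) : G) * (q : G) *
      ((g : Subgroup.centralizer ({z} : Set G)) : G)⁻¹ := h2
    show (q : G) * (((g : Subgroup.centralizer ({z} : Set G)) : G)⁻¹ * c) =
      ((g : Subgroup.centralizer ({z} : Set G)) : G)⁻¹ * c * (q : G)
    calc (q : G) * (((g : Subgroup.centralizer ({z} : Set G)) : G)⁻¹ * c) =
        ((g : Subgroup.centralizer ({z} : Set G)) : G)⁻¹ * (((g : Subgroup.centralizer ({z} : Set G)) : G) * (q : G) *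
          ((g : Subgroup.centralizer ({z} : Set G)) : G)⁻¹) * c := by group
      _ = ((g : Subgroup.centralizer ({z} : Set G)) : G)⁻¹ * (c * (q : G) * c⁻¹) * c := by rw [h3]
      _ = _ := by group)
  have e : c = ((g : Subgroup.centralizer ({z} : Set G)) : G) * (((g : Subgroup.centralizer ({z} : Set G)) : G)⁻¹ * c) := by
    group
  rw [e]
  rcases h1 with h1 | h1
  · rw [h1, mul_one]; exact hgG
  · rw [h1]; exact Subgroup.mul_mem _ hgG pk.zQ

theorem exists_Su [Finite G] {z : G} (hz : orderOf z = 2) (Q : Subgroup (Subgroup.centralizer ({z} : Set G)))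
    [Q.Normal] (hF : Cfsg.generalizedFittingSubgroup (Subgroup.centralizer ({z} : Set G)) = Q)
    (hQ : Cfsg.IsExtraspecial 2 Q) (hcard : Nat.card Q = 2 ^ 7)
    (e : (Subgroup.centralizer ({z} : Set G)) ⧸ Q ≃* Cfsg.Omega (ZMod 2) (Cfsg.quadFormMinus 2 (ZMod 2) 1 1))
    (hnwc : ∃ g : G, (∃ hq : g * z * g⁻¹ ∈ Subgroup.centralizer ({z} : Set G),
      (⟨g * z * g⁻¹, hq⟩ : Subgroup.centralizer ({z} : Set G)) ∈ Q) ∧ g * z * g⁻¹ ≠ z) :
    ∃ (Q' R : Subgroup G) (s p k : G) (y : Fin 5 → G), Su Q' R z s p k y := by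
  have hset : IsExtraspecialCentralizerSetting z Q 3 := ⟨hz, hF, hQ, by rw [hcard], hnwc⟩
  have pk := (H91.Setting.pack_of_setting hset).1
  have hidx : Q.index = 25920 := by
    rw [Subgroup.index_eq_card, Nat.card_congr e.toEquiv]
    have := card_Om6
    rw [coe_qMinus] at this
    exact this
  have hcard' : Nat.card Q = 128 := by rw [hcard]; norm_num
  obtain ⟨P0, C0⟩ := exists_Cd pk hQ hcard' hidx
  obtain ⟨k, ⟨hkC, hkQ⟩, hkne⟩ := hnwc
  have hsQ : k * z * k⁻¹ ∈ Q.map (Subgroup.centralizer ({z} : Set G)).subtype := ⟨_, hkQ, rfl⟩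
  have hss : k * z * k⁻¹ * (k * z * k⁻¹) = 1 := by
    calc k * z * k⁻¹ * (k * z * k⁻¹) = k * (z * z) * k⁻¹ := by group
      _ = 1 := by rw [pk.zz]; group
  have hs1 : k * z * k⁻¹ ≠ 1 := by
    intro h
    exact pk.z1 (conj_eq_one_iff.1 h)
  obtain ⟨P, C, hPs⟩ := C0.move hsQ hss hs1 hkne
  obtain ⟨p, y, F⟩ := C.exists_frame hsQ hPs
  have pkR := pk.conj k
  have ecR : Nat.card ((Q.map (Subgroup.centralizer ({z} : Set G)).subtype).map (MulAut.conj k).toMonoidHom) =
      Nat.card (Q.map (Subgroup.centralizer ({z} : Set G)).subtype) :=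
    Subgroup.card_map_of_injective (MulAut.conj k).injective
  have ecQ : Nat.card (Q.map (Subgroup.centralizer ({z} : Set G)).subtype) = 128 := by
    rw [H91.Setting.card_map, hcard']
  have inQ := inn_of hQ pk
  have hzR := key pk pkR (by
    intro m hm q hq
    rw [mem_map_conj]
    have h1 := pk.N (k⁻¹ * m) (by
      calc k⁻¹ * m * z = k⁻¹ * (m * z * m⁻¹) * m := by group
        _ = k⁻¹ * (k * z * k⁻¹) * m := by rw [hm]
        _ = z * (k⁻¹ * m) := by group) q hq
    have e2 : k⁻¹ * (m * q * m⁻¹) * k = k⁻¹ * m * q * (k⁻¹ * m)⁻¹ := by group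
    rw [e2]; exact h1) hsQ hkne (by rw [ecQ]; norm_num)
  have hcC : Nat.card (Subgroup.centralizer ({z} : Set G)) = 3317760 := by
    rw [← Q.card_mul_index, hcard', hidx]
  refine ⟨Q.map (Subgroup.centralizer ({z} : Set G)).subtype, _, k * z * k⁻¹, p, k, y,
    { toFr := F
      PR := pkR
      inR := ?_
      inQ := inQ
      zR := hzR
      hk := rfl
      hR := fun x => mem_map_conj
      cQ := ecQ
      cR := by rw [ecR, ecQ]
      cC := hcC
      cCV := ?_ }⟩
  · intro c hc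
    rw [mem_map_conj]
    apply inQ
    intro q hq
    have h1 := hc (k * q * k⁻¹) (by
      rw [mem_map_conj]
      have : k⁻¹ * (k * q * k⁻¹) * k = q := by group
      rw [this]; exact hq)
    have e1 : k⁻¹ * c * k * q * (k⁻¹ * c * k)⁻¹ = k⁻¹ * (c * (k * q * k⁻¹) * c⁻¹) * k := by group
    rw [e1]
    rcases h1 with h1 | h1
    · left; rw [h1]; group
    · right; rw [h1]; group
  have h1 := card_inf_centralizer (Subgroup.centralizer ({z} : Set G)) (k * z * k⁻¹)
  have h2 : {w : G | ∃ n ∈ Subgroup.centralizer ({z} : Set G), w = n * (k * z * k⁻¹) * n⁻¹} =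
      {x : G | x ∈ Q.map (Subgroup.centralizer ({z} : Set G)).subtype ∧ x * x = 1 ∧ x ≠ 1 ∧ x ≠ z} := by
    ext w
    constructor
    · rintro ⟨n, hn, rfl⟩
      have hnz := Subgroup.mem_centralizer_singleton_iff.1 hn
      refine ⟨pk.N n hnz _ hsQ, ?_, ?_, ?_⟩
      · calc n * (k * z * k⁻¹) * n⁻¹ * (n * (k * z * k⁻¹) * n⁻¹) = n * (k * z * k⁻¹ * (k * z * k⁻¹)) * n⁻¹ := by group
          _ = 1 := by rw [hss]; group
      · intro h; exact hs1 (conj_eq_one_iff.1 h)
      · intro h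
        apply hkne
        calc k * z * k⁻¹ = n⁻¹ * (n * (k * z * k⁻¹) * n⁻¹) * n := by group
          _ = n⁻¹ * (z * n) := by rw [h]; group
          _ = z := by rw [← hnz]; group
    · rintro ⟨h1, h2, h3, h4⟩
      obtain ⟨h, hh, hh2⟩ := F.trans w h1 h2 h3 h4
      exact ⟨h, Subgroup.mem_centralizer_singleton_iff.2 hh, hh2.symm⟩
  rw [h2, C.count, hcC] at h1
  omega

end H85.Suz
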