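import Cfsg.Agent.Lib.H85.SuzC

set_option autoImplicit false
set_option maxHeartbeats 400000

/-! Groups of Suzuki sporadic type: calculus modulo the four-group. -/

namespace H85.Suz

open Cfsg H91.LargePair

variable {G : Type*} [Group G]

structure VD (z s : G) : Prop where
  zz : z * z = 1
  ss : s * s = 1
  sz : s * z = z * s

theorem VD.symm {z s : G} (h : VD z s) : VD s z := ⟨h.ss, h.zz, h.sz.symm⟩

section
variable {z s : G} (h : VD z s)
include h

theorem VD.zzl (w : G) : z * (z * w) = w := by rw [← mul_assoc, h.zz, one_mul]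
theorem VD.ssl (w : G) : s * (s * w) = w := by rw [← mul_assoc, h.ss, one_mul]
theorem VD.szl (w : G) : s * (z * w) = z * (s * w) := by rw [← mul_assoc, h.sz, mul_assoc]

theorem VD.mul {a b : G} (ha : VV z s a) (hb : VV z s b) : VV z s (a * b) := by
  rcases ha with rfl | rfl | rfl | rfl <;> rcases hb with rfl | rfl | rfl | rfl <;>
    simp only [VV, mul_assoc, one_mul, mul_one, h.zz, h.ss, h.sz, h.zzl, h.ssl, h.szl, true_or, or_true]

theorem VD.sq {a : G} (ha : VV z s a) : a * a = 1 := by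
  rcases ha with rfl | rfl | rfl | rfl <;>
    simp only [mul_assoc, one_mul, h.zz, h.ss, h.sz, h.zzl, h.ssl, h.szl]

theorem VD.inv {a : G} (ha : VV z s a) : a⁻¹ = a := inv_eq_of_mul_eq_one_right (h.sq ha)

omit h in
theorem VV.comm {a c : G} (ha : VV z s a) (hz : c * z = z * c) (hs : c * s = s * c) : c * a = a * c := by
  rcases ha with rfl | rfl | rfl | rfl
  · rw [mul_one, one_mul]
  · exact hz
  · exact hs
  · rw [← mul_assoc, hz, mul_assoc, hs, mul_assoc]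

theorem VD.vcomm {a b : G} (ha : VV z s a) (hb : VV z s b) : a * b = b * a := by
  rcases ha with rfl | rfl | rfl | rfl <;> rcases hb with rfl | rfl | rfl | rfl <;>
    simp only [mul_assoc, one_mul, mul_one, h.zz, h.ss, h.sz, h.zzl, h.ssl, h.szl]

theorem VV.one : VV z s 1 := Or.inl rfl

omit h in
theorem VV.symm {a : G} (h : VD z s) (ha : VV z s a) : VV s z a := by
  rcases ha with rfl | rfl | rfl | rfl
  · exact Or.inl rfl
  · exact Or.inr (Or.inr (Or.inl rfl))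
  · exact Or.inr (Or.inl rfl)
  · exact Or.inr (Or.inr (Or.inr h.sz.symm))

omit h in
/-- commuting with `z` and `s` -/
def CC (z s c : G) : Prop := c * z = z * c ∧ c * s = s * c

omit h in
theorem CC.mul {a b : G} (ha : CC z s a) (hb : CC z s b) : CC z s (a * b) :=
  ⟨by rw [mul_assoc, hb.1, ← mul_assoc, ha.1, mul_assoc], by rw [mul_assoc, hb.2, ← mul_assoc, ha.2, mul_assoc]⟩

omit h in
theorem CC.inv {a : G} (ha : CC z s a) : CC z s a⁻¹ :=
  ⟨by rw [inv_mul_eq_iff_eq_mul, ← mul_assoc, ha.1]; group, by rw [inv_mul_eq_iff_eq_mul, ← mul_assoc, ha.2]; group⟩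

omit h in
theorem CC.comm {c v : G} (hc : CC z s c) (hv : VV z s v) : c * v = v * c := hv.comm hc.1 hc.2

omit h in
theorem CC.conj {c v : G} (hc : CC z s c) (hv : VV z s v) : c * v * c⁻¹ = v := by
  rw [hc.comm hv]; group

theorem VV.cc {v : G} (hv : VV z s v) : CC z s v :=
  ⟨h.vcomm hv (Or.inr (Or.inl rfl)), h.vcomm hv (Or.inr (Or.inr (Or.inl rfl)))⟩

/-! congruence modulo `V` -/

omit h in
def Mv (z s a b : G) : Prop := ∃ v, VV z s v ∧ a = v * b

omit h in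
theorem Mv.refl (a : G) : Mv z s a a := ⟨1, Or.inl rfl, (one_mul a).symm⟩

theorem Mv.symm {a b : G} (hab : Mv z s a b) : Mv z s b a := by
  obtain ⟨v, hv, rfl⟩ := hab
  exact ⟨v, hv, by rw [← mul_assoc, h.sq hv, one_mul]⟩

theorem Mv.trans {a b c : G} (hab : Mv z s a b) (hbc : Mv z s b c) : Mv z s a c := by
  obtain ⟨v, hv, rfl⟩ := hab
  obtain ⟨w, hw, rfl⟩ := hbc
  exact ⟨v * w, h.mul hv hw, by rw [mul_assoc]⟩

theorem Mv.mul {a b a' b' : G} (hb : CC z s b) (hab : Mv z s a b) (hab' : Mv z s a' b') : Mv z s (a * a') (b * b') := by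
  obtain ⟨v, hv, rfl⟩ := hab
  obtain ⟨w, hw, rfl⟩ := hab'
  refine ⟨v * w, h.mul hv hw, ?_⟩
  rw [mul_assoc, ← mul_assoc b, hb.comm hw]
  group

omit h in
theorem Mv.conj {a b c : G} (hc : CC z s c) (hab : Mv z s a b) : Mv z s (c * a * c⁻¹) (c * b * c⁻¹) := by
  obtain ⟨v, hv, rfl⟩ := hab
  refine ⟨v, hv, ?_⟩
  rw [← mul_assoc, hc.comm hv]
  group

theorem Mv.inv {a b : G} (hb : CC z s b) (hab : Mv z s a b) : Mv z s a⁻¹ b⁻¹ := by
  obtain ⟨v, hv, rfl⟩ := hab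
  refine ⟨v, hv, ?_⟩
  rw [mul_inv_rev, h.inv hv, hb.inv.comm hv]

theorem Mv.cc {a b : G} (hb : CC z s b) (hab : Mv z s a b) : CC z s a := by
  obtain ⟨v, hv, rfl⟩ := hab
  exact (VV.cc h hv).mul hb

omit h in
theorem VV.mv {v : G} (hv : VV z s v) (a : G) : Mv z s (v * a) a := ⟨v, hv, rfl⟩

omit h in
theorem VV.mv1 {v : G} (hv : VV z s v) : Mv z s v 1 := ⟨v, hv, (mul_one v).symm⟩

omit h in
theorem Mv.vv {a : G} (ha : Mv z s a 1) : VV z s a := by
  obtain ⟨v, hv, rfl⟩ := ha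
  rwa [mul_one]

end

/-! ### first facts -/

section
variable {Q : Subgroup G} {z s p : G} {y : Fin 5 → G} (F : Fr Q z s p y)
include F

theorem Fr.vd : VD z s := ⟨F.pk.zz, F.ss, F.pk.zc s F.sQ⟩
theorem Fr.yz (i : Fin 5) : y i * z = z * y i := F.pk.zc _ (F.yQ i)
theorem Fr.ycc (i : Fin 5) : CC z s (y i) := ⟨F.yz i, F.ys i⟩
theorem Fr.z1 : z ≠ 1 := F.pk.z1
theorem Fr.zs1 : z * s ≠ 1 := fun h => F.sz (by
  have := congrArg (fun t => z * t) h
  simp only [F.vd.zzl, mul_one] at this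
  exact this)

theorem Fr.anti_ne {i j : Fin 5} (hij : i ≠ j) : y i * y j ≠ y j * y i := by
  intro h
  rw [F.anti i j hij] at h
  exact F.z1 (mul_eq_right.1 h)

theorem Fr.y_nv (i : Fin 5) : ¬ VV z s (y i) := by
  intro h
  obtain ⟨j, hj⟩ : ∃ j, i ≠ j := (by decide : ∀ i : Fin 5, ∃ j, i ≠ j) i
  exact F.anti_ne hj ((F.ycc j).comm h).symm

theorem Fr.vinQ {v : G} (hv : VV z s v) : v ∈ Q := by
  rcases hv with rfl | rfl | rfl | rfl
  · exact Q.one_mem
  · exact F.pk.zQ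
  · exact F.sQ
  · exact Q.mul_mem F.pk.zQ F.sQ

theorem Fr.y_inj {i j : Fin 5} (h : Mv z s (y i) (y j)) : i = j := by
  by_contra hij
  obtain ⟨v, hv, h⟩ := h
  apply F.anti_ne hij
  rw [h, ← mul_assoc (y j), (F.ycc j).comm hv]

theorem Fr.yy_sq {i j : Fin 5} (hij : i ≠ j) : y i * y j * (y i * y j) = z := by
  calc y i * y j * (y i * y j) = y i * (y j * y i) * y j := by group
    _ = y i * (z * (y i * y j)) * y j := by rw [F.anti j i hij.symm]
    _ = (y i * z) * y i * (y j * y j) := by group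
    _ = z * (y i * y i) * (y j * y j) := by rw [F.yz]; group
    _ = z := by rw [F.yy, F.yy, mul_one, mul_one]

theorem Fr.v_sq {v a : G} (hv : VV z s v) (ha : CC z s a) : v * a * (v * a) = a * a := by
  calc v * a * (v * a) = v * (a * v) * a := by group
    _ = (v * v) * (a * a) := by rw [ha.comm hv]; group
    _ = a * a := by rw [F.vd.sq hv, one_mul]

theorem Fr.cls_inv {a : G} (ha : a ∈ Q) (has : a * s = s * a) (haa : a * a = 1) : VV z s a ∨ ∃ i, Mv z s a (y i) := by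
  obtain ⟨v, hv, h | ⟨i, h⟩ | ⟨i, j, hij, h⟩⟩ := F.cls a ha has
  · left; rw [h]; exact hv
  · right; exact ⟨i, v, hv, h⟩
  · exfalso
    rw [h, F.v_sq hv ((F.ycc i).mul (F.ycc j)), F.yy_sq hij] at haa
    exact F.z1 haa

theorem Fr.exists_idx {c : G} (hc : CC z s c) (i : Fin 5) : ∃ j, Mv z s (c * y i * c⁻¹) (y j) := by
  have h1 : c * y i * c⁻¹ ∈ Q := F.pk.N c hc.1 _ (F.yQ i)
  have h2 : CC z s (c * y i * c⁻¹) := (hc.mul (F.ycc i)).mul hc.inv
  rcases F.cls_inv h1 h2.2 (by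
    calc c * y i * c⁻¹ * (c * y i * c⁻¹) = c * (y i * y i) * c⁻¹ := by group
      _ = 1 := by rw [F.yy]; group) with h3 | h3
  · exfalso
    apply F.y_nv i
    have : y i = c⁻¹ * (c * y i * c⁻¹) * c⁻¹⁻¹ := by group
    rw [this, hc.inv.conj h3]
    exact h3
  · exact h3

omit F in
open Classical in
noncomputable def Fr.idx (_F : Fr Q z s p y) (c : G) (i : Fin 5) : Fin 5 :=
  if h : ∃ j, Mv z s (c * y i * c⁻¹) (y j) then h.choose else i

theorem Fr.idx_spec {c : G} (hc : CC z s c) (i : Fin 5) : Mv z s (c * y i * c⁻¹) (y (F.idx c i)) := by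
  have h := F.exists_idx hc i
  rw [Fr.idx, dif_pos h]
  exact h.choose_spec

theorem Fr.idx_eq {c : G} (hc : CC z s c) {i j : Fin 5} (h : Mv z s (c * y i * c⁻¹) (y j)) : F.idx c i = j :=
  F.y_inj (((F.idx_spec hc i).symm F.vd).trans F.vd h)

theorem Fr.idx_one (i : Fin 5) : F.idx 1 i = i :=
  F.idx_eq (c := 1) ⟨by rw [one_mul, mul_one], by rw [one_mul, mul_one]⟩ (by
    have : 1 * y i * 1⁻¹ = y i := by group
    rw [this]; exact Mv.refl _)

theorem Fr.idx_mul {c d : G} (hc : CC z s c) (hd : CC z s d) (i : Fin 5) : F.idx (c * d) i = F.idx c (F.idx d i) := by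
  apply F.idx_eq (hc.mul hd)
  have e : c * d * y i * (c * d)⁻¹ = c * (d * y i * d⁻¹) * c⁻¹ := by group
  rw [e]
  exact ((F.idx_spec hd i).conj hc).trans F.vd (F.idx_spec hc _)

/-- the centraliser of `⟨z, s⟩` -/
def CV (z s : G) : Subgroup G := Subgroup.centralizer ({z} : Set G) ⊓ Subgroup.centralizer ({s} : Set G)

omit F in
theorem mem_CV {c : G} : c ∈ CV z s ↔ CC z s c :=
  ⟨fun h => ⟨Subgroup.mem_centralizer_singleton_iff.1 h.1, Subgroup.mem_centralizer_singleton_iff.1 h.2⟩,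
    fun h => ⟨Subgroup.mem_centralizer_singleton_iff.2 h.1, Subgroup.mem_centralizer_singleton_iff.2 h.2⟩⟩

omit F in
noncomputable def Fr.pi (F : Fr Q z s p y) : CV z s →* Equiv.Perm (Fin 5) :=
  MonoidHom.mk' (fun c => ⟨F.idx c, F.idx (c : G)⁻¹,
    fun i => by rw [← F.idx_mul (mem_CV.1 c.2).inv (mem_CV.1 c.2), inv_mul_cancel, F.idx_one],
    fun i => by rw [← F.idx_mul (mem_CV.1 c.2) (mem_CV.1 c.2).inv, mul_inv_cancel, F.idx_one]⟩)
    (fun c d => Equiv.ext fun i => F.idx_mul (mem_CV.1 c.2) (mem_CV.1 d.2) i)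

theorem Fr.pi_spec (c : CV z s) (i : Fin 5) : Mv z s ((c : G) * y i * (c : G)⁻¹) (y (F.pi c i)) :=
  F.idx_spec (mem_CV.1 c.2) i

theorem Fr.pi_eq {c : CV z s} {i j : Fin 5} (h : Mv z s ((c : G) * y i * (c : G)⁻¹) (y j)) : F.pi c i = j :=
  F.idx_eq (mem_CV.1 c.2) h

theorem Fr.alt_le : alternatingGroup (Fin 5) ≤ F.pi.range := by
  intro σ hσ
  obtain ⟨c, h1, h2, h3⟩ := F.real σ hσ
  refine ⟨⟨c, mem_CV.2 ⟨h1, h2⟩⟩, Equiv.ext fun i => F.pi_eq ?_⟩
  rcases h3 i with h | h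
  · exact ⟨1, Or.inl rfl, by rw [one_mul]; exact h⟩
  · exact ⟨z, Or.inr (Or.inl rfl), h⟩

end

end H85.Suz
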