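import Cfsg.Agent.Lib.H85.SuzD

set_option autoImplicit false
set_option maxHeartbeats 400000

/-! Groups of Suzuki sporadic type: the two extraspecial groups. -/

namespace H85.Suz

open Cfsg H91.LargePair

variable {G : Type*} [Group G]

/-- counting -/
theorem decomp_of_card {K : Type*} [Group K] [Finite K] {A B N : Subgroup K} (hA : A ≤ N) (hB : B ≤ N) :
    Nat.card A * Nat.card B ≤ Nat.card N * Nat.card (A ⊓ B : Subgroup K) ∧
    (Nat.card N * Nat.card (A ⊓ B : Subgroup K) ≤ Nat.card A * Nat.card B →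
      ∀ n ∈ N, ∃ b ∈ B, ∃ a ∈ A, n = b * a) := by
  have hcard : ∀ C : Subgroup K, Nat.card (A.subgroupOf C) = Nat.card (A ⊓ C : Subgroup K) := by
    intro C
    apply Nat.card_congr
    exact
      { toFun := fun x => ⟨x.1.1, x.2, x.1.2⟩
        invFun := fun x => ⟨⟨x.1, x.2.2⟩, x.2.1⟩
        left_inv := fun x => rfl
        right_inv := fun x => rfl }
  have h1 := (A.subgroupOf B).card_mul_index
  have h2 := (A.subgroupOf N).card_mul_index
  rw [hcard] at h1 h2
  rw [inf_eq_left.2 hA] at h2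
  have h3 : (A.subgroupOf B).index ≤ (A.subgroupOf N).index :=
    Subgroup.relIndex_le_of_le_right hB (Subgroup.index_ne_zero_of_finite)
  refine ⟨?_, fun h4 n hn => ?_⟩
  · rw [← h1, ← h2]
    calc Nat.card A * (Nat.card (A ⊓ B : Subgroup K) * (A.subgroupOf B).index) =
        Nat.card A * Nat.card (A ⊓ B : Subgroup K) * (A.subgroupOf B).index := by ring
      _ ≤ Nat.card A * Nat.card (A ⊓ B : Subgroup K) * (A.subgroupOf N).index := Nat.mul_le_mul_left _ h3
      _ = _ := by ring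
  · have h5 : (A.subgroupOf N).index ≤ (A.subgroupOf B).index := by
      rw [← h1, ← h2] at h4
      have h6 : Nat.card A * Nat.card (A ⊓ B : Subgroup K) * (A.subgroupOf N).index ≤
          Nat.card A * Nat.card (A ⊓ B : Subgroup K) * (A.subgroupOf B).index := by
        calc _ = Nat.card A * (A.subgroupOf N).index * Nat.card (A ⊓ B : Subgroup K) := by ring
          _ ≤ _ := h4
          _ = _ := by ring
      exact Nat.le_of_mul_le_mul_left h6 (Nat.mul_pos Nat.card_pos Nat.card_pos)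
    let f := Subgroup.quotientSubgroupOfEmbeddingOfLE A hB
    have hf : Function.Surjective f :=
      ((Nat.bijective_iff_injective_and_card f).2 ⟨f.injective, le_antisymm h3 h5⟩).2
    obtain ⟨q, hq⟩ := hf (QuotientGroup.mk ⟨n, hn⟩)
    induction q using QuotientGroup.induction_on with | H b =>
    rw [Subgroup.quotientSubgroupOfEmbeddingOfLE_apply_mk, QuotientGroup.eq] at hq
    have h7 : (b : K)⁻¹ * n ∈ A := hq
    exact ⟨b, b.2, _, h7, by group⟩

section
variable {Q R : Subgroup G} {z s p k : G} {y : Fin 5 → G} (S : Su Q R z s p k y)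
include S

theorem Su.vd : VD z s := S.toFr.vd

theorem Su.vinR {v : G} (hv : VV z s v) : v ∈ R := by
  rcases hv with rfl | rfl | rfl | rfl
  · exact R.one_mem
  · exact S.zR
  · exact S.PR.zQ
  · exact R.mul_mem S.zR S.PR.zQ

omit S in
theorem perm_move : ∀ i : Fin 5, ∃ σ : Equiv.Perm (Fin 5), Equiv.Perm.sign σ = 1 ∧ i ≠ σ i := by decide +kernel

omit S in
theorem perm_move2 : ∀ i j : Fin 5, i ≠ j → ∃ σ : Equiv.Perm (Fin 5), Equiv.Perm.sign σ = 1 ∧ σ i = i ∧ σ j ≠ i ∧ j ≠ σ j := by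
  decide +kernel

omit S in
theorem comm_mod {a b a' b' : G} (h : VD z s) (ha : CC z s a') (hb : CC z s b') (hab : Mv z s a a')
    (hab' : Mv z s b b') (hc : a * b = b * a) : a' * b' = b' * a' := by
  obtain ⟨v, hv, rfl⟩ := hab
  obtain ⟨w, hw, rfl⟩ := hab'
  have e1 : v * a' * (w * b') = v * w * (a' * b') := by
    calc v * a' * (w * b') = v * (a' * w) * b' := by group
      _ = _ := by rw [ha.comm hw]; group
  have e2 : w * b' * (v * a') = v * w * (b' * a') := by
    calc w * b' * (v * a') = w * (b' * v) * a' := by group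
      _ = (w * v) * (b' * a') := by rw [hb.comm hv]; group
      _ = _ := by rw [h.vcomm hw hv]
  rw [e1, e2] at hc
  exact mul_left_cancel hc

/-- `Q ∩ R = ⟨z, s⟩` -/
theorem Su.inter {a : G} (haQ : a ∈ Q) (haR : a ∈ R) : VV z s a := by
  have F := S.toFr
  have hcomm : ∀ b, b ∈ Q → b ∈ R → a * b = b * a := by
    intro b hbQ hbR
    rcases S.pk.comm a haQ b hbQ with h | h
    · rw [mul_inv_eq_one, mul_inv_eq_iff_eq_mul] at h; exact h
    · rcases S.PR.comm a haR b hbR with h' | h'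
      · rw [mul_inv_eq_one, mul_inv_eq_iff_eq_mul] at h'; exact h'
      · exfalso; exact S.sz (h'.symm.trans h)
  obtain ⟨v, hv, h | ⟨i, h⟩ | ⟨i, j, hij, h⟩⟩ := S.cls a haQ (S.PR.zc a haR)
  · rw [h]; exact hv
  · exfalso
    obtain ⟨σ, hσ, hi⟩ := perm_move i
    obtain ⟨c, h1, h2, h3⟩ := S.real σ hσ
    have hc : CC z s c := ⟨h1, h2⟩
    have hb := hcomm (c * a * c⁻¹) (S.pk.N c h1 a haQ) (S.PR.N c h2 a haR)
    have hM : Mv z s (c * y i * c⁻¹) (y (σ i)) := by
      rcases h3 i with h4 | h4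
      · rw [h4]; exact Mv.refl _
      · rw [h4]; exact ⟨z, Or.inr (Or.inl rfl), rfl⟩
    have ha : Mv z s a (y i) := ⟨v, hv, h⟩
    have := comm_mod S.vd (F.ycc i) (F.ycc (σ i)) ha ((ha.conj hc).trans S.vd hM) hb
    exact F.anti_ne hi this
  · exfalso
    obtain ⟨σ, hσ, hi, hj, hj2⟩ := perm_move2 i j hij
    obtain ⟨c, h1, h2, h3⟩ := S.real σ hσ
    have hc : CC z s c := ⟨h1, h2⟩
    have hb := hcomm (c * a * c⁻¹) (S.pk.N c h1 a haQ) (S.PR.N c h2 a haR)
    have hM : ∀ i, Mv z s (c * y i * c⁻¹) (y (σ i)) := fun i => by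
      rcases h3 i with h4 | h4
      · rw [h4]; exact Mv.refl _
      · rw [h4]; exact ⟨z, Or.inr (Or.inl rfl), rfl⟩
    have ha : Mv z s a (y i * y j) := ⟨v, hv, h⟩
    have e : c * (y i * y j) * c⁻¹ = c * y i * c⁻¹ * (c * y j * c⁻¹) := by group
    have hM2 : Mv z s (c * (y i * y j) * c⁻¹) (y i * y (σ j)) := by
      rw [e]
      have := Mv.mul S.vd (F.ycc (σ i)) (hM i) (hM j)
      rwa [hi] at this
    have h5 := comm_mod S.vd ((F.ycc i).mul (F.ycc j)) ((F.ycc i).mul (F.ycc (σ j))) ha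
      ((ha.conj hc).trans S.vd hM2) hb
    have e1 : y i * y j * (y i * y (σ j)) = z * (y j * y (σ j)) := by
      calc y i * y j * (y i * y (σ j)) = (y i * y j) * y i * y (σ j) := by group
        _ = z * y j * (y i * y i) * y (σ j) := by rw [F.anti i j hij]; group
        _ = _ := by rw [F.yy]; group
    have e2 : y i * y (σ j) * (y i * y j) = z * (y (σ j) * y j) := by
      calc y i * y (σ j) * (y i * y j) = (y i * y (σ j)) * y i * y j := by group
        _ = z * y (σ j) * (y i * y i) * y j := by rw [F.anti i (σ j) (Ne.symm hj)]; group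
        _ = _ := by rw [F.yy]; group
    rw [e1, e2] at h5
    exact F.anti_ne hj2 (mul_left_cancel h5)

/-- `[W₁, W₂] ≤ V` -/
theorem Su.w12 {a x : G} (ha : a ∈ Q) (has : a * s = s * a) (hx : x ∈ R) (hxz : x * z = z * x) :
    Mv z s (x * a * x⁻¹) a := by
  refine ⟨x * a * x⁻¹ * a⁻¹, S.inter ?_ ?_, by group⟩
  · exact Q.mul_mem (S.pk.N x hxz a ha) (Q.inv_mem ha)
  · have e : x * a * x⁻¹ * a⁻¹ = x * (a * x⁻¹ * a⁻¹) := by group
    rw [e]
    exact R.mul_mem hx (S.PR.N a has _ (R.inv_mem hx))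

theorem Su.xcc {x : G} (hx : x ∈ R) (hxz : x * z = z * x) : CC z s x := ⟨hxz, S.PR.zc x hx⟩
theorem Su.acc {a : G} (ha : a ∈ Q) (has : a * s = s * a) : CC z s a := ⟨S.pk.zc a ha, has⟩

/-- the counting argument -/
theorem Su.count [Finite G] : S.toFr.pi.range = alternatingGroup (Fin 5) ∧
    ∀ c, CC z s c → (∀ i, Mv z s (c * y i * c⁻¹) (y i)) →
      ∃ b a, b ∈ R ∧ b * z = z * b ∧ a ∈ Q ∧ a * s = s * a ∧ c = b * a := by
  have F := S.toFr
  set K := CV z s with hK
  let A : Subgroup K := (Q ⊓ Subgroup.centralizer ({s} : Set G)).subgroupOf K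
  let B : Subgroup K := (R ⊓ Subgroup.centralizer ({z} : Set G)).subgroupOf K
  have hAK : Q ⊓ Subgroup.centralizer ({s} : Set G) ≤ K := by
    intro a ha
    exact mem_CV.2 ⟨S.pk.zc a ha.1, Subgroup.mem_centralizer_singleton_iff.1 ha.2⟩
  have hBK : R ⊓ Subgroup.centralizer ({z} : Set G) ≤ K := by
    intro a ha
    exact mem_CV.2 ⟨Subgroup.mem_centralizer_singleton_iff.1 ha.2, S.PR.zc a ha.1⟩
  have cA : Nat.card A = 64 := by
    rw [Nat.card_congr (Subgroup.subgroupOfEquivOfLe hAK).toEquiv]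
    have := card_centralizer S.pk S.sQ S.s1 S.sz
    rw [S.cQ] at this; omega
  have cB : Nat.card B = 64 := by
    rw [Nat.card_congr (Subgroup.subgroupOfEquivOfLe hBK).toEquiv]
    have := card_centralizer S.PR S.zR S.pk.z1 S.sz.symm
    rw [S.cR] at this; omega
  have hAN : A ≤ S.toFr.pi.ker := by
    intro a ha
    have ha' : (a : G) ∈ Q ∧ (a : G) ∈ Subgroup.centralizer ({s} : Set G) := ha
    refine Equiv.ext fun i => S.toFr.pi_eq ?_
    rcases S.pk.comm _ ha'.1 _ (S.yQ i) with h | h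
    · rw [mul_inv_eq_one] at h
      rw [h]; exact Mv.refl _
    · rw [mul_inv_eq_iff_eq_mul] at h
      rw [h]; exact ⟨z, Or.inr (Or.inl rfl), rfl⟩
  have hBN : B ≤ S.toFr.pi.ker := by
    intro b hb
    have hb' : (b : G) ∈ R ∧ (b : G) ∈ Subgroup.centralizer ({z} : Set G) := hb
    refine Equiv.ext fun i => S.toFr.pi_eq ?_
    exact S.w12 (S.yQ i) (S.ys i) hb'.1 (Subgroup.mem_centralizer_singleton_iff.1 hb'.2)
  have cAB : Nat.card (A ⊓ B : Subgroup K) ≤ 4 := by
    let f : (A ⊓ B : Subgroup K) → ({1, z, s, z * s} : Set G) := fun x => ⟨x.1.1, S.inter x.2.1.1 x.2.2.1⟩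
    have hf : Function.Injective f := by
      intro x x' hxx
      have h0 : ((x.1 : K) : G) = ((x'.1 : K) : G) := congrArg (Subtype.val : ({1, z, s, z * s} : Set G) → G) hxx
      exact Subtype.ext (Subtype.ext h0)
    have h1 := Nat.card_le_card_of_injective f hf
    have h2 : Nat.card ({1, z, s, z * s} : Set G) ≤ 4 := by
      rw [Nat.card_coe_set_eq]
      refine (Set.ncard_insert_le _ _).trans ?_
      have := Set.ncard_insert_le z ({s, z * s} : Set G)
      have := Set.ncard_insert_le s ({z * s} : Set G)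
      have := Set.ncard_singleton (z * s)
      omega
    exact h1.trans h2
  obtain ⟨d1, d2⟩ := decomp_of_card hAN hBN
  rw [cA, cB] at d1 d2
  have h1 := S.toFr.pi.ker.card_mul_index
  rw [Subgroup.index_ker] at h1
  have h2 : Nat.card K = 61440 := S.cCV
  rw [h2] at h1
  have h3 : Nat.card (alternatingGroup (Fin 5)) = 60 := by
    rw [Nat.card_eq_fintype_card]
    have := two_mul_card_alternatingGroup (α := Fin 5)
    rw [Fintype.card_perm, Fintype.card_fin] at this
    have h5 : Nat.factorial 5 = 120 := rfl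
    omega
  have h4 : 60 ≤ Nat.card S.toFr.pi.range := by
    rw [← h3]
    exact Subgroup.card_le_of_le S.toFr.alt_le
  have h5 : 1024 ≤ Nat.card S.toFr.pi.ker := by
    have h6 : 64 * 64 ≤ Nat.card S.toFr.pi.ker * 4 := d1.trans (Nat.mul_le_mul_left _ cAB)
    omega
  have h6 : Nat.card S.toFr.pi.ker = 1024 ∧ Nat.card S.toFr.pi.range = 60 := by
    have h7 : 1024 * 60 ≤ Nat.card S.toFr.pi.ker * 60 := Nat.mul_le_mul_right _ h5
    have h8 : Nat.card S.toFr.pi.ker * 60 ≤ Nat.card S.toFr.pi.ker * Nat.card S.toFr.pi.range :=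
      Nat.mul_le_mul_left _ h4
    have h9 : Nat.card S.toFr.pi.ker = 1024 := by omega
    rw [h9] at h1
    exact ⟨h9, by omega⟩
  refine ⟨(Subgroup.eq_of_le_of_card_ge S.toFr.alt_le (by rw [h3, h6.2])).symm, fun c hc hci => ?_⟩
  obtain ⟨b, hb, a, ha, hba⟩ := d2 (by rw [h6.1]; omega) ⟨c, mem_CV.2 hc⟩ (by
    rw [MonoidHom.mem_ker]
    refine Equiv.ext fun i => S.toFr.pi_eq (hci i))
  have ha' : (a : G) ∈ Q ∧ (a : G) ∈ Subgroup.centralizer ({s} : Set G) := ha
  have hb' : (b : G) ∈ R ∧ (b : G) ∈ Subgroup.centralizer ({z} : Set G) := hb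
  exact ⟨b, a, hb'.1, Subgroup.mem_centralizer_singleton_iff.1 hb'.2, ha'.1,
    Subgroup.mem_centralizer_singleton_iff.1 ha'.2, congrArg Subtype.val hba⟩

/-! ### recognising elements of `Q` and `R` -/

theorem Su.pzs (v : G) (hv : VV z s v) : (p * v = v * p ∧ (v = 1 ∨ v = z)) ∨ (p * v = z * v * p ∧ (v = s ∨ v = z * s)) := by
  have hpz := S.pk.zc p S.pQ
  rcases hv with rfl | rfl | rfl | rfl
  · left; exact ⟨by rw [mul_one, one_mul], Or.inl rfl⟩
  · left; exact ⟨hpz, Or.inr rfl⟩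
  · right; exact ⟨by rw [S.ps]; group, Or.inl rfl⟩
  · right
    refine ⟨?_, Or.inr rfl⟩
    rw [← mul_assoc, hpz, mul_assoc, S.ps]; group

theorem Su.qcases {q : G} (hq : q ∈ Q) : q * s = s * q ∨ ∃ a ∈ Q, a * s = s * a ∧ q = a * p := by
  rcases S.pk.comm q hq s S.sQ with h | h
  · left; rw [mul_inv_eq_one, mul_inv_eq_iff_eq_mul] at h; exact h
  · right
    rw [mul_inv_eq_iff_eq_mul, mul_inv_eq_iff_eq_mul] at h
    refine ⟨q * p, Q.mul_mem hq S.pQ, ?_, ?_⟩
    · calc q * p * s = q * (p * s) := by group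
        _ = (q * z) * s * p := by rw [S.ps]; group
        _ = z * (q * s) * p := by rw [S.pk.zc q hq]; group
        _ = (z * z) * s * q * p := by rw [h]; group
        _ = s * (q * p) := by rw [S.pk.zz]; group
    · rw [mul_assoc, S.pp, mul_one]

/-- an element acting trivially on the frame modulo `V` lies in `Q` -/
theorem Su.L1 {c : G} (hc : CC z s c) (hy : ∀ i, Mv z s (c * y i * c⁻¹) (y i)) (hp : Mv z s (c * p * c⁻¹) p) :
    c ∈ Q := by
  have F := S.toFr
  obtain ⟨d, hd, hdp⟩ := hp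
  have hyi : ∀ i, c * y i * c⁻¹ = y i ∨ c * y i * c⁻¹ = z * y i := by
    intro i
    obtain ⟨v, hv, h⟩ := hy i
    have e1 : (d * p) * (v * y i) = (v * y i) * (d * p) := by
      rw [← hdp, ← h]
      calc c * p * c⁻¹ * (c * y i * c⁻¹) = c * (p * y i) * c⁻¹ := by group
        _ = c * (y i * p) * c⁻¹ := by rw [S.py]
        _ = c * y i * c⁻¹ * (c * p * c⁻¹) := by group
    have e2 : (v * y i) * (d * p) = d * (v * p) * y i := by
      calc (v * y i) * (d * p) = v * (y i * d) * p := by group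
        _ = (v * d) * (y i * p) := by rw [(F.ycc i).comm hd]; group
        _ = (d * v) * (p * y i) := by rw [S.vd.vcomm hv hd, S.py]
        _ = _ := by group
    have e3 : p * v = v * p := by
      rw [e2] at e1
      have : d * (p * v) * y i = d * (v * p) * y i := by rw [← e1]; group
      exact mul_left_cancel (mul_right_cancel this)
    rcases S.pzs v hv with ⟨-, h4 | h4⟩ | ⟨h4, -⟩
    · left; rw [h, h4, one_mul]
    · right; rw [h, h4]
    · exfalso
      rw [e3, mul_assoc] at h4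
      exact F.z1 (right_eq_mul.1 h4).symm.symm
  have hpi : c * p * c⁻¹ = p ∨ c * p * c⁻¹ = z * p := by
    have e1 : (d * p) * (d * p) = 1 := by
      rw [← hdp]
      calc c * p * c⁻¹ * (c * p * c⁻¹) = c * (p * p) * c⁻¹ := by group
        _ = 1 := by rw [S.pp]; group
    rcases S.pzs d hd with ⟨-, h4 | h4⟩ | ⟨h4, -⟩
    · left; rw [hdp, h4, one_mul]
    · right; rw [hdp, h4]
    · exfalso
      have : (d * p) * (d * p) = z := by
        calc (d * p) * (d * p) = d * (p * d) * p := by group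
          _ = (d * z) * d * (p * p) := by rw [h4]; group
          _ = z * (d * d) * (p * p) := by rw [(VV.cc S.vd hd).1]; group
          _ = z := by rw [S.vd.sq hd, S.pp, mul_one, mul_one]
      rw [this] at e1
      exact F.z1 e1
  let T : Subgroup G :=
    { carrier := {q | q * z = z * q ∧ (c * q * c⁻¹ = q ∨ c * q * c⁻¹ = z * q)}
      one_mem' := ⟨by rw [one_mul, mul_one], Or.inl (by group)⟩
      mul_mem' := by
        rintro a b ⟨ha, ha'⟩ ⟨hb, hb'⟩
        have e : c * (a * b) * c⁻¹ = c * a * c⁻¹ * (c * b * c⁻¹) := by group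
        refine ⟨by rw [mul_assoc, hb, ← mul_assoc, ha, mul_assoc], ?_⟩
        rw [e]
        rcases ha' with h1 | h1 <;> rcases hb' with h2 | h2 <;> rw [h1, h2]
        · left; rfl
        · right; rw [← mul_assoc, ha, mul_assoc]
        · right; rw [mul_assoc]
        · left
          rw [mul_assoc, ← mul_assoc a, ha, mul_assoc z a, ← mul_assoc z z, S.pk.zz, one_mul]
      inv_mem' := by
        rintro a ⟨ha, ha'⟩
        have e : c * a⁻¹ * c⁻¹ = (c * a * c⁻¹)⁻¹ := by group
        refine ⟨by rw [inv_mul_eq_iff_eq_mul, ← mul_assoc, ha]; group, ?_⟩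
        show c * a⁻¹ * c⁻¹ = a⁻¹ ∨ c * a⁻¹ * c⁻¹ = z * a⁻¹
        rw [e]
        rcases ha' with h1 | h1 <;> rw [h1]
        · left; rfl
        · right
          rw [← ha, mul_inv_rev, inv_eq_of_mul_eq_one_right S.pk.zz] }
  have hzT : z ∈ T := ⟨rfl, Or.inl (by rw [hc.1]; group)⟩
  have hsT : s ∈ T := ⟨S.pk.zc s S.sQ, Or.inl (by rw [hc.2]; group)⟩
  have hyT : ∀ i, y i ∈ T := fun i => ⟨F.yz i, hyi i⟩
  have hpT : p ∈ T := ⟨S.pk.zc p S.pQ, hpi⟩
  have hvT : ∀ v, VV z s v → v ∈ T := by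
    rintro v (rfl | rfl | rfl | rfl)
    · exact T.one_mem
    · exact hzT
    · exact hsT
    · exact T.mul_mem hzT hsT
  have haT : ∀ a ∈ Q, a * s = s * a → a ∈ T := by
    intro a ha has
    obtain ⟨v, hv, h | ⟨i, h⟩ | ⟨i, j, -, h⟩⟩ := S.cls a ha has
    · rw [h]; exact hvT v hv
    · rw [h]; exact T.mul_mem (hvT v hv) (hyT i)
    · rw [h]; exact T.mul_mem (hvT v hv) (T.mul_mem (hyT i) (hyT j))
  apply S.inQ
  intro q hq
  rcases S.qcases hq with h | ⟨a, ha, has, h⟩
  · exact (haT q hq h).2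
  · rw [h]
    exact (T.mul_mem (haT a ha has) hpT).2

/-- an element centralising `C_R(z)` modulo `⟨s⟩` lies in `R` -/
theorem Su.L2 {c : G} (hc : CC z s c) (hx : ∀ x ∈ R, x * z = z * x → c * x * c⁻¹ = x ∨ c * x * c⁻¹ = s * x) :
    c ∈ R := by
  obtain ⟨t, ht, htz⟩ := S.PR.exists_shift S.zR S.pk.z1 S.sz.symm
  have hst : t * s = s * t := S.PR.zc t ht
  have htz' : t * z = s * z * t := by rw [← htz]; group
  have hct : c * t * c⁻¹ ∈ R := S.PR.N c hc.2 t ht
  obtain ⟨d, hd⟩ : ∃ d, d = c * t * c⁻¹ * t⁻¹ := ⟨_, rfl⟩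
  have hdR : d ∈ R := by rw [hd]; exact R.mul_mem hct (R.inv_mem ht)
  have hdt : c * t * c⁻¹ = d * t := by rw [hd]; group
  have hds : d * s = s * d := S.PR.zc d hdR
  have hcz' : c⁻¹ * z * c = z := by rw [mul_assoc, ← hc.1]; group
  have hcs' : c⁻¹ * s * c = s := by rw [mul_assoc, ← hc.2]; group
  have hdz : d * z = z * d := by
    have e1 : (d * t) * z * (d * t)⁻¹ = s * z := by
      rw [← hdt]
      calc c * t * c⁻¹ * z * (c * t * c⁻¹)⁻¹ = c * (t * (c⁻¹ * z * c) * t⁻¹) * c⁻¹ := by group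
        _ = c * (s * z) * c⁻¹ := by rw [hcz', htz]
        _ = s * z := by
          rw [← mul_assoc, hc.2, mul_assoc s c, hc.1]; group
    have e2 : (d * t) * z * (d * t)⁻¹ = d * (s * z) * d⁻¹ := by
      calc (d * t) * z * (d * t)⁻¹ = d * (t * z * t⁻¹) * d⁻¹ := by group
        _ = _ := by rw [htz]
    rw [e2, mul_inv_eq_iff_eq_mul, ← mul_assoc, hds, mul_assoc, mul_assoc] at e1
    exact mul_left_cancel e1
  have hdx : ∀ x ∈ R, x * z = z * x → x * d = d * x := by
    intro x hxR hxz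
    have hsx : x * s = s * x := S.PR.zc x hxR
    obtain ⟨ε, hε, hε'⟩ : ∃ ε, (ε = 1 ∨ ε = s) ∧ c * x * c⁻¹ = ε * x := by
      rcases hx x hxR hxz with h | h
      · exact ⟨1, Or.inl rfl, by rw [one_mul]; exact h⟩
      · exact ⟨s, Or.inr rfl, h⟩
    obtain ⟨ζ, hζ, hζ'⟩ : ∃ ζ, (ζ = 1 ∨ ζ = s) ∧ t * x * t⁻¹ = ζ * x := by
      rcases S.PR.comm t ht x hxR with h | h
      · exact ⟨1, Or.inl rfl, by rw [one_mul]; exact mul_inv_eq_one.1 h⟩
      · exact ⟨s, Or.inr rfl, by rw [mul_inv_eq_iff_eq_mul] at h; exact h⟩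
    have cen : ∀ w, (w = 1 ∨ w = s) → ∀ g, g * s = s * g → g * w = w * g := by
      rintro w (rfl | rfl) g hg
      · rw [mul_one, one_mul]
      · exact hg
    have hcsc : ∀ w, (w = 1 ∨ w = s) → c * w * c⁻¹ = w := by
      intro w hw
      rw [cen w hw c hc.2]; group
    have e1 : (d * t) * (ε * x) * (d * t)⁻¹ = ζ * (ε * x) := by
      rw [← hdt, ← hε']
      calc c * t * c⁻¹ * (c * x * c⁻¹) * (c * t * c⁻¹)⁻¹ = c * (t * x * t⁻¹) * c⁻¹ := by group
        _ = (c * ζ * c⁻¹) * (c * x * c⁻¹) := by rw [hζ']; group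
        _ = _ := by rw [hcsc ζ hζ]
    have e2 : (d * t) * (ε * x) * (d * t)⁻¹ = ε * ζ * (d * x * d⁻¹) := by
      calc (d * t) * (ε * x) * (d * t)⁻¹ = d * ((t * ε) * x * t⁻¹) * d⁻¹ := by group
        _ = (d * ε) * (t * x * t⁻¹) * d⁻¹ := by rw [cen ε hε t hst]; group
        _ = ε * (d * ζ) * x * d⁻¹ := by rw [cen ε hε d hds, hζ']; group
        _ = _ := by rw [cen ζ hζ d hds]; group
    have hεζ : ε * ζ = ζ * ε := by
      rcases hε with rfl | rfl <;> rcases hζ with rfl | rfl <;> simp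
    rw [e2, hεζ, mul_assoc, mul_assoc] at e1
    have e3 := mul_left_cancel (mul_left_cancel e1)
    rw [← mul_assoc, mul_inv_eq_iff_eq_mul] at e3
    exact e3.symm
  have hd4 := S.PR.double_cen S.zR S.pk.z1 S.sz.symm hdR (fun a ha haz => hdx a ha haz)
  have hsq : d * t * d = t := by
    have e1 : (d * t) * (d * t) = t * t := by
      rw [← hdt]
      calc c * t * c⁻¹ * (c * t * c⁻¹) = c * (t * t) * c⁻¹ := by group
        _ = t * t := by
          rcases S.PR.sq t ht with h | h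
          · rw [h]; group
          · rw [h, hc.2]; group
    have : (d * t * d) * t = t * t := by rw [← e1]; group
    exact mul_right_cancel this
  have hzz := S.pk.zz
  have hss := S.ss
  have hsz : s * z = z * s := S.pk.zc s S.sQ
  have hd2 : d = 1 ∨ d = s := by
    rcases hd4 with h | h | h | h
    · exact Or.inl h
    · exact Or.inr h
    · exfalso
      rw [h] at hsq
      have : z * t * z = s * t := by
        rw [mul_assoc, htz', ← mul_assoc, ← mul_assoc, ← hsz, mul_assoc s z, hzz, mul_one]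
      rw [this] at hsq
      exact S.s1 (mul_eq_right.1 hsq)
    · exfalso
      rw [h] at hsq
      have : z * s * t * (z * s) = s * t := by
        calc z * s * t * (z * s) = z * s * (t * z) * s := by group
          _ = z * s * s * z * (t * s) := by rw [htz']; group
          _ = z * (s * s) * z * (s * t) := by rw [hst]; group
          _ = (z * z) * (s * t) := by rw [hss]; group
          _ = s * t := by rw [hzz, one_mul]
      rw [this] at hsq
      exact S.s1 (mul_eq_right.1 hsq)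
  have htc : c * t * c⁻¹ = t ∨ c * t * c⁻¹ = s * t := by
    rw [hdt]
    rcases hd2 with h | h
    · left; rw [h, one_mul]
    · right; rw [h]
  apply S.inR
  intro q hq
  rcases S.PR.comm q hq z S.zR with h | h
  · rw [mul_inv_eq_one, mul_inv_eq_iff_eq_mul] at h
    exact hx q hq h
  · rw [mul_inv_eq_iff_eq_mul, mul_inv_eq_iff_eq_mul] at h
    have h1 : t⁻¹ * q * z = z * (t⁻¹ * q) := by
      have h2 : t⁻¹ * (s * z) = z * t⁻¹ := by rw [← htz]; group
      calc t⁻¹ * q * z = t⁻¹ * (q * z) := by group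
        _ = t⁻¹ * (s * z) * q := by rw [h]; group
        _ = z * (t⁻¹ * q) := by rw [h2]; group
    have h2 := hx (t⁻¹ * q) (R.mul_mem (R.inv_mem ht) hq) h1
    have e : c * q * c⁻¹ = (c * t * c⁻¹) * (c * (t⁻¹ * q) * c⁻¹) := by group
    rw [e]
    rcases htc with h3 | h3 <;> rcases h2 with h4 | h4 <;> rw [h3, h4]
    · left; group
    · right
      rw [← mul_assoc, hst]; group
    · right; group
    · left
      calc s * t * (s * (t⁻¹ * q)) = s * (t * s) * (t⁻¹ * q) := by group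
        _ = (s * s) * (t * (t⁻¹ * q)) := by rw [hst]; group
        _ = q := by rw [hss]; group

end

end H85.Suz
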