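import Cfsg.Agent.Lib.H85.SuzE

set_option autoImplicit false
set_option maxHeartbeats 400000

/-! Groups of Suzuki sporadic type: the second frame. -/

namespace H85.Suz

open Cfsg H91.LargePair

variable {G : Type*} [Group G]

theorem perm_pair : ∀ i j : Fin 5, i ≠ j → ∀ k l : Fin 5, k ≠ l →
    ∃ σ : Equiv.Perm (Fin 5), Equiv.Perm.sign σ = 1 ∧ σ i = k ∧ σ j = l := by decide +kernel

theorem perm_to (i k : Fin 5) : ∃ σ : Equiv.Perm (Fin 5), Equiv.Perm.sign σ = 1 ∧ σ i = k := by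
  revert i k; decide +kernel

theorem Mv.mulr {z s a b : G} (h : Mv z s a b) (c : G) : Mv z s (a * c) (b * c) := by
  obtain ⟨v, hv, rfl⟩ := h
  exact ⟨v, hv, by rw [mul_assoc]⟩

def Th (z s p x a : G) : Prop := Mv z s (x * p * x⁻¹) (a * p)

theorem Fr.realM {Q : Subgroup G} {z s p : G} {y : Fin 5 → G} (F : Fr Q z s p y) {σ : Equiv.Perm (Fin 5)}
    (hσ : Equiv.Perm.sign σ = 1) : ∃ c, CC z s c ∧ ∀ i, Mv z s (c * y i * c⁻¹) (y (σ i)) := by
  obtain ⟨c, h1, h2, h3⟩ := F.real σ hσ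
  refine ⟨c, ⟨h1, h2⟩, fun i => ?_⟩
  rcases h3 i with h | h
  · rw [h]; exact Mv.refl _
  · rw [h]; exact ⟨z, Or.inr (Or.inl rfl), rfl⟩

section
variable {Q R : Subgroup G} {z s p k : G} {y : Fin 5 → G} (S : Su Q R z s p k y)
include S

theorem Su.pconj {c : G} (hc : CC z s c) : ∃ b ∈ Q, b * s = s * b ∧ c * p * c⁻¹ = b * p := by
  have h1 : c * p * c⁻¹ ∈ Q := S.pk.N c hc.1 p S.pQ
  have h2 : c * p * c⁻¹ * s = z * (s * (c * p * c⁻¹)) := by
    have e1 : c⁻¹ * s = s * c⁻¹ := hc.inv.2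
    have e2 : c * z = z * c := hc.1
    calc c * p * c⁻¹ * s = c * p * (c⁻¹ * s) := by group
      _ = c * (p * s) * c⁻¹ := by rw [e1]; group
      _ = (c * z) * (s * p) * c⁻¹ := by rw [S.ps]; group
      _ = z * (c * s) * p * c⁻¹ := by rw [e2]; group
      _ = z * (s * (c * p * c⁻¹)) := by rw [hc.2]; group
  refine ⟨c * p * c⁻¹ * p, Q.mul_mem h1 S.pQ, ?_, by rw [mul_assoc (c * p * c⁻¹), S.pp, mul_one]⟩
  calc c * p * c⁻¹ * p * s = c * p * c⁻¹ * (p * s) := by group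
    _ = (c * p * c⁻¹ * z) * s * p := by rw [S.ps]; group
    _ = z * (c * p * c⁻¹ * s) * p := by rw [S.pk.zc _ h1]; group
    _ = (z * z) * (s * (c * p * c⁻¹)) * p := by rw [h2]; group
    _ = s * (c * p * c⁻¹ * p) := by rw [S.pk.zz]; group

theorem Su.th_exists {x : G} (hx : x ∈ R) (hxz : x * z = z * x) : ∃ a ∈ Q, a * s = s * a ∧ Th z s p x a := by
  obtain ⟨b, hb, hbs, h⟩ := S.pconj (S.xcc hx hxz)
  exact ⟨b, hb, hbs, by rw [Th, h]; exact Mv.refl _⟩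

omit S in
theorem Th.congr {x a b : G} (h : VD z s) (hx : Th z s p x a) (hab : Mv z s a b) : Th z s p x b :=
  Mv.trans h hx (hab.mulr p)

theorem Su.swap {a b : G} (ha : a ∈ Q) (hb : b ∈ Q) : Mv z s (a * b) (b * a) := by
  rcases S.pk.comm a ha b hb with h | h
  · rw [mul_inv_eq_one, mul_inv_eq_iff_eq_mul] at h
    rw [h]; exact Mv.refl _
  · rw [mul_inv_eq_iff_eq_mul, mul_inv_eq_iff_eq_mul] at h
    exact ⟨z, Or.inr (Or.inl rfl), by rw [h]; group⟩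

theorem Su.th_mul {x x' a a' : G} (hx : x ∈ R) (hxz : x * z = z * x)
    (ha : a ∈ Q) (_has : a * s = s * a) (ha' : a' ∈ Q) (has' : a' * s = s * a')
    (h : Th z s p x a) (h' : Th z s p x' a') : Th z s p (x * x') (a * a') := by
  have cx := S.xcc hx hxz
  have ca' := S.acc ha' has'
  have e : x * x' * p * (x * x')⁻¹ = x * (x' * p * x'⁻¹) * x⁻¹ := by group
  have e2 : x * (a' * p) * x⁻¹ = (x * a' * x⁻¹) * (x * p * x⁻¹) := by group
  have h1 : Mv z s (x * (x' * p * x'⁻¹) * x⁻¹) (x * (a' * p) * x⁻¹) := Mv.conj cx h'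
  have h2 : Mv z s ((x * a' * x⁻¹) * (x * p * x⁻¹)) (a' * (a * p)) := Mv.mul S.vd ca' (S.w12 ha' has' hx hxz) h
  have h3 : Mv z s (a' * (a * p)) (a * a' * p) := by
    rw [← mul_assoc]
    exact (S.swap ha' ha).mulr p
  rw [Th, e]
  rw [e2] at h1
  exact (h1.trans S.vd h2).trans S.vd h3

theorem Su.th_conj {x a c : G} (hx : x ∈ R) (hxz : x * z = z * x) (ha : a ∈ Q) (_has : a * s = s * a)
    (hc : CC z s c) (h : Th z s p x a) : Th z s p (c * x * c⁻¹) (c * a * c⁻¹) := by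
  have cx := S.xcc hx hxz
  obtain ⟨b, hb, hbs, hcb⟩ := S.pconj hc.inv
  have e0 : c⁻¹ * p * c = b * p := by rw [← hcb]; group
  have e : c * x * c⁻¹ * p * (c * x * c⁻¹)⁻¹ = c * (x * (c⁻¹ * p * c) * x⁻¹) * c⁻¹ := by group
  have e1 : x * (b * p) * x⁻¹ = (x * b * x⁻¹) * (x * p * x⁻¹) := by group
  have h2 : Mv z s ((x * b * x⁻¹) * (x * p * x⁻¹)) (b * (a * p)) :=
    Mv.mul S.vd (S.acc hb hbs) (S.w12 hb hbs hx hxz) h
  have h3 : Mv z s (b * (a * p)) (a * (b * p)) := by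
    rw [← mul_assoc, ← mul_assoc]
    exact (S.swap hb ha).mulr p
  rw [Th, e, e0, e1]
  have h4 := (h2.trans S.vd h3).conj hc
  have e5 : c * (a * (b * p)) * c⁻¹ = c * a * c⁻¹ * p := by rw [← e0]; group
  rw [e5] at h4
  exact h4

theorem Su.th_inj {x : G} (hx : x ∈ R) (hxz : x * z = z * x) (h : Th z s p x 1) : VV z s x := by
  rw [Th, one_mul] at h
  exact S.inter (S.L1 (S.xcc hx hxz) (fun i => S.w12 (S.yQ i) (S.ys i) hx hxz) h) hx

theorem Su.exists_x0 [Finite G] : ∃ x ∈ R, x * z = z * x ∧ ¬ VV z s x := by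
  by_contra hcon
  push Not at hcon
  have h1 := card_centralizer S.PR S.zR S.pk.z1 S.sz.symm
  rw [S.cR] at h1
  let f : (R ⊓ Subgroup.centralizer ({z} : Set G) : Subgroup G) → ({1, z, s, z * s} : Set G) := fun x =>
    ⟨x.1, hcon x.1 x.2.1 (Subgroup.mem_centralizer_singleton_iff.1 x.2.2)⟩
  have hf : Function.Injective f := by
    intro x x' hxx
    exact Subtype.ext (congrArg (Subtype.val : ({1, z, s, z * s} : Set G) → G) hxx)
  have h2 := Nat.card_le_card_of_injective f hf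
  have h3 : Nat.card ({1, z, s, z * s} : Set G) ≤ 4 := by
    rw [Nat.card_coe_set_eq]
    refine (Set.ncard_insert_le _ _).trans ?_
    have := Set.ncard_insert_le z ({s, z * s} : Set G)
    have := Set.ncard_insert_le s ({z * s} : Set G)
    have := Set.ncard_singleton (z * s)
    omega
  omega

theorem Su.exists_x [Finite G] : ∃ x : Fin 5 → G, ∀ i, x i ∈ R ∧ x i * z = z * x i ∧ Th z s p (x i) (y i) := by
  have F := S.toFr
  -- it is enough to find one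
  suffices h : ∃ i, ∃ x ∈ R, x * z = z * x ∧ Th z s p x (y i) by
    obtain ⟨i, x, hx, hxz, hth⟩ := h
    have : ∀ j, ∃ x ∈ R, x * z = z * x ∧ Th z s p x (y j) := by
      intro j
      obtain ⟨σ, hσ, hij⟩ := perm_to i j
      obtain ⟨c, hc, hci⟩ := F.realM hσ
      have cx := S.xcc hx hxz
      refine ⟨c * x * c⁻¹, S.PR.N c hc.2 x hx, ((hc.mul cx).mul hc.inv).1, ?_⟩
      have h1 := S.th_conj hx hxz (S.yQ i) (S.ys i) hc hth
      have h2 := hci i
      rw [hij] at h2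
      exact h1.congr S.vd h2
    choose x hx1 hx2 hx3 using this
    exact ⟨x, fun i => ⟨hx1 i, hx2 i, hx3 i⟩⟩
  obtain ⟨x, hx, hxz, hxv⟩ := S.exists_x0
  obtain ⟨a, ha, has, hth⟩ := S.th_exists hx hxz
  obtain ⟨v, hv, h | ⟨i, h⟩ | ⟨i, j, hij, h⟩⟩ := S.cls a ha has
  · exfalso
    apply hxv
    apply S.th_inj hx hxz
    refine hth.congr S.vd ?_
    rw [h]; exact hv.mv1
  · exact ⟨i, x, hx, hxz, hth.congr S.vd ⟨v, hv, h⟩⟩
  · have hth' : Th z s p x (y i * y j) := hth.congr S.vd ⟨v, hv, h⟩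
    have hpair : ∀ k l, k ≠ l → ∃ x ∈ R, x * z = z * x ∧ Th z s p x (y k * y l) := by
      intro k l hkl
      obtain ⟨σ, hσ, h1, h2⟩ := perm_pair i j hij k l hkl
      obtain ⟨c, hc, hci⟩ := F.realM hσ
      have cx := S.xcc hx hxz
      refine ⟨c * x * c⁻¹, S.PR.N c hc.2 x hx, ((hc.mul cx).mul hc.inv).1, ?_⟩
      have h3 := S.th_conj hx hxz (Q.mul_mem (S.yQ i) (S.yQ j)) ((F.ycc i).mul (F.ycc j)).2 hc hth'
      have e : c * (y i * y j) * c⁻¹ = (c * y i * c⁻¹) * (c * y j * c⁻¹) := by group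
      have h4 : Mv z s (c * (y i * y j) * c⁻¹) (y k * y l) := by
        rw [e, ← h1, ← h2]
        exact Mv.mul S.vd (F.ycc _) (hci i) (hci j)
      exact h3.congr S.vd h4
    obtain ⟨x1, h1, h1z, t1⟩ := hpair 0 1 (by decide)
    obtain ⟨x2, h2, h2z, t2⟩ := hpair 2 3 (by decide)
    have cx := (S.xcc h1 h1z).mul (S.xcc h2 h2z)
    refine ⟨4, x1 * x2, R.mul_mem h1 h2, cx.1, ?_⟩
    have h3 := S.th_mul h1 h1z (Q.mul_mem (S.yQ 0) (S.yQ 1)) ((F.ycc 0).mul (F.ycc 1)).2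
      (Q.mul_mem (S.yQ 2) (S.yQ 3)) ((F.ycc 2).mul (F.ycc 3)).2 t1 t2
    have e : y 0 * y 1 * (y 2 * y 3) = y 4 := by
      have h4 := S.prod
      have h5 : y 0 * y 1 * (y 2 * y 3) * y 4 = 1 := by rw [← h4]; group
      have h6 : y 4 * y 4 = 1 := S.yy 4
      calc y 0 * y 1 * (y 2 * y 3) = y 0 * y 1 * (y 2 * y 3) * (y 4 * y 4) := by rw [h6, mul_one]
        _ = (y 0 * y 1 * (y 2 * y 3) * y 4) * y 4 := by group
        _ = y 4 := by rw [h5, one_mul]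
    rwa [e] at h3

end

/-- the full data -/
structure SX (Q R : Subgroup G) (z s p k : G) (y x : Fin 5 → G) : Prop extends Su Q R z s p k y where
  xR : ∀ i, x i ∈ R
  xz : ∀ i, x i * z = z * x i
  th : ∀ i, Th z s p (x i) (y i)

section
variable {Q R : Subgroup G} {z s p k : G} {y x : Fin 5 → G} (X : SX Q R z s p k y x)
include X

theorem SX.xc (i : Fin 5) : CC z s (x i) := X.toSu.xcc (X.xR i) (X.xz i)
theorem SX.yc (i : Fin 5) : CC z s (y i) := X.toFr.ycc i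

theorem SX.th_unique {a b t : G} (ha : a ∈ R) (haz : a * z = z * a) (hb : b ∈ R) (hbz : b * z = z * b) (ht : t ∈ Q)
    (hts : t * s = s * t) (h1 : Th z s p a t) (h2 : Th z s p b t) : Mv z s a b := by
  have S := X.toSu
  have ca := S.xcc ha haz
  have cb := S.xcc hb hbz
  have htt : Mv z s (t * t) 1 := by
    rcases X.pk.sq t ht with h | h
    · rw [h]; exact Mv.refl _
    · rw [h]; exact ⟨z, Or.inr (Or.inl rfl), by rw [mul_one]⟩
  have h3 := (S.th_mul ha haz ht hts ht hts h1 h2).congr S.vd htt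
  have h4 := (S.th_mul hb hbz ht hts ht hts h2 h2).congr S.vd htt
  obtain ⟨v, hv⟩ : ∃ v, v = a * b := ⟨_, rfl⟩
  have v1 := S.th_inj (R.mul_mem ha hb) (ca.mul cb).1 h3
  have v2 := S.th_inj (R.mul_mem hb hb) (cb.mul cb).1 h4
  refine ⟨(a * b) * (b * b), S.vd.mul v1 v2, ?_⟩
  have h5 : (b * b) * (b * b) = 1 := S.vd.sq v2
  calc a = a * ((b * b) * (b * b)) := by rw [h5, mul_one]
    _ = _ := by group

theorem SX.xconj {c : G} (hc : CC z s c) {σ : Equiv.Perm (Fin 5)} (hci : ∀ i, Mv z s (c * y i * c⁻¹) (y (σ i)))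
    (i : Fin 5) : Mv z s (c * x i * c⁻¹) (x (σ i)) := by
  have h1 := (X.toSu.th_conj (X.xR i) (X.xz i) (X.yQ i) (X.ys i) hc (X.th i)).congr X.toSu.vd (hci i)
  have cx := (hc.mul (X.xc i)).mul hc.inv
  exact X.th_unique (X.PR.N c hc.2 _ (X.xR i)) cx.1 (X.xR _) (X.xz _) (X.yQ _) (X.ys _) h1 (X.th _)

/-- the commutators -/
theorem SX.exists_beta : ∃ β, VV z s β ∧ (∀ i, x i * y i = y i * x i) ∧
    ∀ i j, i ≠ j → x j * y i = β * (y i * x j) := by
  have S := X.toSu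
  have F := X.toFr
  have hb : ∀ i j, ∃ b, VV z s b ∧ x j * y i * (x j)⁻¹ = b * y i := fun i j =>
    S.w12 (X.yQ i) (X.ys i) (X.xR j) (X.xz j)
  choose b hbV hb using hb
  have hinv : ∀ σ : Equiv.Perm (Fin 5), Equiv.Perm.sign σ = 1 → ∀ i j, b (σ i) (σ j) = b i j := by
    intro σ hσ i j
    obtain ⟨c, hc, hci⟩ := F.realM hσ
    obtain ⟨v, hv, h1⟩ := X.xconj hc hci j
    obtain ⟨w, hw, h2⟩ := hci i
    have e1 : c * (x j * y i * (x j)⁻¹) * c⁻¹ = c * x j * c⁻¹ * (c * y i * c⁻¹) * (c * x j * c⁻¹)⁻¹ := by group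
    have e2 : c * (b i j * y i) * c⁻¹ = b i j * (c * y i * c⁻¹) := by
      rw [← mul_assoc, hc.comm (hbV i j)]; group
    rw [hb, e2, h1, h2] at e1
    have e3 : v * x (σ j) * (w * y (σ i)) * (v * x (σ j))⁻¹ = w * (x (σ j) * y (σ i) * (x (σ j))⁻¹) := by
      have c1 : v * x (σ j) * w = w * (v * x (σ j)) := ((VV.cc S.vd hv).mul (X.xc (σ j))).comm hw
      have c2 : v * (x (σ j) * y (σ i) * (x (σ j))⁻¹) = (x (σ j) * y (σ i) * (x (σ j))⁻¹) * v :=
        (((X.xc (σ j)).mul (X.yc (σ i))).mul (X.xc (σ j)).inv).comm hv |>.symm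
      calc v * x (σ j) * (w * y (σ i)) * (v * x (σ j))⁻¹ = (v * x (σ j) * w) * y (σ i) * (x (σ j))⁻¹ * v⁻¹ := by group
        _ = w * (v * (x (σ j) * y (σ i) * (x (σ j))⁻¹)) * v⁻¹ := by rw [c1]; group
        _ = _ := by rw [c2]; group
    rw [e3, hb, ← mul_assoc, ← mul_assoc, S.vd.vcomm hw (hbV _ _)] at e1
    exact (mul_right_cancel (mul_right_cancel e1)).symm
  have hne : ∀ i j, i ≠ j → b i j = b 1 0 := by
    intro i j hij
    obtain ⟨σ, hσ, h1, h2⟩ := perm_pair 1 0 (by decide) i j hij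
    rw [← h1, ← h2, hinv σ hσ]
  have heq : ∀ i, b i i = b 0 0 := by
    intro i
    obtain ⟨σ, hσ, h1⟩ := perm_to 0 i
    rw [← h1, hinv σ hσ]
  have hβ : ∀ w, b 1 0 * (b 1 0 * w) = w := fun w => by rw [← mul_assoc, S.vd.sq (hbV 1 0), one_mul]
  have hl : ∀ i w, y i * (b 1 0 * w) = b 1 0 * (y i * w) := fun i w => by
    rw [← mul_assoc, (X.yc i).comm (hbV 1 0), mul_assoc]
  have h00 : b 0 0 = 1 := by
    have e : x 0 * (y 0 * (y 1 * (y 2 * (y 3 * y 4)))) * (x 0)⁻¹ = (x 0 * y 0 * (x 0)⁻¹) * ((x 0 * y 1 * (x 0)⁻¹) *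
      ((x 0 * y 2 * (x 0)⁻¹) * ((x 0 * y 3 * (x 0)⁻¹) * (x 0 * y 4 * (x 0)⁻¹)))) := by group
    rw [X.prod, hb, hb, hb, hb, hb, hne 2 0 (by decide), hne 3 0 (by decide), hne 4 0 (by decide)] at e
    simp only [mul_assoc, hl, hβ] at e
    rw [X.prod] at e
    rw [mul_one] at e
    have e2 : x 0 * (1 * (x 0)⁻¹) = 1 := by group
    rw [e2] at e
    exact e.symm
  refine ⟨b 1 0, hbV 1 0, fun i => ?_, fun i j hij => ?_⟩
  · have := hb i i
    rw [heq, h00, one_mul] at this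
    exact mul_inv_eq_iff_eq_mul.1 this
  · have := hb i j
    rw [hne i j hij, mul_inv_eq_iff_eq_mul] at this
    rw [this, mul_assoc]

end

end H85.Suz
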