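import Cfsg.Agent.Lib.H85.SuzF

set_option autoImplicit false
set_option maxHeartbeats 400000

/-! Groups of Suzuki sporadic type: the relations in the centraliser of the four-group. -/

namespace H85.Suz

open Cfsg H91.LargePair

variable {G : Type*} [Group G]

/-- `c` and `a` commute up to `e` -/
def Cm (c a e : G) : Prop := c * a = e * (a * c)

section
variable {z s : G}

theorem Cm.mulr {c a b e f : G} (h1 : Cm c a e) (h2 : Cm c b f) (ha : CC z s a) (hf : VV z s f) :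
    Cm c (a * b) (e * f) := by
  unfold Cm at *
  calc c * (a * b) = (c * a) * b := by group
    _ = e * a * (c * b) := by rw [h1]; group
    _ = e * (a * f) * b * c := by rw [h2]; group
    _ = e * f * (a * b * c) := by rw [ha.comm hf]; group

theorem Cm.mull {c d a e f : G} (h1 : Cm c a e) (h2 : Cm d a f) (hc : CC z s c) (he : VV z s e) (hf : VV z s f)
    (h : VD z s) : Cm (c * d) a (e * f) := by
  unfold Cm at *
  calc c * d * a = c * (d * a) := by group
    _ = (c * f) * a * d := by rw [h2]; group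
    _ = f * (c * a) * d := by rw [hc.comm hf]; group
    _ = (f * e) * (a * (c * d)) := by rw [h1]; group
    _ = _ := by rw [h.vcomm hf he]

theorem Cm.symm {c a e : G} (h : VD z s) (he : VV z s e) (h1 : Cm c a e) : Cm a c e := by
  unfold Cm at *
  rw [h1, ← mul_assoc e e, h.sq he, one_mul]

theorem Cm.v {c v : G} (hc : CC z s c) (hv : VV z s v) : Cm c v 1 := by
  unfold Cm
  rw [one_mul, hc.comm hv]

theorem Cm.conj {c a e : G} (h : Cm c a e) : c * a * c⁻¹ = e * a := by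
  unfold Cm at h
  rw [h]; group

theorem Cm.of_conj {c a e : G} (h : c * a * c⁻¹ = e * a) : Cm c a e := by
  unfold Cm
  rw [mul_inv_eq_iff_eq_mul] at h
  rw [h, mul_assoc]

theorem Cm.mv {c a a' e : G} (hc : CC z s c) (he : VV z s e) (h : VD z s) (h1 : Mv z s a a') (h2 : Cm c a' e) : Cm c a e := by
  obtain ⟨v, hv, rfl⟩ := h1
  unfold Cm at *
  calc c * (v * a') = (c * v) * a' := by group
    _ = v * (c * a') := by rw [hc.comm hv]; group
    _ = (v * e) * (a' * c) := by rw [h2]; group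
    _ = e * (v * a' * c) := by rw [h.vcomm hv he]; group

theorem Cm.eq {c a : G} (h : Cm c a 1) : c * a = a * c := by
  unfold Cm at h
  rw [h, one_mul]

theorem Cm.of_eq {c a : G} (h : c * a = a * c) : Cm c a 1 := by
  unfold Cm
  rw [h, one_mul]

theorem Cm.self (c : G) : Cm c c 1 := Cm.of_eq rfl

theorem Cm.unique {c a e f : G} (h1 : Cm c a e) (h2 : Cm c a f) : e = f := by
  unfold Cm at *
  rw [h1] at h2
  exact mul_right_cancel h2

end

section
variable {Q R : Subgroup G} {z s p k : G} {y x : Fin 5 → G} (X : SX Q R z s p k y x)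
include X

theorem SX.vd : VD z s := X.toSu.vd

theorem SX.vz : VV z s z := Or.inr (Or.inl rfl)
theorem SX.vs : VV z s s := Or.inr (Or.inr (Or.inl rfl))
theorem SX.vzs : VV z s (z * s) := Or.inr (Or.inr (Or.inr rfl))

theorem SX.beta_cases {β : G} (hβ : VV z s β) (h : ∀ i j, i ≠ j → x j * y i = β * (y i * x j)) :
    p * β = z * β * p ∧ (β = s ∨ β = z * s) := by
  have S := X.toSu
  obtain ⟨v, hv, h1⟩ := X.th 1
  have h2 : x 1 * y 0 * (x 1)⁻¹ = β * y 0 := by rw [h 0 1 (by decide)]; group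
  have e1 : v * (y 1 * p) * (β * y 0) = β * y 0 * (v * (y 1 * p)) := by
    rw [← h1, ← h2]
    calc x 1 * p * (x 1)⁻¹ * (x 1 * y 0 * (x 1)⁻¹) = x 1 * (p * y 0) * (x 1)⁻¹ := by group
      _ = x 1 * (y 0 * p) * (x 1)⁻¹ := by rw [X.py]
      _ = _ := by group
  have e2 : β * y 0 * (v * (y 1 * p)) = v * (y 1 * (z * β * p)) * y 0 := by
    calc β * y 0 * (v * (y 1 * p)) = β * (y 0 * v) * (y 1 * p) := by group
      _ = (β * v) * (y 0 * y 1) * p := by rw [(X.yc 0).comm hv]; group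
      _ = v * β * z * y 1 * (y 0 * p) := by rw [X.vd.vcomm hβ hv, X.anti 0 1 (by decide)]; group
      _ = v * ((β * z) * y 1) * p * y 0 := by rw [← X.py]; group
      _ = v * ((y 1 * (β * z))) * p * y 0 := by rw [(X.yc 1).comm (X.vd.mul hβ X.vz)]
      _ = v * (y 1 * (z * β * p)) * y 0 := by rw [X.vd.vcomm hβ X.vz]; group
  rw [e2] at e1
  have e3 : v * (y 1 * (p * β)) * y 0 = v * (y 1 * (z * β * p)) * y 0 := by rw [← e1]; group
  have e4 := mul_left_cancel (mul_left_cancel (mul_right_cancel e3))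
  refine ⟨e4, ?_⟩
  rcases S.pzs β hβ with ⟨h5, -⟩ | ⟨-, h5⟩
  · exfalso
    rw [h5, mul_assoc] at e4
    exact X.toFr.z1 (mul_eq_right.1 e4.symm)
  · exact h5

theorem SX.xx (i : Fin 5) : x i * x i = 1 := by
  have S := X.toSu
  obtain ⟨β, hβ, h0, hij⟩ := X.exists_beta
  rcases X.PR.sq (x i) (X.xR i) with h | h
  · exact h
  · exfalso
    obtain ⟨v, hv, h1⟩ := X.th i
    have e1 : x i * x i * p * (x i * x i)⁻¹ = p := by
      calc x i * x i * p * (x i * x i)⁻¹ = x i * (x i * p * (x i)⁻¹) * (x i)⁻¹ := by group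
        _ = (x i * v) * y i * p * (x i)⁻¹ := by rw [h1]; group
        _ = v * (x i * y i) * p * (x i)⁻¹ := by rw [(X.xc i).comm hv]; group
        _ = v * y i * (x i * p * (x i)⁻¹) := by rw [h0]; group
        _ = v * (y i * v) * y i * p := by rw [h1]; group
        _ = (v * v) * (y i * y i) * p := by rw [(X.yc i).comm hv]; group
        _ = p := by rw [X.vd.sq hv, X.yy, one_mul, one_mul]
    rw [h, mul_inv_eq_iff_eq_mul, X.ps] at e1
    exact X.toFr.z1 (mul_eq_right.1 e1.symm)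

theorem SX.xanti {i j : Fin 5} (hij : i ≠ j) : x i * x j = s * (x j * x i) := by
  have S := X.toSu
  obtain ⟨β, hβ, h0, hb⟩ := X.exists_beta
  have key : ∀ i j, i ≠ j → ∃ v w, VV z s v ∧ VV z s w ∧ x i * p * (x i)⁻¹ = v * (y i * p) ∧
      x j * p * (x j)⁻¹ = w * (y j * p) := by
    intro i j _
    obtain ⟨v, hv, h1⟩ := X.th i
    obtain ⟨w, hw, h2⟩ := X.th j
    exact ⟨v, w, hv, hw, h1, h2⟩
  obtain ⟨v, w, hv, hw, h1, h2⟩ := key i j hij
  have comp : ∀ i j v w, i ≠ j → VV z s v → VV z s w → x i * p * (x i)⁻¹ = v * (y i * p) →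
      x j * p * (x j)⁻¹ = w * (y j * p) → x i * x j * p * (x i * x j)⁻¹ = β * w * v * (y j * y i * p) := by
    intro i j v w hij hv hw h1 h2
    calc x i * x j * p * (x i * x j)⁻¹ = x i * (x j * p * (x j)⁻¹) * (x i)⁻¹ := by group
      _ = (x i * w) * y j * p * (x i)⁻¹ := by rw [h2]; group
      _ = w * (x i * y j) * p * (x i)⁻¹ := by rw [(X.xc i).comm hw]; group
      _ = (w * β) * y j * (x i * p * (x i)⁻¹) := by rw [hb j i hij.symm]; group
      _ = (β * w) * (y j * v) * (y i * p) := by rw [h1, X.vd.vcomm hw hβ]; group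
      _ = β * w * v * (y j * y i * p) := by rw [(X.yc j).comm hv]; group
  have e1 := comp i j v w hij hv hw h1 h2
  have e2 := comp j i w v hij.symm hw hv h2 h1
  rcases X.PR.comm (x i) (X.xR i) (x j) (X.xR j) with h | h
  · exfalso
    rw [mul_inv_eq_one, mul_inv_eq_iff_eq_mul] at h
    rw [h, e2] at e1
    have e3 : β * v * w = β * w * v := by rw [mul_assoc, X.vd.vcomm hv hw, mul_assoc]
    rw [e3] at e1
    exact X.toFr.anti_ne hij (mul_right_cancel (mul_left_cancel e1))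
  · rw [mul_inv_eq_iff_eq_mul, mul_inv_eq_iff_eq_mul] at h
    rw [h, mul_assoc]

theorem SX.cls2 {a : G} (ha : a ∈ R) (haz : a * z = z * a) : VV z s a ∨ (∃ i, Mv z s a (x i)) ∨
    ∃ i j, i ≠ j ∧ Mv z s a (x i * x j) := by
  have S := X.toSu
  obtain ⟨t, ht, hts, hth⟩ := S.th_exists ha haz
  obtain ⟨v, hv, h | ⟨i, h⟩ | ⟨i, j, hij, h⟩⟩ := X.cls t ht hts
  · left
    apply S.th_inj ha haz
    refine hth.congr S.vd ?_
    rw [h]; exact hv.mv1
  · right; left
    refine ⟨i, X.th_unique ha haz (X.xR i) (X.xz i) (X.yQ i) (X.ys i) (hth.congr S.vd ⟨v, hv, h⟩) (X.th i)⟩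
  · right; right
    refine ⟨i, j, hij, ?_⟩
    have h3 := S.th_mul (X.xR i) (X.xz i) (X.yQ i) (X.ys i) (X.yQ j) (X.ys j) (X.th i) (X.th j)
    exact X.th_unique ha haz (R.mul_mem (X.xR i) (X.xR j)) ((X.xc i).mul (X.xc j)).1 (Q.mul_mem (X.yQ i) (X.yQ j))
      ((X.yc i).mul (X.yc j)).2 (hth.congr S.vd ⟨v, hv, h⟩) h3

theorem SX.beta : ∀ i j, i ≠ j → x j * y i = z * s * (y i * x j) := by
  have S := X.toSu
  obtain ⟨β, hβ, h0, hb⟩ := X.exists_beta
  obtain ⟨-, h | h⟩ := X.beta_cases hβ hb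
  · exfalso
    have h1 : ∀ j, Cm (y 0) (x j) 1 ∨ Cm (y 0) (x j) s := by
      intro j
      by_cases hj : (0 : Fin 5) = j
      · left; subst hj; exact Cm.of_eq (h0 0).symm
      · right
        have : Cm (x j) (y 0) s := by unfold Cm; rw [hb 0 j hj, h]
        exact this.symm X.vd X.vs
    have h2 : ∀ a, Cm (y 0) a 1 ∨ Cm (y 0) a s → y 0 * a * (y 0)⁻¹ = a ∨ y 0 * a * (y 0)⁻¹ = s * a := by
      rintro a (h | h)
      · left; rw [h.conj, one_mul]
      · right; rw [h.conj]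
    have h3 : y 0 ∈ R := by
      apply S.L2 (X.yc 0)
      intro a ha haz
      apply h2
      rcases X.cls2 ha haz with h | ⟨i, h⟩ | ⟨i, j, -, h⟩
      · left; exact Cm.v (X.yc 0) h
      · rcases h1 i with h3 | h3
        · left; exact Cm.mv (X.yc 0) (Or.inl rfl) X.vd h h3
        · right; exact Cm.mv (X.yc 0) X.vs X.vd h h3
      · rcases h1 i with h3 | h3 <;> rcases h1 j with h4 | h4
        · left
          have h5 := h3.mulr h4 (X.xc i) (Or.inl rfl)
          rw [one_mul] at h5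
          exact Cm.mv (X.yc 0) (Or.inl rfl) X.vd h h5
        · right
          have h5 := h3.mulr h4 (X.xc i) X.vs
          rw [one_mul] at h5
          exact Cm.mv (X.yc 0) X.vs X.vd h h5
        · right
          have h5 := h3.mulr h4 (X.xc i) (Or.inl rfl)
          rw [mul_one] at h5
          exact Cm.mv (X.yc 0) X.vs X.vd h h5
        · left
          have h5 := h3.mulr h4 (X.xc i) X.vs
          rw [X.ss] at h5
          exact Cm.mv (X.yc 0) (Or.inl rfl) X.vd h h5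
    exact X.toFr.y_nv 0 (S.inter (X.yQ 0) h3)
  · intro i j hij
    rw [hb i j hij, h]

theorem SX.xy0 (i : Fin 5) : x i * y i = y i * x i := by
  obtain ⟨β, hβ, h0, hb⟩ := X.exists_beta
  exact h0 i

theorem SX.px (i : Fin 5) : Mv z s (p * x i * p⁻¹) (y i * x i) := by
  obtain ⟨v, hv, h⟩ := X.th i
  refine ⟨v, hv, ?_⟩
  rw [mul_inv_eq_iff_eq_mul] at h ⊢
  -- x i * p = v * (y i * p) * x i
  calc p * x i = (y i * y i) * (p * x i) := by rw [X.yy, one_mul]
    _ = (v * v) * ((y i * y i) * (p * x i)) := by rw [X.vd.sq hv, one_mul]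
    _ = v * (v * y i) * (y i * p * x i) := by group
    _ = v * (y i * v) * (y i * p * x i) := by rw [(X.yc i).comm hv]
    _ = v * y i * (v * (y i * p) * x i) := by group
    _ = v * y i * (x i * p) := by rw [h]
    _ = _ := by group

theorem SX.prodx : VV z s (x 0 * (x 1 * (x 2 * (x 3 * x 4)))) := by
  have S := X.toSu
  have m := fun {a b : G} (ha : CC z s a) (hb : CC z s b) => ha.mul hb
  have h1 := S.th_mul (X.xR 3) (X.xz 3) (X.yQ 3) (X.ys 3) (X.yQ 4) (X.ys 4) (X.th 3) (X.th 4)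
  have r1 := R.mul_mem (X.xR 3) (X.xR 4)
  have q1 := Q.mul_mem (X.yQ 3) (X.yQ 4)
  have cx1 := (X.xc 3).mul (X.xc 4)
  have cy1 := (X.yc 3).mul (X.yc 4)
  have h2 := S.th_mul (X.xR 2) (X.xz 2) (X.yQ 2) (X.ys 2) q1 cy1.2 (X.th 2) h1
  have r2 := R.mul_mem (X.xR 2) r1
  have q2 := Q.mul_mem (X.yQ 2) q1
  have cx2 := (X.xc 2).mul cx1
  have cy2 := (X.yc 2).mul cy1
  have h3 := S.th_mul (X.xR 1) (X.xz 1) (X.yQ 1) (X.ys 1) q2 cy2.2 (X.th 1) h2
  have r3 := R.mul_mem (X.xR 1) r2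
  have q3 := Q.mul_mem (X.yQ 1) q2
  have cx3 := (X.xc 1).mul cx2
  have cy3 := (X.yc 1).mul cy2
  have h4 := S.th_mul (X.xR 0) (X.xz 0) (X.yQ 0) (X.ys 0) q3 cy3.2 (X.th 0) h3
  have r4 := R.mul_mem (X.xR 0) r3
  have cx4 := (X.xc 0).mul cx3
  rw [X.prod] at h4
  exact S.th_inj r4 cx4.1 h4

/-! ### commutation table -/

theorem SX.cyy {i j : Fin 5} (h : i ≠ j) : Cm (y i) (y j) z := X.anti i j h
theorem SX.cxx {i j : Fin 5} (h : i ≠ j) : Cm (x i) (x j) s := X.xanti h
theorem SX.cxy {i j : Fin 5} (h : j ≠ i) : Cm (x i) (y j) (z * s) := X.beta j i h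
theorem SX.cyx {i j : Fin 5} (h : i ≠ j) : Cm (y i) (x j) (z * s) := (X.cxy h).symm X.vd X.vzs
theorem SX.cxy0 (i : Fin 5) : Cm (x i) (y i) 1 := Cm.of_eq (X.xy0 i)
theorem SX.cyx0 (i : Fin 5) : Cm (y i) (x i) 1 := Cm.of_eq (X.xy0 i).symm

end

end H85.Suz
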