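import Cfsg.Agent.Lib.H85.SuzG

set_option autoImplicit false
set_option maxHeartbeats 400000

/-! Groups of Suzuki sporadic type: involutions in the product of the two extraspecial groups. -/

namespace H85.Suz

open Cfsg H91.LargePair

variable {G : Type*} [Group G]

theorem perm_triple : ∀ a b c : Fin 5, a ≠ b → a ≠ c → b ≠ c →
    ∃ σ : Equiv.Perm (Fin 5), Equiv.Perm.sign σ = 1 ∧ σ a = 0 ∧ σ b = 1 ∧ σ c = 2 := by decide +kernel

open Classical in
def ee (z s : G) (i j : Fin 5) : G := if i = j then 1 else z * s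

theorem ee_cases (z s : G) (i j : Fin 5) : (i = j ∧ ee z s i j = 1) ∨ (i ≠ j ∧ ee z s i j = z * s) := by
  by_cases h : i = j
  · left; exact ⟨h, if_pos h⟩
  · right; exact ⟨h, if_neg h⟩

theorem ee_v (z s : G) (i j : Fin 5) : VV z s (ee z s i j) := by
  rcases ee_cases z s i j with ⟨-, h⟩ | ⟨-, h⟩ <;> rw [h]
  · exact Or.inl rfl
  · exact Or.inr (Or.inr (Or.inr rfl))

theorem ee_eq {z s : G} {a b : Fin 5} (h : a = b) : ee z s a b = 1 := if_pos h
theorem ee_ne {z s : G} {a b : Fin 5} (h : a ≠ b) : ee z s a b = z * s := if_neg h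

def U0 (y x : Fin 5 → G) : G := y 0 * y 1 * (x 0 * x 2)

section
variable {Q R : Subgroup G} {z s p k : G} {y x : Fin 5 → G} (X : SX Q R z s p k y x)
include X

theorem SX.ce (i j : Fin 5) : Cm (x j) (y i) (ee z s i j) := by
  rcases ee_cases z s i j with ⟨h0, h⟩ | ⟨h0, h⟩ <;> rw [h]
  · subst h0; exact X.cxy0 i
  · exact X.cxy h0

theorem SX.c1 {a : G} (ha : CC z s a) : Cm a 1 1 := Cm.v ha (Or.inl rfl)
theorem SX.c1' (a : G) : Cm 1 a 1 := Cm.of_eq (by rw [one_mul, mul_one])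

theorem SX.sq_form {t α ξ e f g : G} (h : Mv z s t (α * ξ)) (hα : CC z s α) (hξ : CC z s ξ) (he : VV z s e)
    (hc : Cm ξ α e) (hf : α * α = f) (hg : ξ * ξ = g) (ht : t * t = 1) : e * f * g = 1 := by
  obtain ⟨v, hv, rfl⟩ := h
  rw [X.toFr.v_sq hv (hα.mul hξ)] at ht
  rw [← ht, ← hf, ← hg]
  unfold Cm at hc
  calc e * (α * α) * (ξ * ξ) = (e * α) * α * (ξ * ξ) := by group
    _ = α * (e * (α * ξ)) * ξ := by rw [← hα.comm he]; group
    _ = _ := by rw [← hc]; group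

theorem SX.s1' : s ≠ 1 := X.s1
theorem SX.z1' : z ≠ 1 := X.toFr.z1
theorem SX.zs1' : z * s ≠ 1 := X.toFr.zs1

theorem SX.U_sq : U0 y x * U0 y x = 1 := by
  have h1 := ((X.cxy (i := 2) (j := 0) (by decide)).mulr (X.cxy (i := 2) (j := 1) (by decide)) (X.yc 0) X.vzs)
  have h2 := ((X.cxy0 0).mulr (X.cxy (i := 0) (j := 1) (by decide)) (X.yc 0) X.vzs)
  have h3 := h2.mull h1 (X.xc 0) (X.vd.mul (Or.inl rfl) X.vzs) (X.vd.mul X.vzs X.vzs) X.vd
  unfold Cm at h3
  have e1 : 1 * (z * s) * (z * s * (z * s)) = z * s := by rw [X.vd.sq X.vzs, one_mul, mul_one]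
  rw [e1] at h3
  have hy := X.toFr.yy_sq (i := 0) (j := 1) (by decide)
  have hx : x 0 * x 2 * (x 0 * x 2) = s := by
    calc x 0 * x 2 * (x 0 * x 2) = x 0 * (x 2 * x 0) * x 2 := by group
      _ = (x 0 * s) * (x 0 * x 2 * x 2) := by rw [X.xanti (i := 2) (j := 0) (by decide)]; group
      _ = s * (x 0 * x 0) * (x 2 * x 2) := by rw [(X.xc 0).2]; group
      _ = s := by rw [X.xx, X.xx, mul_one, mul_one]
  unfold U0
  calc y 0 * y 1 * (x 0 * x 2) * (y 0 * y 1 * (x 0 * x 2)) = y 0 * y 1 * (x 0 * x 2 * (y 0 * y 1)) * (x 0 * x 2) := by group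
    _ = (y 0 * y 1 * (z * s)) * (y 0 * y 1) * (x 0 * x 2 * (x 0 * x 2)) := by rw [h3]; group
    _ = z * s * (y 0 * y 1 * (y 0 * y 1)) * (x 0 * x 2 * (x 0 * x 2)) := by
      rw [((X.yc 0).mul (X.yc 1)).comm X.vzs]; group
    _ = z * s * z * s := by rw [hy, hx]
    _ = 1 := by rw [mul_assoc, X.vd.sq X.vzs]

theorem SX.Ucc : CC z s (U0 y x) := ((X.yc 0).mul (X.yc 1)).mul ((X.xc 0).mul (X.xc 2))

theorem SX.y1U : Cm (y 1) (U0 y x) z := by
  have h1 := (X.cyy (i := 1) (j := 0) (by decide)).mulr (Cm.self (y 1)) (X.yc 0) (Or.inl rfl : VV z s 1)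
  have h2 := (X.cyx (i := 1) (j := 0) (by decide)).mulr (X.cyx (i := 1) (j := 2) (by decide)) (X.xc 0) X.vzs
  have h3 := h1.mulr h2 ((X.yc 0).mul (X.yc 1)) (X.vd.mul X.vzs X.vzs)
  rw [X.vd.sq X.vzs, mul_one, mul_one] at h3
  exact h3

theorem SX.x2U : Cm (x 2) (U0 y x) s := by
  have h1 := (X.cxy (i := 2) (j := 0) (by decide)).mulr (X.cxy (i := 2) (j := 1) (by decide)) (X.yc 0) X.vzs
  have h2 := (X.cxx (i := 2) (j := 0) (by decide)).mulr (Cm.self (x 2)) (X.xc 0) (Or.inl rfl : VV z s 1)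
  have h3 := h1.mulr h2 ((X.yc 0).mul (X.yc 1)) (X.vd.mul X.vs (Or.inl rfl))
  rw [X.vd.sq X.vzs, one_mul, mul_one] at h3
  exact h3

theorem SX.y0U : Cm (y 0) (U0 y x) s := by
  have h1 := (Cm.self (y 0)).mulr (X.cyy (i := 0) (j := 1) (by decide)) (X.yc 0) X.vz
  have h2 := (X.cyx0 0).mulr (X.cyx (i := 0) (j := 2) (by decide)) (X.xc 0) X.vzs
  have h3 := h1.mulr h2 ((X.yc 0).mul (X.yc 1)) (X.vd.mul (Or.inl rfl) X.vzs)
  have e : 1 * z * (1 * (z * s)) = s := by rw [one_mul, one_mul, X.vd.zzl]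
  rw [e] at h3
  exact h3

/-- moving `v * U0` to `U0` -/
theorem SX.toU {t : G} (ht : Mv z s t (U0 y x)) : ∃ h, CC z s h ∧ h * t * h⁻¹ = U0 y x := by
  obtain ⟨v, hv, rfl⟩ := ht
  have h1 := X.y1U.conj
  have h2 := X.x2U.conj
  rcases hv with rfl | rfl | rfl | rfl
  · exact ⟨1, ⟨by rw [one_mul, mul_one], by rw [one_mul, mul_one]⟩, by group⟩
  · refine ⟨y 1, X.yc 1, ?_⟩
    calc y 1 * (v * U0 y x) * (y 1)⁻¹ = (y 1 * v * (y 1)⁻¹) * (y 1 * U0 y x * (y 1)⁻¹) := by group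
      _ = v * (v * U0 y x) := by rw [(X.yc 1).conj X.vz, h1]
      _ = _ := X.vd.zzl _
  · refine ⟨x 2, X.xc 2, ?_⟩
    calc x 2 * (v * U0 y x) * (x 2)⁻¹ = (x 2 * v * (x 2)⁻¹) * (x 2 * U0 y x * (x 2)⁻¹) := by group
      _ = v * (v * U0 y x) := by rw [(X.xc 2).conj X.vs, h2]
      _ = _ := X.vd.ssl _
  · refine ⟨x 2 * y 1, (X.xc 2).mul (X.yc 1), ?_⟩
    calc x 2 * y 1 * (z * s * U0 y x) * (x 2 * y 1)⁻¹ = (x 2 * y 1 * (z * s) * (x 2 * y 1)⁻¹) *
          (x 2 * (y 1 * U0 y x * (y 1)⁻¹) * (x 2)⁻¹) := by group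
      _ = z * s * ((x 2 * z) * U0 y x * (x 2)⁻¹) := by rw [((X.xc 2).mul (X.yc 1)).conj X.vzs, h1]; group
      _ = z * s * (z * (x 2 * U0 y x * (x 2)⁻¹)) := by rw [(X.xc 2).1]; group
      _ = (z * s * (z * s)) * U0 y x := by rw [h2]; group
      _ = _ := by rw [X.vd.sq X.vzs, one_mul]

theorem SX.toU' {t : G} {a b c : Fin 5} (hab : a ≠ b) (hac : a ≠ c) (hbc : b ≠ c)
    (ht : Mv z s t (y a * y b * (x a * x c))) : ∃ h, CC z s h ∧ h * t * h⁻¹ = U0 y x := by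
  obtain ⟨σ, hσ, h1, h2, h3⟩ := perm_triple a b c hab hac hbc
  obtain ⟨d, hd, hdi⟩ := X.toFr.realM hσ
  have hdx := X.xconj hd hdi
  have e : d * (y a * y b * (x a * x c)) * d⁻¹ = d * y a * d⁻¹ * (d * y b * d⁻¹) * (d * x a * d⁻¹ * (d * x c * d⁻¹)) := by
    group
  have m1 := ht.conj hd
  rw [e] at m1
  have ma := hdi a
  have mb := hdi b
  have mxa := hdx a
  have mxc := hdx c
  rw [h1] at ma mxa
  rw [h2] at mb
  rw [h3] at mxc
  have m2 : Mv z s (d * y a * d⁻¹ * (d * y b * d⁻¹) * (d * x a * d⁻¹ * (d * x c * d⁻¹))) (U0 y x) :=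
    Mv.mul X.vd ((X.yc 0).mul (X.yc 1)) (Mv.mul X.vd (X.yc 0) ma mb) (Mv.mul X.vd (X.xc 0) mxa mxc)
  obtain ⟨h, hh, hh2⟩ := X.toU (m1.trans X.vd m2)
  exact ⟨h * d, hh.mul hd, by rw [← hh2]; group⟩

theorem SX.pconjV {v : G} (hv : VV z s v) : VV z s (p * v * p⁻¹) := by
  rcases X.toSu.pzs v hv with ⟨h, -⟩ | ⟨h, -⟩
  · rw [h]
    have : v * p * p⁻¹ = v := by group
    rw [this]; exact hv
  · rw [h]
    have : z * v * p * p⁻¹ = z * v := by group
    rw [this]; exact X.vd.mul X.vz hv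

theorem SX.Rmem {a b : G} (h : Mv z s a b) (hb : b ∈ R) : a ∈ R := by
  obtain ⟨v, hv, rfl⟩ := h
  exact R.mul_mem (X.toSu.vinR hv) hb

theorem SX.Qmem {a b : G} (h : Mv z s a b) (hb : b ∈ Q) : a ∈ Q := by
  obtain ⟨v, hv, rfl⟩ := h
  exact Q.mul_mem (X.toFr.vinQ hv) hb

theorem SX.yx_conj {t : G} {i : Fin 5} (ht : Mv z s t (y i * x i)) : p * t * p⁻¹ ∈ R := by
  obtain ⟨v, hv, rfl⟩ := ht
  obtain ⟨w, hw, h⟩ := X.px i
  have e : p * (v * (y i * x i)) * p⁻¹ = (p * v * p⁻¹) * ((p * y i) * p⁻¹) * (p * x i * p⁻¹) := by group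
  have e2 : (p * v * p⁻¹) * ((p * y i) * p⁻¹) * (p * x i * p⁻¹) = (p * v * p⁻¹) * (w * x i) := by
    rw [X.py, h]
    calc (p * v * p⁻¹) * (y i * p * p⁻¹) * (w * (y i * x i)) = (p * v * p⁻¹) * ((y i * w) * y i * x i) := by group
      _ = (p * v * p⁻¹) * (w * (y i * y i) * x i) := by rw [(X.yc i).comm hw]; group
      _ = _ := by rw [X.yy, mul_one]
  rw [e, e2]
  exact R.mul_mem (X.toSu.vinR (X.pconjV hv)) (R.mul_mem (X.toSu.vinR hw) (X.xR i))

/-- if `b * (a * p)` is an involution then `b` lies in `V` -/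
theorem SX.case_p {b a : G} (hb : b ∈ R) (hbz : b * z = z * b) (ha : a ∈ Q) (has : a * s = s * a)
    (ht : b * (a * p) * (b * (a * p)) = 1) : VV z s b := by
  have S := X.toSu
  have cb := S.xcc hb hbz
  have ca := S.acc ha has
  obtain ⟨a', ha', has', hth⟩ := S.th_exists hb hbz
  have ca' := S.acc ha' has'
  have hb2 : VV z s (b * b) := by
    rcases X.PR.sq b hb with h | h
    · rw [h]; exact Or.inl rfl
    · rw [h]; exact X.vs
  have ha2 : VV z s (a * a) := by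
    rcases X.pk.sq a ha with h | h
    · rw [h]; exact Or.inl rfl
    · rw [h]; exact X.vz
  have e : (b * a * b⁻¹) * (b * p * b⁻¹) * (b * b * a * p) = 1 := by rw [← ht]; group
  have m1 : Mv z s ((b * a * b⁻¹) * (b * p * b⁻¹)) (a * (a' * p)) := Mv.mul X.vd ca (S.w12 ha has hb hbz) hth
  have m2 := m1.mulr (b * b * a * p)
  rw [e] at m2
  have hw : b * b * a ∈ Q := Q.mul_mem (X.toFr.vinQ hb2) ha
  have m3 : Mv z s (p * (b * b * a) * p⁻¹) (b * b * a) := by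
    rcases X.pk.comm p X.pQ (b * b * a) hw with h | h
    · rw [mul_inv_eq_one] at h; rw [h]; exact Mv.refl _
    · rw [mul_inv_eq_iff_eq_mul] at h; rw [h]; exact ⟨z, X.vz, rfl⟩
  have hp : p⁻¹ = p := inv_eq_of_mul_eq_one_right X.pp
  have m4 : Mv z s ((a * a') * (p * (b * b * a) * p⁻¹)) ((a * a') * a) :=
    Mv.mul X.vd (ca.mul ca') (Mv.refl _) (m3.trans X.vd (hb2.mv a))
  have e2 : a * (a' * p) * (b * b * a * p) = (a * a') * (p * (b * b * a) * p⁻¹) := by rw [hp]; group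
  rw [e2] at m2
  have m5 : Mv z s ((a * a') * a) a' := by
    have m6 := (S.swap ha ha').mulr a
    have m7 : Mv z s (a' * a * a) (a' * 1) := by
      rw [mul_assoc]
      exact Mv.mul X.vd ca' (Mv.refl _) ha2.mv1
    rw [mul_one] at m7
    exact m6.trans X.vd m7
  have m8 := (m2.trans X.vd (m4.trans X.vd m5)).symm X.vd
  exact S.th_inj hb hbz (hth.congr X.vd m8)

/-- involutions in `C_R(z) * Q` -/
theorem SX.caseA {b q : G} (hb : b ∈ R) (hbz : b * z = z * b) (hq : q ∈ Q) (ht : b * q * (b * q) = 1) :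
    b * q ∈ Q ∨ (∃ h, h * z = z * h ∧ h * (b * q) * h⁻¹ ∈ R) ∨ ∃ h, h * z = z * h ∧ h * (b * q) * h⁻¹ = U0 y x := by
  have S := X.toSu
  have V := X.vd
  rcases S.qcases hq with hqs | ⟨a, ha, has, rfl⟩
  swap
  · left
    exact Q.mul_mem (X.toFr.vinQ (X.case_p hb hbz ha has ht)) hq
  have cb := S.xcc hb hbz
  have cq := S.acc hq hqs
  have main : ∀ α ξ e f g, Mv z s b ξ → Mv z s q α → CC z s α → CC z s ξ → VV z s e → Cm ξ α e → α * α = f →
      ξ * ξ = g → Mv z s (b * q) (α * ξ) ∧ e * f * g = 1 := by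
    intro α ξ e f g h1 h2 cα cξ he hc hf hg
    have m : Mv z s (b * q) (α * ξ) := (Mv.mul V cξ h1 h2).trans V ⟨e, he, hc⟩
    exact ⟨m, X.sq_form m cα cξ he hc hf hg ht⟩
  rcases X.cls2 hb hbz with h1 | ⟨k, h1⟩ | ⟨k, l, hkl, h1⟩
  · left; exact Q.mul_mem (X.toFr.vinQ h1) hq
  · obtain ⟨v, hv, h2 | ⟨i, h2⟩ | ⟨i, j, hij, h2⟩⟩ := X.cls q hq hqs
    · right; left
      refine ⟨1, by rw [one_mul, mul_one], ?_⟩
      have : 1 * (b * q) * 1⁻¹ = b * q := by group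
      rw [this, h2]
      exact R.mul_mem hb (S.vinR hv)
    · obtain ⟨m, h3⟩ := main (y i) (x k) _ 1 1 h1 ⟨v, hv, h2⟩ (X.yc i) (X.xc k) (ee_v z s i k) (X.ce i k) (X.yy i) (X.xx k)
      rw [mul_one, mul_one] at h3
      rcases ee_cases z s i k with ⟨h4, -⟩ | ⟨-, h4⟩
      · subst h4
        right; left
        exact ⟨p, X.pk.zc p X.pQ, X.yx_conj m⟩
      · rw [h4] at h3; exact absurd h3 X.zs1'
    · exfalso
      obtain ⟨m, h3⟩ := main (y i * y j) (x k) _ z 1 h1 ⟨v, hv, h2⟩ ((X.yc i).mul (X.yc j)) (X.xc k)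
        (V.mul (ee_v z s i k) (ee_v z s j k)) ((X.ce i k).mulr (X.ce j k) (X.yc i) (ee_v z s j k))
        (X.toFr.yy_sq hij) (X.xx k)
      rcases ee_cases z s i k with ⟨-, h4⟩ | ⟨-, h4⟩ <;> rcases ee_cases z s j k with ⟨-, h5⟩ | ⟨-, h5⟩ <;>
        rw [h4, h5] at h3 <;>
        simp only [mul_assoc, one_mul, mul_one, V.zz, V.ss, V.sz, V.zzl, V.ssl, V.szl] at h3 <;>
        first | exact X.z1' h3 | exact X.s1' h3 | exact X.zs1' h3
  · have hxx : x k * x l * (x k * x l) = s := by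
      calc x k * x l * (x k * x l) = x k * (x l * x k) * x l := by group
        _ = (x k * s) * (x k * x l * x l) := by rw [X.xanti (i := l) (j := k) hkl.symm]; group
        _ = s * (x k * x k) * (x l * x l) := by rw [(X.xc k).2]; group
        _ = s := by rw [X.xx, X.xx, mul_one, mul_one]
    have ck := (X.xc k).mul (X.xc l)
    obtain ⟨v, hv, h2 | ⟨i, h2⟩ | ⟨i, j, hij, h2⟩⟩ := X.cls q hq hqs
    · exfalso
      obtain ⟨m, h3⟩ := main 1 (x k * x l) 1 1 s h1 (by rw [h2]; exact hv.mv1) ⟨by rw [one_mul, mul_one], by rw [one_mul, mul_one]⟩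
        ck (Or.inl rfl) (X.c1 ck) (one_mul 1) hxx
      rw [one_mul, one_mul] at h3
      exact X.s1' h3
    · exfalso
      obtain ⟨m, h3⟩ := main (y i) (x k * x l) _ 1 s h1 ⟨v, hv, h2⟩ (X.yc i) ck
        (V.mul (ee_v z s i k) (ee_v z s i l)) ((X.ce i k).mull (X.ce i l) (X.xc k) (ee_v z s i k) (ee_v z s i l) V)
        (X.yy i) hxx
      rcases ee_cases z s i k with ⟨-, h4⟩ | ⟨-, h4⟩ <;> rcases ee_cases z s i l with ⟨-, h5⟩ | ⟨-, h5⟩ <;>
        rw [h4, h5] at h3 <;>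
        simp only [mul_assoc, one_mul, mul_one, V.zz, V.ss, V.sz, V.zzl, V.ssl, V.szl] at h3 <;>
        first | exact X.z1' h3 | exact X.s1' h3 | exact X.zs1' h3
    · right; right
      have hc1 := (X.ce i k).mulr (X.ce j k) (X.yc i) (ee_v z s j k)
      have hc2 := (X.ce i l).mulr (X.ce j l) (X.yc i) (ee_v z s j l)
      obtain ⟨m, h3⟩ := main (y i * y j) (x k * x l) _ z s h1 ⟨v, hv, h2⟩ ((X.yc i).mul (X.yc j)) ck
        (V.mul (V.mul (ee_v z s i k) (ee_v z s j k)) (V.mul (ee_v z s i l) (ee_v z s j l)))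
        (hc1.mull hc2 (X.xc k) (V.mul (ee_v z s i k) (ee_v z s j k)) (V.mul (ee_v z s i l) (ee_v z s j l)) V)
        (X.toFr.yy_sq hij) hxx
      have mx : Mv z s (x k * x l) (x l * x k) := ⟨s, X.vs, X.xanti hkl⟩
      have my : Mv z s (y i * y j) (y j * y i) := ⟨z, X.vz, X.anti i j hij⟩
      have fin : ∃ a b c : Fin 5, a ≠ b ∧ a ≠ c ∧ b ≠ c ∧
          Mv z s (y i * y j * (x k * x l)) (y a * y b * (x a * x c)) := by
        have bad : ee z s i k * ee z s j k * (ee z s i l * ee z s j l) = 1 → False := by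
          intro h4
          rw [h4, one_mul] at h3
          exact X.zs1' h3
        have cy := (X.yc i).mul (X.yc j)
        by_cases a1 : i = k
        · by_cases a4 : j = l
          · exfalso
            apply bad
            rw [ee_eq a1, ee_eq a4, ee_ne (a := j) (b := k) (fun h => hij (a1.trans h.symm)),
              ee_ne (a := i) (b := l) (fun h => hij (h.trans a4.symm)), one_mul, mul_one, V.sq X.vzs]
          · exact ⟨i, j, l, hij, a1 ▸ hkl, a4, by rw [a1]; exact Mv.refl _⟩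
        · by_cases a2 : j = k
          · by_cases a3 : i = l
            · exfalso
              apply bad
              rw [ee_eq a2, ee_eq a3, ee_ne a1, ee_ne (a := j) (b := l) (fun h => hij (a3.trans h.symm)), one_mul,
                mul_one, V.sq X.vzs]
            · refine ⟨j, i, l, hij.symm, a2 ▸ hkl, a3, ?_⟩
              rw [← a2]
              exact my.mulr _
          · by_cases a3 : i = l
            · refine ⟨i, j, k, hij, a1, a2, ?_⟩
              rw [← a3] at mx ⊢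
              exact Mv.mul V cy (Mv.refl _) mx
            · by_cases a4 : j = l
              · refine ⟨j, i, k, hij.symm, a2, a1, ?_⟩
                rw [← a4] at mx ⊢
                exact Mv.mul V ((X.yc j).mul (X.yc i)) my mx
              · exfalso
                apply bad
                rw [ee_ne a1, ee_ne a2, ee_ne a3, ee_ne a4, V.sq X.vzs, one_mul]
      obtain ⟨a, b', c, hab, hac, hbc, hm⟩ := fin
      obtain ⟨h, hh, hh2⟩ := X.toU' hab hac hbc (m.trans V hm)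
      exact ⟨h, hh.1, hh2⟩

end

end H85.Suz
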