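import Cfsg.Agent.Lib.H85.SuzH

set_option autoImplicit false
set_option maxHeartbeats 400000

/-! Groups of Suzuki sporadic type: involutions of the centraliser, first reduction. -/

namespace H85.Suz

open Cfsg H91.LargePair

variable {G : Type*} [Group G]

section
variable {Q R : Subgroup G} {z s p k : G} {y : Fin 5 → G} (S : Su Q R z s p k y)
include S

omit S in
theorem conjz {a b z : G} (ha : a * z = z * a) (hb : b * z = z * b) : (a * b) * z = z * (a * b) := by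
  rw [mul_assoc, hb, ← mul_assoc, ha, mul_assoc]

omit S in
theorem invz {a z : G} (ha : a * z = z * a) : a⁻¹ * z = z * a⁻¹ := by
  rw [inv_mul_eq_iff_eq_mul, ← mul_assoc, ha]; group

/-- the stabiliser of `{s, z * s}` -/
def Su.NN (S : Su Q R z s p k y) : Subgroup G where
  carrier := {h | h * z = z * h ∧ (h * s * h⁻¹ = s ∨ h * s * h⁻¹ = z * s)}
  one_mem' := ⟨by rw [one_mul, mul_one], Or.inl (by group)⟩
  mul_mem' := by
    rintro a b ⟨ha, ha'⟩ ⟨hb, hb'⟩
    refine ⟨conjz ha hb, ?_⟩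
    have e : a * b * s * (a * b)⁻¹ = a * (b * s * b⁻¹) * a⁻¹ := by group
    have e2 : a * (z * s) * a⁻¹ = z * (a * s * a⁻¹) := by
      rw [← mul_assoc, ha]; group
    rw [e]
    rcases hb' with h | h <;> rw [h]
    · exact ha'
    · rw [e2]
      rcases ha' with h' | h' <;> rw [h']
      · right; rfl
      · left; rw [← mul_assoc, S.pk.zz, one_mul]
  inv_mem' := by
    rintro a ⟨ha, ha'⟩
    refine ⟨invz ha, ?_⟩
    rw [inv_inv]
    rcases ha' with h | h
    · left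
      have : s = a⁻¹ * (a * s * a⁻¹) * a := by group
      rw [h] at this; exact this.symm
    · right
      have h1 : a⁻¹ * (z * s) * a = s := by rw [← h]; group
      have h2 : a⁻¹ * (z * s) * a = z * (a⁻¹ * s * a) := by rw [← mul_assoc, invz ha]; group
      rw [h2] at h1
      calc a⁻¹ * s * a = (z * z) * (a⁻¹ * s * a) := by rw [S.pk.zz, one_mul]
        _ = z * s := by rw [mul_assoc, h1]

theorem Su.mem_NN {h : G} : h ∈ S.NN ↔ h * z = z * h ∧ (h * s * h⁻¹ = s ∨ h * s * h⁻¹ = z * s) := Iff.rfl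

theorem Su.CV_le : CV z s ≤ S.NN := by
  intro c hc
  have := mem_CV.1 hc
  exact ⟨this.1, Or.inl (by rw [this.2]; group)⟩

theorem Su.psp : p * s * p⁻¹ = z * s := by rw [S.ps]; group

theorem Su.pNN : p ∈ S.NN := ⟨S.pk.zc p S.pQ, Or.inr S.psp⟩

theorem Su.NN_cases {h : G} (hh : h ∈ S.NN) : ∃ c q, CC z s c ∧ q ∈ Q ∧ h = c * q := by
  obtain ⟨h1, h2 | h2⟩ := hh
  · exact ⟨h, 1, ⟨h1, mul_inv_eq_iff_eq_mul.1 h2⟩, Q.one_mem, by rw [mul_one]⟩
  · refine ⟨h * p, p, ⟨conjz h1 (S.pk.zc p S.pQ), ?_⟩, S.pQ, by rw [mul_assoc, S.pp, mul_one]⟩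
    have h3 := mul_inv_eq_iff_eq_mul.1 h2
    calc h * p * s = h * (p * s) := by group
      _ = (h * z) * s * p := by rw [S.ps]; group
      _ = z * (h * s) * p := by rw [h1]; group
      _ = (z * z) * s * (h * p) := by rw [h3]; group
      _ = s * (h * p) := by rw [S.pk.zz, one_mul]

theorem Su.card_NN [Finite G] : Nat.card S.NN = 122880 := by
  have h1 : ((CV z s).subgroupOf S.NN).index = 2 := by
    rw [Subgroup.index_eq_two_iff]
    refine ⟨⟨p, S.pNN⟩, fun b => ?_⟩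
    obtain ⟨h1, h2⟩ := S.mem_NN.1 b.2
    rw [Subgroup.mem_subgroupOf, Subgroup.mem_subgroupOf, mem_CV, mem_CV]
    have e : ((b * ⟨p, S.pNN⟩ : S.NN) : G) = (b : G) * p := rfl
    rw [e]
    have hbp : (b : G) * p * s * ((b : G) * p)⁻¹ = z * ((b : G) * s * (b : G)⁻¹) := by
      calc (b : G) * p * s * ((b : G) * p)⁻¹ = b * (p * s * p⁻¹) * (b : G)⁻¹ := by group
        _ = (b * z) * s * (b : G)⁻¹ := by rw [S.psp]; group
        _ = _ := by rw [h1]; group
    have hne : z * s ≠ s := fun h => S.pk.z1 (mul_eq_right.1 h)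
    rcases h2 with h2 | h2
    · right
      refine ⟨⟨h1, mul_inv_eq_iff_eq_mul.1 h2⟩, fun h3 => ?_⟩
      have h4 := h3.2
      rw [← mul_inv_eq_iff_eq_mul, hbp, h2] at h4
      exact hne h4
    · left
      refine ⟨⟨conjz h1 (S.pk.zc p S.pQ), ?_⟩, fun h3 => ?_⟩
      · rw [← mul_inv_eq_iff_eq_mul, hbp, h2, ← mul_assoc, S.pk.zz, one_mul]
      · have h4 := h3.2
        rw [← mul_inv_eq_iff_eq_mul, h2] at h4
        exact hne h4
  have h2 := ((CV z s).subgroupOf S.NN).card_mul_index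
  rw [h1, Nat.card_congr (Subgroup.subgroupOfEquivOfLe S.CV_le).toEquiv] at h2
  have h3 : Nat.card (CV z s) = 61440 := S.cCV
  omega

theorem Su.into_NN [Finite G] {t : G} (htz : t * z = z * t) (htt : t * t = 1) :
    ∃ h, h * z = z * h ∧ h * t * h⁻¹ ∈ S.NN := by
  set C := Subgroup.centralizer ({z} : Set G) with hC
  have hle : S.NN ≤ C := fun h hh => Subgroup.mem_centralizer_singleton_iff.2 hh.1
  set N := S.NN.subgroupOf C with hN
  have h1 := N.card_mul_index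
  rw [hN, Nat.card_congr (Subgroup.subgroupOfEquivOfLe hle).toEquiv, S.card_NN, hC, S.cC] at h1
  have h2 : N.index = 27 := by
    have h3 : 122880 * N.index = 3317760 := h1
    omega
  let t' : C := ⟨t, Subgroup.mem_centralizer_singleton_iff.2 htz⟩
  have ht' : t' * t' = 1 := Subtype.ext htt
  have hp : IsPGroup 2 (Subgroup.zpowers t') := by
    rintro ⟨g, n, rfl⟩
    refine ⟨1, Subtype.ext ?_⟩
    show (t' ^ n) ^ (2 ^ 1) = 1
    rw [pow_one, pow_two, ← zpow_add, ← two_mul, zpow_mul]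
    have : t' ^ (2 : ℤ) = 1 := by
      rw [zpow_two]; exact ht'
    rw [this, one_zpow]
  haveI : Fact (Nat.Prime 2) := ⟨Nat.prime_two⟩
  obtain ⟨q, hq⟩ := hp.nonempty_fixed_point_of_prime_not_dvd_card (C ⧸ N) (by
    rw [← Subgroup.index_eq_card, h2]; norm_num)
  rw [MulAction.mem_fixedPoints] at hq
  have h3 := hq ⟨t', Subgroup.mem_zpowers t'⟩
  induction q using QuotientGroup.induction_on with | H g =>
  have h4 : (QuotientGroup.mk (t' * g) : C ⧸ N) = QuotientGroup.mk g := h3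
  rw [eq_comm, QuotientGroup.eq] at h4
  refine ⟨(g : G)⁻¹, invz (Subgroup.mem_centralizer_singleton_iff.1 g.2), ?_⟩
  have h5 : (g : G)⁻¹ * (t * g) ∈ S.NN := h4
  have e : (g : G)⁻¹ * t * (g : G)⁻¹⁻¹ = (g : G)⁻¹ * (t * g) := by group
  rw [e]; exact h5

end

section
variable {Q R : Subgroup G} {z s p k : G} {y x : Fin 5 → G} (X : SX Q R z s p k y x)
include X

/-- the desired conclusion -/
def SX.Good (_X : SX Q R z s p k y x) (t : G) : Prop :=
  t ∈ Q ∨ (∃ h, h * z = z * h ∧ h * t * h⁻¹ ∈ R) ∨ ∃ h, h * z = z * h ∧ h * t * h⁻¹ = U0 y x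

theorem SX.good_conj {t h : G} (hh : h * z = z * h) (hg : X.Good (h * t * h⁻¹)) : X.Good t := by
  rcases hg with h1 | ⟨g, hg, h1⟩ | ⟨g, hg, h1⟩
  · left
    have := X.pk.N _ (invz hh) _ h1
    have e : h⁻¹ * (h * t * h⁻¹) * h⁻¹⁻¹ = t := by group
    rwa [e] at this
  · right; left
    refine ⟨g * h, conjz hg hh, ?_⟩
    have e : g * h * t * (g * h)⁻¹ = g * (h * t * h⁻¹) * g⁻¹ := by group
    rw [e]; exact h1
  · right; right
    refine ⟨g * h, conjz hg hh, ?_⟩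
    have e : g * h * t * (g * h)⁻¹ = g * (h * t * h⁻¹) * g⁻¹ := by group
    rw [e]; exact h1

theorem SX.good_A {b q : G} (hb : b ∈ R) (hbz : b * z = z * b) (hq : q ∈ Q) (ht : b * q * (b * q) = 1) : X.Good (b * q) :=
  X.caseA hb hbz hq ht

theorem SX.pi_Q {a : G} (ha : a ∈ Q) (hc : CC z s a) : X.toFr.pi ⟨a, mem_CV.2 hc⟩ = 1 := by
  refine Equiv.ext fun i => X.toFr.pi_eq ?_
  rcases X.pk.comm _ ha _ (X.yQ i) with h | h
  · rw [mul_inv_eq_one] at h
    show Mv z s (a * y i * a⁻¹) (y i)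
    rw [h]; exact Mv.refl _
  · rw [mul_inv_eq_iff_eq_mul] at h
    show Mv z s (a * y i * a⁻¹) (y i)
    rw [h]; exact ⟨z, Or.inr (Or.inl rfl), rfl⟩

theorem SX.sq_c {c q : G} (hc : CC z s c) (hq : q ∈ Q) (ht : c * q * (c * q) = 1) : c * c ∈ Q := by
  have e : c * c = (c * q⁻¹ * c⁻¹) * q⁻¹ := by
    have h1 : c * q = q⁻¹ * c⁻¹ := by rw [← mul_inv_rev]; exact eq_inv_of_mul_eq_one_left ht
    have h2 : c = q⁻¹ * c⁻¹ * q⁻¹ := by rw [← h1]; group
    calc c * c = c * (q⁻¹ * c⁻¹ * q⁻¹) := by rw [← h2]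
      _ = _ := by group
  rw [e]
  exact Q.mul_mem (X.pk.N c hc.1 _ (Q.inv_mem hq)) (Q.inv_mem hq)

theorem SX.ker_form [Finite G] {c : G} (hc : CC z s c) (h : X.toFr.pi ⟨c, mem_CV.2 hc⟩ = 1) :
    ∃ b a, b ∈ R ∧ b * z = z * b ∧ a ∈ Q ∧ a * s = s * a ∧ c = b * a := by
  apply X.toSu.count.2 c hc
  intro i
  have := X.toFr.pi_spec ⟨c, mem_CV.2 hc⟩ i
  rw [h] at this
  exact this

theorem SX.sign_one [Finite G] {c : G} (hc : CC z s c) : Equiv.Perm.sign (X.toFr.pi ⟨c, mem_CV.2 hc⟩) = 1 := by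
  have : X.toFr.pi ⟨c, mem_CV.2 hc⟩ ∈ X.toFr.pi.range := ⟨_, rfl⟩
  rw [X.toSu.count.1] at this
  exact this

end

end H85.Suz
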