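import Cfsg.Agent.Lib.H85.SuzI

set_option autoImplicit false
set_option maxHeartbeats 400000

/-! Groups of Suzuki sporadic type: involutions of the centraliser. -/

namespace H85.Suz

open Cfsg H91.LargePair

variable {G : Type*} [Group G]

theorem conj_two : ∀ σ : Equiv.Perm (Fin 5), Equiv.Perm.sign σ = 1 → σ * σ = 1 → σ ≠ 1 →
    ∃ τ : Equiv.Perm (Fin 5), Equiv.Perm.sign τ = 1 ∧ τ * σ * τ⁻¹ = Equiv.swap 0 1 * Equiv.swap 2 3 := by
  decide +kernel

def S0 : Equiv.Perm (Fin 5) := Equiv.swap 0 1 * Equiv.swap 2 3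

theorem pair_fix : ∀ i j : Fin 5, i ≠ j → (∀ m : Fin 5, xor (decide (m = i)) (decide (m = j)) =
    xor (decide (m = S0 i)) (decide (m = S0 j))) → (i = 0 ∧ j = 1) ∨ (i = 1 ∧ j = 0) ∨ (i = 2 ∧ j = 3) ∨ (i = 3 ∧ j = 2) := by
  decide +kernel

theorem S0_fix : ∀ i : Fin 5, S0 i = i → i = 4 := by decide +kernel
theorem S0_ne : ∀ i : Fin 5, i ≠ 4 → S0 i ≠ 4 := by decide +kernel
theorem S0_S0 : ∀ i : Fin 5, S0 (S0 i) = i := by decide +kernel

section
variable {Q R : Subgroup G} {z s p k : G} {y x : Fin 5 → G} (X : SX Q R z s p k y x)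
include X

theorem SX.exists_th {a : G} (ha : a ∈ Q) (has : a * s = s * a) : ∃ b ∈ R, b * z = z * b ∧ Th z s p b a := by
  have S := X.toSu
  obtain ⟨v, hv, h | ⟨i, h⟩ | ⟨i, j, hij, h⟩⟩ := X.cls a ha has
  · refine ⟨1, R.one_mem, by rw [one_mul, mul_one], ?_⟩
    unfold Th
    have e : 1 * p * 1⁻¹ = p := by group
    rw [e, h]
    exact (Mv.symm X.vd (hv.mv p))
  · exact ⟨x i, X.xR i, X.xz i, (X.th i).congr X.vd (Mv.symm X.vd ⟨v, hv, h⟩)⟩
  · refine ⟨x i * x j, R.mul_mem (X.xR i) (X.xR j), ((X.xc i).mul (X.xc j)).1, ?_⟩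
    exact (S.th_mul (X.xR i) (X.xz i) (X.yQ i) (X.ys i) (X.yQ j) (X.ys j) (X.th i) (X.th j)).congr X.vd
      (Mv.symm X.vd ⟨v, hv, h⟩)

theorem SX.char {b a : G} (hb : b ∈ R) (hbz : b * z = z * b) (ha : a ∈ Q) (has : a * s = s * a) :
    Cm b a 1 ∨ Cm b a (z * s) := by
  have S := X.toSu
  have V := X.vd
  have cb := S.xcc hb hbz
  -- first step: with y i
  have h1 : ∀ i, Cm b (y i) 1 ∨ Cm b (y i) (z * s) := by
    intro i
    have key : ∀ j, Cm (y i) (x j) 1 ∨ Cm (y i) (x j) (z * s) := by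
      intro j
      have := (X.ce i j).symm V (ee_v z s i j)
      rcases ee_cases z s i j with ⟨-, h⟩ | ⟨-, h⟩ <;> rw [h] at this
      · exact Or.inl this
      · exact Or.inr this
    have conc : Cm (y i) b 1 ∨ Cm (y i) b (z * s) := by
      rcases X.cls2 hb hbz with h | ⟨j, h⟩ | ⟨j, l, -, h⟩
      · left; exact Cm.v (X.yc i) h
      · rcases key j with h2 | h2
        · left; exact Cm.mv (X.yc i) (Or.inl rfl) V h h2
        · right; exact Cm.mv (X.yc i) X.vzs V h h2
      · rcases key j with h2 | h2 <;> rcases key l with h3 | h3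
        · left
          have := h2.mulr h3 (X.xc j) (Or.inl rfl)
          rw [one_mul] at this
          exact Cm.mv (X.yc i) (Or.inl rfl) V h this
        · right
          have := h2.mulr h3 (X.xc j) X.vzs
          rw [one_mul] at this
          exact Cm.mv (X.yc i) X.vzs V h this
        · right
          have := h2.mulr h3 (X.xc j) (Or.inl rfl)
          rw [mul_one] at this
          exact Cm.mv (X.yc i) X.vzs V h this
        · left
          have := h2.mulr h3 (X.xc j) X.vzs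
          rw [V.sq X.vzs] at this
          exact Cm.mv (X.yc i) (Or.inl rfl) V h this
    rcases conc with h | h
    · left; exact h.symm V (Or.inl rfl)
    · right; exact h.symm V X.vzs
  obtain ⟨v, hv, h | ⟨i, h⟩ | ⟨i, j, -, h⟩⟩ := X.cls a ha has
  · left; rw [h]; exact Cm.v cb hv
  · rcases h1 i with h2 | h2
    · left; exact Cm.mv cb (Or.inl rfl) V ⟨v, hv, h⟩ h2
    · right; exact Cm.mv cb X.vzs V ⟨v, hv, h⟩ h2
  · rcases h1 i with h2 | h2 <;> rcases h1 j with h3 | h3
    · left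
      have := h2.mulr h3 (X.yc i) (Or.inl rfl)
      rw [one_mul] at this
      exact Cm.mv cb (Or.inl rfl) V ⟨v, hv, h⟩ this
    · right
      have := h2.mulr h3 (X.yc i) X.vzs
      rw [one_mul] at this
      exact Cm.mv cb X.vzs V ⟨v, hv, h⟩ this
    · right
      have := h2.mulr h3 (X.yc i) (Or.inl rfl)
      rw [mul_one] at this
      exact Cm.mv cb X.vzs V ⟨v, hv, h⟩ this
    · left
      have := h2.mulr h3 (X.yc i) X.vzs
      rw [V.sq X.vzs] at this
      exact Cm.mv cb (Or.inl rfl) V ⟨v, hv, h⟩ this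

/-- an element of `C_R(z)` commutes with the elements commuting with its image -/
theorem SX.comm_of_th {b a w : G} (hb : b ∈ R) (hbz : b * z = z * b) (ha : a ∈ Q) (has : a * s = s * a)
    (hw : w ∈ Q) (hws : w * s = s * w) (hth : Th z s p b w) (haw : a * w = w * a) : b * a = a * b := by
  have S := X.toSu
  have V := X.vd
  have cw := S.acc hw hws
  have ca := S.acc ha has
  rcases X.char hb hbz ha has with h | h
  · exact h.eq
  · exfalso
    obtain ⟨v, hv, hv2⟩ := hth
    obtain ⟨η, hη, hap⟩ : ∃ η, (η = 1 ∨ η = z) ∧ a * p = η * (p * a) := by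
      rcases X.pk.comm a ha p X.pQ with h | h
      · rw [mul_inv_eq_one, mul_inv_eq_iff_eq_mul] at h
        exact ⟨1, Or.inl rfl, by rw [h, one_mul]⟩
      · rw [mul_inv_eq_iff_eq_mul, mul_inv_eq_iff_eq_mul] at h
        exact ⟨z, Or.inr rfl, by rw [h, mul_assoc]⟩
    have hηV : VV z s η := by
      rcases hη with rfl | rfl
      · exact Or.inl rfl
      · exact Or.inr (Or.inl rfl)
    have cb := S.xcc hb hbz
    have hc := h.conj
    have e1 : (z * s * a) * (v * (w * p)) = η * ((v * (w * p)) * (z * s * a)) := by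
      rw [← hc, ← hv2]
      calc b * a * b⁻¹ * (b * p * b⁻¹) = b * (a * p) * b⁻¹ := by group
        _ = (b * η) * (p * a) * b⁻¹ := by rw [hap]; group
        _ = _ := by rw [cb.comm hηV]; group
    have hpzs : p * (z * s) = z * (z * s) * p := by
      rcases S.pzs (z * s) X.vzs with ⟨-, h | h⟩ | ⟨h, -⟩
      · exact absurd h X.zs1'
      · exact absurd (mul_eq_left.1 h) X.s1'
      · exact h
    have e2 : (v * (w * p)) * (z * s * a) = z * (z * s) * (v * w) * (p * a) := by
      calc (v * (w * p)) * (z * s * a) = v * w * (p * (z * s)) * a := by group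
        _ = (v * w * (z * (z * s))) * (p * a) := by rw [hpzs]; group
        _ = _ := by rw [((VV.cc V hv).mul cw).comm (V.mul X.vz X.vzs)]
    have e3 : η * (z * (z * s) * (v * w) * (p * a)) = z * (z * s) * (v * w) * (a * p) := by
      calc η * (z * (z * s) * (v * w) * (p * a)) = (η * (z * (z * s))) * (v * w) * (p * a) := by group
        _ = z * (z * s) * (η * (v * w)) * (p * a) := by rw [V.vcomm hηV (V.mul X.vz X.vzs)]; group
        _ = z * (z * s) * (v * w) * (η * (p * a)) := by rw [← ((VV.cc V hv).mul cw).comm hηV]; group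
        _ = _ := by rw [← hap]
    rw [e2, e3] at e1
    have e4 : z * s * a * (v * (w * p)) = z * s * (v * w) * (a * p) := by
      calc z * s * a * (v * (w * p)) = z * s * (a * v) * (w * p) := by group
        _ = z * s * v * (a * w) * p := by rw [ca.comm hv]; group
        _ = _ := by rw [haw]; group
    rw [e4] at e1
    have e5 : z * s * (v * w) * (a * p) = z * (z * s * (v * w) * (a * p)) :=
      e1.trans (by simp only [mul_assoc])
    exact X.z1' (right_eq_mul.1 e5)

theorem SX.exists_b : ∃ h b x', h * z = z * h ∧ x' ∈ R ∧ x' * z = z * x' ∧ b = h * x' * h⁻¹ ∧ CC z s b ∧ b * b ∈ Q ∧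
    ∀ i, Mv z s (b * y i * b⁻¹) (y (S0 i)) := by
  have S := X.toSu
  have F := X.toFr
  have V := X.vd
  have y4v := X.toFr.y_nv 4
  obtain ⟨h, hhz, hh⟩ := X.trans (y 4) (X.yQ 4) (X.yy 4) (fun h => y4v (by rw [h]; exact Or.inl rfl))
    (fun h => y4v (by rw [h]; exact X.vz))
  have hiz := invz hhz
  have hN : ∀ a ∈ Q, h⁻¹ * a * h ∈ Q := by
    intro a ha
    have := X.pk.N _ hiz a ha
    rwa [inv_inv] at this
  have hs : s = h⁻¹ * y 4 * h := by rw [← hh]; group
  -- commutation transfer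
  have tr : ∀ a b e, (e = 1 ∨ e = z) → a * b = e * (b * a) →
      (h⁻¹ * a * h) * (h⁻¹ * b * h) = e * ((h⁻¹ * b * h) * (h⁻¹ * a * h)) := by
    intro a b e he hab
    have hez : h⁻¹ * e = e * h⁻¹ := by
      rcases he with rfl | rfl
      · rw [mul_one, one_mul]
      · exact hiz
    calc (h⁻¹ * a * h) * (h⁻¹ * b * h) = h⁻¹ * (a * b) * h := by group
      _ = (h⁻¹ * e) * (b * a) * h := by rw [hab]; group
      _ = _ := by rw [hez]; group
  have h01 : y 0 * y 1 * y 4 = 1 * (y 4 * (y 0 * y 1)) := by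
    calc y 0 * y 1 * y 4 = y 0 * (y 1 * y 4) := by group
      _ = (y 0 * z) * y 4 * y 1 := by rw [X.anti 1 4 (by decide)]; group
      _ = z * (y 0 * y 4) * y 1 := by rw [F.yz]; group
      _ = (z * z) * (y 4 * (y 0 * y 1)) := by rw [X.anti 0 4 (by decide)]; group
      _ = _ := by rw [V.zz]
  have q01 : y 0 * y 1 ∈ Q := Q.mul_mem (X.yQ 0) (X.yQ 1)
  obtain ⟨w, hw⟩ : ∃ w, w = h⁻¹ * (y 0 * y 1) * h := ⟨_, rfl⟩
  have hwQ : w ∈ Q := by rw [hw]; exact hN _ q01
  have hws : w * s = s * w := by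
    have := tr (y 0 * y 1) (y 4) 1 (Or.inl rfl) h01
    rw [← hs, ← hw, one_mul] at this
    exact this
  obtain ⟨x', hx', hxz, hth⟩ := X.exists_th hwQ hws
  have cw := S.acc hwQ hws
  have cx := S.xcc hx' hxz
  obtain ⟨b, hb⟩ : ∃ b, b = h * x' * h⁻¹ := ⟨_, rfl⟩
  have hbz : b * z = z * b := by rw [hb]; exact conjz (conjz hhz hxz) hiz
  have hbs : b * s = s * b := by
    have a1 : (h⁻¹ * s * h) * s = s * (h⁻¹ * s * h) := by
      have h1 : s * y 4 = 1 * (y 4 * s) := by rw [one_mul, X.ys]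
      have := tr s (y 4) 1 (Or.inl rfl) h1
      rw [← hs, one_mul] at this
      exact this
    have a2 : (h⁻¹ * s * h) * w = w * (h⁻¹ * s * h) := by
      have h1 : s * (y 0 * y 1) = 1 * ((y 0 * y 1) * s) := by rw [one_mul]; exact (((X.yc 0).mul (X.yc 1)).2).symm
      have := tr s (y 0 * y 1) 1 (Or.inl rfl) h1
      rw [← hw, one_mul] at this
      exact this
    have a3 := X.comm_of_th hx' hxz (hN s X.sQ) a1 hwQ hws hth a2
    rw [hb]
    calc h * x' * h⁻¹ * s = h * (x' * (h⁻¹ * s * h)) * h⁻¹ := by group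
      _ = h * ((h⁻¹ * s * h) * x') * h⁻¹ := by rw [a3]
      _ = _ := by group
  have cb : CC z s b := ⟨hbz, hbs⟩
  have hb4 : b * y 4 * b⁻¹ = y 4 := by
    rw [hb]
    calc h * x' * h⁻¹ * y 4 * (h * x' * h⁻¹)⁻¹ = h * (x' * (h⁻¹ * y 4 * h) * x'⁻¹) * h⁻¹ := by group
      _ = h * (x' * s * x'⁻¹) * h⁻¹ := by rw [← hs]
      _ = h * s * h⁻¹ := by rw [cx.conj X.vs]
      _ = y 4 := hh
  have V4 : VD z (y 4) := ⟨V.zz, X.yy 4, F.yz 4⟩
  -- the action
  have act : ∀ i, i ≠ 4 → ∃ u, VV z (y 4) u ∧ b * y i * b⁻¹ = u * (y 0 * y 1 * y i) := by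
    intro i hi
    have h1 : (h⁻¹ * y i * h) * s = z * (s * (h⁻¹ * y i * h)) := by
      have := tr (y i) (y 4) z (Or.inr rfl) (X.anti i 4 hi)
      rw [← hs] at this
      exact this
    have h2 := hN _ (X.yQ i)
    obtain ⟨a0, ha0⟩ : ∃ a0, a0 = h⁻¹ * y i * h := ⟨_, rfl⟩
    rw [← ha0] at h1 h2
    rcases S.qcases h2 with h3 | ⟨a, ha, has, h3⟩
    · exfalso
      rw [h3] at h1
      exact X.z1' (right_eq_mul.1 h1)
    · have ca := S.acc ha has
      have m1 : Mv z s ((x' * a * x'⁻¹) * (x' * p * x'⁻¹)) (a * (w * p)) :=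
        Mv.mul V ca (S.w12 ha has hx' hxz) hth
      have m2 : Mv z s (a * (w * p)) (w * (a * p)) := by
        rw [← mul_assoc, ← mul_assoc]; exact (S.swap ha hwQ).mulr p
      obtain ⟨v, hv, h4⟩ := m1.trans V m2
      have e : (x' * a * x'⁻¹) * (x' * p * x'⁻¹) = x' * a0 * x'⁻¹ := by rw [h3]; group
      rw [e, ← h3] at h4
      refine ⟨h * v * h⁻¹, ?_, ?_⟩
      · have hz' : h * z * h⁻¹ = z := by rw [hhz]; group
        rcases hv with rfl | rfl | rfl | rfl
        · left; group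
        · right; left; exact hz'
        · right; right; left; exact hh
        · right; right; right
          calc h * (z * s) * h⁻¹ = (h * z * h⁻¹) * (h * s * h⁻¹) := by group
            _ = z * y 4 := by rw [hz', hh]
      · calc b * y i * b⁻¹ = h * (x' * a0 * x'⁻¹) * h⁻¹ := by rw [hb, ha0]; group
          _ = (h * v * h⁻¹) * (h * w * h⁻¹) * (h * a0 * h⁻¹) := by rw [h4]; group
          _ = _ := by rw [hw, ha0]; group
  have prod3 : y 0 * y 1 * y 2 = y 4 * y 3 := by
    have h1 := X.prod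
    have h2 : (y 0 * y 1 * y 2) * (y 3 * y 4) = 1 := by rw [← h1]; group
    have h3 : (y 3 * y 4) * (y 4 * y 3) = 1 := by
      calc (y 3 * y 4) * (y 4 * y 3) = y 3 * (y 4 * y 4) * y 3 := by group
        _ = 1 := by rw [X.yy, mul_one, X.yy]
    calc y 0 * y 1 * y 2 = (y 0 * y 1 * y 2) * ((y 3 * y 4) * (y 4 * y 3)) := by rw [h3, mul_one]
      _ = ((y 0 * y 1 * y 2) * (y 3 * y 4)) * (y 4 * y 3) := by group
      _ = _ := by rw [h2, one_mul]
  have prods : ∀ i, i ≠ 4 → ∃ u, VV z (y 4) u ∧ y 0 * y 1 * y i = u * y (S0 i) := by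
    intro i hi
    have hcases : i = 0 ∨ i = 1 ∨ i = 2 ∨ i = 3 := by revert hi; revert i; decide
    rcases hcases with rfl | rfl | rfl | rfl
    · refine ⟨z, Or.inr (Or.inl rfl), ?_⟩
      show y 0 * y 1 * y 0 = z * y 1
      calc y 0 * y 1 * y 0 = y 0 * (y 1 * y 0) := by group
        _ = (y 0 * z) * y 0 * y 1 := by rw [X.anti 1 0 (by decide)]; group
        _ = z * (y 0 * y 0) * y 1 := by rw [F.yz]; group
        _ = _ := by rw [X.yy, mul_one]
    · refine ⟨1, Or.inl rfl, ?_⟩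
      show y 0 * y 1 * y 1 = 1 * y 0
      rw [mul_assoc, X.yy, mul_one, one_mul]
    · refine ⟨y 4, Or.inr (Or.inr (Or.inl rfl)), ?_⟩
      exact prod3
    · refine ⟨z * y 4, Or.inr (Or.inr (Or.inr rfl)), ?_⟩
      show y 0 * y 1 * y 3 = z * y 4 * y 2
      calc y 0 * y 1 * y 3 = y 0 * y 1 * (y 2 * y 2) * y 3 := by rw [X.yy, mul_one]
        _ = (y 0 * y 1 * y 2) * (y 2 * y 3) := by group
        _ = y 4 * y 3 * (z * (y 3 * y 2)) := by rw [prod3, X.anti 2 3 (by decide)]
        _ = y 4 * (y 3 * z) * y 3 * y 2 := by group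
        _ = (y 4 * z) * (y 3 * y 3) * y 2 := by rw [F.yz]; group
        _ = _ := by rw [F.yz, X.yy, mul_one]
  refine ⟨h, b, x', hhz, hx', hxz, hb, cb, ?_, fun i => ?_⟩
  · have e : b * b = h * (x' * x') * h⁻¹ := by rw [hb]; group
    rw [e]
    rcases X.PR.sq x' hx' with h1 | h1 <;> rw [h1]
    · have : h * 1 * h⁻¹ = 1 := by group
      rw [this]; exact Q.one_mem
    · rw [hh]; exact X.yQ 4
  · by_cases hi : i = 4
    · subst hi
      rw [hb4]
      exact Mv.refl _
    · obtain ⟨u, hu, h1⟩ := act i hi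
      obtain ⟨u', hu', h2⟩ := prods i hi
      rw [h2, ← mul_assoc] at h1
      have hu2 := V4.mul hu hu'
      have hne : S0 i ≠ 4 := S0_ne i hi
      have hsq : b * y i * b⁻¹ * (b * y i * b⁻¹) = 1 := by
        calc b * y i * b⁻¹ * (b * y i * b⁻¹) = b * (y i * y i) * b⁻¹ := by group
          _ = 1 := by rw [X.yy]; group
      rcases hu2 with h4 | h4 | h4 | h4 <;> rw [h4] at h1
      · rw [h1, one_mul]; exact Mv.refl _
      · rw [h1]; exact ⟨z, X.vz, rfl⟩
      · exfalso
        rw [h1, F.yy_sq (Ne.symm hne)] at hsq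
        exact X.z1' hsq
      · exfalso
        have h1' : b * y i * b⁻¹ = z * (y 4 * y (S0 i)) := by rw [h1, mul_assoc]
        rw [h1', F.v_sq X.vz ((X.yc 4).mul (X.yc (S0 i))), F.yy_sq (Ne.symm hne)] at hsq
        exact X.z1' hsq

end

end H85.Suz
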