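import Cfsg.Agent.Lib.H85.SuzJ

set_option autoImplicit false
set_option maxHeartbeats 400000

/-! Groups of Suzuki sporadic type: involutions of the centraliser, second reduction. -/

namespace H85.Suz

open Cfsg H91.LargePair

variable {G : Type*} [Group G]

open Classical in
def dd (s : G) (i j : Fin 5) : G := if i = j then 1 else s

theorem dd_eq {s : G} {a b : Fin 5} (h : a = b) : dd s a b = 1 := if_pos h
theorem dd_ne {s : G} {a b : Fin 5} (h : a ≠ b) : dd s a b = s := if_neg h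

section
variable {Q R : Subgroup G} {z s p k : G} {y x : Fin 5 → G} (X : SX Q R z s p k y x)
include X

theorem SX.cd (i j : Fin 5) : Cm (x i) (x j) (dd s i j) := by
  by_cases h : i = j
  · rw [dd_eq h, h]; exact Cm.self _
  · rw [dd_ne h]; exact X.cxx h

theorem SX.ddv (i j : Fin 5) : VV z s (dd s i j) := by
  by_cases h : i = j
  · rw [dd_eq h]; exact Or.inl rfl
  · rw [dd_ne h]; exact X.vs

theorem SX.dd2 (m i j : Fin 5) : dd s m i * dd s m j = if xor (decide (m = i)) (decide (m = j)) then s else 1 := by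
  by_cases h1 : m = i <;> by_cases h2 : m = j
  · rw [dd_eq h1, dd_eq h2, decide_eq_true h1, decide_eq_true h2, one_mul]; rfl
  · rw [dd_eq h1, dd_ne h2, decide_eq_true h1, decide_eq_false h2, one_mul]; rfl
  · rw [dd_ne h1, dd_eq h2, decide_eq_false h1, decide_eq_true h2, mul_one]; rfl
  · rw [dd_ne h1, dd_ne h2, decide_eq_false h1, decide_eq_false h2, X.ss]; rfl

theorem SX.x_inj {i j : Fin 5} (h : Mv z s (x i) (x j)) : i = j := by
  by_contra hij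
  have h1 : Cm (x j) (x i) 1 := Cm.mv (X.xc j) (Or.inl rfl) X.vd h (Cm.self _)
  have h2 := X.cxx (Ne.symm hij)
  exact X.s1' (h2.unique h1)

theorem SX.xx_inj {i j a b : Fin 5} (h : Mv z s (x i * x j) (x a * x b)) :
    ∀ m : Fin 5, xor (decide (m = i)) (decide (m = j)) = xor (decide (m = a)) (decide (m = b)) := by
  intro m
  have h1 := (X.cd m i).mulr (X.cd m j) (X.xc i) (X.ddv m j)
  have h2 := (X.cd m a).mulr (X.cd m b) (X.xc a) (X.ddv m b)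
  have h3 := h1.unique (Cm.mv (X.xc m) (X.vd.mul (X.ddv m a) (X.ddv m b)) X.vd h h2)
  rw [X.dd2, X.dd2] at h3
  generalize xor (decide (m = i)) (decide (m = j)) = e1 at h3
  generalize xor (decide (m = a)) (decide (m = b)) = e2 at h3
  cases e1 <;> cases e2
  · rfl
  · exact absurd h3.symm X.s1'
  · exact absurd h3 X.s1'
  · rfl

theorem SX.swapR {a b : G} (ha : a ∈ R) (hb : b ∈ R) : Mv z s (a * b) (b * a) := by
  rcases X.PR.comm a ha b hb with h | h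
  · rw [mul_inv_eq_one, mul_inv_eq_iff_eq_mul] at h
    rw [h]; exact Mv.refl _
  · rw [mul_inv_eq_iff_eq_mul, mul_inv_eq_iff_eq_mul] at h
    exact ⟨s, X.vs, by rw [h]; group⟩

/-- the last case -/
theorem SX.case_S0 [Finite G] {c q : G} (hc : CC z s c) (hpi : X.toFr.pi ⟨c, mem_CV.2 hc⟩ = S0) (hq : q ∈ Q)
    (ht : c * q * (c * q) = 1) : X.Good (c * q) := by
  have S := X.toSu
  have F := X.toFr
  have V := X.vd
  obtain ⟨h, b, x', hhz, hx', hxz, hb, cb, hbb, hby⟩ := X.exists_b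
  have hpb : X.toFr.pi ⟨b, mem_CV.2 cb⟩ = S0 := Equiv.ext fun i => X.toFr.pi_eq (hby i)
  have hbc : X.toFr.pi ⟨b⁻¹ * c, mem_CV.2 (cb.inv.mul hc)⟩ = 1 := by
    have e : (⟨b⁻¹ * c, mem_CV.2 (cb.inv.mul hc)⟩ : CV z s) = ⟨b, mem_CV.2 cb⟩⁻¹ * ⟨c, mem_CV.2 hc⟩ := rfl
    rw [e, map_mul, map_inv, hpb, hpi, inv_mul_cancel]
  obtain ⟨b2, a2, hb2, hb2z, ha2, ha2s, hba⟩ := X.ker_form (cb.inv.mul hc) hbc
  have cb2 := S.xcc hb2 hb2z
  have hcb : c = b * b2 * a2 := by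
    calc c = b * (b⁻¹ * c) := by group
      _ = _ := by rw [hba]; group
  obtain ⟨q', hq'⟩ : ∃ q', q' = a2 * q := ⟨_, rfl⟩
  have hq'Q : q' ∈ Q := by rw [hq']; exact Q.mul_mem ha2 hq
  have hcq : c * q = b * b2 * q' := by rw [hcb, hq']; group
  rw [hcq] at ht ⊢
  have h1 := X.sq_c (cb.mul cb2) hq'Q ht
  have h2 : b * b2 * b⁻¹ * b2 ∈ Q := by
    have e : b * b2 * b⁻¹ * b2 = (b * b2 * (b * b2)) * (b2⁻¹ * (b * b)⁻¹ * b2⁻¹⁻¹) := by group
    rw [e]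
    exact Q.mul_mem h1 (X.pk.N _ cb2.inv.1 _ (Q.inv_mem hbb))
  have h3 : b * b2 * b⁻¹ * b2 ∈ R := R.mul_mem (X.PR.N b cb.2 _ hb2) hb2
  have h4 := S.inter h2 h3
  have hb2sq : VV z s (b2 * b2) := by
    rcases X.PR.sq b2 hb2 with h | h
    · rw [h]; exact Or.inl rfl
    · rw [h]; exact X.vs
  have h5 : Mv z s (b * b2 * b⁻¹) b2 := by
    refine ⟨(b * b2 * b⁻¹ * b2) * (b2 * b2), V.mul h4 hb2sq, ?_⟩
    have h6 := V.sq hb2sq
    calc b * b2 * b⁻¹ = b * b2 * b⁻¹ * (b2 * b2 * (b2 * b2)) := by rw [h6, mul_one]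
      _ = _ := by group
  have hbx : ∀ i, Mv z s (b * x i * b⁻¹) (x (S0 i)) := X.xconj cb hby
  have hbx' : ∀ i, Mv z s (b⁻¹ * x i * b) (x (S0 i)) := by
    intro i
    have h6 := (hbx (S0 i)).conj cb.inv
    rw [S0_S0] at h6
    have e : b⁻¹ * (b * x (S0 i) * b⁻¹) * b⁻¹⁻¹ = x (S0 i) := by group
    rw [e, inv_inv] at h6
    exact h6.symm V
  -- it is enough to straighten `b * b2`
  have fin : (∃ e, CC z s e ∧ Mv z s ((b⁻¹ * e * b) * b2 * e⁻¹) 1) → X.Good (b * b2 * q') := by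
    rintro ⟨e, he, hm⟩
    apply X.good_conj he.1
    have hv := (show VV z s ((b⁻¹ * e * b) * b2 * e⁻¹) by
      obtain ⟨v, hv, h7⟩ := hm
      rw [h7, mul_one]; exact hv)
    obtain ⟨v, hv'⟩ : ∃ v, v = (b⁻¹ * e * b) * b2 * e⁻¹ := ⟨_, rfl⟩
    rw [← hv'] at hv
    have e1 : e * (b * b2 * q') * e⁻¹ = b * (v * (e * q' * e⁻¹)) := by rw [hv']; group
    have hq2 : v * (e * q' * e⁻¹) ∈ Q := Q.mul_mem (F.vinQ hv) (X.pk.N e he.1 _ hq'Q)
    have hsq : b * (v * (e * q' * e⁻¹)) * (b * (v * (e * q' * e⁻¹))) = 1 := by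
      rw [← e1]
      calc e * (b * b2 * q') * e⁻¹ * (e * (b * b2 * q') * e⁻¹) = e * (b * b2 * q' * (b * b2 * q')) * e⁻¹ := by group
        _ = 1 := by rw [ht]; group
    rw [e1]
    generalize v * (e * q' * e⁻¹) = q2 at hq2 hsq
    have hiz := invz hhz
    apply X.good_conj hiz
    have e2 : h⁻¹ * (b * q2) * h⁻¹⁻¹ = x' * (h⁻¹ * q2 * h⁻¹⁻¹) := by rw [hb]; group
    rw [e2]
    apply X.good_A hx' hxz (X.pk.N _ hiz _ hq2)
    rw [← e2]
    calc h⁻¹ * (b * q2) * h⁻¹⁻¹ * (h⁻¹ * (b * q2) * h⁻¹⁻¹) = h⁻¹ * (b * q2 * (b * q2)) * h := by group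
      _ = 1 := by rw [hsq]; group
  apply fin
  have c1 : CC z s (1 : G) := ⟨by rw [one_mul, mul_one], by rw [one_mul, mul_one]⟩
  rcases X.cls2 hb2 hb2z with h6 | ⟨i, h6⟩ | ⟨i, j, hij, h6⟩
  · refine ⟨1, c1, ?_⟩
    have e : b⁻¹ * 1 * b * b2 * 1⁻¹ = b2 := by group
    rw [e]; exact h6.mv1
  · have h7 : Mv z s (x (S0 i)) (x i) :=
      ((hbx i).symm V).trans V (((h6.conj cb).symm V).trans V (h5.trans V h6))
    have h8 := S0_fix i (X.x_inj h7)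
    subst h8
    refine ⟨x 0 * x 2, (X.xc 0).mul (X.xc 2), ?_⟩
    have e : b⁻¹ * (x 0 * x 2) * b * b2 * (x 0 * x 2)⁻¹ = (b⁻¹ * x 0 * b) * (b⁻¹ * x 2 * b) * b2 * (x 2 * x 0) := by
      rw [mul_inv_rev, inv_eq_of_mul_eq_one_right (X.xx 2), inv_eq_of_mul_eq_one_right (X.xx 0)]
      group
    rw [e]
    have m1 : Mv z s ((b⁻¹ * x 0 * b) * (b⁻¹ * x 2 * b) * b2) (x 1 * x 3 * x 4) :=
      Mv.mul V ((X.xc 1).mul (X.xc 3)) (Mv.mul V (X.xc 1) (hbx' 0) (hbx' 2)) h6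
    have m2 := m1.mulr (x 2 * x 0)
    have r1 := R.mul_mem (R.mul_mem (X.xR 1) (X.xR 3)) (X.xR 4)
    have m3 : Mv z s (x 1 * x 3 * x 4 * (x 2 * x 0)) (x 0 * (x 1 * x 3 * x 4 * x 2)) := by
      rw [← mul_assoc]
      exact X.swapR (R.mul_mem r1 (X.xR 2)) (X.xR 0)
    have m4 : Mv z s (x 0 * (x 1 * x 3 * x 4 * x 2)) (x 0 * (x 1 * (x 2 * (x 3 * x 4)))) := by
      refine Mv.mul V (X.xc 0) (Mv.refl _) ?_
      rw [mul_assoc (x 1), mul_assoc (x 1)]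
      exact Mv.mul V (X.xc 1) (Mv.refl _) (X.swapR (R.mul_mem (X.xR 3) (X.xR 4)) (X.xR 2))
    exact (m2.trans V m3).trans V (m4.trans V X.prodx.mv1)
  · have h7 : Mv z s (x (S0 i) * x (S0 j)) (x i * x j) := by
      have h8 : Mv z s (b * (x i * x j) * b⁻¹) (x (S0 i) * x (S0 j)) := by
        have e : b * (x i * x j) * b⁻¹ = (b * x i * b⁻¹) * (b * x j * b⁻¹) := by group
        rw [e]
        exact Mv.mul V (X.xc _) (hbx i) (hbx j)
      exact (h8.symm V).trans V (((h6.conj cb).symm V).trans V (h5.trans V h6))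
    have h8 := pair_fix i j hij (fun m => (X.xx_inj h7 m).symm)
    have h9 : Mv z s b2 (x 0 * x 1) ∨ Mv z s b2 (x 2 * x 3) := by
      rcases h8 with ⟨rfl, rfl⟩ | ⟨rfl, rfl⟩ | ⟨rfl, rfl⟩ | ⟨rfl, rfl⟩
      · left; exact h6
      · left; exact h6.trans V (X.swapR (X.xR 1) (X.xR 0))
      · right; exact h6
      · right; exact h6.trans V (X.swapR (X.xR 3) (X.xR 2))
    rcases h9 with h9 | h9
    · refine ⟨x 0, X.xc 0, ?_⟩
      rw [inv_eq_of_mul_eq_one_right (X.xx 0)]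
      have m1 : Mv z s ((b⁻¹ * x 0 * b) * b2) (x 1 * (x 1 * x 0)) :=
        Mv.mul V (X.xc 1) (hbx' 0) (h9.trans V (X.swapR (X.xR 0) (X.xR 1)))
      have m2 := m1.mulr (x 0)
      have e : x 1 * (x 1 * x 0) * x 0 = 1 := by
        calc x 1 * (x 1 * x 0) * x 0 = (x 1 * x 1) * (x 0 * x 0) := by group
          _ = 1 := by rw [X.xx, X.xx, one_mul]
      rw [e] at m2
      exact m2
    · refine ⟨x 2, X.xc 2, ?_⟩
      rw [inv_eq_of_mul_eq_one_right (X.xx 2)]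
      have m1 : Mv z s ((b⁻¹ * x 2 * b) * b2) (x 3 * (x 3 * x 2)) :=
        Mv.mul V (X.xc 3) (hbx' 2) (h9.trans V (X.swapR (X.xR 2) (X.xR 3)))
      have m2 := m1.mulr (x 2)
      have e : x 3 * (x 3 * x 2) * x 2 = 1 := by
        calc x 3 * (x 3 * x 2) * x 2 = (x 3 * x 3) * (x 2 * x 2) := by group
          _ = 1 := by rw [X.xx, X.xx, one_mul]
      rw [e] at m2
      exact m2

/-- every involution of `C(z)` -/
theorem SX.good [Finite G] {t : G} (htz : t * z = z * t) (htt : t * t = 1) : X.Good t := by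
  have S := X.toSu
  have F := X.toFr
  obtain ⟨h, hh, hN⟩ := S.into_NN htz htt
  apply X.good_conj hh
  obtain ⟨c, q, hc, hq, hcq⟩ := S.NN_cases hN
  have ht : c * q * (c * q) = 1 := by
    rw [← hcq]
    calc h * t * h⁻¹ * (h * t * h⁻¹) = h * (t * t) * h⁻¹ := by group
      _ = 1 := by rw [htt]; group
  rw [hcq]
  have h1 := X.sq_c hc hq ht
  obtain ⟨σ, hσ⟩ : ∃ σ, σ = X.toFr.pi ⟨c, mem_CV.2 hc⟩ := ⟨_, rfl⟩
  have h2 : σ * σ = 1 := by
    rw [hσ, ← map_mul]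
    exact X.pi_Q h1 (hc.mul hc)
  by_cases h3 : σ = 1
  · rw [h3] at hσ
    obtain ⟨b, a, hb, hbz, ha, has, e⟩ := X.ker_form hc hσ.symm
    rw [e, mul_assoc b] at ht ⊢
    exact X.good_A hb hbz (Q.mul_mem ha hq) ht
  · obtain ⟨τ, hτ, h4⟩ := conj_two σ (by rw [hσ]; exact X.sign_one hc) h2 h3
    obtain ⟨d, hd, hdi⟩ := F.realM hτ
    have hdτ : X.toFr.pi ⟨d, mem_CV.2 hd⟩ = τ := Equiv.ext fun i => X.toFr.pi_eq (hdi i)
    apply X.good_conj hd.1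
    have e1 : d * (c * q) * d⁻¹ = (d * c * d⁻¹) * (d * q * d⁻¹) := by group
    have hdc := (hd.mul hc).mul hd.inv
    rw [e1]
    refine X.case_S0 hdc ?_ (X.pk.N d hd.1 q hq) ?_
    · have e2 : (⟨d * c * d⁻¹, mem_CV.2 hdc⟩ : CV z s) = ⟨d, mem_CV.2 hd⟩ * ⟨c, mem_CV.2 hc⟩ * ⟨d, mem_CV.2 hd⟩⁻¹ := rfl
      rw [e2, map_mul, map_mul, map_inv, hdτ, ← hσ]
      exact h4
    · rw [← e1]
      calc d * (c * q) * d⁻¹ * (d * (c * q) * d⁻¹) = d * (c * q * (c * q)) * d⁻¹ := by group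
        _ = 1 := by rw [ht]; group

end

end H85.Suz
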