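import Cfsg.Agent.Lib.H85.SuzK

set_option autoImplicit false
set_option maxHeartbeats 400000

/-! Groups of Suzuki sporadic type: the second class of involutions. -/

namespace H85.Suz

open Cfsg H91.LargePair

variable {G : Type*} [Group G]

theorem fix3 : ∀ σ : Equiv.Perm (Fin 5), Equiv.Perm.sign σ = 1 → σ 0 = 0 → σ 1 = 1 → σ 2 = 2 → σ = 1 := by
  decide +kernel

theorem perm_t : ∃ σ : Equiv.Perm (Fin 5), Equiv.Perm.sign σ = 1 ∧ σ 0 = 2 ∧ σ 1 = 1 ∧ σ 2 = 0 ∧ σ 3 = 4 ∧ σ 4 = 3 :=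
  ⟨Equiv.swap 0 2 * Equiv.swap 3 4, by decide +kernel⟩

section
variable {Q R : Subgroup G} {z s p k : G} {y x : Fin 5 → G} (X : SX Q R z s p k y x)
include X

theorem SX.x02sq : x 0 * x 2 * (x 0 * x 2) = s := by
  calc x 0 * x 2 * (x 0 * x 2) = x 0 * (x 2 * x 0) * x 2 := by group
    _ = (x 0 * s) * (x 0 * x 2 * x 2) := by rw [X.xanti (i := 2) (j := 0) (by decide)]; group
    _ = s * (x 0 * x 0) * (x 2 * x 2) := by rw [(X.xc 0).2]; group
    _ = s := by rw [X.xx, X.xx, mul_one, mul_one]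

theorem SX.U_notQ : U0 y x ∉ Q := by
  intro h
  have h1 : x 0 * x 2 ∈ Q := by
    have e : x 0 * x 2 = (y 0 * y 1)⁻¹ * U0 y x := by unfold U0; group
    rw [e]
    exact Q.mul_mem (Q.inv_mem (Q.mul_mem (X.yQ 0) (X.yQ 1))) h
  have h2 := X.toSu.inter h1 (R.mul_mem (X.xR 0) (X.xR 2))
  have h3 := X.vd.sq h2
  rw [X.x02sq] at h3
  exact X.s1' h3

/-- conjugation of `U0` by `p` -/
theorem SX.pU : Mv z s (p * U0 y x * p⁻¹) (y 0 * y 2 * U0 y x) := by
  have V := X.vd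
  have F := X.toFr
  have e : p * U0 y x * p⁻¹ = (p * y 0) * p⁻¹ * ((p * y 1) * p⁻¹) * ((p * x 0 * p⁻¹) * (p * x 2 * p⁻¹)) := by
    unfold U0; group
  rw [e, X.py, X.py]
  have e2 : y 0 * p * p⁻¹ * (y 1 * p * p⁻¹) = y 0 * y 1 := by group
  rw [e2]
  have m1 : Mv z s (y 0 * y 1 * ((p * x 0 * p⁻¹) * (p * x 2 * p⁻¹))) (y 0 * y 1 * (y 0 * x 0 * (y 2 * x 2))) :=
    Mv.mul V ((X.yc 0).mul (X.yc 1)) (Mv.refl _) (Mv.mul V ((X.yc 0).mul (X.xc 0)) (X.px 0) (X.px 2))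
  refine m1.trans V ?_
  have h1 : x 0 * y 2 = z * s * (y 2 * x 0) := X.beta 2 0 (by decide)
  have h2 : y 0 * y 1 * y 0 = z * y 1 := by
    calc y 0 * y 1 * y 0 = y 0 * (y 1 * y 0) := by group
      _ = (y 0 * z) * y 0 * y 1 := by rw [X.anti 1 0 (by decide)]; group
      _ = z * (y 0 * y 0) * y 1 := by rw [F.yz]; group
      _ = _ := by rw [X.yy, mul_one]
  have h3 : y 0 * y 2 * (y 0 * y 1) = z * (y 2 * y 1) := by
    calc y 0 * y 2 * (y 0 * y 1) = y 0 * (y 2 * y 0) * y 1 := by group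
      _ = (y 0 * z) * y 0 * y 2 * y 1 := by rw [X.anti 2 0 (by decide)]; group
      _ = z * (y 0 * y 0) * (y 2 * y 1) := by rw [F.yz]; group
      _ = _ := by rw [X.yy, mul_one]
  have e3 : y 0 * y 1 * (y 0 * x 0 * (y 2 * x 2)) = z * (y 1 * (z * s)) * y 2 * (x 0 * x 2) := by
    calc y 0 * y 1 * (y 0 * x 0 * (y 2 * x 2)) = (y 0 * y 1 * y 0) * (x 0 * y 2) * x 2 := by group
      _ = _ := by rw [h1, h2]; group
  have e4 : y 0 * y 2 * U0 y x = z * (y 2 * y 1) * (x 0 * x 2) := by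
    unfold U0
    rw [← mul_assoc, h3]
  rw [e3, e4, (X.yc 1).comm X.vzs]
  have e5 : z * (z * s * y 1) * y 2 * (x 0 * x 2) = s * (y 1 * y 2) * (x 0 * x 2) := by
    calc z * (z * s * y 1) * y 2 * (x 0 * x 2) = (z * z) * (s * (y 1 * y 2) * (x 0 * x 2)) := by group
      _ = _ := by rw [V.zz, one_mul]
  rw [e5, X.anti 1 2 (by decide)]
  refine ⟨s, X.vs, ?_⟩
  group

theorem SX.y02sq : y 0 * y 2 * (y 0 * y 2) = z := X.toFr.yy_sq (by decide)

theorem SX.Mvsq {a b : G} (h : Mv z s a b) (hb : CC z s b) : a * a = b * b := by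
  obtain ⟨v, hv, rfl⟩ := h
  exact X.toFr.v_sq hv hb

/-- `[q, U0]` -/
theorem SX.qU {q : G} (hq : q ∈ Q) : VV z s (q * U0 y x * q⁻¹ * (U0 y x)⁻¹) ∨
    (q * U0 y x * q⁻¹ * (U0 y x)⁻¹) * (q * U0 y x * q⁻¹ * (U0 y x)⁻¹) = z := by
  have V := X.vd
  have S := X.toSu
  have hW : ∀ a ∈ Q, a * s = s * a → Mv z s (a * U0 y x * a⁻¹) (U0 y x) := by
    intro a ha has
    have ca := S.acc ha has
    have h1 : ∀ i, Mv z s (a * y i * a⁻¹) (y i) := by
      intro i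
      obtain ⟨v, hv, h⟩ := S.swap ha (X.yQ i)
      exact ⟨v, hv, by rw [h]; group⟩
    have h2 : ∀ i, Mv z s (a * x i * a⁻¹) (x i) := by
      intro i
      obtain ⟨v, hv, h⟩ := S.w12 ha has (X.xR i) (X.xz i)
      have h3 : x i * a = v * (a * x i) := by rw [mul_inv_eq_iff_eq_mul] at h; rw [h]; group
      refine ⟨v, hv, ?_⟩
      rw [mul_inv_eq_iff_eq_mul, mul_assoc, h3, ← mul_assoc, V.sq hv, one_mul]
    have e : a * U0 y x * a⁻¹ = (a * y 0 * a⁻¹) * (a * y 1 * a⁻¹) * ((a * x 0 * a⁻¹) * (a * x 2 * a⁻¹)) := by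
      unfold U0; group
    rw [e]
    exact Mv.mul V ((X.yc 0).mul (X.yc 1)) (Mv.mul V (X.yc 0) (h1 0) (h1 1)) (Mv.mul V (X.xc 0) (h2 0) (h2 2))
  rcases S.qcases hq with hqs | ⟨a, ha, has, rfl⟩
  · left
    obtain ⟨v, hv, h⟩ := hW q hq hqs
    rw [h]
    have : v * U0 y x * (U0 y x)⁻¹ = v := by group
    rw [this]; exact hv
  · right
    have ca := S.acc ha has
    have e : a * p * U0 y x * (a * p)⁻¹ = a * (p * U0 y x * p⁻¹) * a⁻¹ := by group
    have c02 := (X.yc 0).mul (X.yc 2)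
    have m1 := X.pU.conj ca
    have e2 : a * (y 0 * y 2 * U0 y x) * a⁻¹ = (a * (y 0 * y 2) * a⁻¹) * (a * U0 y x * a⁻¹) := by group
    have m2 : Mv z s (a * (y 0 * y 2) * a⁻¹) (y 0 * y 2) := by
      obtain ⟨v, hv, h⟩ := S.swap ha (Q.mul_mem (X.yQ 0) (X.yQ 2))
      exact ⟨v, hv, by rw [h]; group⟩
    have m3 : Mv z s (a * (y 0 * y 2 * U0 y x) * a⁻¹) (y 0 * y 2 * U0 y x) := by
      rw [e2]; exact Mv.mul V c02 m2 (hW a ha has)
    have m4 := (m1.trans V m3).mulr (U0 y x)⁻¹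
    have e3 : y 0 * y 2 * U0 y x * (U0 y x)⁻¹ = y 0 * y 2 := by group
    rw [e3, ← e] at m4
    rw [X.Mvsq m4 c02, X.y02sq]

/-- `U0` is not conjugate in `C(z)` to an element of `R` -/
theorem SX.U_notR {h : G} (hh : h * z = z * h) (hr : h * U0 y x * h⁻¹ ∈ R) : False := by
  have V := X.vd
  have S := X.toSu
  obtain ⟨r, hr'⟩ : ∃ r, r = h * U0 y x * h⁻¹ := ⟨_, rfl⟩
  rw [← hr'] at hr
  have hrz : r * z = z * r := by rw [hr']; exact conjz (conjz hh X.Ucc.1) (invz hh)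
  have hrr : r * r = 1 := by
    rw [hr']
    calc h * U0 y x * h⁻¹ * (h * U0 y x * h⁻¹) = h * (U0 y x * U0 y x) * h⁻¹ := by group
      _ = 1 := by rw [X.U_sq]; group
  have key : ∀ q ∈ Q, (q * r * q⁻¹ * r⁻¹) * (q * r * q⁻¹ * r⁻¹) = 1 := by
    intro q hq
    have cr := S.xcc hr hrz
    rcases X.cls2 hr hrz with h1 | ⟨i, h1⟩ | ⟨i, j, hij, h1⟩
    · have h2 := X.pk.sq _ (X.toFr.vinQ h1)
      rcases X.pk.comm q hq r (X.toFr.vinQ h1) with h3 | h3
      · rw [h3, one_mul]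
      · rw [h3, V.zz]
    · rcases S.qcases hq with hqs | ⟨a, ha, has, rfl⟩
      · obtain ⟨v, hv, h2⟩ := S.w12 hq hqs hr hrz
        have h3 : r * q = v * (q * r) := by rw [mul_inv_eq_iff_eq_mul] at h2; rw [h2]; group
        have h4 : q * r * q⁻¹ * r⁻¹ = v := by
          have : q * r = v * (r * q) := by rw [h3, ← mul_assoc, V.sq hv, one_mul]
          rw [this]; group
        rw [h4, V.sq hv]
      · have ca := S.acc ha has
        obtain ⟨v, hv, h2⟩ := h1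
        have m1 : Mv z s (p * r * p⁻¹) (y i * x i) := by
          have e : p * r * p⁻¹ = (p * v * p⁻¹) * (p * x i * p⁻¹) := by rw [h2]; group
          rw [e]
          exact ((X.pconjV hv).mv _).trans V (X.px i)
        have e : a * p * r * (a * p)⁻¹ = a * (p * r * p⁻¹) * a⁻¹ := by group
        have m2 := m1.conj ca
        have m3 : Mv z s (a * (y i * x i) * a⁻¹) (y i * x i) := by
          have e2 : a * (y i * x i) * a⁻¹ = (a * y i * a⁻¹) * (a * x i * a⁻¹) := by group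
          rw [e2]
          refine Mv.mul V (X.yc i) ?_ ?_
          · obtain ⟨v, hv, h⟩ := S.swap ha (X.yQ i)
            exact ⟨v, hv, by rw [h]; group⟩
          · obtain ⟨v, hv, h⟩ := S.w12 ha has (X.xR i) (X.xz i)
            have h3 : x i * a = v * (a * x i) := by rw [mul_inv_eq_iff_eq_mul] at h; rw [h]; group
            refine ⟨v, hv, ?_⟩
            rw [mul_inv_eq_iff_eq_mul, mul_assoc, h3, ← mul_assoc, V.sq hv, one_mul]
        have hr2 : r⁻¹ = r := inv_eq_of_mul_eq_one_right hrr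
        have m4 : Mv z s (a * p * r * (a * p)⁻¹ * r⁻¹) ((y i * x i) * x i) := by
          rw [e, hr2]
          exact Mv.mul V ((X.yc i).mul (X.xc i)) (m2.trans V m3) ⟨v, hv, h2⟩
        have e3 : (y i * x i) * x i = y i := by rw [mul_assoc, X.xx, mul_one]
        rw [e3] at m4
        rw [X.Mvsq m4 (X.yc i), X.yy]
    · exfalso
      have h2 := X.Mvsq h1 ((X.xc i).mul (X.xc j))
      have h3 : x i * x j * (x i * x j) = s := by
        calc x i * x j * (x i * x j) = x i * (x j * x i) * x j := by group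
          _ = (x i * s) * (x i * x j * x j) := by rw [X.xanti hij.symm]; group
          _ = s * (x i * x i) * (x j * x j) := by rw [(X.xc i).2]; group
          _ = s := by rw [X.xx, X.xx, mul_one, mul_one]
      rw [hrr, h3] at h2
      exact X.s1' h2.symm
  have h1 := key (h * p * h⁻¹) (X.pk.N h hh p X.pQ)
  have e : h * p * h⁻¹ * r * (h * p * h⁻¹)⁻¹ * r⁻¹ = h * (p * U0 y x * p⁻¹ * (U0 y x)⁻¹) * h⁻¹ := by rw [hr']; group
  rw [e] at h1
  have c02 := (X.yc 0).mul (X.yc 2)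
  have m4 := X.pU.mulr (U0 y x)⁻¹
  have e3 : y 0 * y 2 * U0 y x * (U0 y x)⁻¹ = y 0 * y 2 := by group
  rw [e3] at m4
  have h2 := X.Mvsq m4 c02
  rw [X.y02sq] at h2
  apply X.z1'
  calc z = h⁻¹ * (h * (p * U0 y x * p⁻¹ * (U0 y x)⁻¹) * h⁻¹ * (h * (p * U0 y x * p⁻¹ * (U0 y x)⁻¹) * h⁻¹)) * h := by
        rw [← h2]; group
    _ = 1 := by rw [h1]; group

theorem SX.U_ne_one : U0 y x ≠ 1 := fun h => X.U_notQ (by rw [h]; exact Q.one_mem)

theorem SX.keyg [Finite G] {g : G} (h1 : g * z * g⁻¹ ∈ Q) (h2 : g * z * g⁻¹ ≠ z) : g⁻¹ * z * g ∈ Q := by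
  have hz := key X.pk (X.pk.conj g) (by
    intro m hm q hq
    rw [mem_map_conj]
    have h1 := X.pk.N (g⁻¹ * m) (by
      calc g⁻¹ * m * z = g⁻¹ * (m * z * m⁻¹) * m := by group
        _ = g⁻¹ * (g * z * g⁻¹) * m := by rw [hm]
        _ = z * (g⁻¹ * m) := by group) q hq
    have e2 : g⁻¹ * (m * q * m⁻¹) * g = g⁻¹ * m * q * (g⁻¹ * m)⁻¹ := by group
    rw [e2]; exact h1) h1 h2 (by rw [X.cQ]; norm_num)
  exact mem_map_conj.1 hz

/-- if `U0` is conjugate to `z` then some element swaps them -/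
theorem SX.exists_swap [Finite G] {g : G} (hg : g * z * g⁻¹ = U0 y x) : ∃ γ, γ * z * γ⁻¹ = U0 y x ∧ γ * U0 y x * γ⁻¹ = z := by
  have V := X.vd
  have S := X.toSu
  have hUz : U0 y x ≠ z := fun h => X.U_notQ (by rw [h]; exact X.pk.zQ)
  obtain ⟨t, ht⟩ : ∃ t, t = g⁻¹ * z * g := ⟨_, rfl⟩
  have htt : t * t = 1 := by
    rw [ht]
    calc g⁻¹ * z * g * (g⁻¹ * z * g) = g⁻¹ * (z * z) * g := by group
      _ = 1 := by rw [V.zz]; group
  have htz : t * z = z * t := by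
    have h1 := X.Ucc.1
    have h2 : z = g⁻¹ * U0 y x * g := by rw [← hg]; group
    calc t * z = (g⁻¹ * z * g) * (g⁻¹ * U0 y x * g) := by rw [← h2, ht]
      _ = g⁻¹ * (z * U0 y x) * g := by group
      _ = g⁻¹ * (U0 y x * z) * g := by rw [h1]
      _ = (g⁻¹ * U0 y x * g) * (g⁻¹ * z * g) := by group
      _ = z * t := by rw [← h2, ht]
  have tne : t ≠ z := by
    intro h
    apply hUz
    rw [← hg]
    have : g * t * g⁻¹ = z := by rw [ht]; group
    rw [h] at this; exact this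
  have tnQ : t ∉ Q := by
    intro h
    have h1 := X.keyg (g := g⁻¹) (by rw [inv_inv, ← ht]; exact h) (by rw [inv_inv, ← ht]; exact tne)
    rw [inv_inv, hg] at h1
    exact X.U_notQ h1
  rcases X.good htz htt with h1 | ⟨h, hh, hr⟩ | ⟨h, hh, hr⟩
  · exact absurd h1 tnQ
  · exfalso
    have hiz := invz hh
    have hsQ : h⁻¹ * s * h ∈ Q := by
      have := X.pk.N _ hiz s X.sQ
      rwa [inv_inv] at this
    have h1 := (X.hR _).1 hr
    obtain ⟨m, hm⟩ : ∃ m, m = k⁻¹ * h * g⁻¹ := ⟨_, rfl⟩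
    have h2 : m * z * m⁻¹ ∈ Q := by
      have e : m * z * m⁻¹ = k⁻¹ * (h * t * h⁻¹) * k := by rw [hm, ht]; group
      rw [e]; exact h1
    have h3 : m * z * m⁻¹ ≠ z := by
      intro h3
      apply tnQ
      have e : t = h⁻¹ * s * h := by
        have e1 : k⁻¹ * (h * t * h⁻¹) * k = z := by rw [← h3, hm, ht]; group
        have e2 : t = h⁻¹ * (k * (k⁻¹ * (h * t * h⁻¹) * k) * k⁻¹) * h := by group
        rw [e2, e1, X.hk]
      rw [e]; exact hsQ
    have h4 := X.keyg h2 h3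
    obtain ⟨s2, hs2⟩ : ∃ s2, s2 = m⁻¹ * z * m := ⟨_, rfl⟩
    have hs2' : s2 = g * (h⁻¹ * s * h) * g⁻¹ := by rw [hs2, hm, ← X.hk]; group
    rw [← hs2] at h4
    have s2z : s2 ≠ z := by
      intro h5
      apply tnQ
      have e : t = h⁻¹ * s * h := by
        rw [ht, ← h5, hs2']; group
      rw [e]; exact hsQ
    have s21 : s2 ≠ 1 := by
      intro h5
      apply X.z1'
      calc z = m * s2 * m⁻¹ := by rw [hs2]; group
        _ = 1 := by rw [h5]; group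
    have s22 : s2 * s2 = 1 := by
      rw [hs2]
      calc m⁻¹ * z * m * (m⁻¹ * z * m) = m⁻¹ * (z * z) * m := by group
        _ = 1 := by rw [V.zz]; group
    obtain ⟨h', hh', hs'⟩ := X.trans s2 h4 s22 s21 s2z
    apply X.U_notR (invz hh')
    rw [X.hR]
    -- the connecting element
    obtain ⟨n, hn⟩ : ∃ n, n = (h' * k)⁻¹ * (g * h⁻¹ * k) := ⟨_, rfl⟩
    have hnz : n * z = z * n := by
      have e1 : (g * h⁻¹ * k) * z * (g * h⁻¹ * k)⁻¹ = s2 := by rw [hs2', ← X.hk]; group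
      have e2 : (h' * k) * z * (h' * k)⁻¹ = s2 := by rw [← hs', ← X.hk]; group
      have e3 : z = (h' * k)⁻¹ * s2 * (h' * k) := by rw [← e2]; group
      have e4 : n * z * n⁻¹ = z := by
        calc n * z * n⁻¹ = (h' * k)⁻¹ * ((g * h⁻¹ * k) * z * (g * h⁻¹ * k)⁻¹) * (h' * k) := by rw [hn]; group
          _ = (h' * k)⁻¹ * s2 * (h' * k) := by rw [e1]
          _ = z := e3.symm
      exact mul_inv_eq_iff_eq_mul.1 e4
    have hkz : k⁻¹ * z * k ∈ Q := (X.hR z).1 X.zR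
    have e5 : k⁻¹ * (h'⁻¹ * U0 y x * h'⁻¹⁻¹) * k = n * (k⁻¹ * z * k) * n⁻¹ := by
      rw [← hg]
      have e6 : h * z * h⁻¹ = z := by rw [hh]; group
      have e7 : n * (k⁻¹ * z * k) * n⁻¹ = n * (k⁻¹ * (h * z * h⁻¹) * k) * n⁻¹ := by rw [e6]
      rw [e7, hn]; group
    rw [e5]
    exact X.pk.N n hnz _ hkz
  · refine ⟨h * g⁻¹, ?_, ?_⟩
    · rw [← hr, ht]; group
    · rw [← hg]
      have e6 : h * z * h⁻¹ = z := by rw [hh]; group
      have e7 : h * g⁻¹ * (g * z * g⁻¹) * (h * g⁻¹)⁻¹ = h * z * h⁻¹ := by group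
      exact e7.trans e6

end

end H85.Suz
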