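import Cfsg.Agent.Lib.H85.SuzL

set_option autoImplicit false
set_option maxHeartbeats 400000

/-! Groups of Suzuki sporadic type: the two classes do not fuse. -/

namespace H85.Suz

open Cfsg H91.LargePair

variable {G : Type*} [Group G]

section
variable {Q R : Subgroup G} {z s p k : G} {y x : Fin 5 → G} (X : SX Q R z s p k y x)
include X

/-- elements of `W` -/
def SX.W (_X : SX Q R z s p k y x) (w : G) : Prop :=
  ∃ b a, b ∈ R ∧ b * z = z * b ∧ a ∈ Q ∧ a * s = s * a ∧ w = b * a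

theorem SX.Wcc {w : G} (hw : X.W w) : CC z s w := by
  obtain ⟨b, a, hb, hbz, ha, has, rfl⟩ := hw
  exact (X.toSu.xcc hb hbz).mul (X.toSu.acc ha has)

theorem SX.Wy (i : Fin 5) : X.W (y i) := ⟨1, y i, R.one_mem, by rw [one_mul, mul_one], X.yQ i, X.ys i, by rw [one_mul]⟩
theorem SX.Wx (i : Fin 5) : X.W (x i) := ⟨x i, 1, X.xR i, X.xz i, Q.one_mem, by rw [one_mul, mul_one], by rw [mul_one]⟩

theorem SX.swapM {a b v : G} (_hv : VV z s v) (h : a * b = v * (b * a)) : a * b * a⁻¹ = v * b := by rw [h]; group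

theorem SX.comm_Q {a b : G} (ha : a ∈ Q) (hb : b ∈ Q) : Mv z s (a * b * a⁻¹) b := by
  obtain ⟨v, hv, h⟩ := X.toSu.swap ha hb
  exact ⟨v, hv, X.swapM hv h⟩

theorem SX.comm_R {a b : G} (ha : a ∈ R) (hb : b ∈ R) : Mv z s (a * b * a⁻¹) b := by
  obtain ⟨v, hv, h⟩ := X.swapR ha hb
  exact ⟨v, hv, X.swapM hv h⟩

theorem SX.comm_QR {a b : G} (ha : a ∈ Q) (has : a * s = s * a) (hb : b ∈ R) (hbz : b * z = z * b) :
    Mv z s (a * b * a⁻¹) b := by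
  obtain ⟨v, hv, h⟩ := X.toSu.w12 ha has hb hbz
  have h3 : b * a = v * (a * b) := by rw [mul_inv_eq_iff_eq_mul] at h; rw [h]; group
  refine ⟨v, hv, ?_⟩
  rw [mul_inv_eq_iff_eq_mul, mul_assoc, h3, ← mul_assoc, X.vd.sq hv, one_mul]

/-- `W' ≤ V` -/
theorem SX.W_comm {w w' : G} (hw : X.W w) (hw' : X.W w') : Mv z s (w * w' * w⁻¹) w' := by
  have V := X.vd
  obtain ⟨b, a, hb, hbz, ha, has, rfl⟩ := hw
  obtain ⟨b', a', hb', hbz', ha', has', rfl⟩ := hw'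
  have cb' := X.toSu.xcc hb' hbz'
  have cb := X.toSu.xcc hb hbz
  have m1 : Mv z s (a * (b' * a') * a⁻¹) (b' * a') := by
    have e : a * (b' * a') * a⁻¹ = (a * b' * a⁻¹) * (a * a' * a⁻¹) := by group
    rw [e]
    exact Mv.mul V cb' (X.comm_QR ha has hb' hbz') (X.comm_Q ha ha')
  have m2 : Mv z s (b * (b' * a') * b⁻¹) (b' * a') := by
    have e : b * (b' * a') * b⁻¹ = (b * b' * b⁻¹) * (b * a' * b⁻¹) := by group
    rw [e]
    exact Mv.mul V cb' (X.comm_R hb hb') (X.toSu.w12 ha' has' hb hbz)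
  have e : b * a * (b' * a') * (b * a)⁻¹ = b * (a * (b' * a') * a⁻¹) * b⁻¹ := by group
  rw [e]
  exact (m1.conj cb).trans V m2

theorem SX.W_comm' {w w' : G} (hw : X.W w) (hw' : X.W w') : VV z s (w * w' * w⁻¹ * w'⁻¹) := by
  obtain ⟨v, hv, h⟩ := X.W_comm hw hw'
  rw [h]
  have : v * w' * w'⁻¹ = v := by group
  rw [this]; exact hv

/-- the table -/
theorem SX.yU (m : Fin 5) : Cm (y m) (U0 y x) (dd z m 0 * dd z m 1 * (ee z s m 0 * ee z s m 2)) := by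
  have V := X.vd
  have h1 : ∀ i, Cm (y m) (y i) (dd z m i) := by
    intro i
    by_cases h : m = i
    · rw [dd_eq h, h]; exact Cm.self _
    · rw [dd_ne h]; exact X.cyy h
  have hd : ∀ i, VV z s (dd z m i) := by
    intro i
    by_cases h : m = i
    · rw [dd_eq h]; exact Or.inl rfl
    · rw [dd_ne h]; exact X.vz
  have h2 : ∀ i, Cm (y m) (x i) (ee z s m i) := fun i => (X.ce m i).symm V (ee_v z s m i)
  exact ((h1 0).mulr (h1 1) (X.yc 0) (hd 1)).mulr ((h2 0).mulr (h2 2) (X.xc 0) (ee_v z s m 2))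
    ((X.yc 0).mul (X.yc 1)) (V.mul (ee_v z s m 0) (ee_v z s m 2))

theorem SX.yU0 : Cm (y 0) (U0 y x) s := X.y0U
theorem SX.yU1 : Cm (y 1) (U0 y x) z := X.y1U
theorem SX.yU2 : Cm (y 2) (U0 y x) (z * s) := by
  have h := X.yU 2
  rw [dd_ne (by decide), dd_ne (by decide), ee_ne (by decide), ee_eq rfl, X.vd.zz, one_mul, mul_one] at h
  exact h
theorem SX.yU3 : Cm (y 3) (U0 y x) 1 := by
  have h := X.yU 3
  rw [dd_ne (by decide), dd_ne (by decide), ee_ne (by decide), ee_ne (by decide), X.vd.zz, one_mul,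
    X.vd.sq X.vzs] at h
  exact h
theorem SX.yU4 : Cm (y 4) (U0 y x) 1 := by
  have h := X.yU 4
  rw [dd_ne (by decide), dd_ne (by decide), ee_ne (by decide), ee_ne (by decide), X.vd.zz, one_mul,
    X.vd.sq X.vzs] at h
  exact h
theorem SX.x3U : Cm (x 3) (U0 y x) 1 := by
  have h1 := (X.cxy (i := 3) (j := 0) (by decide)).mulr (X.cxy (i := 3) (j := 1) (by decide)) (X.yc 0) X.vzs
  have h2 := (X.cxx (i := 3) (j := 0) (by decide)).mulr (X.cxx (i := 3) (j := 2) (by decide)) (X.xc 0) X.vs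
  have h3 := h1.mulr h2 ((X.yc 0).mul (X.yc 1)) (X.vd.mul X.vs X.vs)
  rw [X.vd.sq X.vzs, X.ss, one_mul] at h3
  exact h3

theorem SX.tab (m : Fin 5) : (m = 0 ∧ Cm (y m) (U0 y x) s) ∨ (m = 1 ∧ Cm (y m) (U0 y x) z) ∨
    (m = 2 ∧ Cm (y m) (U0 y x) (z * s)) ∨ Cm (y m) (U0 y x) 1 := by
  fin_cases m
  · left; exact ⟨rfl, X.yU0⟩
  · right; left; exact ⟨rfl, X.yU1⟩
  · right; right; left; exact ⟨rfl, X.yU2⟩
  · right; right; right; exact X.yU3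
  · right; right; right; exact X.yU4

/-- elements of `C(V)` commuting with `U0` lie in `W` -/
theorem SX.cU_W [Finite G] {c : G} (hc : CC z s c) (hcU : c * U0 y x = U0 y x * c) : X.W c := by
  have V := X.vd
  have F := X.toFr
  obtain ⟨σ, hσ⟩ : ∃ σ, σ = X.toFr.pi ⟨c, mem_CV.2 hc⟩ := ⟨_, rfl⟩
  have hsp : ∀ i, Mv z s (c * y i * c⁻¹) (y (σ i)) := by
    intro i
    rw [hσ]; exact X.toFr.pi_spec ⟨c, mem_CV.2 hc⟩ i
  have tr : ∀ i e, VV z s e → Cm (y i) (U0 y x) e → Cm (y (σ i)) (U0 y x) e := by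
    intro i e he h
    have h1 : Cm (c * y i * c⁻¹) (U0 y x) e := by
      unfold Cm at *
      have e1 : U0 y x = c * U0 y x * c⁻¹ := by rw [hcU]; group
      calc c * y i * c⁻¹ * U0 y x = c * y i * c⁻¹ * (c * U0 y x * c⁻¹) := by rw [← e1]
        _ = c * (y i * U0 y x) * c⁻¹ := by group
        _ = (c * e) * (U0 y x * y i) * c⁻¹ := by rw [h]; group
        _ = e * ((c * U0 y x * c⁻¹) * (c * y i * c⁻¹)) := by rw [hc.comm he]; group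
        _ = _ := by rw [← e1]
    exact ((Cm.mv X.Ucc he V ((hsp i).symm V) (h1.symm V he)).symm V he)
  have hs1 := X.s1'
  have hz1 := X.z1'
  have hzs1 := X.zs1'
  have hsz : s ≠ z := X.sz
  have hzss : z * s ≠ s := fun h => hz1 (mul_eq_right.1 h)
  have hzsz : z * s ≠ z := fun h => hs1 (mul_eq_left.1 h)
  have h0 : σ 0 = 0 := by
    have h := tr 0 s X.vs X.yU0
    rcases X.tab (σ 0) with ⟨h1, -⟩ | ⟨-, h2⟩ | ⟨-, h2⟩ | h2
    · exact h1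
    · exact absurd (h.unique h2) hsz
    · exact absurd (h2.unique h) hzss
    · exact absurd (h.unique h2) hs1
  have h1 : σ 1 = 1 := by
    have h := tr 1 z X.vz X.yU1
    rcases X.tab (σ 1) with ⟨-, h2⟩ | ⟨h1, -⟩ | ⟨-, h2⟩ | h2
    · exact absurd (h2.unique h) hsz
    · exact h1
    · exact absurd (h2.unique h) hzsz
    · exact absurd (h.unique h2) hz1
  have h2 : σ 2 = 2 := by
    have h := tr 2 (z * s) X.vzs X.yU2
    rcases X.tab (σ 2) with ⟨-, h2⟩ | ⟨-, h2⟩ | ⟨h1, -⟩ | h2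
    · exact absurd (h.unique h2) hzss
    · exact absurd (h.unique h2) hzsz
    · exact h1
    · exact absurd (h.unique h2) hzs1
  have h3 : σ = 1 := fix3 σ (by rw [hσ]; exact X.sign_one hc) h0 h1 h2
  rw [h3] at hσ
  exact X.ker_form hc hσ.symm

/-- centralising `z` and `U0` -/
def SX.TT (_X : SX Q R z s p k y x) (t : G) : Prop := t * z = z * t ∧ t * U0 y x = U0 y x * t

theorem SX.TT_s {t : G} (ht : X.TT t) : t * s * t⁻¹ = s ∨ t * s * t⁻¹ = z * s := by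
  obtain ⟨h1, h2⟩ := ht
  have V := X.vd
  have hy : s = y 0 * U0 y x * (y 0)⁻¹ * (U0 y x)⁻¹ := by rw [X.yU0.conj]; group
  have hU : U0 y x = t * U0 y x * t⁻¹ := by rw [h2]; group
  have e : t * s * t⁻¹ = (t * y 0 * t⁻¹) * U0 y x * (t * y 0 * t⁻¹)⁻¹ * (U0 y x)⁻¹ := by
    have e1 : t * s * t⁻¹ = (t * y 0 * t⁻¹) * (t * U0 y x * t⁻¹) * (t * y 0 * t⁻¹)⁻¹ * (t * U0 y x * t⁻¹)⁻¹ := by
      rw [hy]; group
    rw [← hU] at e1; exact e1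
  have hsq : t * s * t⁻¹ * (t * s * t⁻¹) = 1 := by
    calc t * s * t⁻¹ * (t * s * t⁻¹) = t * (s * s) * t⁻¹ := by group
      _ = 1 := by rw [V.ss]; group
  rcases X.qU (X.pk.N t h1 _ (X.yQ 0)) with h3 | h3
  · rw [← e] at h3
    rcases h3 with h4 | h4 | h4 | h4
    · exfalso
      exact X.s1' (conj_eq_one_iff.1 h4)
    · exfalso
      apply X.sz
      calc s = t⁻¹ * (t * s * t⁻¹) * t := by group
        _ = t⁻¹ * (z * t) := by rw [h4]; group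
        _ = z := by rw [← h1]; group
    · left; exact h4
    · right; exact h4
  · exfalso
    rw [← e, hsq] at h3
    exact X.z1' h3.symm

theorem SX.TT_mul {a b : G} (ha : X.TT a) (hb : X.TT b) : X.TT (a * b) :=
  ⟨conjz ha.1 hb.1, conjz ha.2 hb.2⟩

theorem SX.TT_inv {a : G} (ha : X.TT a) : X.TT a⁻¹ := ⟨invz ha.1, invz ha.2⟩

theorem SX.TT_comm [Finite G] {a b : G} (ha : X.TT a) (hb : X.TT b) : X.W (a * b * a⁻¹ * b⁻¹) := by
  have V := X.vd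
  have hT : X.TT (a * b * a⁻¹ * b⁻¹) := X.TT_mul (X.TT_mul (X.TT_mul ha hb) (X.TT_inv ha)) (X.TT_inv hb)
  apply X.cU_W ⟨hT.1, ?_⟩ hT.2
  obtain ⟨ε, hε, h1⟩ : ∃ ε, (ε = 1 ∨ ε = z) ∧ a * s = ε * (s * a) := by
    rcases X.TT_s ha with h | h
    · exact ⟨1, Or.inl rfl, by rw [one_mul]; exact mul_inv_eq_iff_eq_mul.1 h⟩
    · refine ⟨z, Or.inr rfl, ?_⟩
      rw [mul_inv_eq_iff_eq_mul] at h; rw [h, mul_assoc]
  obtain ⟨δ, hδ, h2⟩ : ∃ δ, (δ = 1 ∨ δ = z) ∧ b * s = δ * (s * b) := by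
    rcases X.TT_s hb with h | h
    · exact ⟨1, Or.inl rfl, by rw [one_mul]; exact mul_inv_eq_iff_eq_mul.1 h⟩
    · refine ⟨z, Or.inr rfl, ?_⟩
      rw [mul_inv_eq_iff_eq_mul] at h; rw [h, mul_assoc]
  have cen : ∀ e, (e = 1 ∨ e = z) → ∀ g, g * z = z * g → g * e = e * g := by
    rintro e (rfl | rfl) g hg
    · rw [mul_one, one_mul]
    · exact hg
  have h3 : a * b * s = ε * δ * (s * (a * b)) := by
    calc a * b * s = a * (b * s) := by group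
      _ = (a * δ) * s * b := by rw [h2]; group
      _ = δ * (a * s) * b := by rw [cen δ hδ a ha.1]; group
      _ = (δ * ε) * (s * (a * b)) := by rw [h1]; group
      _ = _ := by rw [cen ε hε δ (by rcases hδ with rfl | rfl; · rw [one_mul, mul_one]
                                     · rfl)]
  have h4 : b * a * s = ε * δ * (s * (b * a)) := by
    calc b * a * s = b * (a * s) := by group
      _ = (b * ε) * s * a := by rw [h1]; group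
      _ = ε * (b * s) * a := by rw [cen ε hε b hb.1]; group
      _ = (ε * δ) * (s * (b * a)) := by rw [h2]; group
  -- (ab)(ba)⁻¹ commutes with s
  have e : a * b * a⁻¹ * b⁻¹ = (a * b) * (b * a)⁻¹ := by group
  rw [e]
  have h5 : (b * a) * s * (b * a)⁻¹ = ε * δ * s := by rw [h4]; group
  have h6 : (a * b) * s * (a * b)⁻¹ = ε * δ * s := by rw [h3]; group
  have hεδ : (a * b) * (b * a)⁻¹ * (ε * δ) = ε * δ * ((a * b) * (b * a)⁻¹) := by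
    have hz : (a * b) * (b * a)⁻¹ * z = z * ((a * b) * (b * a)⁻¹) := by rw [← e]; exact hT.1
    have c1 := cen ε hε _ hz
    have c2 := cen δ hδ _ hz
    generalize (a * b) * (b * a)⁻¹ = D at c1 c2
    rw [← mul_assoc, c1, mul_assoc, c2, ← mul_assoc]
  have h7 : (a * b) * (b * a)⁻¹ * (ε * δ * s) = ε * δ * s * ((a * b) * (b * a)⁻¹) := by
    calc (a * b) * (b * a)⁻¹ * (ε * δ * s) = (a * b) * (b * a)⁻¹ * ((b * a) * s * (b * a)⁻¹) := by rw [h5]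
      _ = ((a * b) * s * (a * b)⁻¹) * ((a * b) * (b * a)⁻¹) := by group
      _ = _ := by rw [h6]
  have h8 : ε * δ * ((a * b) * (b * a)⁻¹ * s) = ε * δ * (s * ((a * b) * (b * a)⁻¹)) := by
    calc ε * δ * ((a * b) * (b * a)⁻¹ * s) = (ε * δ * ((a * b) * (b * a)⁻¹)) * s := by group
      _ = (a * b) * (b * a)⁻¹ * (ε * δ * s) := by rw [← hεδ]; group
      _ = _ := by rw [h7]; group
  exact mul_left_cancel h8

theorem SX.toU2 {t : G} (ht : Mv z s t (U0 y x)) : ∃ h, X.W h ∧ h * t * h⁻¹ = U0 y x := by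
  obtain ⟨v, hv, rfl⟩ := ht
  have h1 := X.y1U.conj
  have h2 := X.x2U.conj
  rcases hv with rfl | rfl | rfl | rfl
  · exact ⟨1, ⟨1, 1, R.one_mem, by rw [one_mul, mul_one], Q.one_mem, by rw [one_mul, mul_one], (one_mul 1).symm⟩,
      by group⟩
  · refine ⟨y 1, X.Wy 1, ?_⟩
    calc y 1 * (v * U0 y x) * (y 1)⁻¹ = (y 1 * v * (y 1)⁻¹) * (y 1 * U0 y x * (y 1)⁻¹) := by group
      _ = v * (v * U0 y x) := by rw [(X.yc 1).conj X.vz, h1]
      _ = _ := X.vd.zzl _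
  · refine ⟨x 2, X.Wx 2, ?_⟩
    calc x 2 * (v * U0 y x) * (x 2)⁻¹ = (x 2 * v * (x 2)⁻¹) * (x 2 * U0 y x * (x 2)⁻¹) := by group
      _ = v * (v * U0 y x) := by rw [(X.xc 2).conj X.vs, h2]
      _ = _ := X.vd.ssl _
  · refine ⟨x 2 * y 1, ⟨x 2, y 1, X.xR 2, X.xz 2, X.yQ 1, X.ys 1, rfl⟩, ?_⟩
    calc x 2 * y 1 * (z * s * U0 y x) * (x 2 * y 1)⁻¹ = (x 2 * y 1 * (z * s) * (x 2 * y 1)⁻¹) *
          (x 2 * (y 1 * U0 y x * (y 1)⁻¹) * (x 2)⁻¹) := by group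
      _ = z * s * ((x 2 * z) * U0 y x * (x 2)⁻¹) := by rw [((X.xc 2).mul (X.yc 1)).conj X.vzs, h1]; group
      _ = z * s * (z * (x 2 * U0 y x * (x 2)⁻¹)) := by rw [(X.xc 2).1]; group
      _ = (z * s * (z * s)) * U0 y x := by rw [h2]; group
      _ = _ := by rw [X.vd.sq X.vzs, one_mul]

theorem SX.exists_tau : ∃ τ, X.TT τ ∧ Mv z s (τ * y 3 * τ⁻¹) (y 4) ∧ Mv z s (τ * x 3 * τ⁻¹) (y 4 * x 4) := by
  have V := X.vd
  have F := X.toFr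
  obtain ⟨σ, hσ, s0, s1, s2, s3, s4⟩ := perm_t
  obtain ⟨c, hc, hci⟩ := F.realM hσ
  have hcx := X.xconj hc hci
  have c0 := hci 0
  have c1 := hci 1
  have c2 := hci 2
  have c3 := hci 3
  have d0 := hcx 0
  have d2 := hcx 2
  have d3 := hcx 3
  rw [s0] at c0 d0
  rw [s1] at c1
  rw [s2] at c2 d2
  rw [s3] at c3 d3
  -- c p U p⁻¹ c⁻¹
  have m1 := X.pU.conj hc
  have cU : c * U0 y x * c⁻¹ = (c * y 0 * c⁻¹) * (c * y 1 * c⁻¹) * ((c * x 0 * c⁻¹) * (c * x 2 * c⁻¹)) := by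
    unfold U0; group
  have m2 : Mv z s (c * U0 y x * c⁻¹) (y 2 * y 1 * (x 2 * x 0)) := by
    rw [cU]
    exact Mv.mul V ((X.yc 2).mul (X.yc 1)) (Mv.mul V (X.yc 2) c0 c1) (Mv.mul V (X.xc 2) d0 d2)
  have m3 : Mv z s (c * (y 0 * y 2 * U0 y x) * c⁻¹) (y 2 * y 0 * (y 2 * y 1 * (x 2 * x 0))) := by
    have e : c * (y 0 * y 2 * U0 y x) * c⁻¹ = (c * y 0 * c⁻¹) * (c * y 2 * c⁻¹) * (c * U0 y x * c⁻¹) := by group
    rw [e]
    exact Mv.mul V ((X.yc 2).mul (X.yc 0)) (Mv.mul V (X.yc 2) c0 c2) m2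
  have m4 : Mv z s (y 2 * y 0 * (y 2 * y 1 * (x 2 * x 0))) (U0 y x) := by
    have e : y 2 * y 0 * (y 2 * y 1 * (x 2 * x 0)) = (y 2 * y 0 * y 2) * y 1 * (x 2 * x 0) := by group
    have e2 : y 2 * y 0 * y 2 = z * y 0 := by
      calc y 2 * y 0 * y 2 = z * (y 0 * y 2) * y 2 := by rw [X.anti 2 0 (by decide)]
        _ = z * y 0 * (y 2 * y 2) := by group
        _ = _ := by rw [X.yy, mul_one]
    rw [e, e2, X.xanti (i := 2) (j := 0) (by decide)]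
    refine ⟨z * s, X.vzs, ?_⟩
    unfold U0
    calc z * y 0 * y 1 * (s * (x 0 * x 2)) = z * ((y 0 * y 1) * s) * (x 0 * x 2) := by group
      _ = _ := by rw [((X.yc 0).mul (X.yc 1)).2]; group
  obtain ⟨h, hW, hh⟩ := X.toU2 (m1.trans V (m3.trans V m4))
  have ch := X.Wcc hW
  refine ⟨h * c * p, ⟨conjz (conjz ch.1 hc.1) (X.pk.zc p X.pQ), ?_⟩, ?_, ?_⟩
  · rw [← mul_inv_eq_iff_eq_mul]
    have e : h * c * p * U0 y x * (h * c * p)⁻¹ = h * (c * (p * U0 y x * p⁻¹) * c⁻¹) * h⁻¹ := by group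
    rw [e, hh]
  · have e : h * c * p * y 3 * (h * c * p)⁻¹ = h * (c * ((p * y 3) * p⁻¹) * c⁻¹) * h⁻¹ := by group
    have e2 : y 3 * p * p⁻¹ = y 3 := by group
    rw [e, X.py, e2]
    exact (c3.conj ch).trans V (X.W_comm hW (X.Wy 4))
  · have e : h * c * p * x 3 * (h * c * p)⁻¹ = h * (c * (p * x 3 * p⁻¹) * c⁻¹) * h⁻¹ := by group
    rw [e]
    have n1 := ((X.px 3).conj hc).conj ch
    have e2 : h * (c * (y 3 * x 3) * c⁻¹) * h⁻¹ = (h * (c * y 3 * c⁻¹) * h⁻¹) * (h * (c * x 3 * c⁻¹) * h⁻¹) := by group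
    have n2 : Mv z s (h * (c * (y 3 * x 3) * c⁻¹) * h⁻¹) (y 4 * x 4) := by
      rw [e2]
      exact Mv.mul V (X.yc 4) ((c3.conj ch).trans V (X.W_comm hW (X.Wy 4)))
        ((d3.conj ch).trans V (X.W_comm hW (X.Wx 4)))
    exact n1.trans V n2

/-- `z` is a double commutator of elements of `C(⟨z, U0⟩)` -/
theorem SX.z_form : ∃ a b c, X.TT a ∧ X.TT b ∧ X.TT c ∧
    z = (a * b * a⁻¹ * b⁻¹) * (c * b * c⁻¹ * b⁻¹) * (a * b * a⁻¹ * b⁻¹)⁻¹ * (c * b * c⁻¹ * b⁻¹)⁻¹ := by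
  have V := X.vd
  obtain ⟨τ, hτ, h1, h2⟩ := X.exists_tau
  refine ⟨y 3, τ, x 3, ⟨(X.yc 3).1, X.yU3.eq⟩, hτ, ⟨(X.xc 3).1, X.x3U.eq⟩, ?_⟩
  have hi : ∀ {a : G}, a * a = 1 → a⁻¹ = a := fun h => inv_eq_of_mul_eq_one_right h
  have mA : Mv z s (y 3 * τ * (y 3)⁻¹ * τ⁻¹) (y 3 * y 4) := by
    have e : y 3 * τ * (y 3)⁻¹ * τ⁻¹ = y 3 * (τ * y 3 * τ⁻¹)⁻¹ := by group
    have h3 := h1.inv V (X.yc 4)
    rw [hi (X.yy 4)] at h3
    rw [e]
    exact Mv.mul V (X.yc 3) (Mv.refl _) h3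
  have mB : Mv z s (x 3 * τ * (x 3)⁻¹ * τ⁻¹) (x 3 * (x 4 * y 4)) := by
    have e : x 3 * τ * (x 3)⁻¹ * τ⁻¹ = x 3 * (τ * x 3 * τ⁻¹)⁻¹ := by group
    have h3 := h2.inv V ((X.yc 4).mul (X.xc 4))
    rw [mul_inv_rev (y 4) (x 4), hi (X.yy 4), hi (X.xx 4)] at h3
    rw [e]
    exact Mv.mul V (X.xc 3) (Mv.refl _) h3
  obtain ⟨A, hA⟩ : ∃ A, A = y 3 * τ * (y 3)⁻¹ * τ⁻¹ := ⟨_, rfl⟩
  obtain ⟨B, hB⟩ : ∃ B, B = x 3 * τ * (x 3)⁻¹ * τ⁻¹ := ⟨_, rfl⟩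
  rw [← hA] at mA ⊢
  rw [← hB] at mB ⊢
  have c34 := (X.yc 3).mul (X.yc 4)
  have cx := (X.xc 3).mul ((X.xc 4).mul (X.yc 4))
  have k3 : Cm (y 3) (x 3 * (x 4 * y 4)) (1 * (z * s * z)) :=
    (X.cyx0 3).mulr ((X.cyx (i := 3) (j := 4) (by decide)).mulr (X.cyy (i := 3) (j := 4) (by decide)) (X.xc 4) X.vz)
      (X.xc 3) (V.mul X.vzs X.vz)
  have k4 : Cm (y 4) (x 3 * (x 4 * y 4)) (z * s * (1 * 1)) :=
    (X.cyx (i := 4) (j := 3) (by decide)).mulr ((X.cyx0 4).mulr (Cm.self (y 4)) (X.xc 4) (Or.inl rfl))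
      (X.xc 3) (V.mul (Or.inl rfl) (Or.inl rfl))
  have k5 := k3.mull k4 (X.yc 3) (V.mul (Or.inl rfl) (V.mul X.vzs X.vz)) (V.mul X.vzs (V.mul (Or.inl rfl) (Or.inl rfl))) V
  have e5 : 1 * (z * s * z) * (z * s * (1 * 1)) = z := by
    simp only [mul_assoc, one_mul, mul_one, V.zz, V.ss, V.sz, V.zzl, V.ssl, V.szl]
  rw [e5] at k5
  have k6 : Cm (y 3 * y 4) B z := Cm.mv c34 X.vz V mB k5
  have cB : CC z s B := Mv.cc V cx mB
  have k7 : Cm A B z := (Cm.mv cB X.vz V mA (k6.symm V X.vz)).symm V X.vz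
  unfold Cm at k7
  rw [k7]; group

theorem SX.no_fuse [Finite G] : ¬ IsConj z (U0 y x) := by
  intro hcon
  obtain ⟨g, hg⟩ := isConj_iff.1 hcon
  obtain ⟨γ, h1, h2⟩ := X.exists_swap hg
  obtain ⟨a, b, c, ha, hb, hc, hz⟩ := X.z_form
  have conjT : ∀ t, X.TT t → X.TT (γ * t * γ⁻¹) := by
    intro t ht
    refine ⟨?_, ?_⟩
    · calc γ * t * γ⁻¹ * z = γ * t * γ⁻¹ * (γ * U0 y x * γ⁻¹) := by rw [h2]
        _ = γ * (t * U0 y x) * γ⁻¹ := by group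
        _ = (γ * U0 y x * γ⁻¹) * (γ * t * γ⁻¹) := by rw [ht.2]; group
        _ = _ := by rw [h2]
    · calc γ * t * γ⁻¹ * U0 y x = γ * t * γ⁻¹ * (γ * z * γ⁻¹) := by rw [h1]
        _ = γ * (t * z) * γ⁻¹ := by group
        _ = (γ * z * γ⁻¹) * (γ * t * γ⁻¹) := by rw [ht.1]; group
        _ = _ := by rw [h1]
  have h3 := X.W_comm' (X.TT_comm (conjT a ha) (conjT b hb)) (X.TT_comm (conjT c hc) (conjT b hb))
  have h4 : U0 y x = (γ * a * γ⁻¹) * (γ * b * γ⁻¹) * (γ * a * γ⁻¹)⁻¹ * (γ * b * γ⁻¹)⁻¹ *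
      ((γ * c * γ⁻¹) * (γ * b * γ⁻¹) * (γ * c * γ⁻¹)⁻¹ * (γ * b * γ⁻¹)⁻¹) *
      ((γ * a * γ⁻¹) * (γ * b * γ⁻¹) * (γ * a * γ⁻¹)⁻¹ * (γ * b * γ⁻¹)⁻¹)⁻¹ *
      ((γ * c * γ⁻¹) * (γ * b * γ⁻¹) * (γ * c * γ⁻¹)⁻¹ * (γ * b * γ⁻¹)⁻¹)⁻¹ := by
    rw [← h1]
    conv_lhs => rw [hz]
    group
  rw [← h4] at h3
  exact X.U_notQ (X.toFr.vinQ h3)

end

end H85.Suz
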