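import Cfsg.Agent.Lib.H85.SuzM

set_option autoImplicit false
set_option maxHeartbeats 400000

/-! Groups of Suzuki sporadic type: all involutions. -/

namespace H85.Suz

open Cfsg H91.LargePair
open scoped Pointwise

variable {G : Type*} [Group G]

theorem exists_sylow [Finite G] {Q : Subgroup G} {z : G} (H : Pack Q z) (hp : IsPGroup 2 Q) :
    ∃ S : Sylow 2 G, ∀ x ∈ S, x * z = z * x := by
  obtain ⟨S, hS⟩ := hp.exists_le_sylow
  haveI : Nontrivial (S : Subgroup G) := ⟨⟨⟨z, hS H.zQ⟩, 1, fun h => H.z1 (congrArg Subtype.val h)⟩⟩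
  haveI : Fact (Nat.Prime 2) := ⟨Nat.prime_two⟩
  haveI hct := S.isPGroup'.center_nontrivial
  obtain ⟨c, hc⟩ := exists_ne (1 : Subgroup.center (S : Subgroup G))
  have hcc : ∀ s ∈ (S : Subgroup G), s * ((c : (S : Subgroup G)) : G) = ((c : (S : Subgroup G)) : G) * s := by
    intro s hs
    exact congrArg Subtype.val ((Subgroup.mem_center_iff.1 c.2) ⟨s, hs⟩)
  have hcz : ((c : (S : Subgroup G)) : G) = z := by
    rcases H.C _ (fun q hq => hcc q (hS hq)) with h | h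
    · exfalso
      apply hc
      apply Subtype.ext; apply Subtype.ext
      exact h
    · exact h
  rw [hcz] at hcc
  exact ⟨S, hcc⟩

theorem conj_into [Finite G] {Q : Subgroup G} {z : G} (H : Pack Q z) (hp : IsPGroup 2 Q) {w : G} (hw : w * w = 1) :
    ∃ g, (g * w * g⁻¹) * z = z * (g * w * g⁻¹) := by
  obtain ⟨S, hS⟩ := exists_sylow H hp
  haveI : Fact (Nat.Prime 2) := ⟨Nat.prime_two⟩
  have hpw : IsPGroup 2 (Subgroup.zpowers w) := by
    rintro ⟨g, n, rfl⟩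
    refine ⟨1, Subtype.ext ?_⟩
    show (w ^ n) ^ (2 ^ 1) = 1
    rw [pow_one, pow_two, ← zpow_add, ← two_mul, zpow_mul]
    have : w ^ (2 : ℤ) = 1 := by
      rw [zpow_two]; exact hw
    rw [this, one_zpow]
  obtain ⟨P, hP⟩ := hpw.exists_le_sylow
  obtain ⟨g, hg⟩ := MulAction.exists_smul_eq G P S
  refine ⟨g, hS _ ?_⟩
  have h1 : w ∈ P := hP (Subgroup.mem_zpowers w)
  rw [← hg]
  have h2 : MulAut.conj g • w ∈ MulAut.conj g • (P : Subgroup G) := Subgroup.smul_mem_pointwise_smul _ _ _ h1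
  exact h2

section
variable {Q R : Subgroup G} {z s p k : G} {y x : Fin 5 → G} (X : SX Q R z s p k y x)
include X

theorem SX.Q_conj {w : G} (hw : w ∈ Q) (hww : w * w = 1) (hw1 : w ≠ 1) : IsConj w z := by
  by_cases h : w = z
  · rw [h]
  · obtain ⟨h, -, h2⟩ := X.trans w hw hww hw1 h
    rw [← h2, ← X.hk]
    exact isConj_comm.1 (isConj_iff.2 ⟨h * k, by group⟩)

theorem SX.all [Finite G] {w : G} (hw1 : w ≠ 1) (hww : w * w = 1) : IsConj w z ∨ IsConj w (U0 y x) := by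
  have hpQ : IsPGroup 2 Q := IsPGroup.of_card (n := 7) (by rw [X.cQ]; norm_num)
  obtain ⟨g, hg⟩ := conj_into X.pk hpQ hww
  have hc : ∀ {a b : G} (h : G), a = h * b * h⁻¹ → IsConj b a := fun h e => isConj_iff.2 ⟨h, e.symm⟩
  have sq : ∀ h : G, h * w * h⁻¹ * (h * w * h⁻¹) = 1 := by
    intro h
    calc h * w * h⁻¹ * (h * w * h⁻¹) = h * (w * w) * h⁻¹ := by group
      _ = 1 := by rw [hww]; group
  have ne : ∀ h : G, h * w * h⁻¹ ≠ 1 := fun h e => hw1 (conj_eq_one_iff.1 e)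
  rcases X.good hg (sq g) with h1 | ⟨h, -, h1⟩ | ⟨h, -, h1⟩
  · left
    exact (isConj_iff.2 ⟨g, rfl⟩).trans (X.Q_conj h1 (sq g) (ne g))
  · left
    have h2 := (X.hR _).1 h1
    have e : k⁻¹ * (h * (g * w * g⁻¹) * h⁻¹) * k = (k⁻¹ * h * g) * w * (k⁻¹ * h * g)⁻¹ := by group
    rw [e] at h2
    exact (isConj_iff.2 ⟨k⁻¹ * h * g, rfl⟩).trans (X.Q_conj h2 (sq _) (ne _))
  · right
    refine isConj_iff.2 ⟨h * g, ?_⟩
    rw [← h1]; group

end

theorem main [Finite G] {z : G} (hz : orderOf z = 2) (Q : Subgroup (Subgroup.centralizer ({z} : Set G)))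
    [Q.Normal] (hF : Cfsg.generalizedFittingSubgroup (Subgroup.centralizer ({z} : Set G)) = Q)
    (hQ : Cfsg.IsExtraspecial 2 Q) (hcard : Nat.card Q = 2 ^ 7)
    (e : (Subgroup.centralizer ({z} : Set G)) ⧸ Q ≃* Cfsg.Omega (ZMod 2) (Cfsg.quadFormMinus 2 (ZMod 2) 1 1))
    (hnwc : ∃ g : G, (∃ hq : g * z * g⁻¹ ∈ Subgroup.centralizer ({z} : Set G),
      (⟨g * z * g⁻¹, hq⟩ : Subgroup.centralizer ({z} : Set G)) ∈ Q) ∧ g * z * g⁻¹ ≠ z) :
    ∃ a b : G, orderOf a = 2 ∧ orderOf b = 2 ∧ ¬ IsConj a b ∧ ∀ x : G, orderOf x = 2 → IsConj x a ∨ IsConj x b := by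
  obtain ⟨Q', R, s, p, k, y, S⟩ := exists_Su hz Q hF hQ hcard e hnwc
  obtain ⟨x, hx⟩ := S.exists_x
  have X : SX Q' R z s p k y x :=
    { toSu := S
      xR := fun i => (hx i).1
      xz := fun i => (hx i).2.1
      th := fun i => (hx i).2.2 }
  refine ⟨z, U0 y x, hz, orderOf_eq_prime (by rw [pow_two]; exact X.U_sq) X.U_ne_one, X.no_fuse, fun w hw => ?_⟩
  apply X.all
  · rintro rfl
    rw [orderOf_one] at hw
    exact absurd hw (by norm_num)
  · have := pow_orderOf_eq_one w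
    rw [hw, pow_two] at this
    exact this

end H85.Suz
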